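import Mathlib

/-!
Two non-conjugate involutions: if the conjugates of one of them inside a subgroup are only those by
its members, and the central involutions of the dihedral groups they span inside the subgroup have
their centralisers there, then the subgroup contains all conjugates of the other.
-/

namespace CfsgLib.Geometric

variable {G : Type*} [Group G] [Finite G] {H : Subgroup G}

/-- The dihedral argument for involutions. -/
lemma conj_mem_of_involutions {p x : G} (hp : p ∈ H) (hx : x ∈ H) (hp2 : p * p = 1)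
    (hx2 : x * x = 1) (hgood : ∀ g, g * p * g⁻¹ ∈ H → g ∈ H)
    (hnc : ∀ h ∈ H, h * p * h⁻¹ ≠ x)
    (hz : ∀ g, g * x * g⁻¹ ∈ H → ∀ z ∈ Subgroup.zpowers (p * (g * x * g⁻¹)), z ≠ 1 → z * z = 1 →
      ∀ k, k * z * k⁻¹ = z → k ∈ H) (g : G) : g * x * g⁻¹ ∈ H := by
  set y := g * x * g⁻¹ with hy
  have hy2 : y * y = 1 := by
    rw [hy, conj_mul, hx2, mul_one, mul_inv_cancel]
  clear_value y
  set s := p * y with hs
  clear_value s
  have hyinv : y⁻¹ = y := inv_eq_of_mul_eq_one_right hy2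
  have hpinv : p⁻¹ = p := inv_eq_of_mul_eq_one_right hp2
  have hys : y * s * y⁻¹ = s⁻¹ := by
    rw [hs, hyinv, mul_inv_rev, hyinv, hpinv, mul_assoc, mul_assoc, hy2, mul_one]
  have hyk : ∀ k : ℕ, y * s ^ k * y⁻¹ = (s ^ k)⁻¹ := fun k => by
    rw [← conj_pow, hys, inv_pow]
  obtain ⟨a, m, ⟨t, rfl⟩, hm⟩ := Nat.exists_eq_two_pow_mul_odd (orderOf_pos s).ne'
  set d := (s ^ t)⁻¹ with hd
  set y' := d * y * d⁻¹ with hy'
  have hr : p * y' = s ^ (2 * t + 1) := by
    have h1 : y * s ^ t = (s ^ t)⁻¹ * y := by rw [← hyk t, inv_mul_cancel_right]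
    have h2 : y' = y * s ^ (2 * t) := by
      rw [hy', hd, inv_inv, ← h1, mul_assoc, ← pow_add, two_mul]
    rw [h2, ← mul_assoc, ← hs, ← pow_succ']
  set r := s ^ (2 * t + 1) with hrdef
  have hord : r ^ 2 ^ a = 1 := by
    rw [hrdef, ← pow_mul, mul_comm, ← hm, pow_orderOf_eq_one]
  have hy'x : y' = (d * g) * x * (d * g)⁻¹ := by rw [hy', hy]; group
  have hy'2 : y' * y' = 1 := by
    rw [hy', conj_mul, hy2, mul_one, mul_inv_cancel]
  have hpr : p * r * p⁻¹ = r⁻¹ := by
    rw [← hr, mul_inv_rev, inv_eq_of_mul_eq_one_right hy'2, hpinv, ← mul_assoc, hp2, one_mul]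
  -- the powers of `r` lie in `H`
  have hmem : r ∈ H := by
    suffices h : ∀ i, ∀ u : G, p * u * p⁻¹ = u⁻¹ → u ^ 2 ^ i = 1 → u ∈ H from h a r hpr hord
    intro i
    induction i with
    | zero => intro u _ h; rw [pow_zero, pow_one] at h; rw [h]; exact H.one_mem
    | succ i ih =>
      intro u hu h
      have h2 : u * u ∈ H := by
        refine ih _ ?_ ?_
        · rw [← conj_mul, hu, mul_inv_rev]
        · rw [← pow_two, ← pow_mul, ← pow_succ']
          exact h
      refine hgood u ?_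
      have : u * p * u⁻¹ = u * u * p := by
        rw [← hu, hpinv]
        calc u * p * (p * u * p) = u * (p * p) * u * p := by simp only [mul_assoc]
          _ = u * u * p := by rw [hp2, mul_one]
      rw [this]
      exact H.mul_mem h2 hp
  have hy'H : y' ∈ H := by
    have h := H.mul_mem hp hmem
    rwa [← hr, ← mul_assoc, hp2, one_mul] at h
  cases a with
  | zero =>
    exfalso
    rw [pow_zero, pow_one, ← hr] at hord
    have hp' : y' = p := by rw [← inv_eq_of_mul_eq_one_right hord, hpinv]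
    have hx' : (d * g)⁻¹ * p * ((d * g)⁻¹)⁻¹ = x := by rw [← hp', hy'x]; group
    exact hnc _ (hgood _ (by rw [hx']; exact hx)) hx'
  | succ a =>
    set z := r ^ 2 ^ a with hzdef
    have hz2 : z * z = 1 := by rw [hzdef, ← pow_two, ← pow_mul, ← pow_succ, hord]
    have hz1 : z ≠ 1 := by
      intro h
      rw [hzdef, hrdef, ← pow_mul] at h
      have h1 := orderOf_dvd_of_pow_eq_one h
      rw [hm, mul_comm] at h1
      have h2 := Nat.le_of_dvd (Nat.mul_pos (Nat.succ_pos _) (pow_pos two_pos a)) h1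
      have h3 := Nat.le_of_mul_le_mul_left h2 (Nat.succ_pos _)
      exact absurd h3 (not_le.mpr (Nat.pow_lt_pow_right one_lt_two (Nat.lt_succ_self a)))
    refine hz (d * g) (hy'x ▸ hy'H) z ?_ hz1 hz2 y ?_
    · rw [← hy'x, hr, hzdef]
      exact Subgroup.pow_mem _ (Subgroup.mem_zpowers r) _
    · rw [hzdef, hrdef, ← pow_mul, hyk, pow_mul, ← hrdef, ← hzdef]
      exact inv_eq_of_mul_eq_one_right hz2

/-- The dihedral argument for involutions modulo a central subgroup. -/
theorem conj_mem_of_dihedral {Z : Subgroup G} (hZ : Z ≤ Subgroup.center G) (hZH : Z ≤ H) {p x : G}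
    (hp : p ∈ H) (hx : x ∈ H) (hp2 : p * p ∈ Z) (hx2 : x * x ∈ Z)
    (hgood : ∀ g, g * p * g⁻¹ ∈ H → g ∈ H)
    (hnc : ∀ h ∈ H, x * (h * p * h⁻¹)⁻¹ ∉ Z)
    (hz : ∀ g, g * x * g⁻¹ ∈ H → ∀ z ∈ Subgroup.zpowers (p * (g * x * g⁻¹)), z ∉ Z → z * z ∈ Z →
      ∀ k, k * z * k⁻¹ * z⁻¹ ∈ Z → k ∈ H) (g : G) : g * x * g⁻¹ ∈ H := by
  haveI : Z.Normal := ⟨fun n hn a => by
    rw [(Subgroup.mem_center_iff.mp (hZ hn) a), mul_inv_cancel_right]; exact hn⟩
  let q := QuotientGroup.mk' Z
  have hmem : ∀ a, q a ∈ H.map q ↔ a ∈ H := by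
    intro a
    refine ⟨fun h => ?_, Subgroup.mem_map_of_mem q⟩
    obtain ⟨b, hb, hba⟩ := h
    have := QuotientGroup.eq.mp hba
    simpa using H.mul_mem hb (hZH this)
  have hone : ∀ a, q a = 1 ↔ a ∈ Z := fun a => QuotientGroup.eq_one_iff a
  have hsurj : Function.Surjective q := QuotientGroup.mk'_surjective Z
  refine (hmem _).mp ?_
  rw [map_mul, map_mul, map_inv]
  refine conj_mem_of_involutions (p := q p) ((hmem p).mpr hp) ((hmem x).mpr hx)
    (by rw [← map_mul, hone]; exact hp2) (by rw [← map_mul, hone]; exact hx2) ?_ ?_ ?_ (q g)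
  · intro g' hg'
    obtain ⟨a, rfl⟩ := hsurj g'
    rw [← map_inv, ← map_mul, ← map_mul, hmem] at hg'
    exact (hmem a).mpr (hgood a hg')
  · rintro _ ⟨h, hh, rfl⟩ heq
    refine hnc h hh ((hone _).mp ?_)
    simp only [map_mul, map_inv]
    rw [heq, mul_inv_cancel]
  · intro g' hg' z' hz' hz1 hz2 k' hk'
    obtain ⟨a, rfl⟩ := hsurj g'
    rw [← map_inv, ← map_mul, ← map_mul] at hg' hz'
    rw [← map_mul, ← MonoidHom.map_zpowers] at hz'
    obtain ⟨z, hzm, rfl⟩ := hz'
    obtain ⟨k, rfl⟩ := hsurj k'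
    refine (hmem k).mpr (hz a ((hmem _).mp hg') z hzm (fun h => hz1 ((hone z).mpr h))
      ((hone _).mp (by rw [map_mul]; exact hz2)) k ((hone _).mp ?_))
    rw [map_mul, map_mul, map_mul, map_inv, hk', map_inv, mul_inv_cancel]

end CfsgLib.Geometric
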