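import Cfsg.Agent.Lib.Geometric.UnitaryPlanes
import Cfsg.Agent.Lib.Geometric.Tensor

/-!
Over four elements the stabiliser of a tensor product with a unitary plane preserves the
decomposition given by the orthogonal frame of the plane.
-/

namespace CfsgLib.Geometric

open Matrix

/-- A form linear in the first and semilinear in the second argument is given by its Gram
matrix. -/
lemma eq_formOfGram {κ : Type} [Fintype κ] [DecidableEq κ] {F : Type*} [Field F] {σ : F →+* F}
    {f : (κ → F) → (κ → F) → F} (ha : ∀ x y v, f (x + y) v = f x v + f y v)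
    (hs : ∀ (c : F) x v, f (c • x) v = c * f x v) (ha' : ∀ x y v, f v (x + y) = f v x + f v y)
    (hs' : ∀ (c : F) v x, f v (c • x) = σ c * f v x) (x y : κ → F) :
    f x y = Cfsg.Geo.formOfGram σ (Cfsg.Geo.gramMatrix f) x y := by
  let L : (κ → F) →ₗ[F] (κ → F) →ₛₗ[σ] F :=
    { toFun := fun x =>
        { toFun := f x
          map_add' := fun a b => ha' a b x
          map_smul' := fun c a => hs' c x a }
      map_add' := fun a b => LinearMap.ext (ha a b)
      map_smul' := fun c a => LinearMap.ext (hs c a) }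
  change L x y = _
  conv_lhs => rw [pi_eq_sum_univ' x, map_sum, LinearMap.sum_apply]
  refine Finset.sum_congr rfl fun a _ => ?_
  conv_lhs => rw [pi_eq_sum_univ' y, map_sum]
  refine Finset.sum_congr rfl fun b _ => ?_
  simp only [map_smul, map_smulₛₗ, LinearMap.smul_apply, smul_eq_mul]
  change σ (y b) * (x a * f (Pi.single a 1) (Pi.single b 1)) = _
  simp only [Cfsg.Geo.gramMatrix]
  ring

variable {ι : Type} [Fintype ι] [DecidableEq ι] {F : Type*} [Field F] [Fintype F]
variable {σ : F ≃+* F} {f : (ι → F) → (ι → F) → F}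

namespace Unitary

/-- The stabiliser of a tensor decomposition with a unitary plane is not maximal. -/
theorem exists_between_tensor_plane (hf : IsSkewForm σ f) (hq : Fintype.card F = 4)
    (hσ : ∀ x, σ x = x ^ 2) (htwo : (2 : F) = 0) {n₂ : ℕ} (hn₂ : 3 ≤ n₂)
    (e : ι ≃ Fin 2 × Fin n₂) (P : GL ι F) {f₁ : (Fin 2 → F) → (Fin 2 → F) → F}
    {f₂ : (Fin n₂ → F) → (Fin n₂ → F) → F} (hf₁ : IsSkewForm σ f₁) (hf₂ : IsSkewForm σ f₂)
    (hT : Cfsg.Geo.IsTensorFormStructure σ f f₁ f₂ e P) :
    ∃ K : Subgroup (GL ι F),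
      Cfsg.Geo.tensorProductSubgroup 2 n₂ e P ⊓ sisom hf < K ∧ K < sisom hf := by
  classical
  obtain ⟨c, hc, hform⟩ := Tensor.form_pt e P (σ := (σ : F →+* F))
    (eq_formOfGram hf₁.add_left hf₁.smul_left (fun x y v => add_right hf₁ v x y)
      fun c v x => smul_right hf₁ c v x)
    (eq_formOfGram hf₂.add_left hf₂.smul_left (fun x y v => add_right hf₂ v x y)
      fun c v x => smul_right hf₂ c v x) hT
  have htop₁ : Cfsg.Geo.IsNondegenerateOn f₁ (⊤ : Submodule F (Fin 2 → F)) := fun v _ hv => by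
    obtain ⟨⟨x, hx⟩, ⟨y, hy⟩⟩ := hf₁.nondegenerate v hv
    exact ⟨⟨x, trivial, hx⟩, ⟨y, trivial, hy⟩⟩
  have htop₂ : Cfsg.Geo.IsNondegenerateOn f₂ (⊤ : Submodule F (Fin n₂ → F)) := fun v _ hv => by
    obtain ⟨⟨x, hx⟩, ⟨y, hy⟩⟩ := hf₂.nondegenerate v hv
    exact ⟨⟨x, trivial, hx⟩, ⟨y, trivial, hy⟩⟩
  have hd : Module.finrank F (⊤ : Submodule F (Fin 2 → F)) ≤ 2 := by simp
  obtain ⟨u₀, -, hu₀⟩ := exists_anisotropic hf₁ htop₁ fun h => by
    have := congrArg (fun S : Submodule F (Fin 2 → F) => Module.finrank F S) h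
    simp at this
  obtain ⟨u₁, -, hu₁0, h₁₀⟩ := exists_ne_zero_map_eq_zero (k := 1)
    (⊤ : Submodule F (Fin 2 → F)) (LinearMap.pi fun _ => fl hf₁ u₀) (by simp)
  have horth : f₁ u₁ u₀ = 0 := congrFun h₁₀ 0
  have horth' : f₁ u₀ u₁ = 0 := (eq_zero_comm hf₁).mp horth
  have hli : LinearIndependent F ![u₀, u₁] := by
    rw [LinearIndependent.pair_iff]
    intro s t h
    have hs : s = 0 := by
      have := congrArg (fun z => f₁ z u₀) h
      simpa [hf₁.add_left, hf₁.smul_left, horth, zero_left hf₁, hu₀] using this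
    subst hs
    rw [zero_smul, zero_add] at h
    exact ⟨rfl, (smul_eq_zero.mp h).resolve_right hu₁0⟩
  have hspan : ∀ x : Fin 2 → F, ∃ s t : F, x = s • u₀ + t • u₁ := by
    intro x
    have hs := hli.span_eq_top_of_card_eq_finrank (by simp)
    have hx : x ∈ Submodule.span F ({u₀, u₁} : Set (Fin 2 → F)) := by
      rw [show ({u₀, u₁} : Set (Fin 2 → F)) = Set.range ![u₀, u₁] by simp [Set.pair_comm], hs]
      trivial
    obtain ⟨s, t, h⟩ := Submodule.mem_span_pair.mp hx
    exact ⟨s, t, h.symm⟩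
  have hu₁ : f₁ u₁ u₁ ≠ 0 := by
    intro h
    obtain ⟨x, hx⟩ := (hf₁.nondegenerate u₁ hu₁0).2
    obtain ⟨s, t, rfl⟩ := hspan x
    rw [add_right hf₁, smul_right hf₁, smul_right hf₁, horth, h] at hx
    simp at hx
  let U : Fin 2 → Fin 2 → F := ![u₀, u₁]
  set D := Tensor.slices e P U with hD
  obtain ⟨z, -, hz0, hzz⟩ := exists_isotropic hf₂ htop₂ (by simp; omega)
  obtain ⟨y, hy⟩ := (hf₂.nondegenerate z hz0).1
  refine ⟨Cfsg.Geo.decompositionStabilizer D ⊓ sisom hf, ?_, ?_⟩
  · have hle : Cfsg.Geo.tensorProductSubgroup 2 n₂ e P ⊓ sisom hf ≤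
        Cfsg.Geo.decompositionStabilizer D ⊓ sisom hf := by
      rintro g ⟨hg, hgI⟩
      refine ⟨?_, hgI⟩
      obtain ⟨a, b, hab⟩ := (Tensor.mem_iff e P g).mp hg
      obtain ⟨v, -, hvv⟩ := exists_anisotropic hf₂ htop₂ fun h => by
        have := congrArg (fun S : Submodule F (Fin n₂ → F) => Module.finrank F S) h
        simp at this
        omega
      have hani : ∀ i, f₁ (ap a (U i)) (ap a (U i)) ≠ 0 := by
        intro i h0
        have h := hgI.1 (Tensor.pt e P (U i) v) (Tensor.pt e P (U i) v)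
        change f (ap g _) (ap g _) = _ at h
        rw [hab, hform, hform, h0, zero_mul, mul_zero] at h
        have : f₁ (U i) (U i) ≠ 0 := by
          fin_cases i
          exacts [hu₀, hu₁]
        exact mul_ne_zero hc (mul_ne_zero this hvv) h.symm
      have hk : ∀ i, ∃ k, ∃ r : F, r ≠ 0 ∧ ap a (U i) = r • U k := by
        intro i
        have hne : ap a (U i) ≠ 0 := fun h => hani i (by rw [h, zero_left hf₁])
        rcases orth_or_dep hf₁ hq hσ htwo htop₁ hd (u := u₀) trivial (v := ap a (U i)) trivial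
          hu₀ (hani i) with h | h
        · obtain ⟨s, t, hst⟩ := hspan (ap a (U i))
          have hs : s = 0 := by
            rw [hst, hf₁.add_left, hf₁.smul_left, hf₁.smul_left, horth, mul_zero, add_zero] at h
            exact (mul_eq_zero.mp h).resolve_right hu₀
          rw [hs, zero_smul, zero_add] at hst
          exact ⟨1, t, fun h0 => hne (by rw [hst, h0, zero_smul]), hst⟩
        · obtain ⟨s, hs⟩ := Submodule.mem_span_singleton.mp h
          exact ⟨0, s, fun h0 => hne (by rw [← hs, h0, zero_smul]), hs.symm⟩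
      choose k r hr hk using hk
      have hinj : Function.Injective k := by
        intro i j hij
        by_contra hne
        have h : ap a (r j • U i - r i • U j) = 0 := by
          rw [ap_sub, ap_smul, ap_smul, hk i, hk j, hij, smul_smul, smul_smul, mul_comm, sub_self]
        have h2 := sub_eq_zero.mp (ap_injective a (h.trans (ap_zero a).symm))
        fin_cases i <;> fin_cases j <;> try exact hne rfl
        · have := congrArg (fun x => f₁ x u₀) h2
          simp [U, hf₁.smul_left, horth, hu₀] at this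
          exact hr _ this
        · have := congrArg (fun x => f₁ x u₀) h2
          simp [U, hf₁.smul_left, horth, hu₀] at this
          exact hr _ this
      exact Tensor.mem_decompStab e P
        (Equiv.ofBijective k (Finite.injective_iff_bijective.mp hinj)) hab
        fun i => ⟨r i, hr i, hk i⟩
    refine lt_of_le_of_ne hle fun he => ?_
    set w := Tensor.pt e P u₀ z with hw
    have hww : f w w = 0 := by rw [hw, hform, hzz, mul_zero, mul_zero]
    set T₀ := T hf w 1 hww with hT₀
    have hfix : ∀ y, ap T₀ (Tensor.pt e P u₁ y) = Tensor.pt e P u₁ y := fun y => by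
      refine ap_T_fix hf hww ?_
      rw [hw, hform, horth, zero_mul, mul_zero]
    have hT₀u : ∀ y, ap T₀ (Tensor.pt e P u₀ y) =
        Tensor.pt e P u₀ (y + f (Tensor.pt e P u₀ y) w • z) := fun y => by
      rw [hT₀, ap_T hf, one_mul, hw, ← Tensor.ptr_apply e P u₀ (y + _), map_add, map_smul]
      rfl
    have hmem : T₀ ∈ Cfsg.Geo.decompositionStabilizer D := by
      refine ⟨1, fun i => ?_⟩
      change (D i).map (apEquiv T₀).toLinearMap = D i
      refine Submodule.eq_of_le_of_finrank_eq ?_ (LinearEquiv.finrank_map_eq _ _)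
      rintro _ ⟨x, ⟨y, rfl⟩, rfl⟩
      fin_cases i
      · exact ⟨_, (hT₀u y).symm⟩
      · exact ⟨y, (hfix y).symm⟩
    have hin : T₀ ∈ Cfsg.Geo.tensorProductSubgroup 2 n₂ e P ⊓ sisom hf := by
      rw [he]; exact ⟨hmem, T_mem hf hww (map_one σ)⟩
    have h := Tensor.eq_of_fix hin.1 hu₁0 hz0 hfix (u := u₀) (ap_T_fix hf hww hww) y
    rw [hT₀u] at h
    have h2 := Tensor.pt_inj_right e P (fun h0 => hu₀ (by rw [h0, zero_left hf₁])) h
    rw [add_eq_left, smul_eq_zero, hw, hform] at h2
    simp [hz0, hc, hu₀, hy] at h2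
  · refine lt_of_le_of_ne inf_le_right fun he => ?_
    set w := Tensor.pt e P u₀ z + Tensor.pt e P u₁ z with hw
    have hww : f w w = 0 := by
      simp [hw, hf.add_left, add_right hf, hform, hzz, horth, horth']
    have hm : T hf w 1 hww ∈ Cfsg.Geo.decompositionStabilizer D ⊓ sisom hf := by
      rw [he]; exact T_mem hf hww (map_one σ)
    obtain ⟨π, hπ⟩ := hm.1
    set x := Tensor.pt e P u₀ y with hx
    have hfx : f x w = c * (f₁ u₀ u₀ * f₂ y z) := by
      rw [hw, hx, add_right hf, hform, hform, horth', zero_mul, mul_zero, add_zero]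
    have hfx0 : f x w ≠ 0 := by
      rw [hfx]; exact mul_ne_zero hc (mul_ne_zero hu₀ hy)
    have hmemx : ap (T hf w 1 hww) x ∈ D (π 0) := by
      rw [← hπ 0]; exact ⟨x, ⟨y, rfl⟩, rfl⟩
    obtain ⟨y', hy'⟩ := hmemx
    rw [ap_T hf, one_mul] at hy'
    by_cases h0 : π 0 = 0
    · have h := congrArg (fun v => f v (Tensor.pt e P u₁ y)) hy'
      rw [h0] at h
      have hzy : f₂ z y ≠ 0 := fun h' => hy ((eq_zero_comm hf₂).mp h')
      simp [U, hx, hw, hf.add_left, hf.smul_left, hform, horth', hc, hu₁, hzy] at h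
      exact hfx0 (by rw [hx, hw]; exact h)
    · have h1 : π 0 = 1 := Fin.eq_one_of_ne_zero _ h0
      have h := congrArg (fun v => f v (Tensor.pt e P u₀ z)) hy'
      rw [h1] at h
      simp [U, hx, hw, hf.add_left, hf.smul_left, hform, horth, hc, hu₀, hy, hzz] at h

end Unitary

end CfsgLib.Geometric
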