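import Cfsg.Agent.Lib.Geometric.UnitaryStab

/-!
The subspace stabiliser theorems stated for unitary forms.
-/

namespace CfsgLib.Geometric

open Matrix

variable {ι : Type} [Fintype ι] [DecidableEq ι] {F : Type*} [Field F] [Finite F]
variable {σ : F ≃+* F} {h : (ι → F) → (ι → F) → F} (hh : Cfsg.Geo.IsUnitaryForm σ h)
include hh

theorem Unitary.stab_isMaximalIn_of_isTotallySingularFor (hn : 4 ≤ Fintype.card ι)
    {W : Submodule F (ι → F)} (h0 : W ≠ ⊥) (hW : Cfsg.Geo.IsTotallySingularFor h W) :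
    Cfsg.Geo.IsMaximalIn (isom h ⊓ Cfsg.Geo.specialLinear ι F)
      (Cfsg.Geo.subspaceStabilizer W ⊓ (isom h ⊓ Cfsg.Geo.specialLinear ι F)) := by
  obtain ⟨ζ, hζ, hf⟩ := exists_skewForm_of_unitary hh
  have hmax := Unitary.stab_isMaximalIn_of_totallySingular hf hn h0 (W := W)
    fun u hu v hv => by simp [hW u hu v hv]
  rwa [Unitary.sisom, isom_mul_const hζ] at hmax

theorem Unitary.stab_isMaximalIn_of_isNondegenerateOn (hn : 6 ≤ Fintype.card ι)
    {W : Submodule F (ι → F)} (h0 : W ≠ ⊥) (hW : Cfsg.Geo.IsNondegenerateOn h W)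
    (hdim : 2 * Module.finrank F W < Fintype.card ι) :
    Cfsg.Geo.IsMaximalIn (isom h ⊓ Cfsg.Geo.specialLinear ι F)
      (Cfsg.Geo.subspaceStabilizer W ⊓ (isom h ⊓ Cfsg.Geo.specialLinear ι F)) := by
  obtain ⟨ζ, hζ, hf⟩ := exists_skewForm_of_unitary hh
  have hW' : Cfsg.Geo.IsNondegenerateOn (fun u v => ζ * h u v) W := by
    intro w hw hw0
    obtain ⟨⟨x, hx, h1⟩, ⟨y, hy, h2⟩⟩ := hW w hw hw0
    exact ⟨⟨x, hx, mul_ne_zero hζ h1⟩, ⟨y, hy, mul_ne_zero hζ h2⟩⟩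
  have hmax := Unitary.stab_isMaximalIn_of_nondegenerate hf h0 hW' hdim hn
  rwa [Unitary.sisom, isom_mul_const hζ] at hmax

end CfsgLib.Geometric
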