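import Cfsg.Agent.Lib.Geometric.SkewPair
import Cfsg.Agent.Lib.Geometric.UnitaryStabForm

/-!
Maximality of stabilisers of pairs of complementary totally singular subspaces in symplectic and
special unitary groups.
-/

namespace CfsgLib.Geometric

open Matrix

variable {ι : Type} [Fintype ι] [DecidableEq ι] {F : Type*} [Field F] [Finite F]

omit [Finite F] in
lemma half_le_finrank {k : ℕ} {D : Fin 2 → Submodule F (ι → F)}
    (hD : Cfsg.Geo.IsMDecomposition k D) {m : ℕ} (hn : 2 * m - 1 ≤ Fintype.card ι) : m ≤ k := by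
  have h := Submodule.finrank_add_eq_of_isCompl (isCompl_pair hD)
  rw [hD.finrank_eq, hD.finrank_eq, Module.finrank_fintype_fun_eq_card] at h
  omega

omit [Finite F] in
theorem Symp.pair_isMaximalIn {f : (ι → F) → (ι → F) → F} (hf : Cfsg.Geo.IsSymplecticForm f)
    (h2 : (2 : F) ≠ 0) (hn : 9 ≤ Fintype.card ι) {k : ℕ} {D : Fin 2 → Submodule F (ι → F)}
    (hD : Cfsg.Geo.IsMDecomposition k D) (hts : ∀ i, Cfsg.Geo.IsTotallySingularFor f (D i)) :
    Cfsg.Geo.IsMaximalIn (isom f) (Cfsg.Geo.decompositionStabilizer D ⊓ isom f) := by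
  have hS : SkewPair (RingEquiv.refl F) f (D 0) (D 1) :=
    { add_left := fun x y z => hf.bilinear.add_left x y z
      smul_left := fun c x y => hf.bilinear.smul_left c x y
      add_right := fun x y z => hf.bilinear.add_right x y z
      smul_right := fun c x y => hf.bilinear.smul_right c x y
      eq_zero_comm := fun x y => Symp.eq_zero_comm hf
      sep := fun S x hx => by
        obtain ⟨φ, hφ, hφx⟩ := exists_functional_eq_one hx
        obtain ⟨p, rfl⟩ := Symp.exists_eq_fl hf φ
        exact ⟨p, fun s hs => hφ s hs, hφx⟩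
      compl := isCompl_pair hD
      sing := fun a ha b hb => hts 0 a ha b hb
      sing' := fun a ha b hb => hts 1 a ha b hb
      finrank_eq := by rw [hD.finrank_eq, hD.finrank_eq]
      three_le := (half_le_finrank hD (m := 3) (by omega)).trans_eq (hD.finrank_eq 0).symm
      invol := fun a => rfl
      skew := fun v w => by simpa using hf.skew v w
      trace := fun t _ => ⟨t / 2, by simp [← two_mul, mul_div_cancel₀ t h2]⟩ }
  have htr : ∀ v c (hv : f v v = 0), SkewPair.tr hS.toPairSpace v c hv = Symp.T hf v c :=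
    fun v c hv => gl_ext fun x => by rw [SkewPair.ap_tr, Symp.ap_T hf]
  refine SkewPair.isMaximalIn hD hS
    (Or.inl ((half_le_finrank hD (m := 5) (by omega)).trans_eq (hD.finrank_eq 0).symm))
    (fun g hg x y => hg x y)
    (fun v c hv _ => by rw [htr]; exact Symp.T_mem_isom hf v c)
    (fun M hM => Symp.isom_le_of_T_mem hf fun v c => ?_)
  rw [← htr v c (hf.alternating v)]
  exact hM _ _ _ rfl

theorem Unitary.pair_isMaximalIn {σ : F ≃+* F} {h : (ι → F) → (ι → F) → F}
    (hh : Cfsg.Geo.IsUnitaryForm σ h) (hn : 5 ≤ Fintype.card ι) {k : ℕ}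
    {D : Fin 2 → Submodule F (ι → F)} (hD : Cfsg.Geo.IsMDecomposition k D)
    (hts : ∀ i, Cfsg.Geo.IsTotallySingularFor h (D i)) :
    Cfsg.Geo.IsMaximalIn (isom h ⊓ Cfsg.Geo.specialLinear ι F)
      (Cfsg.Geo.decompositionStabilizer D ⊓ (isom h ⊓ Cfsg.Geo.specialLinear ι F)) := by
  obtain ⟨ζ, hζ, hf⟩ := exists_skewForm_of_unitary hh
  have hS : SkewPair σ (fun u v => ζ * h u v) (D 0) (D 1) :=
    { add_left := hf.add_left
      smul_left := hf.smul_left
      add_right := Unitary.add_right hf
      smul_right := Unitary.smul_right hf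
      eq_zero_comm := fun x y => Unitary.eq_zero_comm hf
      sep := fun S x hx => by
        obtain ⟨φ, hφ, hφx⟩ := exists_functional_eq_one hx
        obtain ⟨p, rfl⟩ := Unitary.exists_eq_fl hf φ
        exact ⟨p, fun s hs => hφ s hs, hφx⟩
      compl := isCompl_pair hD
      sing := fun a ha b hb => by simp [hts 0 a ha b hb]
      sing' := fun a ha b hb => by simp [hts 1 a ha b hb]
      finrank_eq := by rw [hD.finrank_eq, hD.finrank_eq]
      three_le := (half_le_finrank hD (m := 3) (by omega)).trans_eq (hD.finrank_eq 0).symm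
      invol := hf.involutive
      skew := hf.skew
      trace := fun t ht => by
        obtain ⟨θ, hθ⟩ := Unitary.exists_trace hf
        exact ⟨θ * t, by rw [map_mul, ht, ← add_mul, hθ, one_mul]⟩ }
  have htr : ∀ v c (hv : ζ * h v v = 0),
      SkewPair.tr hS.toPairSpace v c hv = Unitary.T hf v c hv :=
    fun v c hv => gl_ext fun x => by rw [SkewPair.ap_tr, Unitary.ap_T hf]
  have h' := SkewPair.isMaximalIn hD hS (G := Unitary.sisom hf)
    (Or.inr ⟨not_forall.1 fun h => hf.ne_refl (RingEquiv.ext h), fun c hc => Unitary.exists_norm hf hc⟩)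
    (fun g hg x y => hg.1 x y)
    (fun v c hv hc => by rw [htr]; exact Unitary.T_mem hf hv hc)
    (fun M hM => Unitary.le_of_hasT hf (by omega) fun v hv c hc => by
      rw [← htr v c hv]; exact hM _ _ _ hc)
  rwa [Unitary.sisom, isom_mul_const hζ] at h'

end CfsgLib.Geometric
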