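import Cfsg.Agent.Lib.Geometric.Basic

/-!
Subspace stabilisers in the special linear group.
-/

namespace CfsgLib.Geometric

open Matrix

variable {ι : Type} [Fintype ι] [DecidableEq ι] {F : Type*} [Field F]

lemma tv_mem_stab {W : Submodule F (ι → F)} (v : ι → F) (φ : (ι → F) →ₗ[F] F) (h : φ v = 0)
    (hW : ∀ x ∈ W, φ x = 0 ∨ v ∈ W) :
    tv v φ h ∈ Cfsg.Geo.subspaceStabilizer W ⊓ Cfsg.Geo.specialLinear ι F := by
  refine ⟨mem_subspaceStabilizer_of_mapsTo _ _ fun x hx => ?_, tv_mem_specialLinear _ _ _⟩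
  rw [ap_tv]
  rcases hW x hx with h0 | hv
  · simpa [h0] using hx
  · exact W.add_mem hx (W.smul_mem _ hv)

/-- The stabiliser of a proper non-zero subspace is a proper subgroup of the special linear
group. -/
lemma stab_lt_specialLinear {W : Submodule F (ι → F)} (h0 : W ≠ ⊥) (h1 : W ≠ ⊤) :
    Cfsg.Geo.subspaceStabilizer W ⊓ Cfsg.Geo.specialLinear ι F < Cfsg.Geo.specialLinear ι F := by
  refine lt_of_le_of_ne inf_le_right fun he => ?_
  obtain ⟨w, hw, hw0⟩ := Submodule.exists_mem_ne_zero_of_ne_bot h0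
  obtain ⟨x, -, hx⟩ := SetLike.exists_of_lt h1.lt_top
  have hwx : w ∉ Submodule.span F {x} := by
    intro h
    obtain ⟨c, rfl⟩ := Submodule.mem_span_singleton.mp h
    apply hx
    have hc : c ≠ 0 := fun h => hw0 (by simp [h])
    simpa [smul_smul, inv_mul_cancel₀ hc] using W.smul_mem c⁻¹ hw
  obtain ⟨φ, hφ, hφw⟩ := exists_functional_eq_one hwx
  have hv := hφ x (Submodule.mem_span_singleton_self x)
  have hm : tv x φ hv ∈ Cfsg.Geo.subspaceStabilizer W ⊓ Cfsg.Geo.specialLinear ι F := by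
    rw [he]; exact tv_mem_specialLinear _ _ _
  have h2 := ((mem_subspaceStabilizer_iff _ _).mp hm.1 w).mp hw
  rw [ap_tv, hφw, one_smul] at h2
  exact hx (by simpa using W.sub_mem h2 hw)

/-- The stabiliser of a proper non-zero subspace is maximal in the special linear group. -/
theorem subspaceStabilizer_isMaximalIn {W : Submodule F (ι → F)} (h0 : W ≠ ⊥) (h1 : W ≠ ⊤) :
    Cfsg.Geo.IsMaximalIn (Cfsg.Geo.specialLinear ι F)
      (Cfsg.Geo.subspaceStabilizer W ⊓ Cfsg.Geo.specialLinear ι F) := by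
  refine ⟨stab_lt_specialLinear h0 h1, fun M hHM hMS => ?_⟩
  by_cases hM : M ≤ Cfsg.Geo.subspaceStabilizer W
  · exact Or.inl (le_antisymm (le_inf hM hMS) hHM)
  refine Or.inr (le_antisymm hMS (specialLinear_le_of_tv_mem ?_))
  obtain ⟨g, hgM, hg⟩ := SetLike.not_le_iff_exists.mp hM
  obtain ⟨w₁, hw₁, hw₀⟩ := exists_ap_notMem hg
  let X : Set (ι → F) := {w | ∀ (φ : (ι → F) →ₗ[F] F) (h : φ w = 0), tv w φ h ∈ M}
  have hXW : ∀ w ∈ W, w ∈ X := fun w hw φ h => hHM (tv_mem_stab _ _ h fun _ _ => Or.inr hw)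
  have hXM : ∀ m ∈ M, ∀ w ∈ X, ap m w ∈ X := by
    intro m hm w hw φ h
    have hψ : (φ.comp (apEquiv m).toLinearMap) w = 0 := h
    have h2 := mul_mem (mul_mem hm (hw _ hψ)) (inv_mem hm)
    rw [conj_tv] at h2
    convert h2 using 2
    ext x
    simp [ap_ap_inv]
  have hXc : ∀ w ∈ X, ∀ c : F, c ≠ 0 → c • w ∈ X := by
    intro w hw c hc φ h
    have hψ : (c • φ) w = 0 := by simpa [hc] using h
    rw [tv_eq_tv (w := w) h hψ fun x => by simp [smul_smul, mul_comm]]
    exact hw _ _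
  set w := ap g w₁
  have hwX : w ∈ X := hXM g hgM _ (hXW _ hw₁)
  intro y φ hφy
  suffices hy : y ∈ X from hy φ hφy
  by_cases hyW : y ∈ W
  · exact hXW y hyW
  by_cases hA : w ∈ W ⊔ Submodule.span F {y - w}
  · -- here `y` is a multiple of `w` modulo `W`
    obtain ⟨u, hu, t, ht, he⟩ := Submodule.mem_sup.mp hA
    obtain ⟨c, rfl⟩ := Submodule.mem_span_singleton.mp ht
    have hc : c ≠ 0 := by
      rintro rfl
      rw [zero_smul, add_zero] at he
      exact hw₀ (he ▸ hu)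
    set d := 1 + c⁻¹
    have hy' : y = d • w - c⁻¹ • u := by
      have h2 : c⁻¹ • (u + c • (y - w)) = c⁻¹ • w := by rw [he]
      rw [smul_add, smul_smul, inv_mul_cancel₀ hc, one_smul] at h2
      linear_combination (norm := module) h2
    have hd : d ≠ 0 := by
      intro hd
      apply hyW
      rw [hy', hd, zero_smul, zero_sub]
      exact W.neg_mem (W.smul_mem _ hu)
    obtain ⟨ψ, hψ, hψw⟩ := exists_functional_eq_one hw₀
    set v := -(d⁻¹ • c⁻¹ • u) with hv
    have hvW : v ∈ W := W.neg_mem (W.smul_mem _ (W.smul_mem _ hu))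
    have hψv : ψ v = 0 := hψ v hvW
    have hm : tv v ψ hψv ∈ M := hHM (tv_mem_stab _ _ _ fun _ _ => Or.inr hvW)
    have := hXc _ (hXM _ hm _ hwX) d hd
    rw [ap_tv, hψw, one_smul] at this
    convert this using 1
    rw [hy', hv, smul_add, smul_neg, smul_smul d, mul_inv_cancel₀ hd, one_smul]
    abel
  · obtain ⟨ψ, hψ, hψw⟩ := exists_functional_eq_one hA
    have hψv : ψ (y - w) = 0 :=
      hψ _ (Submodule.mem_sup_right (Submodule.mem_span_singleton_self _))
    have hm : tv (y - w) ψ hψv ∈ M :=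
      hHM (tv_mem_stab _ _ _ fun x hx => Or.inl (hψ x (Submodule.mem_sup_left hx)))
    have := hXM _ hm _ hwX
    rwa [ap_tv, hψw, one_smul, add_sub_cancel] at this

/-- The common stabiliser of `W` and `U` is smaller than the stabiliser of `W`, given a
transvection fixing `W` and moving `U`. -/
lemma stab_inf_stab_lt {W U : Submodule F (ι → F)} (v : ι → F) (φ : (ι → F) →ₗ[F] F)
    (h : φ v = 0) (hW : ∀ x ∈ W, φ x = 0 ∨ v ∈ W) {u : ι → F} (hu : u ∈ U) (hφu : φ u = 1)
    (hv : v ∉ U) :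
    Cfsg.Geo.subspaceStabilizer W ⊓ Cfsg.Geo.subspaceStabilizer U ⊓ Cfsg.Geo.specialLinear ι F <
      Cfsg.Geo.subspaceStabilizer W ⊓ Cfsg.Geo.specialLinear ι F := by
  refine lt_of_le_of_ne (inf_le_inf_right _ inf_le_left) fun he => ?_
  have hm : tv v φ h ∈
      Cfsg.Geo.subspaceStabilizer W ⊓ Cfsg.Geo.subspaceStabilizer U ⊓ Cfsg.Geo.specialLinear ι F := by
    rw [he]; exact tv_mem_stab v φ h hW
  have h2 := ((mem_subspaceStabilizer_iff _ _).mp hm.1.2 u).mp hu
  rw [ap_tv, hφu, one_smul] at h2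
  exact hv (by simpa using U.sub_mem h2 hu)

end CfsgLib.Geometric
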