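import Cfsg.Agent.Lib.Geometric.Decomp
import Cfsg.Agent.Lib.Geometric.LinearStab

/-!
Over very small fields the stabiliser of a decomposition into lines (or planes over two elements)
is not maximal in the special linear group.
-/

namespace CfsgLib.Geometric

open Matrix

variable {ι : Type} [Fintype ι] [DecidableEq ι] {F : Type*} [Field F]

/-- The involution `x ↦ x + φ x • v` for `φ v = -2`. -/
def refl' (v : ι → F) (φ : (ι → F) →ₗ[F] F) (h : φ v = -2) : GL ι F :=
  ofEquiv (LinearEquiv.ofInvolutive (LinearMap.id + φ.smulRight v) fun x => by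
    simp only [LinearMap.add_apply, LinearMap.id_apply, LinearMap.smulRight_apply, map_add,
      map_smul, smul_eq_mul, h]
    module)

lemma ap_refl' (v : ι → F) (φ : (ι → F) →ₗ[F] F) (h : φ v = -2) (x : ι → F) :
    ap (refl' v φ h) x = x + φ x • v := by
  rw [refl', ap_ofEquiv]
  rfl

lemma det_refl' (v : ι → F) (φ : (ι → F) →ₗ[F] F) (h : φ v = -2) :
    (refl' v φ h : Matrix ι ι F).det = -1 := by
  rw [det_of_ap _ v φ (ap_refl' v φ h), h]
  ring

namespace Decomp

variable {t k : ℕ} {D : Fin t → Submodule F (ι → F)} (hD : Cfsg.Geo.IsMDecomposition k D)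
include hD

lemma exists_coord (hk : k = 1) {U : Fin t → ι → F} (hU : ∀ l, U l ∈ D l) (hU0 : ∀ l, U l ≠ 0)
    (l : Fin t) : ∃ κ : (ι → F) →ₗ[F] F, (∀ x, comp hD l x = κ x • U l) ∧ κ (U l) = 1 := by
  obtain ⟨φ, -, hφ⟩ := exists_functional_eq_one (U := ⊥) (x := U l) (by simpa using hU0 l)
  refine ⟨φ.comp (comp hD l), fun x => ?_, by simp [comp_of_mem hD (hU l), hφ]⟩
  have he : Submodule.span F {U l} = D l := Submodule.eq_of_le_of_finrank_eq
    ((Submodule.span_singleton_le_iff_mem _ _).mpr (hU l))
    (by rw [finrank_span_singleton (hU0 l), hD.finrank_eq l, hk])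
  obtain ⟨c, hc⟩ := Submodule.mem_span_singleton.mp (he.symm ▸ comp_mem hD l x)
  simp [← hc, hφ]

/-- The weight-preserving subgroup lies strictly between, given one element outside the
stabiliser preserving the weight. -/
theorem exists_between (g : GL ι F) (hg1 : g ∈ Cfsg.Geo.specialLinear ι F)
    (hg2 : ∀ x, weight hD (ap g x) = weight hD x)
    (hg3 : g ∉ Cfsg.Geo.decompositionStabilizer D) :
    ∃ K : Subgroup (GL ι F),
      Cfsg.Geo.decompositionStabilizer D ⊓ Cfsg.Geo.specialLinear ι F < K ∧
        K < Cfsg.Geo.specialLinear ι F := by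
  refine ⟨Cfsg.isometryGroup F (weight hD) ⊓ Cfsg.Geo.specialLinear ι F, ?_, ?_⟩
  · refine lt_of_le_of_ne (inf_le_inf_right _ (decompStab_le hD)) fun he => hg3 ?_
    have : g ∈ Cfsg.Geo.decompositionStabilizer D ⊓ Cfsg.Geo.specialLinear ι F := by
      rw [he]; exact ⟨fun u _ => hg2 u, hg1⟩
    exact this.1
  · refine lt_of_le_of_ne inf_le_right fun he => ?_
    let i : Fin t := ⟨0, by have := hD.two_le; omega⟩
    let j : Fin t := ⟨1, by have := hD.two_le; omega⟩
    have hij : i ≠ j := by simp [i, j, Fin.ext_iff]
    obtain ⟨x, hx, hx0⟩ := exists_ne_zero_mem hD i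
    obtain ⟨y, hy, hy0⟩ := exists_ne_zero_mem hD j
    have hns : x ∉ Submodule.span F {y} := by
      intro h
      obtain ⟨c, rfl⟩ := Submodule.mem_span_singleton.mp h
      have := comp_of_mem hD (i := i) ((D j).smul_mem c hy)
      rw [comp_of_mem hD hx, if_pos rfl, if_neg hij] at this
      exact hx0 this
    obtain ⟨φ, hφ, hφx⟩ := exists_functional_eq_one hns
    have hm : tv y φ (hφ y (Submodule.mem_span_singleton_self y)) ∈
        Cfsg.isometryGroup F (weight hD) ⊓ Cfsg.Geo.specialLinear ι F := by
      rw [he]; exact tv_mem_specialLinear _ _ _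
    have h2 := hm.1 x x
    change weight hD (ap _ x) = weight hD x at h2
    rw [ap_tv, hφx, one_smul, weight_add_of_mem hD hij hx hy hx0 hy0,
      weight_of_mem hD hx hx0] at h2
    simp at h2

/-- The small cases. -/
theorem exists_between_small [Fintype F] (hcard : 13 ≤ Fintype.card ι)
    (h : (k = 1 ∧ Fintype.card F ≤ 4) ∨ (k = 2 ∧ Fintype.card F = 2)) :
    ∃ K : Subgroup (GL ι F),
      Cfsg.Geo.decompositionStabilizer D ⊓ Cfsg.Geo.specialLinear ι F < K ∧
        K < Cfsg.Geo.specialLinear ι F := by
  classical
  have ht : 5 ≤ t := by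
    have := card_le hD
    rcases h with ⟨rfl, -⟩ | ⟨rfl, -⟩ <;> omega
  let a : Fin t := ⟨0, by omega⟩
  let b : Fin t := ⟨1, by omega⟩
  let c : Fin t := ⟨2, by omega⟩
  let d : Fin t := ⟨3, by omega⟩
  let e : Fin t := ⟨4, by omega⟩
  have hne : a ≠ b ∧ a ≠ c ∧ a ≠ d ∧ a ≠ e ∧ b ≠ c ∧ b ≠ d ∧ b ≠ e ∧ c ≠ d ∧ c ≠ e ∧ d ≠ e := by
    simp [a, b, c, d, e, Fin.ext_iff]
  obtain ⟨nab, nac, nad, nae, nbc, nbd, nbe, ncd, nce, nde⟩ := hne
  choose U hU hU0 using exists_ne_zero_mem hD
  have cU : ∀ l r, comp hD r (U l) = if r = l then U l else 0 := fun l r => comp_of_mem hD (hU l)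
  have h01 : Fintype.card F = 2 → ∀ s : F, s = 0 ∨ s = 1 := by
    intro hF s
    by_contra hs
    push Not at hs
    have h1 := Finset.card_le_univ ({0, 1, s} : Finset F)
    have h2 : ({0, 1, s} : Finset F).card = 3 := by
      rw [Finset.card_insert_of_notMem (by simp [Ne.symm hs.1]),
        Finset.card_insert_of_notMem (by simp [Ne.symm hs.2]), Finset.card_singleton]
    omega
  rcases h with ⟨hk, hq⟩ | ⟨hk, hq⟩
  · choose κ hκ hκU using exists_coord hD hk hU hU0
    have hκ' : ∀ l r, κ r (U l) = if r = l then 1 else 0 := by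
      intro l r
      by_cases h : r = l
      · subst h; simp [hκU]
      · have := hκ r (U l)
        rw [cU, if_neg h] at this
        simpa [h] using (smul_eq_zero.mp this.symm).resolve_right (hU0 r)
    have hind : ∀ l x, ind hD l x = κ l x ^ (Fintype.card F - 1) := by
      intro l x
      have : 1 < Fintype.card F := Fintype.one_lt_card
      by_cases h0 : κ l x = 0
      · simp [ind, hκ, h0, zero_pow (show Fintype.card F - 1 ≠ 0 by omega)]
      · simp [ind, hκ, h0, hU0, FiniteField.pow_card_sub_one_eq_one _ h0]
    have h1lt : 1 < Fintype.card F := Fintype.one_lt_card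
    have hcast : ((Fintype.card F : ℕ) : F) = 0 := Nat.cast_card_eq_zero F
    obtain hq2 | hq3 | hq4 :
        Fintype.card F = 2 ∨ Fintype.card F = 3 ∨ Fintype.card F = 4 := by omega
    · have h2 : (2 : F) = 0 := by rw [hq2] at hcast; simpa using hcast
      have hv : κ a (U b + U c) = 0 := by simp [hκ', nab, nac]
      refine exists_between hD (tv (U b + U c) (κ a) hv) (tv_mem_specialLinear _ _ _)
        (fun x => ?_) (not_mem_decompStab hD nab (hU a) ?_ ?_)
      · simp only [weight, hind, hq2, show (2 : ℕ) - 1 = 1 from rfl, ap_tv, map_add, map_smul,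
          pow_one, smul_eq_mul, Finset.sum_add_distrib, mul_add, hκ']
        simp only [mul_ite, mul_one, mul_zero, Finset.sum_ite_eq', Finset.mem_univ, if_true]
        linear_combination (κ a x) * h2
      · simp [ap_tv, hκU, cU, nab, nac, hU0]
      · simp [ap_tv, hκU, cU, nab.symm, nbc, hU0]
    · have h3 : (3 : F) = 0 := by rw [hq3] at hcast; simpa using hcast
      set p := U a + U b + U c + U d with hp
      set σ := κ a + κ b + κ c + κ d with hσ
      have hσp : σ p = -2 := by
        simp [hσ, hp, hκ', nab, nac, nad, nbc, nbd, ncd, nab.symm, nac.symm, nad.symm, nbc.symm,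
          nbd.symm, ncd.symm]
        linear_combination (2 : F) * h3
      have hse : ((-2 : F) • κ e) (U e) = -2 := by simp [hκU]
      refine exists_between hD (refl' p σ hσp * refl' (U e) ((-2 : F) • κ e) hse) ?_ ?_ ?_
      · rw [mem_specialLinear_iff, Units.val_mul, Matrix.det_mul, det_refl', det_refl']
        ring
      · intro x
        rw [ap_mul]
        set y := ap (refl' (U e) ((-2 : F) • κ e) hse) x with hy
        have h1 : weight hD (ap (refl' p σ hσp) y) = weight hD y := by
          simp only [weight, hind, hq3, ap_refl', map_add, map_smul, smul_eq_mul, hp, hκ',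
            show (3 : ℕ) - 1 = 2 from rfl, add_sq, Finset.sum_add_distrib, mul_add, mul_ite,
            mul_one, mul_zero]
          simp [hσ, add_sq, mul_add, Finset.sum_add_distrib, nab, nac, nad, nbc, nbd, ncd, nab.symm, nac.symm, nad.symm, nbc.symm, nbd.symm,
            ncd.symm]
          linear_combination (2 * (κ a y + κ b y + κ c y + κ d y) ^ 2) * h3
        rw [h1]
        refine weight_eq_of_eqOn hD {e} (fun l hl => ?_) ?_
        · rw [hy, ap_refl', map_add, map_smul, cU, if_neg (by simpa using hl), smul_zero, add_zero]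
        · simp [hind, hq3, hy, ap_refl', hκU]
          linear_combination (0 : F) * h3
      · refine not_mem_decompStab hD nbc (hU a) ?_ ?_
        · simp [ap_mul, ap_refl', hσ, hp, hκ', cU, nab, nac, nad, nae, nab.symm, nac.symm,
            nad.symm, nae.symm, nbc, nbd, hU0]
        · simp [ap_mul, ap_refl', hσ, hp, hκ', cU, nab, nac, nad, nae, nab.symm, nac.symm,
            nad.symm, nae.symm, nbc.symm, ncd, hU0]
    · have h2 : (2 : F) = 0 := by
        rw [hq4] at hcast
        have : (2 : F) * 2 = 0 := by norm_num at hcast ⊢; exact hcast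
        simpa using this
      set p := U a + U b + U c + U d with hp
      set σ := κ a + κ b + κ c + κ d with hσ
      have hσp : σ p = 0 := by
        simp [hσ, hp, hκ', nab, nac, nad, nbc, nbd, ncd, nab.symm, nac.symm, nad.symm, nbc.symm,
          nbd.symm, ncd.symm]
        linear_combination (2 : F) * h2
      refine exists_between hD (tv p σ hσp) (tv_mem_specialLinear _ _ _) (fun x => ?_) ?_
      · refine weight_eq_of_eqOn hD {a, b, c, d} (fun l hl => ?_) ?_
        · simp only [Finset.mem_insert, Finset.mem_singleton, not_or] at hl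
          simp [hp, cU, hl]
        · simp [hind, hq4, hp, hσ, hκ', Finset.sum_insert, nab, nac, nad, nbc, nbd, ncd, nab.symm,
            nac.symm, nad.symm, nbc.symm, nbd.symm, ncd.symm]
          linear_combination (5 * (κ a x + κ b x + κ c x + κ d x) ^ 3 -
            3 * (κ a x + κ b x + κ c x + κ d x) *
              (κ a x * κ b x + κ a x * κ c x + κ a x * κ d x + κ b x * κ c x + κ b x * κ d x +
                κ c x * κ d x)) * h2
      · refine not_mem_decompStab hD nbc (hU a) ?_ ?_
        · simp [ap_tv, hσ, hp, hκ', cU, nab, nac, nad, nab.symm, nac.symm, nad.symm, nbc, nbd,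
            hU0]
        · simp [ap_tv, hσ, hp, hκ', cU, nab, nac, nad, nab.symm, nac.symm, nad.symm, nbc.symm,
            ncd, hU0]
  · subst hk
    have h2 : (2 : F) = 0 := by
      have := Nat.cast_card_eq_zero F
      rw [hq] at this; simpa using this
    -- on each member a functional with kernel spanned by the chosen vector
    have hψ : ∀ l, ∃ ψ : (ι → F) →ₗ[F] F, (∀ r, ψ (U r) = 0) ∧
        ∀ (x : ι → F) (σ : F), ψ x = ψ (comp hD l x) ∧
          (if comp hD l x + σ • U l = 0 then (0 : F) else 1) = ind hD l x + σ * (1 - ψ x) := by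
      intro l
      obtain ⟨v, hv, hvU⟩ : ∃ v ∈ D l, v ∉ Submodule.span F {U l} := by
        apply Set.not_subset.mp
        intro hle
        have := Submodule.finrank_mono (t := Submodule.span F {U l}) hle
        rw [hD.finrank_eq l, finrank_span_singleton (hU0 l)] at this
        omega
      obtain ⟨φ, hφ, hφv⟩ := exists_functional_eq_one hvU
      have hφU : φ (U l) = 0 := hφ _ (Submodule.mem_span_singleton_self _)
      refine ⟨φ.comp (comp hD l), fun r => ?_, fun x σ => ⟨?_, ?_⟩⟩
      · rw [LinearMap.comp_apply, cU]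
        by_cases h : l = r
        · subst h; simp [hφU]
        · simp [h]
      · simp [comp_of_mem hD (comp_mem hD l x)]
      · have hx : comp hD l x ∈ D l := comp_mem hD l x
        have hsp : Submodule.span F {U l, v} = D l := by
          refine Submodule.eq_of_le_of_finrank_le ?_ ?_
          · rw [Submodule.span_le]
            rintro z (rfl | rfl)
            exacts [hU l, hv]
          · rw [hD.finrank_eq l]
            have hlt : Submodule.span F {U l} < Submodule.span F {U l, v} := by
              refine lt_of_le_of_ne (Submodule.span_mono (by simp)) fun he => hvU ?_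
              rw [he]; exact Submodule.subset_span (by simp)
            have := Submodule.finrank_lt_finrank_of_lt hlt
            rw [finrank_span_singleton (hU0 l)] at this
            omega
        obtain ⟨α, β, hαβ⟩ := Submodule.mem_span_pair.mp (hsp.symm ▸ hx)
        have hzero : ∀ p q : F, p • U l + q • v = 0 → p = 0 ∧ q = 0 := by
          intro p q hpq
          have hq0 : q = 0 := by simpa [hφU, hφv] using congrArg φ hpq
          exact ⟨by simpa [hq0, hU0 l] using hpq, hq0⟩
        have e1 : comp hD l x + σ • U l = (α + σ) • U l + β • v := by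
          rw [← hαβ]; module
        simp only [ind, LinearMap.comp_apply, e1]
        rw [← hαβ]
        simp only [map_add, map_smul, hφU, hφv, smul_eq_mul, mul_zero, zero_add, mul_one]
        rcases h01 hq β with rfl | rfl
        · rcases h01 hq α with rfl | rfl <;> rcases h01 hq σ with rfl | rfl <;>
            simp [hU0, h2, show (1 : F) + 1 = 0 by linear_combination h2]
        · have hne1 : ∀ q : F, q • U l + v ≠ 0 := fun q hpq =>
            one_ne_zero (hzero q 1 (by rwa [one_smul])).2
          simp [hne1]
    choose ψ hψU hψx using hψ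
    obtain ⟨va, hva, hvaψ⟩ : ∃ va ∈ D a, ψ a va ≠ 0 := by
      by_contra hcon
      push Not at hcon
      obtain ⟨v, hv, hvU⟩ : ∃ v ∈ D a, v ∉ Submodule.span F {U a} := by
        apply Set.not_subset.mp
        intro hle
        have := Submodule.finrank_mono (t := Submodule.span F {U a}) hle
        rw [hD.finrank_eq a, finrank_span_singleton (hU0 a)] at this
        omega
      have h := (hψx a v 1).2
      rw [hcon v hv, comp_of_mem hD hv, if_pos rfl] at h
      have hv0 : v ≠ 0 := fun h0 => hvU (h0 ▸ Submodule.zero_mem _)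
      have hne : v + (1 : F) • U a ≠ 0 := by
        intro h0
        rw [one_smul] at h0
        exact hvU (eq_neg_of_add_eq_zero_left h0 ▸
          Submodule.neg_mem _ (Submodule.mem_span_singleton_self _))
      rw [if_neg hne, ind_of_mem hD hv hv0, if_pos rfl] at h
      simp at h
    set p := U a + U b + U c with hp
    set σ := ψ a + ψ b + ψ c with hσ
    have hσp : σ p = 0 := by simp [hσ, hp, hψU]
    refine exists_between hD (tv p σ hσp) (tv_mem_specialLinear _ _ _) (fun x => ?_) ?_
    · refine weight_eq_of_eqOn hD {a, b, c} (fun l hl => ?_) ?_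
      · simp only [Finset.mem_insert, Finset.mem_singleton, not_or] at hl
        simp [hp, cU, hl]
      · have hl : ∀ l ∈ ({a, b, c} : Finset (Fin t)),
            ind hD l (ap (tv p σ hσp) x) = ind hD l x + σ x * (1 - ψ l x) := by
          intro l hl
          have : comp hD l (ap (tv p σ hσp) x) = comp hD l x + σ x • U l := by
            simp only [Finset.mem_insert, Finset.mem_singleton] at hl
            rcases hl with rfl | rfl | rfl <;>
              simp [hp, cU, nab, nac, nbc, nab.symm, nac.symm, nbc.symm]
          rw [← (hψx l x (σ x)).2, ← this]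
          simp [ind]
        rw [Finset.sum_congr rfl hl, Finset.sum_add_distrib]
        simp [Finset.sum_insert, nab, nac, nbc, hσ]
        rcases h01 hq (ψ a x + ψ b x + ψ c x) with h | h
        · linear_combination (3 - (ψ a x + ψ b x + ψ c x)) * h
        · linear_combination (2 - (ψ a x + ψ b x + ψ c x)) * h + h2
    · have hψva : σ va = ψ a va := by
        have h0 : ∀ l, l ≠ a → ψ l va = 0 := fun l hl => by
          rw [(hψx l va 0).1, comp_of_mem hD hva, if_neg hl, map_zero]
        simp [hσ, h0 b nab.symm, h0 c nac.symm]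
      refine not_mem_decompStab hD nbc hva ?_ ?_
      · simp [hψva, comp_of_mem hD hva, hp, cU, nab.symm, nbc, hU0, hvaψ]
      · simp [hψva, comp_of_mem hD hva, hp, cU, nac.symm, nbc.symm, hU0, hvaψ]

end Decomp

end CfsgLib.Geometric
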