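import Cfsg.Agent.Lib.Geometric.LinearMonomialLift

/-!
Finding a non-monomial element fixing a coordinate line, and the maximality of the monomial
group.
-/

namespace CfsgLib.Geometric

open Matrix

variable {ι : Type} [Fintype ι] [DecidableEq ι] {F : Type*} [Field F] [Fintype F]

local notation "e[" j "]" => (Pi.single j (1 : _) : ι → _)

section Steps

variable (hq : 5 ≤ Fintype.card F) (hn : 13 ≤ Fintype.card ι)
variable {M : Subgroup (GL ι F)}
variable (hH : ∀ π c, (mon π c : Matrix ι ι F).det = 1 → mon π c ∈ M)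

include hq hn hH

omit hq in
/-- If no column of any non-monomial element of `M` has two zeros, none is zero-free
throughout. -/
lemma exists_zero (hZ : ∀ g ∈ M, ¬ IsMon g → ∀ j a b, a ≠ b → ap g e[j] a = 0 →
      ap g e[j] b = 0 → False) {g : GL ι F} (hg : g ∈ M) (hgn : ¬ IsMon g) :
    ∃ j a, ap g e[j] a = 0 := by
  classical
  by_contra hfull
  push Not at hfull
  obtain ⟨a, b, c, hab, hac, hbc⟩ : ∃ a b c : ι, a ≠ b ∧ a ≠ c ∧ b ≠ c :=
    Fintype.two_lt_card_iff.mp (by omega)
  set π : Equiv.Perm ι := Equiv.swap a b * Equiv.swap b c with hπ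
  have hsign : Equiv.Perm.sign π = 1 := by simp [hπ, hab, hbc]
  have hfix : ∀ m, m ∉ ({a, b, c} : Finset ι) → π.symm m = m := by
    intro m hm
    simp only [Finset.mem_insert, Finset.mem_singleton, not_or] at hm
    rw [Equiv.symm_apply_eq]
    simp [hπ, Equiv.swap_apply_of_ne_of_ne hm.2.1 hm.2.2,
      Equiv.swap_apply_of_ne_of_ne hm.1 hm.2.1]
  have hb : π.symm b = a := by
    rw [Equiv.symm_apply_eq]
    simp [hπ, Equiv.swap_apply_of_ne_of_ne hab hac]
  have hF : ∀ i, ∃ s : Finset ι, Fintype.card ι ≤ s.card + 2 * 3 ∧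
      ∀ m ∈ s, ap g e[m] b * ap g e[i] a = ap g e[i] b * ap g e[m] a := by
    intro i
    set v := ap g e[i] with hv
    have hv0 : ∀ m, v m ≠ 0 := fun m => hfull i m
    set cf : ι → Fˣ := fun m => Units.mk0 (v m) (hv0 m) * (Units.mk0 (v (π.symm m)) (hv0 _))⁻¹
      with hcf
    set w := mon π cf with hw
    have hwM : w ∈ M := hH _ _ (by
      rw [det_mon, hsign]
      simp only [hcf, Units.val_mul, Units.val_inv_eq_inv_val, Units.val_mk0,
        Finset.prod_mul_distrib, Finset.prod_inv_distrib]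
      rw [Equiv.prod_comp π.symm v, mul_inv_cancel₀ (Finset.prod_ne_zero_iff.mpr fun m _ => hv0 m)]
      simp)
    have hwv : ap w v = v := by
      funext m
      simp [hw, ap_mon, hcf, hv0]
    have hwJ : ∀ x : ι → F, (∀ l ∈ ({a, b, c} : Finset ι), x l = 0) → ap w x = x := by
      intro x hx
      funext m
      rw [hw, ap_mon]
      by_cases hm : m ∈ ({a, b, c} : Finset ι)
      · have hm' : π.symm m ∈ ({a, b, c} : Finset ι) := by
          by_contra h
          exact h (by
            have := hfix _ h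
            rw [Equiv.symm_apply_eq] at this
            rw [this] at h
            simp at h
            exact absurd hm (by simpa using h))
        rw [hx _ hm', hx _ hm, mul_zero]
      · rw [hfix m hm]; simp [hcf, hfix m hm, hv0]
    set z := g⁻¹ * w * g with hzdef
    have hzM : z ∈ M := mul_mem (mul_mem (inv_mem hg) hwM) hg
    have hzi : ap z e[i] = (e[i] : ι → F) := by
      rw [hzdef, ap_mul, ap_mul, ← hv, hwv, hv, ap_inv_ap]
    have hzmon : IsMon z := by
      by_contra hzn
      obtain ⟨p, -, hp⟩ := Finset.exists_mem_notMem_of_card_lt_card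
        (t := (Finset.univ : Finset ι)) (s := {i})
        (by rw [Finset.card_singleton, Finset.card_univ]; omega)
      obtain ⟨q, -, hq'⟩ := Finset.exists_mem_notMem_of_card_lt_card
        (t := (Finset.univ : Finset ι)) (s := {i, p})
        (lt_of_le_of_lt Finset.card_le_two (by rw [Finset.card_univ]; omega))
      simp only [Finset.mem_insert, Finset.mem_singleton, not_or] at hp hq'
      exact hZ z hzM hzn i p q (Ne.symm hq'.2) (by simp [hzi, hp]) (by simp [hzi, hq'.1])
    obtain ⟨π', c', hπc⟩ := hzmon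
    refine ⟨Finset.univ.filter fun m => ap z e[m] = (e[m] : ι → F), ?_, fun m hm => ?_⟩
    · refine card_fixed_mon (π := π') (c := c') (r := 3) ?_ fun m hm => by simp [hπc, hm]
      rw [← hπc, hzdef]
      exact (card_le_fixSpace_conj hwJ).trans (Nat.add_le_add_left Finset.card_le_three _)
    · simp only [Finset.mem_filter, Finset.mem_univ, true_and] at hm
      have h1 : ap w (ap g e[m]) = ap g e[m] := by
        conv_rhs => rw [← hm, hzdef, ap_mul, ap_mul, ap_ap_inv]
      have h2 := congrFun h1 b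
      rw [hw, ap_mon, hb] at h2
      simp only [hcf, hb, Units.val_mul, Units.val_inv_eq_inv_val, Units.val_mk0] at h2
      rw [← h2]
      field_simp [hv0 a]
  have hp : ∀ i i', ap g e[i] b * ap g e[i'] a = ap g e[i'] b * ap g e[i] a := by
    intro i i'
    obtain ⟨s, hs, hs'⟩ := hF i
    obtain ⟨t, ht, ht'⟩ := hF i'
    obtain ⟨m, hm⟩ : (s ∩ t).Nonempty := by
      rw [← Finset.card_pos]
      have := Finset.card_union_add_card_inter s t
      have := Finset.card_le_univ (s ∪ t)
      omega
    rw [Finset.mem_inter] at hm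
    have e1 := hs' m hm.1
    have e2 := ht' m hm.2
    have hma := hfull m a
    apply mul_right_cancel₀ hma
    linear_combination (ap g e[i] a) * e2 - (ap g e[i'] a) * e1
  obtain ⟨i⟩ : Nonempty ι := ⟨a⟩
  let χ : (ι → F) →ₗ[F] F := (ap g e[i] a • coord (F := F) b - ap g e[i] b • coord (F := F) a :
    (ι → F) →ₗ[F] F).comp
    (apEquiv g).toLinearMap
  have hχ : χ = 0 := LinearMap.pi_ext' fun j => LinearMap.ext_ring (by
    simp [χ]
    linear_combination -(hp i j))
  have := congrArg (fun q : (ι → F) →ₗ[F] F => q (ap g⁻¹ e[b])) hχ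
  simp [χ, ap_ap_inv, Pi.single_apply, hab] at this
  exact hfull i a this

/-- Some non-monomial element of `M` has a column with two zeros. -/
lemma exists_two_zeros {g₀ : GL ι F} (hg₀ : g₀ ∈ M) (hg₀n : ¬ IsMon g₀) :
    ∃ g ∈ M, ¬ IsMon g ∧ ∃ j a b, a ≠ b ∧ ap g e[j] a = 0 ∧ ap g e[j] b = 0 := by
  classical
  by_contra hc
  have hZ : ∀ g ∈ M, ¬ IsMon g → ∀ j a b, a ≠ b → ap g e[j] a = 0 → ap g e[j] b = 0 → False :=
    fun g hg hgn j a b hab ha hb => hc ⟨g, hg, hgn, j, a, b, hab, ha, hb⟩
  obtain ⟨j, l₀, hl₀⟩ := exists_zero hn hH hZ hg₀ hg₀n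
  set g := g₀ with hgdef
  set v := ap g e[j] with hv
  obtain ⟨J, hJl, hJ3⟩ := Finset.exists_subset_card_eq (s := (Finset.univ.erase l₀ : Finset ι))
    (n := 3) (by rw [Finset.card_erase_of_mem (Finset.mem_univ _), Finset.card_univ]; omega)
  have hJne : ∀ l ∈ J, l ≠ l₀ := fun l hl => Finset.ne_of_mem_erase (hJl hl)
  have hJv : ∀ l ∈ J, v l ≠ 0 := fun l hl h0 =>
    hZ g hg₀ hg₀n j l l₀ (hJne l hl) h0 hl₀
  obtain ⟨k, -, hk⟩ := Finset.exists_mem_notMem_of_card_lt_card (t := (Finset.univ : Finset ι))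
    (s := {j}) (by rw [Finset.card_singleton, Finset.card_univ]; omega)
  obtain ⟨k', -, hk'⟩ := Finset.exists_mem_notMem_of_card_lt_card (t := (Finset.univ : Finset ι))
    (s := {j, k}) (lt_of_le_of_lt Finset.card_le_two (by rw [Finset.card_univ]; omega))
  simp only [Finset.mem_insert, Finset.mem_singleton, not_or] at hk hk'
  -- a perturbation on the coordinates in `J` invisible at `k` and `k'`
  let Ψ : (J → F) →ₗ[F] (Fin 2 → F) :=
    LinearMap.pi fun i => ∑ l : J, (v l * ap g⁻¹ e[(l : ι)] (![k, k'] i)) • LinearMap.proj l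
  obtain ⟨δ, hδ, hδ0⟩ := Submodule.exists_mem_ne_zero_of_ne_bot
    (LinearMap.ker_ne_bot_of_finrank_lt (f := Ψ) (by simp [hJ3]))
  have hΨ : ∀ i, ∑ l : J, v l * δ l * ap g⁻¹ e[(l : ι)] (![k, k'] i) = 0 := by
    intro i
    have := congrFun (LinearMap.mem_ker.mp hδ) i
    simp [Ψ, LinearMap.sum_apply] at this
    rw [← this]
    exact Finset.sum_congr rfl fun l _ => by ring
  obtain ⟨s, hs⟩ := exists_avoid (insert 0 (Finset.univ.image fun l : J => -(δ l)⁻¹))
    (lt_of_le_of_lt (Finset.card_insert_le _ _) (by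
      have := Finset.card_image_le (s := (Finset.univ : Finset J)) (f := fun l => -(δ l)⁻¹)
      rw [Finset.card_univ, Fintype.card_coe, hJ3] at this
      omega))
  simp only [Finset.mem_insert, Finset.mem_image, Finset.mem_univ, true_and, not_or,
    not_exists] at hs
  have hne : ∀ l : J, 1 + s * δ l ≠ 0 := by
    intro l h
    by_cases hd : δ l = 0
    · simp [hd] at h
    · exact hs.2 l (by field_simp; linear_combination -h)
  set cJ : ι → Fˣ := fun m => if h : m ∈ J then Units.mk0 _ (hne ⟨m, h⟩) else 1 with hcJ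
  set u : Fˣ := (∏ m, cJ m)⁻¹ with hu
  set c : ι → Fˣ := fun m => cJ m * oneBut l₀ u m with hcdef
  have hdM : dg c ∈ M := dg_mem hH (by
    simp only [hcdef, Units.val_mul, Finset.prod_mul_distrib, prod_oneBut, hu,
      Units.val_inv_eq_inv_val, Units.coe_prod]
    exact mul_inv_cancel₀ (Finset.prod_ne_zero_iff.mpr fun m _ => (cJ m).ne_zero))
  have hz : g⁻¹ * dg c * g ∈ M := mul_mem (mul_mem (inv_mem hg₀) hdM) hg₀
  set z := g⁻¹ * dg c * g with hzdef
  have hzv : ap (dg c) v = v + s • ∑ l : J, (v l * δ l) • e[(l : ι)] := by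
    funext m
    rw [ap_dg]
    by_cases hm : m ∈ J
    · have : (∑ l : J, (v l * δ l) • (e[(l : ι)] : ι → F)) m = v m * δ ⟨m, hm⟩ := by
        rw [Finset.sum_apply, Finset.sum_eq_single (⟨m, hm⟩ : J)]
        · simp
        · intro l _ hl
          have : m ≠ (l : ι) := fun e => hl (Subtype.ext e.symm)
          simp [this]
        · simp
      simp only [Pi.add_apply, Pi.smul_apply, this, smul_eq_mul]
      simp [hcdef, hcJ, hm, oneBut_ne (hJne m hm)]
      ring
    · have : (∑ l : J, (v l * δ l) • (e[(l : ι)] : ι → F)) m = 0 := by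
        rw [Finset.sum_apply]
        refine Finset.sum_eq_zero fun l _ => ?_
        have : m ≠ (l : ι) := fun e => hm (e ▸ l.2)
        simp [this]
      simp only [Pi.add_apply, Pi.smul_apply, this, smul_zero, add_zero]
      by_cases hml : m = l₀
      · subst hml; simp [hv, show ap g e[j] m = (0 : F) from hl₀]
      · simp [hcdef, hcJ, hm, oneBut_ne hml]
  have hzero : ∀ i : Fin 2, ap z e[j] (![k, k'] i) = (0 : F) := by
    intro i
    rw [hzdef, ap_mul, ap_mul, ← hv, hzv, ap_add, ap_smul, hv, ap_inv_ap, ← apEquiv_apply g⁻¹,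
      map_sum]
    simp only [Pi.add_apply, Pi.smul_apply, Finset.sum_apply, map_smul, apEquiv_apply, smul_eq_mul]
    have : (![k, k'] i) ≠ j := by fin_cases i <;> simp [hk, hk'.1]
    rw [hΨ i]
    simp [this]
  have hzmon : IsMon z := by
    by_contra hzn
    exact hZ z hz hzn j k k' (Ne.symm hk'.2) (by simpa using hzero 0) (by simpa using hzero 1)
  obtain ⟨π', c', hπc⟩ := hzmon
  have hdJ : ∀ x : ι → F, (∀ l ∈ insert l₀ J, x l = 0) → ap (dg c) x = x := by
    intro x hx
    funext m
    rw [ap_dg]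
    by_cases hm : m ∈ insert l₀ J
    · rw [hx m hm, mul_zero]
    · simp only [Finset.mem_insert, not_or] at hm
      simp [hcdef, hcJ, hm.2, oneBut_ne hm.1]
  have hcard := card_fixed_mon (π := π') (c := c') (r := 4)
    (by rw [← hπc, hzdef]
        exact (card_le_fixSpace_conj hdJ).trans (Nat.add_le_add_left (le_trans
          (Finset.card_insert_le _ _) (by omega)) _))
    (s := Finset.univ.filter fun m => ap z e[m] = (e[m] : ι → F)) (fun m hm => by simp [hπc, hm])
  obtain ⟨m, hm⟩ : (Finset.univ.filter fun m => ap z e[m] = (e[m] : ι → F)).Nonempty := by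
    rw [← Finset.card_pos]; omega
  simp only [Finset.mem_filter, Finset.mem_univ, true_and] at hm
  have h1 : ap (dg c) (ap g e[m]) = ap g e[m] := by
    conv_rhs => rw [← hm, hzdef, ap_mul, ap_mul, ap_ap_inv]
  have hz0 : ∀ p, c p ≠ 1 → ap g e[m] p = 0 := by
    intro p hp
    have := congrFun h1 p
    rw [ap_dg] at this
    by_contra h0
    exact hp (Units.ext (mul_right_cancel₀ h0 (this.trans (one_mul _).symm)))
  obtain ⟨l, hl⟩ := Function.ne_iff.mp hδ0
  have hcl : ∀ l : J, δ l ≠ 0 → c (l : ι) ≠ 1 := by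
    intro l hl h
    simp [hcdef, hcJ, l.2, oneBut_ne (hJne l l.2)] at h
    simpa [hs.1, hl] using congrArg Units.val h
  by_cases hl' : ∃ l' : J, l' ≠ l ∧ δ l' ≠ 0
  · obtain ⟨l', hne', hd'⟩ := hl'
    exact hZ g hg₀ hg₀n m l l' (fun e => hne' (Subtype.ext e.symm)) (hz0 _ (hcl l hl))
      (hz0 _ (hcl l' hd'))
  · push Not at hl'
    have hP : (∏ p, cJ p) = Units.mk0 _ (hne l) := by
      rw [Finset.prod_eq_single (l : ι)]
      · simp [hcJ]
      · intro p _ hp
        simp only [hcJ]
        split_ifs with h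
        · exact Units.ext (by simp [hl' ⟨p, h⟩ fun e => hp (congrArg Subtype.val e)])
        · rfl
      · simp
    refine hZ g hg₀ hg₀n m l l₀ (hJne l l.2) (hz0 _ (hcl l hl)) (hz0 _ ?_)
    intro h
    have hJ0 : l₀ ∉ J := fun h' => hJne _ h' rfl
    simp [hcdef, hcJ, hJ0, oneBut_self, hu, hs.1] at h
    rw [← hcJ] at h
    rw [hP] at h
    simp [Units.ext_iff, hs.1] at h
    exact hl h

omit hn in
/-- A monomial conjugate of a diagonal pair moves exactly one coordinate plane. -/
lemma exists_pair {g : GL ι F} (hg : g ∈ M)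
    (hN : ∀ z ∈ M, ¬ IsMon z → ∀ o (γ : F), ap z e[o] ≠ γ • e[o]) {j a b : ι} (hab : a ≠ b)
    (ha : ap g e[j] a = 0) (hb : ap g e[j] b = 0) :
    ∃ p q, (∀ m, m ≠ p → m ≠ q → ap g⁻¹ e[a] m = (0 : F)) ∧
      (∀ m, m ≠ p → m ≠ q → ap g⁻¹ e[b] m = (0 : F)) := by
  classical
  obtain ⟨lam, hlam0, hlam3, hlam2⟩ : ∃ x : F, x ≠ 0 ∧ x ^ 3 ≠ 1 ∧ x ^ 2 ≠ 1 := by
    obtain ⟨x, hx⟩ := IsCyclic.exists_generator (α := Fˣ)
    have ho : orderOf x = Fintype.card F - 1 := by
      rw [orderOf_eq_card_of_forall_mem_zpowers hx, Nat.card_units, Nat.card_eq_fintype_card]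
    refine ⟨x, x.ne_zero, fun h => ?_, fun h => ?_⟩
    · have := Nat.le_of_dvd (by norm_num) (orderOf_dvd_of_pow_eq_one
        (Units.ext (by rw [Units.val_pow_eq_pow_val, h, Units.val_one]) : x ^ 3 = 1))
      omega
    · have := Nat.le_of_dvd (by norm_num) (orderOf_dvd_of_pow_eq_one
        (Units.ext (by rw [Units.val_pow_eq_pow_val, h, Units.val_one]) : x ^ 2 = 1))
      omega
  have hlam1 : lam ≠ 1 := fun e => hlam2 (by rw [e, one_pow])
  set μ := lam + lam⁻¹ with hμ
  have hμ1 : 1 + μ ≠ 0 := fun e => hlam3 (by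
    rw [hμ] at e; field_simp at e; linear_combination (lam - 1) * e)
  have hμ2 : 2 + μ ≠ 0 := fun e => by
    rw [hμ] at e
    field_simp at e
    have : lam + 1 = 0 := pow_eq_zero_iff two_ne_zero |>.mp (by linear_combination e)
    exact hlam2 (by linear_combination (lam - 1) * this)
  set u := Units.mk0 lam hlam0 with hu
  set c : ι → Fˣ := fun m => oneBut a u m * oneBut b u⁻¹ m with hc
  have hdM : dg c ∈ M := dg_mem hH (by
    simp only [hc, Units.val_mul, Finset.prod_mul_distrib, prod_oneBut]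
    simp [hu, hlam0])
  have hca : (c a : F) = lam := by simp [hc, oneBut_self, oneBut_ne hab, hu]
  have hcb : (c b : F) = lam⁻¹ := by simp [hc, oneBut_self, oneBut_ne hab.symm, hu]
  have hco : ∀ m, m ≠ a → m ≠ b → (c m : F) = 1 := fun m h1 h2 => by
    simp [hc, oneBut_ne h1, oneBut_ne h2]
  set z := g⁻¹ * dg c * g with hzdef
  have hz : z ∈ M := mul_mem (mul_mem (inv_mem hg) hdM) hg
  have hzj : ap z e[j] = (1 : F) • e[j] := by
    rw [hzdef, ap_mul, ap_mul, one_smul]
    conv_rhs => rw [← ap_inv_ap g e[j]]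
    congr 1
    funext m
    rw [ap_dg]
    by_cases h1 : m = a
    · subst h1; simp [ha]
    by_cases h2 : m = b
    · subst h2; simp [hb]
    · simp [hco m h1 h2]
  obtain ⟨π, d, hπd⟩ : IsMon z := by_contra fun h => hN z hz h j 1 hzj
  set A := ap g⁻¹ e[a] with hA
  set B := ap g⁻¹ e[b] with hB
  set P := Submodule.span F ({A, B} : Set (ι → F)) with hP
  have hzA : ap z A = lam • A := by
    rw [hA, hzdef, ap_mul, ap_mul, ap_ap_inv, ap_dg_single, mul_one, hca,
      ← ap_smul, ← Pi.single_smul', smul_eq_mul, mul_one]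
  have hzB : ap z B = lam⁻¹ • B := by
    rw [hB, hzdef, ap_mul, ap_mul, ap_ap_inv, ap_dg_single, mul_one, hcb,
      ← ap_smul, ← Pi.single_smul', smul_eq_mul, mul_one]
  have hkill : ∀ x ∈ P, ap z (ap z x) - μ • ap z x + x = 0 := by
    intro x hx
    obtain ⟨α, β, rfl⟩ := Submodule.mem_span_pair.mp hx
    simp only [ap_add, ap_smul, hzA, hzB, hμ]
    match_scalars <;> field_simp <;> ring
  have him : ∀ x, ap z x - x ∈ P := by
    intro x
    refine Submodule.mem_span_pair.mpr ⟨(lam - 1) * ap g x a, (lam⁻¹ - 1) * ap g x b, ?_⟩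
    have : ap (dg c) (ap g x) - ap g x =
        ((lam - 1) * ap g x a) • e[a] + ((lam⁻¹ - 1) * ap g x b) • e[b] := by
      funext m
      rw [Pi.sub_apply, ap_dg]
      by_cases h1 : m = a
      · subst h1; simp [hca, hab]; ring
      by_cases h2 : m = b
      · subst h2; simp [hcb, h1]; ring
      · simp [hco m h1 h2, h1, h2]
    conv_rhs => rw [hzdef, ap_mul, ap_mul, ← ap_inv_ap g x, ← ap_sub, ap_ap_inv, this,
      ap_add, ap_smul, ap_smul]
  have hfr : Module.finrank F P ≤ 2 :=
    (finrank_span_le_card _).trans (le_trans (le_of_eq (Set.toFinset_card _)) (by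
      rw [← Nat.card_eq_fintype_card, Nat.card_coe_set_eq]
      exact (Set.ncard_insert_le _ _).trans (by simp)))
  -- a coordinate plane inside `P`
  obtain ⟨p, q, hpq, hpP, hqP⟩ : ∃ p q, p ≠ q ∧ e[p] ∈ P ∧ e[q] ∈ P := by
    by_cases hperm : ∃ m, π m ≠ m
    · obtain ⟨m, hm⟩ := hperm
      set x := ap z e[m] - e[m] with hx
      set C := (d (π m) : F) with hC
      set C' := (d (π (π m)) : F) with hC'
      have h1 : ap z e[m] = Pi.single (π m) C := by rw [hπd, ap_mon_single, mul_one]
      have h2 : ap z (Pi.single (π m) C) = Pi.single (π (π m)) (C' * C) := by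
        rw [hπd, ap_mon_single]
      have h3 : ap z (Pi.single (π (π m)) (C' * C)) =
          Pi.single (π (π (π m))) ((d (π (π (π m))) : F) * (C' * C)) := by
        rw [hπd, ap_mon_single]
      have hk := congrFun (hkill x (him _)) (π m)
      simp only [hx, ap_sub, h1, h2, h3, Pi.add_apply, Pi.sub_apply, Pi.smul_apply,
        Pi.single_apply, smul_eq_mul, if_true, Pi.zero_apply] at hk
      rw [if_neg hm] at hk
      by_cases h22 : π (π m) = m
      · rw [h22] at hk
        simp only [if_true, if_neg hm] at hk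
        have hCC : C' * C ≠ 1 := by
          intro e
          have : C * (2 + μ) = 0 := by
            rw [← hC] at hk
            linear_combination hk - C * e
          exact hμ2 ((mul_eq_zero.mp this).resolve_left (d (π m)).ne_zero)
        have hm' := him e[π m]
        have h4 : ap z e[π m] = Pi.single m C' := by
          rw [hπd, ap_mon_single, mul_one, h22, hC', h22]
        rw [h4] at hm'
        have hxP : Pi.single (π m) C - e[m] ∈ P := by
          have := him e[m]; rwa [h1] at this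
        have hem : (C' * C - 1) • e[m] ∈ P := by
          have := P.add_mem hxP (P.smul_mem C hm')
          convert this using 1
          funext i
          by_cases hi : i = m
          · subst hi; simp [Ne.symm hm]; ring
          by_cases hi' : i = π m
          · subst hi'; simp [hm]
          · simp [hi, hi']
        have hemP : e[m] ∈ P := by
          have := P.smul_mem (C' * C - 1)⁻¹ hem
          rwa [smul_smul, inv_mul_cancel₀ (sub_ne_zero.mpr hCC), one_smul] at this
        refine ⟨m, π m, Ne.symm hm, hemP, ?_⟩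
        have := P.smul_mem C⁻¹ (P.add_mem hxP hemP)
        rwa [sub_add_cancel, ← Pi.single_smul', smul_eq_mul,
          inv_mul_cancel₀ (d (π m)).ne_zero] at this
      · exfalso
        have h3' : π (π (π m)) ≠ π m := fun e => h22 (π.injective e)
        have h2' : π m ≠ π (π m) := fun e => hm (π.injective e.symm)
        rw [if_neg h2', if_neg h3'.symm] at hk
        have : C * (1 + μ) = 0 := by linear_combination hk
        exact hμ1 ((mul_eq_zero.mp this).resolve_left (d (π m)).ne_zero)
    · push Not at hperm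
      have hmem : ∀ m, (d m : F) ≠ 1 → e[m] ∈ P := by
        intro m hm
        have := P.smul_mem ((d m : F) - 1)⁻¹ (him e[m])
        rwa [hπd, ap_mon_single, mul_one, hperm m, ← Pi.single_sub, ← Pi.single_smul',
          smul_eq_mul, inv_mul_cancel₀ (sub_ne_zero.mpr hm)] at this
      have hdiag : ∀ x : ι → F, ∀ m, ap z x m = (d m : F) * x m := fun x m => by
        rw [hπd, ap_mon, show π.symm m = m by rw [Equiv.symm_apply_eq, hperm m]]
      have hev : ∀ (w : ι → F) (l : F), ap z w = l • w → l ≠ 1 → w ≠ 0 →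
          ∃ m, (d m : F) = l ∧ e[m] ∈ P := by
        intro w l hw hl hw0
        obtain ⟨m, hm⟩ := Function.ne_iff.mp hw0
        have := congrFun hw m
        rw [hdiag, Pi.smul_apply, smul_eq_mul] at this
        have hd := mul_right_cancel₀ hm this
        exact ⟨m, hd, hmem m (hd ▸ hl)⟩
      obtain ⟨p, hp, hpP⟩ := hev A lam hzA hlam1 (ap_ne_zero _ (by simp))
      obtain ⟨q, hq', hqP⟩ := hev B lam⁻¹ hzB (inv_ne_one.mpr hlam1) (ap_ne_zero _ (by simp))
      refine ⟨p, q, fun e => hlam2 ?_, hpP, hqP⟩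
      have : lam = lam⁻¹ := hp.symm.trans (e ▸ hq')
      rw [pow_two]
      nth_rewrite 2 [this]
      exact mul_inv_cancel₀ hlam0
  have hle : Submodule.span F ({e[p], e[q]} : Set (ι → F)) ≤ P := by
    rw [Submodule.span_le]; rintro _ (rfl | rfl) <;> assumption
  have hli : LinearIndependent F ![(e[p] : ι → F), e[q]] := by
    rw [LinearIndependent.pair_iff]
    intro α β h
    exact ⟨by simpa [hpq] using congrFun h p, by simpa [hpq.symm] using congrFun h q⟩
  have heq : Submodule.span F ({e[p], e[q]} : Set (ι → F)) = P := by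
    refine Submodule.eq_of_le_of_finrank_le hle (hfr.trans ?_)
    have := finrank_span_eq_card hli
    rw [Fintype.card_fin, show Set.range ![(e[p] : ι → F), e[q]] = {e[p], e[q]} by
      simp [Set.pair_comm]] at this
    rw [this]
  have hin : ∀ x ∈ P, ∀ m, m ≠ p → m ≠ q → x m = 0 := by
    intro x hx m h1 h2
    rw [← heq] at hx
    obtain ⟨α, β, rfl⟩ := Submodule.mem_span_pair.mp hx
    simp [h1, h2]
  exact ⟨p, q, hin A (Submodule.subset_span (by simp)), hin B (Submodule.subset_span (by simp))⟩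

/-- Some non-monomial element of `M` fixes a coordinate line. -/
lemma exists_fixed_line {g₀ : GL ι F} (hg₀ : g₀ ∈ M) (hg₀n : ¬ IsMon g₀) :
    ∃ z ∈ M, ¬ IsMon z ∧ ∃ o, ∃ γ : F, ap z e[o] = γ • e[o] := by
  classical
  by_contra hc
  have hN : ∀ z ∈ M, ¬ IsMon z → ∀ o (γ : F), ap z e[o] ≠ γ • e[o] :=
    fun z hz hzn o γ h => hc ⟨z, hz, hzn, o, γ, h⟩
  -- no column is a multiple of a basis vector
  have hN' : ∀ z ∈ M, ¬ IsMon z → ∀ o p, ¬ ∀ m, m ≠ p → ap z e[o] m = (0 : F) := by
    intro z hz hzn o p h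
    by_cases hop : p = o
    · subst hop
      exact hN z hz hzn p (ap z e[p] p) (funext fun m => by
        by_cases hm : m = p
        · subst hm; simp
        · simp [hm, h m hm])
    obtain ⟨r, -, hr⟩ := Finset.exists_mem_notMem_of_card_lt_card (t := (Finset.univ : Finset ι))
      (s := {o, p}) (lt_of_le_of_lt Finset.card_le_two (by rw [Finset.card_univ]; omega))
    simp only [Finset.mem_insert, Finset.mem_singleton, not_or] at hr
    set w : GL ι F := mon (Equiv.swap o p) (oneBut r (-1)) with hw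
    have hwM : w ∈ M := hH _ _ (by
      rw [det_mon, prod_oneBut, Equiv.Perm.sign_swap (Ne.symm hop)]; simp)
    refine hN (w * z) (mul_mem hwM hz) (fun hm => hzn ?_) o (ap (w * z) e[o] o) (funext fun m => ?_)
    · have := (show IsMon w⁻¹ from IsMon.inv ⟨_, _, hw⟩).mul hm
      rwa [inv_mul_cancel_left] at this
    by_cases hm : m = o
    · subst hm; simp
    · rw [ap_mul, hw, ap_mon, Pi.smul_apply, Pi.single_eq_of_ne hm, smul_zero]
      rw [h _ (by
        intro e
        rw [Equiv.symm_swap] at e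
        have := congrArg (Equiv.swap o p) e
        rw [Equiv.swap_apply_self, Equiv.swap_apply_right] at this
        exact hm this), mul_zero]
  obtain ⟨g, hg, hgn, j, a, b, hab, ha, hb⟩ := exists_two_zeros hq hn hH hg₀ hg₀n
  obtain ⟨p, q, hp, -⟩ := exists_pair hq hH hg hN hab ha hb
  have hin : ¬ IsMon g⁻¹ := fun h => hgn (by simpa using h.inv)
  obtain ⟨S, hS, hS3⟩ := Finset.exists_subset_card_eq (s := ({p, q}ᶜ : Finset ι)) (n := 3) (by
    have := Finset.card_le_two (a := p) (b := q)
    rw [Finset.card_compl]; omega)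
  obtain ⟨l₁, l₂, l₃, h12, h13, h23, hS'⟩ := Finset.card_eq_three.mp hS3
  have hz : ∀ l ∈ S, ap g⁻¹ e[a] l = (0 : F) := fun l hl => by
    have := hS hl
    simp only [Finset.mem_compl, Finset.mem_insert, Finset.mem_singleton, not_or] at this
    exact hp l this.1 this.2
  subst hS'
  obtain ⟨p₁, q₁, hA1, hA2⟩ := exists_pair hq hH (inv_mem hg) hN h12 (hz l₁ (by simp))
    (hz l₂ (by simp))
  obtain ⟨p₂, q₂, hA1', hA3⟩ := exists_pair hq hH (inv_mem hg) hN h13 (hz l₁ (by simp))
    (hz l₃ (by simp))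
  rw [inv_inv] at hA1 hA2 hA1' hA3
  -- the first column lies in both planes
  by_cases hsame : (p₂ = p₁ ∨ p₂ = q₁) ∧ (q₂ = p₁ ∨ q₂ = q₁)
  · have hA3' : ∀ m, m ≠ p₁ → m ≠ q₁ → ap g e[l₃] m = (0 : F) := fun m h1 h2 => hA3 m
      (by rcases hsame.1 with e | e <;> rw [e] <;> assumption)
      (by rcases hsame.2 with e | e <;> rw [e] <;> assumption)
    let Ψ : (Fin 3 → F) →ₗ[F] (Fin 2 → F) :=
      LinearMap.pi fun i => ∑ l, ap g e[![l₁, l₂, l₃] l] (![p₁, q₁] i) • LinearMap.proj l
    obtain ⟨δ, hδ, hδ0⟩ := Submodule.exists_mem_ne_zero_of_ne_bot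
      (LinearMap.ker_ne_bot_of_finrank_lt (f := Ψ) (by simp))
    have h0 : ap g (∑ l, δ l • e[![l₁, l₂, l₃] l]) = 0 := by
      rw [← apEquiv_apply, map_sum]
      funext m
      simp only [map_smul, apEquiv_apply, Finset.sum_apply, Pi.smul_apply, smul_eq_mul,
        Pi.zero_apply]
      have hrow : ∀ i : Fin 2, ∑ l, δ l * ap g e[![l₁, l₂, l₃] l] (![p₁, q₁] i) = 0 := by
        intro i
        have := congrFun (LinearMap.mem_ker.mp hδ) i
        simp only [Ψ, LinearMap.pi_apply, LinearMap.sum_apply, LinearMap.smul_apply,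
          LinearMap.proj_apply, smul_eq_mul, Pi.zero_apply] at this
        rw [← this]
        exact Finset.sum_congr rfl fun l _ => mul_comm _ _
      by_cases h1 : m = p₁
      · subst h1; simpa using hrow 0
      by_cases h2 : m = q₁
      · subst h2; simpa using hrow 1
      · simp [Fin.sum_univ_three, hA1 m h1 h2, hA2 m h1 h2, hA3' m h1 h2]
    have h1 := ap_injective g (h0.trans (ap_zero g).symm)
    refine hδ0 (funext fun l => ?_)
    have := congrFun h1 (![l₁, l₂, l₃] l)
    simp only [Fin.sum_univ_three] at this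
    fin_cases l <;>
      simp [h12, h13, h23, h12.symm, h13.symm, h23.symm] at this ⊢ <;> assumption
  · rw [not_and_or, not_or, not_or] at hsame
    rcases hsame with ⟨h1, h2⟩ | ⟨h1, h2⟩
    · exact hN' g hg hgn l₁ q₂ fun m hm => by
        by_cases e : m = p₂
        · subst e; exact hA1 _ h1 h2
        · exact hA1' m e hm
    · exact hN' g hg hgn l₁ p₂ fun m hm => by
        by_cases e : m = q₂
        · subst e; exact hA1 _ h1 h2
        · exact hA1' m hm e

end Steps

/-- The monomial subgroup of the special linear group is maximal. -/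
theorem specialLinear_le_of_monomial (hq : 5 ≤ Fintype.card F) (hn : 13 ≤ Fintype.card ι)
    {M : Subgroup (GL ι F)} (hM : M ≤ Cfsg.Geo.specialLinear ι F)
    (hH : ∀ π c, (mon π c : Matrix ι ι F).det = 1 → mon π c ∈ M) {g : GL ι F} (hg : g ∈ M)
    (hgn : ¬ IsMon g) : Cfsg.Geo.specialLinear ι F ≤ M := by
  obtain ⟨z, hz, hzn, o, γ, h⟩ := exists_fixed_line hq hn hH hg hgn
  exact specialLinear_le_of_fixed_line hq (by omega) hM hH hz hzn h

end CfsgLib.Geometric
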