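import Cfsg.Agent.Lib.Geometric.LinearDecomp
import Cfsg.Agent.Lib.Geometric.LinearMonomial
import Cfsg.Agent.Lib.Geometric.LinearMonomialThm

/-!
Stabilisers of decompositions into equidimensional subspaces are maximal in the special linear
group, apart from the small exceptions.
-/

namespace CfsgLib.Geometric

open Matrix

variable {ι : Type} [Fintype ι] [DecidableEq ι] {F : Type*} [Field F] [Fintype F]

namespace Decomp

variable {t k : ℕ} {D : Fin t → Submodule F (ι → F)} (hD : Cfsg.Geo.IsMDecomposition k D)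
include hD

/-- Decompositions into lines. -/
theorem decompStab_isMaximalIn_of_one (hk : k = 1) (hq : 5 ≤ Fintype.card F)
    (hn : 13 ≤ Fintype.card ι) : Cfsg.Geo.IsMaximalIn (Cfsg.Geo.specialLinear ι F)
      (Cfsg.Geo.decompositionStabilizer D ⊓ Cfsg.Geo.specialLinear ι F) := by
  classical
  choose U hU hU0 using exists_ne_zero_mem hD
  choose κ hκ hκU using exists_coord hD hk hU hU0
  let Θ : (Fin t → F) →ₗ[F] (ι → F) := Fintype.linearCombination F U
  have hΘ : ∀ c, Θ c = ∑ l, c l • U l := Fintype.linearCombination_apply (R := F) (v := U)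
  have hcomp : ∀ c l, comp hD l (Θ c) = c l • U l := fun c l => by
    rw [hΘ]; exact comp_sum_of_mem hD (fun l => c l • U l) (fun r => (D r).smul_mem _ (hU r)) l
  have hbij : Function.Bijective Θ := by
    refine ⟨fun c c' h => funext fun l => ?_, fun x => ⟨fun l => κ l x, ?_⟩⟩
    · have := (hcomp c l).symm.trans ((congrArg (comp hD l) h).trans (hcomp c' l))
      exact smul_left_injective F (hU0 l) this
    · refine ext_comp hD fun l => ?_
      rw [hcomp, hκ]
  let Θe := LinearEquiv.ofBijective Θ hbij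
  have hcard : Fintype.card ι = Fintype.card (Fin t) := by
    simpa [Module.finrank_fintype_fun_eq_card] using Θe.finrank_eq.symm
  let e : ι ≃ Fin t := Fintype.equivOfCardEq hcard
  set P := ofEquiv ((LinearEquiv.funCongrLeft F F e.symm).trans Θe) with hP
  have hPe : ∀ j a, ap P (Pi.single j a) = a • U (e j) := by
    intro j a
    rw [hP, ap_ofEquiv, LinearEquiv.trans_apply]
    change Θ _ = _
    rw [hΘ, Finset.sum_eq_single (e j)]
    · simp [LinearEquiv.funCongrLeft_apply]
    · intro l _ hl
      have : e.symm l ≠ j := fun h => hl (by rw [← h, Equiv.apply_symm_apply])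
      simp [LinearEquiv.funCongrLeft_apply, this]
    · simp
  have hmem : ∀ l x, x ∈ D l → ∃ a, x = ap P (Pi.single (e.symm l) a) := by
    intro l x hx
    refine ⟨κ l x, ?_⟩
    rw [hPe, Equiv.apply_symm_apply, ← hκ, comp_of_mem hD hx, if_pos rfl]
  refine ⟨stab_lt hD, fun M hHM hMS => ?_⟩
  by_cases hM : M ≤ Cfsg.Geo.decompositionStabilizer D
  · exact Or.inl (le_antisymm (le_inf hM hMS) hHM)
  refine Or.inr (le_antisymm hMS fun s hs => ?_)
  obtain ⟨g, hgM, hg⟩ := SetLike.not_le_iff_exists.mp hM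
  have hdet : ∀ x : GL ι F, (P * x * P⁻¹ : GL ι F).val.det = (x : Matrix ι ι F).det := fun x => by
    rw [Units.val_mul, Units.val_mul, Matrix.det_units_conj]
  let M' : Subgroup (GL ι F) := M.comap (MulAut.conj P).toMonoidHom
  have hM' : ∀ x, x ∈ M' ↔ P * x * P⁻¹ ∈ M := fun x => Iff.rfl
  have hMS' : M' ≤ Cfsg.Geo.specialLinear ι F := fun x hx => by
    rw [mem_specialLinear_iff, ← hdet]
    exact (mem_specialLinear_iff _).mp (hMS ((hM' x).mp hx))
  have hmon : ∀ π c, (mon π c : Matrix ι ι F).det = 1 → mon π c ∈ M' := by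
    intro π c h1
    refine (hM' _).mpr (hHM ⟨mem_decompStab_of_mapsTo hD (fun l => e (π (e.symm l)))
      fun l x hx => ?_, (mem_specialLinear_iff _).mpr ((hdet _).trans h1)⟩)
    obtain ⟨a, rfl⟩ := hmem l x hx
    rw [ap_mul, ap_mul, ap_inv_ap, ap_mon_single, hPe]
    exact Submodule.smul_mem _ _ (hU _)
  have hng : ¬ IsMon (P⁻¹ * g * P) := by
    rintro ⟨π, c, hπ⟩
    refine hg (mem_decompStab_of_mapsTo hD (fun l => e (π (e.symm l))) fun l x hx => ?_)
    obtain ⟨a, rfl⟩ := hmem l x hx
    have : g * P = P * mon π c := by rw [← hπ]; group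
    rw [← ap_mul, this, ap_mul, ap_mon_single, hPe]
    exact Submodule.smul_mem _ _ (hU _)
  have h := specialLinear_le_of_monomial hq hn hMS' hmon
    ((hM' _).mpr (by simpa [mul_assoc] using hgM)) hng
  have hs' : P⁻¹ * s * P ∈ Cfsg.Geo.specialLinear ι F := by
    rw [mem_specialLinear_iff, ← hdet]
    simpa [mul_assoc] using (mem_specialLinear_iff _).mp hs
  simpa [hM', mul_assoc] using h hs'

/-- Decompositions with members of any dimension. -/
theorem decompStab_isMaximalIn (hn : 13 ≤ Fintype.card ι)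
    (h1 : ¬ (k = 1 ∧ Fintype.card F ≤ 4)) (h2 : ¬ (k = 2 ∧ Fintype.card F = 2)) :
    Cfsg.Geo.IsMaximalIn (Cfsg.Geo.specialLinear ι F)
      (Cfsg.Geo.decompositionStabilizer D ⊓ Cfsg.Geo.specialLinear ι F) := by
  rcases Nat.lt_or_ge k 2 with hk | hk
  · have := hD.pos
    exact decompStab_isMaximalIn_of_one hD (by omega) (by
      by_contra h; exact h1 ⟨by omega, by omega⟩) hn
  · exact decompStab_isMaximalIn_of_two_le hD hk (fun h => by
      have := card_le hD; subst h; omega) h2

end Decomp

end CfsgLib.Geometric
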