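import Cfsg.Agent.Lib.Geometric.LinearMonomialMax

/-!
From a non-monomial element fixing a coordinate line to all transvections.
-/

namespace CfsgLib.Geometric

open Matrix

variable {ι : Type} [Fintype ι] [DecidableEq ι] {F : Type*} [Field F]

local notation "e[" j "]" => (Pi.single j (1 : _) : ι → _)

/-- `g` fixes the line at `o`, and `k` is its action on the quotient by that line. -/
def Lift (o : ι) (g k : GL ι F) : Prop :=
  (∃ γ : F, ap g e[o] = γ • e[o]) ∧
    ∀ x, ap k x = Function.update (ap g (Function.update x o 0)) o (x o)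

lemma update_ap {o : ι} {g : GL ι F} {γ : F} (hg : ap g e[o] = γ • e[o]) (y : ι → F) (a b : F) :
    Function.update (ap g (Function.update y o a)) o b = Function.update (ap g y) o b := by
  have : Function.update y o a = y + (a - y o) • e[o] := by
    funext i
    by_cases hi : i = o
    · subst hi; simp
    · simp [hi]
  rw [this, ap_add, ap_smul, hg]
  funext i
  by_cases hi : i = o
  · subst hi; simp
  · simp [hi]

lemma Lift.one (o : ι) : Lift o (1 : GL ι F) 1 := by
  refine ⟨⟨1, by simp⟩, fun x => ?_⟩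
  simp

lemma Lift.mul {o : ι} {g k g' k' : GL ι F} (h : Lift o g k) (h' : Lift o g' k') :
    Lift o (g * g') (k * k') := by
  obtain ⟨⟨γ, hγ⟩, hk⟩ := h
  obtain ⟨⟨γ', hγ'⟩, hk'⟩ := h'
  refine ⟨⟨γ' * γ, by rw [ap_mul, hγ', ap_smul, hγ, smul_smul]⟩, fun x => ?_⟩
  rw [ap_mul, ap_mul, hk, hk', Function.update_idem, update_ap hγ, Function.update_self]

lemma Lift.inv {o : ι} {g k : GL ι F} (h : Lift o g k) : Lift o g⁻¹ k⁻¹ := by
  obtain ⟨⟨γ, hγ⟩, hk⟩ := h
  have hγ0 : γ ≠ 0 := fun e => ap_ne_zero g (x := e[o]) (by simp) (by rw [hγ, e, zero_smul])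
  refine ⟨⟨γ⁻¹, ?_⟩, fun x => ?_⟩
  · apply ap_injective g
    rw [ap_ap_inv, ap_smul, hγ, smul_smul, inv_mul_cancel₀ hγ0, one_smul]
  · apply ap_injective k
    rw [ap_ap_inv, hk, Function.update_idem, update_ap hγ, Function.update_self, ap_ap_inv,
      Function.update_idem, Function.update_eq_self]

/-- The action on the quotient. -/
lemma exists_lift_image {o : ι} {g : GL ι F} {γ : F} (hg : ap g e[o] = γ • e[o]) :
    ∃ k, Lift o g k := by
  let f : GL ι F → (ι → F) → (ι → F) := fun g x =>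
    Function.update (ap g (Function.update x o 0)) o (x o)
  have hγ0 : γ ≠ 0 := fun e => ap_ne_zero g (x := e[o]) (by simp) (by rw [hg, e, zero_smul])
  have hg' : ap g⁻¹ e[o] = γ⁻¹ • e[o] := by
    apply ap_injective g
    rw [ap_ap_inv, ap_smul, hg, smul_smul, inv_mul_cancel₀ hγ0, one_smul]
  have hinv : ∀ (a b : GL ι F) (γ : F), a * b = 1 → ap a e[o] = γ • e[o] →
      ∀ x, f a (f b x) = x := by
    intro a b γ hab ha x
    simp only [f, Function.update_idem, Function.update_self]
    rw [update_ap ha, ← ap_mul, hab, ap_one, Function.update_idem, Function.update_eq_self]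
  refine ⟨ofEquiv
    { toFun := f g
      map_add' := fun x y => by
        funext i
        by_cases hi : i = o
        · subst hi; simp [f]
        · simp only [f, Function.update_of_ne hi, Pi.add_apply]
          have : Function.update (x + y) o 0 = Function.update x o 0 + Function.update y o 0 := by
            rw [← Function.update_add]; simp
          rw [this, ap_add, Pi.add_apply]
      map_smul' := fun c x => by
        funext i
        by_cases hi : i = o
        · subst hi; simp [f]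
        · simp only [f, Function.update_of_ne hi, Pi.smul_apply, RingHom.id_apply]
          have : Function.update (c • x) o 0 = c • Function.update x o 0 := by
            rw [← Function.update_smul]; simp
          rw [this, ap_smul, Pi.smul_apply]
      invFun := f g⁻¹
      left_inv := hinv _ _ _ (inv_mul_cancel g) hg'
      right_inv := hinv _ _ _ (mul_inv_cancel g) hg }, ⟨γ, hg⟩, fun x => ?_⟩
  rw [ap_ofEquiv]
  rfl

/-- The images in the quotient of the elements of `M` fixing the line at `o`. -/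
def quotImage (M : Subgroup (GL ι F)) (o : ι) : Subgroup (GL ι F) where
  carrier := {k | ∃ g ∈ M, Lift o g k}
  one_mem' := ⟨1, one_mem M, Lift.one o⟩
  mul_mem' := fun ⟨g, hg, h⟩ ⟨g', hg', h'⟩ => ⟨g * g', mul_mem hg hg', h.mul h'⟩
  inv_mem' := fun ⟨g, hg, h⟩ => ⟨g⁻¹, inv_mem hg, h.inv⟩

/-- Elements of determinant one acting trivially on the quotient are transvections. -/
lemma eq_tv_of_lift_one {o : ι} {g : GL ι F} (hdet : (g : Matrix ι ι F).det = 1)
    (h : Lift o g 1) : ∃ (φ : (ι → F) →ₗ[F] F) (h0 : φ e[o] = 0), g = tv e[o] φ h0 := by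
  obtain ⟨⟨γ, hγ⟩, hk⟩ := h
  let φ : (ι → F) →ₗ[F] F := (coord o).comp ((apEquiv g).toLinearMap - LinearMap.id)
  have hg : ∀ x, ap g x = x + φ x • e[o] := by
    intro x
    funext i
    by_cases hi : i = o
    · subst hi; simp [φ]
    · have := congrFun (hk x) i
      rw [ap_one, update_ap hγ, Function.update_of_ne hi] at this
      simp [hi, ← this]
  have h0 : φ e[o] = 0 := by
    have := det_of_ap g _ φ hg
    rw [hdet] at this
    linear_combination -this
  exact ⟨φ, h0, gl_ext fun x => by rw [hg, ap_tv]⟩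

section Main

variable [Fintype F] (hq : 5 ≤ Fintype.card F) (hn : 4 ≤ Fintype.card ι)
variable {M : Subgroup (GL ι F)} (hM : M ≤ Cfsg.Geo.specialLinear ι F)
variable (hH : ∀ π c, (mon π c : Matrix ι ι F).det = 1 → mon π c ∈ M)

include hH

omit [Fintype F] in
/-- Every monomial matrix fixing `o` and its coordinate is an image. -/
lemma exists_mon_lift {o : ι} {π : Equiv.Perm ι} {c : ι → Fˣ} (hπ : π o = o) (hc : c o = 1) :
    ∃ c', mon π c' ∈ M ∧ Lift o (mon π c') (mon π c) := by
  set A : F := (mon π c : Matrix ι ι F).det with hA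
  have hA0 : A ≠ 0 := by
    rw [hA]
    exact ((Matrix.isUnit_iff_isUnit_det _).mp (Units.isUnit _)).ne_zero
  set u : Fˣ := Units.mk0 A⁻¹ (inv_ne_zero hA0) with hu
  refine ⟨fun m => c m * oneBut o u m, hH _ _ ?_, ⟨u, ?_⟩, fun x => ?_⟩
  · rw [det_mon]
    simp only [Units.val_mul, Finset.prod_mul_distrib, prod_oneBut, ← mul_assoc, ← det_mon]
    rw [← hA, hu, Units.val_mk0, mul_inv_cancel₀ hA0]
  · rw [ap_mon_single, hπ]
    simp [hc, oneBut_self, ← Pi.single_smul']
  · funext i
    by_cases hi : i = o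
    · subst hi
      have : π.symm i = i := by rw [Equiv.symm_apply_eq, hπ]
      simp [ap_mon, hc, this]
    · have : π.symm i ≠ o := fun e => hi (by rw [← π.apply_symm_apply i, e, hπ])
      simp [ap_mon, hi, this, oneBut_ne hi]

omit [Fintype F] in
lemma mon_mem_quotImage {o : ι} {π : Equiv.Perm ι} {c : ι → Fˣ} (hπ : π o = o) (hc : c o = 1) :
    mon π c ∈ quotImage M o :=
  let ⟨c', h1, h2⟩ := exists_mon_lift hH hπ hc
  ⟨mon π c', h1, h2⟩

omit [Fintype F] in
lemma dg_mem {d : ι → Fˣ} (h : ∏ m, (d m : F) = 1) : dg d ∈ M :=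
  hH _ _ (by rw [det_dg, h])

omit [Fintype F] in
/-- Moving one root transvection by the monomial group gives all of them. -/
lemma root_mem (hn : 4 ≤ Fintype.card ι) {k₀ l₀ : ι} (hkl₀ : k₀ ≠ l₀) {s₀ : F} (hs₀ : s₀ ≠ 0)
    {h₀ : (s₀ • coord l₀) e[k₀] = (0 : F)} (hm : tv e[k₀] (s₀ • coord l₀) h₀ ∈ M) {k l : ι}
    (hkl : k ≠ l) {s : F} (hs : s ≠ 0) (h : (s • coord l) e[k] = (0 : F)) :
    tv e[k] (s • coord l) h ∈ M := by
  classical
  set l₁ := Equiv.swap k₀ k l₀ with hl₁
  have hl₁k : l₁ ≠ k := fun e => hkl₀ (by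
    rw [hl₁] at e; exact ((Equiv.injective _) (e.trans (Equiv.swap_apply_left k₀ k).symm)).symm)
  set π : Equiv.Perm ι := Equiv.swap l₁ l * Equiv.swap k₀ k with hπ
  have hπk : π k₀ = k := by
    simp [hπ, Equiv.swap_apply_of_ne_of_ne (Ne.symm hl₁k) hkl]
  have hπl : π l₀ = l := by simp [hπ, ← hl₁]
  obtain ⟨r, -, hr⟩ := Finset.exists_mem_notMem_of_card_lt_card (t := (Finset.univ : Finset ι))
    (s := {k, l}) (lt_of_le_of_lt Finset.card_le_two (by rw [Finset.card_univ]; omega))
  simp only [Finset.mem_insert, Finset.mem_singleton, not_or] at hr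
  set σ : F := ((Equiv.Perm.sign π : ℤ) : F) with hσ
  have hσ0 : σ ≠ 0 := by
    rcases Int.units_eq_one_or (Equiv.Perm.sign π) with e | e <;> simp [hσ, e]
  set u : Fˣ := Units.mk0 (s / s₀) (div_ne_zero hs hs₀) with hu
  set w : Fˣ := Units.mk0 (σ * (s / s₀))⁻¹ (inv_ne_zero (mul_ne_zero hσ0 (div_ne_zero hs hs₀)))
    with hw
  set c : ι → Fˣ := fun m => oneBut k u m * oneBut r w m with hc
  have hg : mon π c ∈ M := hH _ _ (by
    rw [det_mon]
    simp only [hc, Units.val_mul, Finset.prod_mul_distrib, prod_oneBut, ← hσ]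
    simp only [hu, hw, Units.val_mk0, ← mul_assoc]
    exact mul_inv_cancel₀ (mul_ne_zero hσ0 (div_ne_zero hs hs₀)))
  have hck : (c k : F) = s / s₀ := by
    simp [hc, oneBut_self, oneBut_ne (Ne.symm hr.1), hu]
  have hcl : c l = 1 := by simp [hc, oneBut_ne hkl.symm, oneBut_ne (Ne.symm hr.2)]
  have h2 := mul_mem (mul_mem hg hm) (inv_mem hg)
  rw [conj_tv] at h2
  convert h2 using 1
  refine tv_eq_tv _ _ fun x => ?_
  have hx : (ap (mon π c)⁻¹ x) l₀ = x l := by
    rw [mon_inv, ap_mon]
    simp [hπl, hcl, Equiv.Perm.inv_def]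
  rw [ap_mon_single, hπk, hck]
  simp only [LinearMap.comp_apply, LinearEquiv.coe_coe, apEquiv_apply, LinearMap.smul_apply,
    LinearMap.proj_apply, hx, smul_eq_mul, ← Pi.single_smul']
  congr 1
  field_simp

omit [Fintype F] in
lemma specialLinear_le_of_root (hn : 4 ≤ Fintype.card ι) {k₀ l₀ : ι} (hkl₀ : k₀ ≠ l₀) {s₀ : F}
    (hs₀ : s₀ ≠ 0) {h₀ : (s₀ • coord l₀) e[k₀] = (0 : F)}
    (hm : tv e[k₀] (s₀ • coord l₀) h₀ ∈ M) : Cfsg.Geo.specialLinear ι F ≤ M := by
  classical
  refine specialLinear_le_of_fullCentre (S := Set.range fun k => e[k]) ?_ ?_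
  · rw [← (Pi.basisFun F ι).span_eq]
    congr 1
    exact congrArg Set.range (funext fun k => (Pi.basisFun_apply F ι k).symm)
  rintro _ ⟨k, rfl⟩ φ hφ
  have h0 : ∀ m, (φ e[m] • coord m) e[k] = (0 : F) := fun m => by
    by_cases hmk : m = k
    · subst hmk; simp [hφ]
    · simp [Pi.single_apply, hmk]
  have h2 := tv_mem_sum (M := M) Finset.univ e[k] (fun m => φ e[m] • coord m) h0 fun m _ => ?_
  · convert h2 using 2
    exact eq_sum_coord φ
  · by_cases hz : φ e[m] = 0
    · have : tv e[k] (φ e[m] • coord m) (h0 m) = 1 := gl_ext fun y => by simp [hz]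
      rw [this]; exact one_mem M
    · exact root_mem hH hn hkl₀ hs₀ hm (fun e => hz (by rw [← e]; exact hφ)) hz _

include hq hn hM

/-- A translation transvection gives everything. -/
lemma specialLinear_le_of_tv {o : ι} {φ : (ι → F) →ₗ[F] F} {h0 : φ e[o] = 0} (hφ : φ ≠ 0)
    (hm : tv e[o] φ h0 ∈ M) : Cfsg.Geo.specialLinear ι F ≤ M := by
  classical
  obtain ⟨j, hj⟩ : ∃ j, φ e[j] ≠ 0 := by
    by_contra hc
    push Not at hc
    exact hφ (by rw [eq_sum_coord φ]; simp [hc])
  have hjo : j ≠ o := fun e => hj (e ▸ h0)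
  obtain ⟨μ, hμ⟩ := exists_avoid ({0, 1} : Finset F)
    (lt_of_le_of_lt Finset.card_le_two (by omega))
  simp only [Finset.mem_insert, Finset.mem_singleton, not_or] at hμ
  obtain ⟨r, -, hr⟩ := Finset.exists_mem_notMem_of_card_lt_card (t := (Finset.univ : Finset ι))
    (s := {o, j}) (lt_of_le_of_lt Finset.card_le_two (by rw [Finset.card_univ]; omega))
  simp only [Finset.mem_insert, Finset.mem_singleton, not_or] at hr
  obtain ⟨r', -, hr'⟩ := Finset.exists_mem_notMem_of_card_lt_card (t := (Finset.univ : Finset ι))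
    (s := {o, j, r}) (lt_of_le_of_lt Finset.card_le_three (by rw [Finset.card_univ]; omega))
  simp only [Finset.mem_insert, Finset.mem_singleton, not_or] at hr'
  have step : ∀ (φ : (ι → F) →ₗ[F] F) (h : φ e[o] = 0), tv e[o] φ h ∈ M → ∀ p, p ≠ o → p ≠ j →
      ∃ (φ' : (ι → F) →ₗ[F] F) (h' : φ' e[o] = 0), tv e[o] φ' h' ∈ M ∧
        φ' e[j] = (μ⁻¹ - 1) * φ e[j] ∧ φ' e[p] = (μ - 1) * φ e[p] ∧
        ∀ m, m ≠ j → m ≠ p → φ' e[m] = 0 := by
    intro φ h hm p hpo hpj
    set u := Units.mk0 μ hμ.1 with hu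
    set d : ι → Fˣ := fun m => oneBut j u m * oneBut p u⁻¹ m with hd
    have hdM : dg d ∈ M := dg_mem hH (by
      simp only [hd, Units.val_mul, Finset.prod_mul_distrib, prod_oneBut]
      simp [hu, hμ.1])
    have h2 := mul_mem (mul_mem hdM hm) (inv_mem hdM)
    rw [conj_tv] at h2
    have he : ap (dg d) e[o] = (e[o] : ι → F) := by
      simp [ap_dg_single, hd, oneBut_ne hjo.symm, oneBut_ne (Ne.symm hpo)]
    have h0' : (φ.comp (apEquiv (dg d)⁻¹).toLinearMap) e[o] = 0 := by
      change φ (ap (dg d)⁻¹ e[o]) = 0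
      rw [← he, ap_inv_ap, h]
    have h3 : tv e[o] (φ.comp (apEquiv (dg d)⁻¹).toLinearMap) h0' ∈ M := by
      convert h2 using 1
      exact tv_eq_tv _ _ fun x => by rw [he]
    have h4 := inv_mem hm
    rw [tv_inv] at h4
    have h5 := mul_mem h3 h4
    rw [tv_add] at h5
    have hval : ∀ (a : F) m, φ (Pi.single m a) = a * φ e[m] := fun a m => by
      rw [← smul_eq_mul, ← map_smul, ← Pi.single_smul']; simp
    refine ⟨_, _, h5, ?_, ?_, fun m h1 h2 => ?_⟩
    · simp only [LinearMap.add_apply, LinearMap.neg_apply, LinearMap.comp_apply,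
        LinearEquiv.coe_coe, apEquiv_apply, ap_dg_inv_single]
      rw [hval _ j]
      simp [hd, oneBut_self, oneBut_ne (Ne.symm hpj), hu]
      ring
    · simp only [LinearMap.add_apply, LinearMap.neg_apply, LinearMap.comp_apply,
        LinearEquiv.coe_coe, apEquiv_apply, ap_dg_inv_single]
      rw [hval _ p]
      simp [hd, oneBut_self, oneBut_ne hpj, hu]
      ring
    · simp [ap_dg_inv_single, hd, oneBut_ne h1, oneBut_ne h2]
  obtain ⟨φ₁, h₁, hm₁, hj₁, -, hz₁⟩ := step φ h0 hm r hr.1 hr.2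
  obtain ⟨φ₂, h₂, hm₂, hj₂, hp₂, hz₂⟩ := step φ₁ h₁ hm₁ r' hr'.1 hr'.2.1
  have hs : φ₂ e[j] ≠ 0 := by
    rw [hj₂, hj₁]
    have : μ⁻¹ - 1 ≠ 0 := sub_ne_zero.mpr (inv_ne_one.mpr hμ.2)
    exact mul_ne_zero this (mul_ne_zero this hj)
  have heq : φ₂ = φ₂ e[j] • coord j := by
    conv_lhs => rw [eq_sum_coord φ₂]
    refine Finset.sum_eq_single j (fun m _ hmj => ?_) (fun h => absurd (Finset.mem_univ j) h)
    by_cases hmr : m = r'
    · subst hmr; rw [hp₂, hz₁ m hmj hr'.2.2, mul_zero, zero_smul]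
    · rw [hz₂ m hmj hmr, zero_smul]
  refine specialLinear_le_of_root hH hn (Ne.symm hjo) hs (h₀ := by simp [Pi.single_apply, hjo]) ?_
  convert hm₂ using 2
  exact heq.symm

/-- A root transvection in the quotient gives everything. -/
lemma specialLinear_le_of_hasRoot {o : ι} (h : HasRoot (quotImage M o) o) :
    Cfsg.Geo.specialLinear ι F ≤ M := by
  classical
  obtain ⟨k, l, hkl, hko, hlo, s, hs, h0, g, hg, hL⟩ := h
  obtain ⟨r, -, hr⟩ := Finset.exists_mem_notMem_of_card_lt_card (t := (Finset.univ : Finset ι))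
    (s := {k, l, o}) (lt_of_le_of_lt Finset.card_le_three (by rw [Finset.card_univ]; omega))
  simp only [Finset.mem_insert, Finset.mem_singleton, not_or] at hr
  obtain ⟨hrk, hrl, hro⟩ := hr
  obtain ⟨μ, hμ⟩ := exists_avoid ({0, 1, -1} : Finset F)
    (lt_of_le_of_lt Finset.card_le_three (by omega))
  simp only [Finset.mem_insert, Finset.mem_singleton, not_or] at hμ
  set u := Units.mk0 μ hμ.1 with hu
  set d : ι → Fˣ := fun m => oneBut o u m * oneBut r u⁻¹ m with hd
  have hdM : dg d ∈ M := dg_mem hH (by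
    simp only [hd, Units.val_mul, Finset.prod_mul_distrib, prod_oneBut]
    simp [hu, hμ.1])
  have hdL : Lift o (dg d) (dg (oneBut r u⁻¹)) := by
    refine ⟨⟨μ, by simp [ap_dg_single, hd, oneBut_self, oneBut_ne (Ne.symm hro), hu,
      ← Pi.single_smul']⟩, fun x => ?_⟩
    funext i
    by_cases hi : i = o
    · subst hi; simp [ap_dg, oneBut_ne (Ne.symm hro)]
    · simp [ap_dg, hi, hd, oneBut_ne hi]
  have hcomm : dg (oneBut r u⁻¹) * tv e[k] (s • coord l) h0 * (dg (oneBut r u⁻¹))⁻¹ *
      (tv e[k] (s • coord l) h0)⁻¹ = 1 := by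
    rw [mul_inv_eq_one, conj_tv]
    refine tv_eq_tv _ _ fun x => ?_
    have : ap (dg (oneBut r u⁻¹))⁻¹ x l = x l := by simp [ap_dg_inv, oneBut_ne (Ne.symm hrl)]
    simp [ap_dg_single, oneBut_ne (Ne.symm hrk), this]
  have hL2 := ((hdL.mul hL).mul hdL.inv).mul hL.inv
  rw [hcomm] at hL2
  have hmem := mul_mem (mul_mem (mul_mem hdM hg) (inv_mem hdM)) (inv_mem hg)
  obtain ⟨φ, hφ0, hφ⟩ := eq_tv_of_lift_one
    ((mem_specialLinear_iff _).mp (hM hmem)) hL2
  by_cases hφz : φ = 0
  · -- then `g` is itself the root transvection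
    obtain ⟨⟨γ, hγ⟩, hk⟩ := hL
    have hcom : ∀ x, ap (dg d) (ap g x) = ap g (ap (dg d) x) := by
      have : dg d * g * (dg d)⁻¹ * g⁻¹ = 1 := by
        rw [hφ]; exact gl_ext fun x => by simp [hφz]
      rw [mul_inv_eq_one, mul_inv_eq_iff_eq_mul] at this
      intro x
      rw [← ap_mul, this, ap_mul]
    have hgo : ∀ j, j ≠ o → ap g e[j] o = 0 := by
      intro j hj
      have := congrFun (hcom e[j]) o
      rw [ap_dg, ap_dg_single, show Pi.single j ((d j : F) * 1) = (d j : F) • (e[j] : ι → F) by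
          rw [← Pi.single_smul', smul_eq_mul], ap_smul, Pi.smul_apply, smul_eq_mul] at this
      simp only [hd, oneBut_self, oneBut_ne (Ne.symm hro), oneBut_ne hj, one_mul, mul_one,
        Units.val_mul] at this
      by_contra h0'
      have he := mul_right_cancel₀ h0' this
      by_cases hjr : j = r
      · subst hjr
        rw [oneBut_self, hu, Units.val_inv_eq_inv_val, Units.val_mk0] at he
        have : (μ - 1) * (μ + 1) = 0 := by linear_combination μ * he + inv_mul_cancel₀ hμ.1
        rcases mul_eq_zero.mp this with e | e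
        · exact hμ.2.1 (by linear_combination e)
        · exact hμ.2.2 (by linear_combination e)
      · rw [oneBut_ne hjr, hu] at he
        exact hμ.2.1 (by simpa using he)
    have hγ1 : ∀ x, ap g x = ap (dg (oneBut o (Units.mk0 γ fun e => ap_ne_zero g (x := e[o])
        (by simp) (by rw [hγ, e, zero_smul]))) * tv e[k] (s • coord l) h0) x := by
      intro x
      funext i
      rw [ap_mul, ap_dg]
      by_cases hi : i = o
      · subst hi
        rw [hk, Function.update_self, oneBut_self, Units.val_mk0]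
        conv_lhs => rw [pi_eq_sum_univ' x]
        rw [show ap g (∑ m, x m • e[m]) = ∑ m, x m • ap g e[m] from by
          rw [← apEquiv_apply, map_sum]; simp [ap_smul], Finset.sum_apply,
          Finset.sum_eq_single i (fun m _ hm => by simp [hgo m hm]) (by simp)]
        simp [hγ, mul_comm]
      · rw [hk, Function.update_of_ne hi, oneBut_ne hi, Units.val_one, one_mul]
        exact (Function.update_of_ne hi _ _).symm.trans
          ((congrFun (update_ap hγ x 0 (x o)) i).symm.trans (Function.update_of_ne hi _ _))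
    have hgeq := gl_ext hγ1
    have hdet := (mem_specialLinear_iff _).mp (hM hg)
    rw [hgeq, Units.val_mul, Matrix.det_mul, det_dg, prod_oneBut, Units.val_mk0,
      (mem_specialLinear_iff _).mp (tv_mem_specialLinear _ _ _), mul_one] at hdet
    refine specialLinear_le_of_root hH hn hkl hs (h₀ := h0) ?_
    convert hg using 1
    rw [hgeq]
    apply gl_ext
    intro x
    funext i
    rw [ap_mul, ap_dg]
    by_cases hi : i = o
    · subst hi; simp [oneBut_self, hdet]
    · simp [oneBut_ne hi]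
  · exact specialLinear_le_of_tv hq hn hM hH hφz (hφ ▸ hmem)

/-- A non-monomial element fixing a coordinate line gives everything. -/
theorem specialLinear_le_of_fixed_line {o : ι} {z : GL ι F} (hz : z ∈ M) (hzn : ¬ IsMon z)
    {γ : F} (hzo : ap z e[o] = γ • e[o]) : Cfsg.Geo.specialLinear ι F ≤ M := by
  classical
  obtain ⟨k, hL⟩ := exists_lift_image hzo
  have hko : ap k e[o] = (e[o] : ι → F) := by
    rw [hL.2]
    have : Function.update (e[o] : ι → F) o 0 = 0 := by
      funext i
      by_cases hi : i = o <;> simp [hi]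
    rw [this, ap_zero, Pi.single_eq_same]
    rfl
  have hkx : ∀ x, ap k x o = x o := fun x => by rw [hL.2]; simp
  by_cases hkm : IsMon k
  · obtain ⟨π, c, rfl⟩ := hkm
    have hπo : π o = o := by
      by_contra h
      have := congrFun hko (π o)
      simp [ap_mon_single, h] at this
    have hco : c o = 1 := by
      have := congrFun hko o
      rw [ap_mon_single, hπo] at this
      simpa using this
    obtain ⟨c', hm, hmL⟩ := exists_mon_lift (M := M) hH hπo hco
    have h1 := hL.mul hmL.inv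
    rw [mul_inv_cancel] at h1
    have hmem := mul_mem hz (inv_mem hm)
    obtain ⟨φ, hφ0, hφ⟩ := eq_tv_of_lift_one ((mem_specialLinear_iff _).mp (hM hmem)) h1
    refine specialLinear_le_of_tv hq hn hM hH (fun h => hzn ?_) (hφ ▸ hmem)
    have hmon : IsMon (mon π c') := ⟨π, c', rfl⟩
    have : z = mon π c' := by
      rw [← mul_inv_eq_one, hφ]
      exact gl_ext fun x => by simp [h]
    exact this ▸ hmon
  · obtain ⟨j, a, b, hab, ha, hb⟩ := exists_two_nonzero hkm
    have hjo : j ≠ o := by
      rintro rfl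
      rw [hko] at ha hb
      simp [Pi.single_apply] at ha hb
      exact hab (ha.trans hb.symm)
    refine specialLinear_le_of_hasRoot hq hn hM hH (o := o) ?_
    have hdil : DilIn (quotImage M o) e[j] (coord j) := fun s hs =>
      ⟨dg (oneBut j (Units.mk0 _ hs)),
        mon_mem_quotImage hH rfl (oneBut_ne (Ne.symm hjo) _), fun x => by
          funext i
          rw [ap_dg]
          by_cases hi : i = j
          · subst hi; simp [oneBut_self]; ring
          · simp [oneBut_ne hi, hi]⟩
    refine hasRoot_of_dilIn hq hn (fun π c h1 h2 => mon_mem_quotImage hH h1 h2)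
      (a := ap k e[j]) (ψ := (coord j).comp (apEquiv k⁻¹).toLinearMap) ?_ ?_ ?_
      (dilIn_conj hdil ⟨z, hz, hL⟩) hab ha hb
    · simp [ap_inv_ap]
    · simp [hkx, hjo]
    · change ap k⁻¹ e[o] j = (0 : F)
      rw [← hko, ap_inv_ap]
      simp [Pi.single_apply, hjo]

end Main

end CfsgLib.Geometric
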