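import Cfsg.Agent.Lib.Geometric.Monomial
import Cfsg.Agent.Lib.Geometric.Centres
import Cfsg.Agent.Lib.Geometric.Decomp

/-!
A subgroup of the special linear group over at least five elements containing all monomial
matrices of determinant one and one other matrix is the whole group, in dimension at least 13.
-/

namespace CfsgLib.Geometric

open Matrix

variable {ι : Type} [Fintype ι] [DecidableEq ι] {F : Type*} [Field F]

local notation "e[" j "]" => (Pi.single j (1 : _) : ι → _)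

/-- The coordinate functional at `l`. -/
abbrev coord (l : ι) : (ι → F) →ₗ[F] F := LinearMap.proj l

omit [Fintype ι] in
lemma coord_single (l m : ι) (a : F) : coord l (Pi.single m a) = if l = m then a else 0 := by
  simp [Pi.single_apply]

/-- A functional is the sum of its values times the coordinates. -/
lemma eq_sum_coord (φ : (ι → F) →ₗ[F] F) :
    φ = ∑ m, φ (Pi.single m 1) • coord m := by
  refine LinearMap.pi_ext' fun j => LinearMap.ext_ring ?_
  simp [LinearMap.sum_apply, Pi.single_apply]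

/-- A diagonal map. -/
abbrev dg (c : ι → Fˣ) : GL ι F := mon 1 c

lemma ap_dg (c : ι → Fˣ) (x : ι → F) (m : ι) : ap (dg c) x m = (c m : F) * x m := by
  rw [ap_mon]; rfl

lemma ap_dg_single (c : ι → Fˣ) (j : ι) (a : F) :
    ap (dg c) (Pi.single j a) = Pi.single j ((c j : F) * a) := ap_mon_single 1 c j a

lemma ap_dg_inv_single (c : ι → Fˣ) (j : ι) (a : F) :
    ap (dg c)⁻¹ (Pi.single j a) = Pi.single j ((((c j)⁻¹ : Fˣ) : F) * a) := by
  rw [dg, mon_inv, ap_mon_single]
  rfl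

lemma ap_dg_inv (c : ι → Fˣ) (x : ι → F) (m : ι) :
    ap (dg c)⁻¹ x m = (((c m)⁻¹ : Fˣ) : F) * x m := by
  rw [dg, mon_inv, ap_mon]
  rfl

lemma det_dg (c : ι → Fˣ) : (dg c : Matrix ι ι F).det = ∏ m, (c m : F) := by
  simp [det_mon]

/-- `one_but l a` is `a` at `l` and one elsewhere. -/
def oneBut (l : ι) (a : Fˣ) : ι → Fˣ := Function.update 1 l a

omit [Fintype ι] in
lemma oneBut_self (l : ι) (a : Fˣ) : oneBut l a l = a := by simp [oneBut]

omit [Fintype ι] in
lemma oneBut_ne {l m : ι} (h : m ≠ l) (a : Fˣ) : oneBut l a m = 1 := by simp [oneBut, h]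

lemma prod_oneBut (l : ι) (a : Fˣ) : ∏ m, (oneBut l a m : F) = a := by
  rw [Finset.prod_eq_single l (fun b _ hb => by simp [oneBut_ne hb])
    (fun h => absurd (Finset.mem_univ l) h), oneBut_self]

section Field

omit [Fintype ι] [DecidableEq ι]

lemma exists_avoid [Fintype F] [DecidableEq F] (s : Finset F) (h : s.card < Fintype.card F) :
    ∃ x : F, x ∉ s := by
  obtain ⟨x, -, hx⟩ := Finset.exists_mem_notMem_of_card_lt_card (t := Finset.univ) (s := s)
    (by simpa using h)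
  exact ⟨x, hx⟩

lemma card_lt_five [DecidableEq F] (a b c d : F) : ({a, b, c, d} : Finset F).card < 5 := by
  have h1 := Finset.card_insert_le a ({b, c, d} : Finset F)
  have h2 := Finset.card_insert_le b ({c, d} : Finset F)
  have h3 := Finset.card_insert_le c ({d} : Finset F)
  simp at h3
  omega

end Field

/-- Two transvection centres separate under the diagonal. -/
lemma sum_mul_update_three (f : ι → F) (v : ι → F) {j l r : ι} (hjl : j ≠ l) (hjr : j ≠ r)
    (hlr : l ≠ r) (h1 : ∀ m, m ≠ j → m ≠ l → m ≠ r → v m = 1) :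
    ∑ m, f m * v m = ∑ m, f m + f j * (v j - 1) + f l * (v l - 1) + f r * (v r - 1) := by
  have h : ∀ m, f m * v m = f m + (if m = j then f j * (v j - 1) else 0) +
      (if m = l then f l * (v l - 1) else 0) + (if m = r then f r * (v r - 1) else 0) := by
    intro m
    by_cases hj : m = j
    · subst hj; simp [hjl, hjr]; ring
    by_cases hl : m = l
    · subst hl; simp [hj, hlr]; ring
    by_cases hr : m = r
    · subst hr; simp [hj, hl]; ring
    · simp [hj, hl, hr, h1 m hj hl hr]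
  rw [Finset.sum_congr rfl fun m _ => h m]
  simp [Finset.sum_add_distrib]

/-- There is a rescaling of three coordinates killing `∑ c d` but not `∑ c / d`. -/
lemma exists_rescale [Fintype F] (hq : 5 ≤ Fintype.card F) {c : ι → F} {j l r : ι} (hjl : j ≠ l)
    (hjr : j ≠ r) (hlr : l ≠ r) (hj : c j ≠ 0) (hl : c l ≠ 0) (hr : c r ≠ 0) :
    ∃ d : ι → Fˣ, (∀ m, m ≠ j → m ≠ l → m ≠ r → d m = 1) ∧ ∑ m, c m * (d m : F) = 0 ∧
      ∑ m, c m * (((d m)⁻¹ : Fˣ) : F) ≠ 0 := by
  classical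
  set S := ∑ m, c m with hS
  obtain ⟨y, hy⟩ := exists_avoid ({0, -(S - c j - c l - c r) / c l} : Finset F)
    (lt_of_le_of_lt Finset.card_le_two (by omega))
  simp only [Finset.mem_insert, Finset.mem_singleton, not_or] at hy
  obtain ⟨hy0, hy1⟩ := hy
  set R := S - c j - c l - c r + c l * y with hR
  set R' := S - c j - c l - c r + c l / y with hR'
  have hR0 : R ≠ 0 := fun h => hy1 (by rw [eq_div_iff hl]; linear_combination h)
  let p : Polynomial F := Polynomial.X * (Polynomial.C R + Polynomial.C (c r) * Polynomial.X) *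
    (Polynomial.C (R' * c r) * Polynomial.X ^ 2 +
      Polynomial.C (c r ^ 2 - c j ^ 2 + R' * R) * Polynomial.X + Polynomial.C (c r * R))
  have hp : p ≠ 0 := by
    refine mul_ne_zero (mul_ne_zero Polynomial.X_ne_zero fun h => hR0 ?_) fun h => ?_
    · simpa using congrArg (fun q => Polynomial.coeff q 0) h
    · exact mul_ne_zero hr hR0 (by simpa using congrArg (fun q => Polynomial.coeff q 0) h)
  obtain ⟨x, hx⟩ : ∃ x, p.eval x ≠ 0 := by
    by_contra hc
    push Not at hc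
    have hdeg : p.natDegree ≤ 4 := by simp only [p]; compute_degree
    exact hp (Polynomial.eq_zero_of_natDegree_lt_card_of_eval_eq_zero p Function.injective_id hc
      (by omega))
  simp only [p, Polynomial.eval_mul, Polynomial.eval_X, Polynomial.eval_add, Polynomial.eval_C,
    Polynomial.eval_pow, mul_ne_zero_iff] at hx
  obtain ⟨⟨hx0, hx1⟩, hx2⟩ := hx
  set z := -(R + c r * x) / c j with hz
  have hz0 : z ≠ 0 := div_ne_zero (neg_ne_zero.mpr hx1) hj
  refine ⟨Function.update (Function.update (Function.update 1 r (Units.mk0 x hx0)) l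
    (Units.mk0 y hy0)) j (Units.mk0 z hz0), fun m h1 h2 h3 => by simp [h1, h2, h3], ?_, ?_⟩
  · rw [sum_mul_update_three c _ hjl hjr hlr fun m h1 h2 h3 => by simp [h1, h2, h3]]
    simp only [Function.update_self, ne_eq, hjl.symm, hjr.symm, hlr.symm, not_false_eq_true,
      Function.update_of_ne, Units.val_mk0]
    have : c j * z = -(R + c r * x) := by rw [hz, mul_div_cancel₀ _ hj]
    linear_combination this + hR
  · rw [sum_mul_update_three c _ hjl hjr hlr fun m h1 h2 h3 => by simp [h1, h2, h3]]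
    simp only [Function.update_self, ne_eq, hjl.symm, hjr.symm, hlr.symm, not_false_eq_true,
      Function.update_of_ne, Units.val_inv_eq_inv_val, Units.val_mk0]
    intro h
    apply hx2
    rw [hz, inv_div] at h
    have h' : R' + c r / x - c j ^ 2 / (R + c r * x) = 0 := by
      rw [hR']
      rw [div_neg] at h
      linear_combination h
    field_simp at h'
    linear_combination h'

section Dilations

variable [Fintype F] (hq : 5 ≤ Fintype.card F) (hn : 4 ≤ Fintype.card ι)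
variable {K : Subgroup (GL ι F)} {o : ι}
variable (hK : ∀ π c, π o = o → c o = 1 → mon π c ∈ K)

/-- Every dilation with centre `a` and functional `ψ` lies in `K`. -/
def DilIn (K : Subgroup (GL ι F)) (a : ι → F) (ψ : (ι → F) →ₗ[F] F) : Prop :=
  ∀ s : F, 1 + s ≠ 0 → ∃ k ∈ K, ∀ x, ap k x = x + (s * ψ x) • a

omit [Fintype F] in
lemma dilIn_conj {a : ι → F} {ψ : (ι → F) →ₗ[F] F} (h : DilIn K a ψ) {g : GL ι F} (hg : g ∈ K) :
    DilIn K (ap g a) (ψ.comp (apEquiv g⁻¹).toLinearMap) := by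
  intro s hs
  obtain ⟨k, hk, he⟩ := h s hs
  refine ⟨g * k * g⁻¹, mul_mem (mul_mem hg hk) (inv_mem hg), fun x => ?_⟩
  simp [ap_mul, he, ap_add, ap_smul, ap_ap_inv]

/-- `K` has a root transvection moving neither `o` nor its coordinate. -/
def HasRoot (K : Subgroup (GL ι F)) (o : ι) : Prop :=
  ∃ (k l : ι), k ≠ l ∧ k ≠ o ∧ l ≠ o ∧ ∃ s : F, s ≠ 0 ∧
    ∃ h : (s • coord l) e[k] = (0 : F), tv e[k] (s • coord l) h ∈ K

include hq hn hK

omit hn in
lemma hasRoot_of_tv_left {l : ι} (hlo : l ≠ o) {φ : (ι → F) →ₗ[F] F} (hφo : φ e[o] = 0)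
    (hφ0 : φ ≠ 0) (h : φ e[l] = 0) (hm : tv e[l] φ h ∈ K) : HasRoot K o := by
  classical
  obtain ⟨m, hm0⟩ : ∃ m, φ e[m] ≠ 0 := by
    by_contra hc
    push Not at hc
    exact hφ0 (by rw [eq_sum_coord φ]; simp [hc])
  have hml : m ≠ l := fun e => hm0 (e ▸ h)
  have hmo : m ≠ o := fun e => hm0 (e ▸ hφo)
  obtain ⟨μ, hμ⟩ := exists_avoid ({0, 1} : Finset F)
    (lt_of_le_of_lt Finset.card_le_two (by omega))
  simp only [Finset.mem_insert, Finset.mem_singleton, not_or] at hμ
  set d := dg (oneBut m (Units.mk0 μ hμ.1)) with hd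
  have hdK : d ∈ K := hK _ _ rfl (oneBut_ne (Ne.symm hmo) _)
  have h2 := mul_mem (mul_mem hdK hm) (inv_mem hdK)
  rw [conj_tv] at h2
  have he : ap d e[l] = (e[l] : ι → F) := by simp [hd, ap_dg_single, oneBut_ne (Ne.symm hml)]
  have h3 := inv_mem hm
  rw [tv_inv] at h3
  have h4 : tv e[l] (φ.comp (apEquiv d⁻¹).toLinearMap)
      (by change φ (ap d⁻¹ e[l]) = 0; rw [← he, ap_inv_ap, h]) ∈ K := by
    convert h2 using 1
    exact tv_eq_tv _ _ fun x => by rw [he]
  have h5 := mul_mem h4 h3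
  rw [tv_add] at h5
  have hs : ((μ⁻¹ - 1) * φ e[m]) ≠ 0 := mul_ne_zero (sub_ne_zero.mpr (inv_ne_one.mpr hμ.2)) hm0
  refine ⟨l, m, hml.symm, hlo, hmo, _, hs, by simp [Pi.single_apply, hml], ?_⟩
  convert h5 using 1
  refine tv_eq_tv _ _ fun x => congrArg (· • e[l]) ?_
  refine LinearMap.congr_fun (LinearMap.pi_ext' fun j => LinearMap.ext_ring ?_) x
  by_cases hj : j = m
  · subst hj
    simp [hd, ap_dg_inv_single, oneBut_self, Pi.single_apply, ← Pi.single_smul']
    have : φ (Pi.single j μ⁻¹) = μ⁻¹ * φ e[j] := by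
      rw [← smul_eq_mul, ← map_smul, ← Pi.single_smul']; simp
    rw [this]; ring
  · simp [hd, ap_dg_inv_single, oneBut_ne hj, Pi.single_apply, hj, Ne.symm hj]

omit hn in
lemma hasRoot_of_tv_right {l : ι} (hlo : l ≠ o) {v : ι → F} (hvo : v o = 0) (hv0 : v ≠ 0)
    {s : F} (hs : s ≠ 0) (h : (s • coord l) v = 0) (hm : tv v (s • coord l) h ∈ K) :
    HasRoot K o := by
  classical
  have hvl : v l = 0 := by simpa [hs] using h
  obtain ⟨m, hm0⟩ : ∃ m, v m ≠ 0 := Function.ne_iff.mp hv0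
  have hml : m ≠ l := fun e => hm0 (e ▸ hvl)
  have hmo : m ≠ o := fun e => hm0 (e ▸ hvo)
  obtain ⟨μ, hμ⟩ := exists_avoid ({0, 1} : Finset F)
    (lt_of_le_of_lt Finset.card_le_two (by omega))
  simp only [Finset.mem_insert, Finset.mem_singleton, not_or] at hμ
  set d := dg (oneBut m (Units.mk0 μ hμ.1)) with hd
  have hdK : d ∈ K := hK _ _ rfl (oneBut_ne (Ne.symm hmo) _)
  have h2 := mul_mem (mul_mem hdK hm) (inv_mem hdK)
  rw [conj_tv] at h2
  have h3 := inv_mem hm
  rw [tv_inv] at h3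
  have h5 := mul_mem h2 h3
  refine ⟨m, l, hml, hmo, hlo, s * ((μ - 1) * v m),
    mul_ne_zero hs (mul_ne_zero (sub_ne_zero.mpr hμ.2) hm0), by simp [Pi.single_apply, hml.symm], ?_⟩
  convert h5 using 1
  apply gl_ext
  intro x
  have hl : ∀ y : ι → F, ap d⁻¹ y l = y l := fun y => by
    rw [hd, ap_dg_inv, oneBut_ne (Ne.symm hml), inv_one, Units.val_one, one_mul]
  funext i
  simp only [ap_mul, ap_tv, LinearMap.neg_apply, LinearMap.comp_apply, LinearEquiv.coe_coe,
    apEquiv_apply, ap_add, ap_smul, LinearMap.smul_apply, LinearMap.proj_apply, smul_eq_mul,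
    Pi.add_apply, Pi.smul_apply, hl, hvl]
  by_cases hi : i = m
  · subst hi; simp [hd, ap_dg, oneBut_self]; ring
  · simp [hd, ap_dg, oneBut_ne hi, hi]

omit hn in
/-- A dilation whose centre or functional misses a coordinate used by the other. -/
lemma hasRoot_of_unequal {a : ι → F} {ψ : (ι → F) →ₗ[F] F} (hψa : ψ a = 1) (hao : a o = 0)
    (hψo : ψ e[o] = 0) (hD : DilIn K a ψ) {l : ι}
    (hl : (a l ≠ 0 ∧ ψ e[l] = 0) ∨ (a l = 0 ∧ ψ e[l] ≠ 0)) : HasRoot K o := by
  classical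
  have hlo : l ≠ o := by
    rintro rfl
    rcases hl with ⟨h, -⟩ | ⟨-, h⟩
    exacts [h hao, h hψo]
  obtain ⟨μ, hμ⟩ := exists_avoid ({0, 1} : Finset F)
    (lt_of_le_of_lt Finset.card_le_two (by omega))
  obtain ⟨s, hs⟩ := exists_avoid ({0, -1} : Finset F)
    (lt_of_le_of_lt Finset.card_le_two (by omega))
  simp only [Finset.mem_insert, Finset.mem_singleton, not_or] at hμ hs
  have hs1 : 1 + s ≠ 0 := fun e => hs.2 (by linear_combination e)
  set d := dg (oneBut l (Units.mk0 μ hμ.1)) with hd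
  have hdK : d ∈ K := hK _ _ rfl (oneBut_ne (Ne.symm hlo) _)
  obtain ⟨k, hk, hke⟩ := hD s hs1
  obtain ⟨k', hk', hke'⟩ := dilIn_conj hD hdK s hs1
  have hinv : ∀ x, ap k⁻¹ x = x + (-(s / (1 + s)) * ψ x) • a := by
    intro x
    apply ap_injective k
    rw [ap_ap_inv, hke]
    simp only [map_add, map_smul, hψa, smul_eq_mul]
    match_scalars <;> field_simp <;> ring
  have hprod : k' * k⁻¹ ∈ K := mul_mem hk' (inv_mem hk)
  set ψ' := ψ.comp (apEquiv d⁻¹).toLinearMap with hψ'
  have hdx : ∀ x : ι → F, ap d⁻¹ x = x + ((μ⁻¹ - 1) * x l) • e[l] := by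
    intro x
    funext i
    rw [hd, ap_dg_inv]
    by_cases hi : i = l
    · subst hi; simp [oneBut_self]; ring
    · simp [oneBut_ne hi, hi]
  have hψ'x : ∀ x, ψ' x = ψ x + (μ⁻¹ - 1) * x l * ψ e[l] := fun x => by
    simp [hψ', hdx, smul_eq_mul]
  have hda : ap d a = a + ((μ - 1) * a l) • e[l] := by
    funext i
    rw [hd, ap_dg]
    by_cases hi : i = l
    · subst hi; simp [oneBut_self]; ring
    · simp [oneBut_ne hi, hi]
  rcases hl with ⟨hal, hψl⟩ | ⟨hal, hψl⟩
  · have h0 : ((s / (1 + s) * ((μ - 1) * a l)) • ψ) e[l] = 0 := by simp [hψl]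
    refine hasRoot_of_tv_left hq hK hlo (φ := (s / (1 + s) * ((μ - 1) * a l)) • ψ)
      (by simp [hψo]) (fun h => ?_) h0 ?_
    · have h' := congrArg (fun q : (ι → F) →ₗ[F] F => q a) h
      simp [hψa, hs.1, hs1, sub_ne_zero.mpr hμ.2, hal] at h'
    · convert hprod using 1
      apply gl_ext
      intro x
      simp only [ap_mul, hke', hinv, ap_tv, hψ'x, hda, hψl, LinearMap.smul_apply, map_add,
        map_smul, hψa, smul_eq_mul]
      match_scalars <;> field_simp <;> ring
  · have hc : s * ((μ⁻¹ - 1) * ψ e[l]) ≠ 0 :=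
      mul_ne_zero hs.1 (mul_ne_zero (sub_ne_zero.mpr (inv_ne_one.mpr hμ.2)) hψl)
    have h0 : ((s * ((μ⁻¹ - 1) * ψ e[l])) • coord l) a = 0 := by simp [hal]
    refine hasRoot_of_tv_right hq hK hlo hao (fun h => by simp [h] at hψa) hc h0 ?_
    convert hprod using 1
    apply gl_ext
    intro x
    simp only [ap_mul, hke', hinv, ap_tv, hψ'x, hda, hal, LinearMap.smul_apply, map_add,
      map_smul, hψa, smul_eq_mul, LinearMap.proj_apply, mul_zero, zero_smul, add_zero,
      Pi.add_apply, Pi.smul_apply]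
    match_scalars <;> field_simp <;> ring

omit hn in
lemma hasRoot_of_three {a : ι → F} {ψ : (ι → F) →ₗ[F] F} (hψa : ψ a = 1) (hao : a o = 0)
    (hψo : ψ e[o] = 0) (hD : DilIn K a ψ) {j l r : ι} (hjl : j ≠ l) (hjr : j ≠ r) (hlr : l ≠ r)
    (hj : a j ≠ 0) (hl : a l ≠ 0) (hr : a r ≠ 0) : HasRoot K o := by
  classical
  by_cases hun : ∃ i, a i ≠ 0 ∧ ψ e[i] = 0
  · obtain ⟨i, hi⟩ := hun
    exact hasRoot_of_unequal hq hK hψa hao hψo hD (Or.inl hi)
  push Not at hun
  have hval : ∀ x : ι → F, ψ x = ∑ m, ψ e[m] * x m := by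
    intro x
    conv_lhs => rw [eq_sum_coord ψ]
    simp [LinearMap.sum_apply]
  obtain ⟨d, hd1, hd2, hd3⟩ := exists_rescale hq (c := fun m => ψ e[m] * a m) hjl hjr hlr
    (mul_ne_zero (hun j hj) hj) (mul_ne_zero (hun l hl) hl) (mul_ne_zero (hun r hr) hr)
  have hdo : d o = 1 := hd1 o (fun e => hj (e ▸ hao)) (fun e => hl (e ▸ hao))
    (fun e => hr (e ▸ hao))
  have hdK : dg d ∈ K := hK _ _ rfl hdo
  have hD' := dilIn_conj hD hdK
  set v := ap (dg d) a with hv
  set ψ' := ψ.comp (apEquiv (dg d)⁻¹).toLinearMap with hψ'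
  have hψv : ψ v = 0 := by
    rw [hval, ← hd2]
    exact Finset.sum_congr rfl fun m _ => by rw [hv, ap_dg]; ring
  have hψ'v : ψ' v = 1 := by simp [hψ', hv, ap_inv_ap, hψa]
  have hψ'a : ψ' a ≠ 0 := by
    intro h
    apply hd3
    rw [← h, hψ', LinearMap.comp_apply, LinearEquiv.coe_coe, apEquiv_apply, hval]
    refine Finset.sum_congr rfl fun m _ => ?_
    rw [ap_dg_inv]
    ring
  set K₀ : F := -((((d l)⁻¹ : Fˣ) : F)) with hK₀
  obtain ⟨s, hs⟩ := exists_avoid ({0, -1, -K₀ / ψ' a} : Finset F)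
    (lt_of_le_of_lt Finset.card_le_three (by omega))
  simp only [Finset.mem_insert, Finset.mem_singleton, not_or] at hs
  obtain ⟨hs0, hs1', hs2⟩ := hs
  have hs1 : 1 + s ≠ 0 := fun e => hs1' (by linear_combination e)
  set t := K₀ / (s * ψ' a) with ht
  have ht1 : 1 + t ≠ 0 := by
    intro e
    apply hs2
    rw [ht] at e
    field_simp at e ⊢
    linear_combination e
  obtain ⟨k, hk, hke⟩ := hD t ht1
  obtain ⟨k', hk', hke'⟩ := hD' s hs1
  have hfix : ap k v = v := by simp [hke, hψv]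
  have hfix' : ap k⁻¹ v = v := by conv_lhs => rw [← hfix, ap_inv_ap]
  have hinv' : ∀ x, ap k'⁻¹ x = x + (-(s / (1 + s)) * ψ' x) • v := by
    intro x
    apply ap_injective k'
    rw [ap_ap_inv, hke']
    change _ = _ + (s * ψ' _) • v
    simp only [map_add, map_smul, hψ'v, smul_eq_mul]
    match_scalars <;> field_simp <;> ring
  have hT : tv v (K₀ • ψ) (by simp [hψv]) ∈ K := by
    have hm := mul_mem (mul_mem (mul_mem (inv_mem hk) hk') hk) (inv_mem hk')
    convert hm using 1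
    apply gl_ext
    intro x
    simp only [ap_mul, ap_tv, hinv']
    rw [hke']
    change _ = ap k⁻¹ (_ + (s * ψ' _) • v)
    rw [ap_add, ap_smul, hfix', ap_inv_ap, hke]
    simp only [map_add, map_smul, LinearMap.smul_apply, smul_eq_mul, hψv, hψ'v]
    have hK₀' : K₀ = t * (s * ψ' a) := by rw [ht, div_mul_cancel₀ _ (mul_ne_zero hs0 hψ'a)]
    rw [hK₀']
    match_scalars <;> field_simp <;> ring
  have hD'' := dilIn_conj hD hT
  refine hasRoot_of_unequal hq hK (a := ap (tv v (K₀ • ψ) (by simp [hψv])) a)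
    (ψ := ψ.comp (apEquiv (tv v (K₀ • ψ) (by simp [hψv]))⁻¹).toLinearMap) ?_ ?_ ?_ hD'' (l := l)
    (Or.inr ⟨?_, ?_⟩)
  · rw [LinearMap.comp_apply, LinearEquiv.coe_coe, apEquiv_apply, ap_inv_ap, hψa]
  · simp [hψa, hv, ap_dg, hao]
  · simp [tv_inv, hψo]
  · simp [hψa, hv, ap_dg, hK₀]
  · simpa [tv_inv, hψv] using hun l hl

/-- A dilation whose centre is not a multiple of a basis vector. -/
theorem hasRoot_of_dilIn {a : ι → F} {ψ : (ι → F) →ₗ[F] F} (hψa : ψ a = 1) (hao : a o = 0)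
    (hψo : ψ e[o] = 0) (hD : DilIn K a ψ) {j l : ι} (hjl : j ≠ l) (hj : a j ≠ 0) (hl : a l ≠ 0) :
    HasRoot K o := by
  classical
  by_cases h3 : ∃ r, r ≠ j ∧ r ≠ l ∧ a r ≠ 0
  · obtain ⟨r, hrj, hrl, hr⟩ := h3
    exact hasRoot_of_three hq hK hψa hao hψo hD hjl hrj.symm hrl.symm hj hl hr
  push Not at h3
  by_cases hun : ∃ i, (a i ≠ 0 ∧ ψ e[i] = 0) ∨ (a i = 0 ∧ ψ e[i] ≠ 0)
  · obtain ⟨i, hi⟩ := hun
    exact hasRoot_of_unequal hq hK hψa hao hψo hD hi
  push Not at hun
  have hjo : j ≠ o := fun e => hj (e ▸ hao)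
  have hlo : l ≠ o := fun e => hl (e ▸ hao)
  obtain ⟨r, -, hr⟩ := Finset.exists_mem_notMem_of_card_lt_card (t := (Finset.univ : Finset ι))
    (s := {j, l, o}) (lt_of_le_of_lt Finset.card_le_three (by rw [Finset.card_univ]; omega))
  simp only [Finset.mem_insert, Finset.mem_singleton, not_or] at hr
  obtain ⟨hrj, hrl, hro⟩ := hr
  have har : a r = 0 := h3 r hrj hrl
  set σ : GL ι F := mon (Equiv.swap l r) 1 with hσ
  have hσK : σ ∈ K := hK _ _ (Equiv.swap_apply_of_ne_of_ne (Ne.symm hlo) (Ne.symm hro)) rfl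
  have hD₂ := dilIn_conj hD hσK
  have hσa : ∀ m, ap σ a m = a (Equiv.swap l r m) := fun m => by simp [hσ, ap_mon]
  set c := ψ e[j] * a j with hc
  have hψ₂a : ψ (ap σ⁻¹ a) = c := by
    rw [hσ, mon_inv]
    conv_lhs => rw [eq_sum_coord ψ]
    rw [LinearMap.sum_apply, Finset.sum_eq_single j]
    · simp [ap_mon, hc, Equiv.swap_apply_of_ne_of_ne hjl (Ne.symm hrj)]
    · intro m _ hm
      by_cases hml : m = l
      · subst hml; simp [ap_mon, har]
      · have : ψ e[m] = 0 := by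
          by_contra h0
          exact h0 ((hun m).2 (h3 m hm hml))
        simp [this]
    · simp
  have hc0 : c ≠ 0 := mul_ne_zero (fun e => (hun j).1 hj e) hj
  obtain ⟨s, hs⟩ := exists_avoid ({0, -1, -1 / c} : Finset F)
    (lt_of_le_of_lt Finset.card_le_three (by omega))
  simp only [Finset.mem_insert, Finset.mem_singleton, not_or] at hs
  obtain ⟨hs0, hs1', hs2⟩ := hs
  obtain ⟨k, hk, hke⟩ := hD₂ s (fun e => hs1' (by linear_combination e))
  have hka : ∀ m, ap k a m = a m + s * c * a (Equiv.swap l r m) := by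
    intro m
    rw [hke]
    simp [hψ₂a, hσa]
  refine hasRoot_of_three hq hK (a := ap k a) (ψ := ψ.comp (apEquiv k⁻¹).toLinearMap)
    (by simp [ap_inv_ap, hψa]) ?_ ?_ (dilIn_conj hD hk) hjl (Ne.symm hrj) (Ne.symm hrl) ?_ ?_ ?_
  · simp [hka, hao, Equiv.swap_apply_of_ne_of_ne (Ne.symm hlo) (Ne.symm hro)]
  · have hko : ap k e[o] = (e[o] : ι → F) := by
      rw [hke]
      simp [hσ, mon_inv, ap_mon_single,
        Equiv.swap_apply_of_ne_of_ne (Ne.symm hlo) (Ne.symm hro), hψo]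
    change ψ (ap k⁻¹ e[o]) = 0
    rw [← hko, ap_inv_ap, hψo]
  · rw [hka, Equiv.swap_apply_of_ne_of_ne hjl (Ne.symm hrj)]
    intro e
    apply hs2
    rw [eq_div_iff hc0]
    exact mul_left_cancel₀ hj (by linear_combination e)
  · simpa [hka, har] using hl
  · simp [hka, har, hs0, hc0, hl]

end Dilations

end CfsgLib.Geometric
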