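import Cfsg.Agent.Lib.Geometric.LinearMonomialThm
import Cfsg.Agent.Lib.Geometric.LinearDecompMax

/-!
Maximality of the monomial subgroup of the special linear group in dimensions at least six.
-/

namespace CfsgLib.Geometric

open Matrix

variable {ι : Type} [Fintype ι] [DecidableEq ι] {F : Type*} [Field F]

local notation "e[" j "]" => (Pi.single j (1 : _) : ι → _)

lemma mon_inj {π π' : Equiv.Perm ι} {c c' : ι → Fˣ} (h : mon π c = mon π' c') :
    π = π' ∧ c = c' := by
  have hπ : π = π' := Equiv.ext fun j => by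
    by_contra hne
    have h1 := congrFun (congrArg (fun g => ap g e[j]) h) (π j)
    simp [ap_mon_single, hne] at h1
  refine ⟨hπ, funext fun m => Units.ext ?_⟩
  have h1 := congrFun (congrArg (fun g => ap g e[π.symm m]) h) m
  rw [← hπ] at h1
  simpa [ap_mon_single] using h1

/-- Permutation matrices. -/
def permHom : Equiv.Perm ι →* GL ι F where
  toFun π := mon π 1
  map_one' := mon_one
  map_mul' π ρ := by rw [mon_mul]; congr 1; ext m; simp

/-- The conjugation of `n` permutation matrices. -/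
def twistHom (k : GL ι F) : alternatingGroup ι →* GL ι F :=
  ((MulAut.conj k).toMonoidHom.comp permHom).comp (alternatingGroup ι).subtype

lemma card_le_fixSpace_conj_of_map {r : ℕ} {g d : GL ι F} (Φ : (ι → F) →ₗ[F] (Fin r → F))
    (hd : ∀ x, Φ x = 0 → ap d x = x) :
    Fintype.card ι ≤ Module.finrank F (fixSpace (g⁻¹ * d * g)) + r := by
  let Ψ : (ι → F) →ₗ[F] (Fin r → F) := Φ.comp (apEquiv g).toLinearMap
  have h1 := Ψ.finrank_range_add_finrank_ker
  have h2 : Module.finrank F (LinearMap.range Ψ) ≤ r :=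
    (Submodule.finrank_le _).trans_eq (by simp [Module.finrank_fintype_fun_eq_card])
  have h3 : LinearMap.ker Ψ ≤ fixSpace (g⁻¹ * d * g) := fun x hx => by
    rw [mem_fixSpace, ap_mul, ap_mul, hd (ap g x) (LinearMap.mem_ker.mp hx), ap_inv_ap]
  have h4 := Submodule.finrank_mono h3
  rw [Module.finrank_fintype_fun_eq_card] at h1
  omega

lemma exists_two_zeros_of_eigen {r : ℕ} {π : Equiv.Perm ι} {c : ι → Fˣ}
    (hfix : Fintype.card ι ≤ Module.finrank F (fixSpace (mon π c)) + r)
    (hr : 2 * r + 2 ≤ Fintype.card ι) {y : ι → F} {δ : F} (hy : ap (mon π c) y = δ • y)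
    (hδ : δ ≠ 1) : ∃ a b, a ≠ b ∧ y a = 0 ∧ y b = 0 := by
  classical
  set s := Finset.univ.filter fun m => ap (mon π c) e[m] = (e[m] : ι → F) with hs
  have hcard := card_fixed_mon hfix (s := s) fun m hm => by simp [hs, hm]
  obtain ⟨a, ha, b, hb, hab⟩ := Finset.one_lt_card.mp (show 1 < s.card by omega)
  have hz : ∀ m ∈ s, y m = 0 := by
    intro m hm
    simp only [hs, Finset.mem_filter, Finset.mem_univ, true_and, ap_mon_single, mul_one] at hm
    have hπ : π m = m := by
      by_contra hne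
      have := congrFun hm m
      simp [Ne.symm hne] at this
    rw [hπ] at hm
    have hc : (c m : F) = 1 := by simpa using congrFun hm m
    have h1 := congrFun hy m
    rw [ap_mon, show π.symm m = m from (Equiv.symm_apply_eq π).mpr hπ.symm, hc, one_mul,
      Pi.smul_apply, smul_eq_mul] at h1
    by_contra h0
    exact hδ (mul_right_cancel₀ h0 (h1.symm.trans (one_mul _).symm))
  exact ⟨a, b, hab, hz a ha, hz b hb⟩

section Steps

variable [Fintype F] (hn : 6 ≤ Fintype.card ι)
  (hcase : (2 : F) ≠ 0 ∨ ∃ γ : Fˣ, γ ^ Fintype.card ι ≠ 1)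
variable {M : Subgroup (GL ι F)}
variable (hH : ∀ π c, (mon π c : Matrix ι ι F).det = 1 → mon π c ∈ M)

include hn hH

omit [Fintype F] in
lemma two_zeros_of_fixed {z : GL ι F} {i : ι} {γ : F} (h : ap z e[i] = γ • e[i]) :
    ∃ j a b, a ≠ b ∧ ap z e[j] a = 0 ∧ ap z e[j] b = 0 := by
  obtain ⟨p, -, hp⟩ := Finset.exists_mem_notMem_of_card_lt_card
    (t := (Finset.univ : Finset ι)) (s := {i})
    (by rw [Finset.card_singleton, Finset.card_univ]; omega)
  obtain ⟨q, -, hq'⟩ := Finset.exists_mem_notMem_of_card_lt_card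
    (t := (Finset.univ : Finset ι)) (s := {i, p})
    (lt_of_le_of_lt Finset.card_le_two (by rw [Finset.card_univ]; omega))
  simp only [Finset.mem_insert, Finset.mem_singleton, not_or] at hp hq'
  exact ⟨i, p, q, Ne.symm hq'.2, by simp [h, hp], by simp [h, hq'.1]⟩

omit [Fintype F] in
/-- A column without zeros gives a non-monomial element of `M` fixing a coordinate line. -/
lemma exists_nonmon_of_full {g : GL ι F} (hg : g ∈ M) {i : ι}
    (hfull : ∀ m, ap g e[i] m ≠ 0) : ∃ z ∈ M, ¬ IsMon z ∧ ap z e[i] = e[i] := by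
  classical
  by_contra hc
  push Not at hc
  set v := ap g e[i] with hv
  set D : GL ι F := dg fun m => Units.mk0 (v m) (hfull m) with hD
  set φ : alternatingGroup ι →* GL ι F := twistHom (g⁻¹ * D) with hφ
  have hφe : ∀ π : alternatingGroup ι,
      φ π = g⁻¹ * (D * mon (π : Equiv.Perm ι) 1 * D⁻¹) * g := by
    intro π
    change g⁻¹ * D * mon (π : Equiv.Perm ι) 1 * (g⁻¹ * D)⁻¹ = _
    group
  have hfx : ∀ π, ap (φ π) e[i] = e[i] := by
    intro π
    have h1 : ap D⁻¹ v = 1 := funext fun m => by simp [hD, ap_dg_inv, hfull m]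
    have h2 : ap (mon (π : Equiv.Perm ι) (1 : ι → Fˣ)) (1 : ι → F) = 1 :=
      funext fun m => by simp [ap_mon]
    have h3 : ap D (1 : ι → F) = v := funext fun m => by simp [hD, ap_dg]
    rw [hφe, ap_mul, ap_mul, ap_mul, ap_mul, ← hv, h1, h2, h3, hv, ap_inv_ap]
  have hmon : ∀ π, IsMon (φ π) := by
    intro π
    by_contra hn'
    refine hc (φ π) ?_ hn' (hfx π)
    rw [hφe]
    refine mul_mem (mul_mem (inv_mem hg) ?_) hg
    obtain ⟨ρ, d, hρ⟩ : IsMon (D * mon (π : Equiv.Perm ι) 1 * D⁻¹) :=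
      (IsMon.mul ⟨_, _, rfl⟩ ⟨_, _, rfl⟩).mul (IsMon.inv ⟨_, _, rfl⟩)
    rw [hρ]
    refine hH _ _ ?_
    rw [← hρ, Units.val_mul, Units.val_mul, Matrix.det_units_conj, det_mon,
      Equiv.Perm.mem_alternatingGroup.mp π.2]
    simp
  choose ρ d hρd using hmon
  let ψ : alternatingGroup ι →* Equiv.Perm ι := MonoidHom.mk' ρ fun a b => by
    have h := hρd (a * b)
    rw [map_mul, hρd a, hρd b, mon_mul] at h
    exact (mon_inj h).1.symm
  have hψi : ∀ a, ρ a i = i := by
    intro a
    by_contra hne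
    have := congrFun ((hρd a ▸ hfx a : ap (mon (ρ a) (d a)) e[i] = e[i])) i
    simp [ap_mon_single, Ne.symm hne] at this
  have : IsSimpleGroup (alternatingGroup ι) :=
    alternatingGroup.isSimpleGroup (by rw [Nat.card_eq_fintype_card]; omega)
  rcases (MonoidHom.normal_ker ψ).eq_bot_or_eq_top with hk | hk
  · have hinj : Function.Injective ψ := (MonoidHom.ker_eq_bot_iff ψ).mp hk
    have hst : ∀ a, ∀ x, ρ a x ≠ i ↔ x ≠ i := fun a x => by
      constructor
      · rintro h rfl; exact h (hψi a)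
      · intro h he; exact h ((ρ a).injective (he.trans (hψi a).symm))
    let f : alternatingGroup ι → Equiv.Perm {x // x ≠ i} := fun a =>
      (ρ a).subtypePerm (hst a)
    have hf : Function.Injective f := by
      intro a b hab
      refine hinj (Equiv.ext fun x => ?_)
      by_cases hx : x = i
      · subst hx; exact (hψi a).trans (hψi b).symm
      · have := Equiv.congr_fun hab (⟨x, hx⟩ : {x // x ≠ i})
        exact congrArg Subtype.val this
    have h1 := Fintype.card_le_of_injective f hf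
    have : Nontrivial ι := Fintype.one_lt_card_iff_nontrivial.mp (by omega)
    have h2 := two_mul_card_alternatingGroup (α := ι)
    rw [Fintype.card_perm, Fintype.card_subtype_compl, Fintype.card_subtype_eq] at h1
    rw [Fintype.card_perm] at h2
    obtain ⟨k, hk'⟩ : ∃ k, Fintype.card ι = k + 1 := ⟨Fintype.card ι - 1, by omega⟩
    rw [hk'] at h1 h2
    rw [Nat.factorial_succ] at h2
    simp only [Nat.add_sub_cancel] at h1
    have : 2 < k + 1 := by omega
    nlinarith [Nat.factorial_pos k]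
  · have h1 : ∀ a, ρ a = 1 := fun a => by
      have ha : a ∈ ψ.ker := by rw [hk]; exact Subgroup.mem_top a
      exact ha
    have hcomm : IsMulCommutative (alternatingGroup ι) := ⟨⟨fun a b => by
      have hinjφ : Function.Injective φ := by
        intro x y hxy
        have e1 : mon (x : Equiv.Perm ι) (1 : ι → Fˣ) = mon (y : Equiv.Perm ι) 1 :=
          (MulAut.conj (g⁻¹ * D)).injective hxy
        exact Subtype.ext (mon_inj e1).1
      apply hinjφ
      rw [map_mul, map_mul, hρd a, hρd b, h1 a, h1 b, mon_mul, mon_mul]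
      congr 1
      funext m
      exact mul_comm _ _⟩⟩
    have := alternatingGroup.isMulCommutative_iff_card_le_three.mp hcomm
    rw [Nat.card_eq_fintype_card] at this
    omega

include hcase in
/-- Some non-monomial element of `M` has a column with two zeros. -/
lemma exists_two_zeros_small {g₀ : GL ι F} (hg₀ : g₀ ∈ M) (hg₀n : ¬ IsMon g₀) :
    ∃ g ∈ M, ¬ IsMon g ∧ ∃ j a b, a ≠ b ∧ ap g e[j] a = 0 ∧ ap g e[j] b = 0 := by
  classical
  obtain ⟨i₀⟩ : Nonempty ι := Fintype.card_pos_iff.mp (by omega)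
  by_cases hfull : ∀ m, ap g₀ e[i₀] m ≠ 0
  · obtain ⟨z, hz, hzn, he⟩ := exists_nonmon_of_full hn hH hg₀ hfull
    exact ⟨z, hz, hzn, two_zeros_of_fixed hn hH (γ := 1) (by rw [one_smul]; exact he)⟩
  push Not at hfull
  obtain ⟨l₀, hl₀⟩ := hfull
  set v := ap g₀ e[i₀] with hv
  by_cases htwo : ∃ l, l ≠ l₀ ∧ v l = 0
  · obtain ⟨l, hl, hl'⟩ := htwo
    exact ⟨g₀, hg₀, hg₀n, i₀, l, l₀, hl, hl', hl₀⟩
  push Not at htwo
  have hin : ¬ IsMon g₀⁻¹ := fun h => hg₀n (by simpa using h.inv)
  have heig : ∀ (w : GL ι F) (δ : F), ap w e[l₀] = δ • e[l₀] →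
      ap (g₀⁻¹ * w * g₀) (ap g₀⁻¹ e[l₀]) = δ • ap g₀⁻¹ e[l₀] := by
    intro w δ h
    rw [ap_mul, ap_mul, ap_ap_inv, h, ap_smul]
  rcases hcase with h2 | ⟨γ, hγ⟩
  · obtain ⟨a, -, ha⟩ := Finset.exists_mem_notMem_of_card_lt_card
      (t := (Finset.univ : Finset ι)) (s := {l₀})
      (by rw [Finset.card_singleton, Finset.card_univ]; omega)
    obtain ⟨b, -, hb⟩ := Finset.exists_mem_notMem_of_card_lt_card
      (t := (Finset.univ : Finset ι)) (s := {l₀, a})
      (lt_of_le_of_lt Finset.card_le_two (by rw [Finset.card_univ]; omega))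
    simp only [Finset.mem_insert, Finset.mem_singleton, not_or] at ha hb
    have hva := htwo a ha
    have hvb := htwo b hb.1
    set π : Equiv.Perm ι := Equiv.swap a b with hπ
    set u : Fˣ := Units.mk0 (v a / v b) (div_ne_zero hva hvb) with hu
    set c : ι → Fˣ := fun m => oneBut a u m * oneBut b u⁻¹ m * oneBut l₀ (-1) m with hc
    set w := mon π c with hw
    have hca : (c a : F) = v a / v b := by
      simp [hc, oneBut_self, oneBut_ne (Ne.symm hb.2), oneBut_ne ha, hu]
    have hcb : (c b : F) = v b / v a := by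
      simp [hc, oneBut_self, oneBut_ne hb.2, oneBut_ne hb.1, hu]
    have hcl : (c l₀ : F) = -1 := by
      simp [hc, oneBut_self, oneBut_ne (Ne.symm ha), oneBut_ne (Ne.symm hb.1)]
    have hco : ∀ m, m ≠ a → m ≠ b → m ≠ l₀ → (c m : F) = 1 := fun m h1 h2 h3 => by
      simp [hc, oneBut_ne h1, oneBut_ne h2, oneBut_ne h3]
    have hwM : w ∈ M := hH _ _ (by
      rw [det_mon, hπ, Equiv.Perm.sign_swap (Ne.symm hb.2)]
      simp only [hc, Units.val_mul, Finset.prod_mul_distrib, prod_oneBut]
      simp [hu, hva, hvb])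
    have hwx : ∀ x : ι → F, x l₀ = 0 → v b * x a = v a * x b → ap w x = x := by
      intro x h0 hab
      funext m
      rw [hw, ap_mon, hπ, Equiv.symm_swap]
      by_cases h1 : m = a
      · subst h1
        rw [hca, Equiv.swap_apply_left, div_mul_eq_mul_div, div_eq_iff hvb]
        linear_combination -hab
      by_cases h3 : m = b
      · subst h3
        rw [hcb, Equiv.swap_apply_right, div_mul_eq_mul_div, div_eq_iff hva]
        linear_combination hab
      rw [Equiv.swap_apply_of_ne_of_ne h1 h3]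
      by_cases h4 : m = l₀
      · subst h4; rw [h0, mul_zero]
      · rw [hco m h1 h3 h4, one_mul]
    have hwv : ap w v = v := hwx v hl₀ (mul_comm _ _)
    have hz : g₀⁻¹ * w * g₀ ∈ M := mul_mem (mul_mem (inv_mem hg₀) hwM) hg₀
    by_cases hzm : IsMon (g₀⁻¹ * w * g₀)
    · obtain ⟨π', c', hzc⟩ := hzm
      let Φ : (ι → F) →ₗ[F] (Fin 2 → F) :=
        LinearMap.pi ![coord l₀, v b • coord a - v a • coord b]
      have hfix := card_le_fixSpace_conj_of_map (g := g₀) (d := w) Φ fun x hx => by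
        refine hwx x (by simpa [Φ] using congrFun hx 0) (sub_eq_zero.mp ?_)
        simpa [Φ] using congrFun hx 1
      rw [hzc] at hfix
      have hy := heig w (-1) (by
        rw [hw, ap_mon_single, hπ, Equiv.swap_apply_of_ne_of_ne (Ne.symm ha) (Ne.symm hb.1), hcl,
          mul_one, ← Pi.single_smul', smul_eq_mul, mul_one])
      rw [hzc] at hy
      obtain ⟨p, q, hpq, hp, hq'⟩ := exists_two_zeros_of_eigen hfix (by omega) hy (fun e => h2 (by
        linear_combination -e))
      exact ⟨g₀⁻¹, inv_mem hg₀, hin, l₀, p, q, hpq, hp, hq'⟩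
    · exact ⟨_, hz, hzm, two_zeros_of_fixed hn hH (i := i₀) (γ := 1) (by
        rw [ap_mul, ap_mul, ← hv, hwv, hv, ap_inv_ap, one_smul])⟩
  · set n := Fintype.card ι with hndef
    set δ : Fˣ := (γ ^ n)⁻¹ with hδ
    set c : ι → Fˣ := fun m => γ * oneBut l₀ δ m with hc
    set w := dg c with hw
    have hwM : w ∈ M := hH _ _ (by
      rw [det_mon]
      simp only [hc, Units.val_mul, Finset.prod_mul_distrib, prod_oneBut, Finset.prod_const,
        Finset.card_univ]
      simp [hδ, ← hndef])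
    have hz : g₀⁻¹ * w * g₀ ∈ M := mul_mem (mul_mem (inv_mem hg₀) hwM) hg₀
    have hwv : ap w v = (γ : F) • v := funext fun m => by
      rw [hw, ap_dg, Pi.smul_apply, smul_eq_mul]
      by_cases hm : m = l₀
      · subst hm; simp [hl₀]
      · simp [hc, oneBut_ne hm]
    by_cases hzm : IsMon (g₀⁻¹ * w * g₀)
    · obtain ⟨π', c', hzc⟩ := hzm
      have hz' : g₀⁻¹ * dg (oneBut l₀ δ) * g₀ = mon π' (fun m => γ⁻¹ * c' m) := by
        have hs : dg (oneBut l₀ δ) = dg (fun _ : ι => γ⁻¹) * w := by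
          rw [hw, dg, dg, mon_mul, mul_one]; congr 1; funext m; simp [hc]; rfl
        have hsc : g₀⁻¹ * dg (fun _ : ι => γ⁻¹) = dg (fun _ : ι => γ⁻¹) * g₀⁻¹ := by
          refine gl_ext fun x => ?_
          have : ∀ y : ι → F, ap (dg fun _ : ι => γ⁻¹) y = ((γ⁻¹ : Fˣ) : F) • y := fun y =>
            funext fun m => by rw [ap_dg, Pi.smul_apply, smul_eq_mul]
          rw [ap_mul, ap_mul, this, this, ap_smul]
        rw [hs, ← mul_assoc, hsc, mul_assoc, mul_assoc, ← mul_assoc g₀⁻¹, hzc, dg, mon_mul,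
          one_mul]
        rfl
      have hfix := card_le_fixSpace_conj_of_map (g := g₀) (d := dg (oneBut l₀ δ))
        (LinearMap.pi fun _ : Fin 1 => coord l₀) fun x hx => funext fun m => by
          rw [ap_dg]
          by_cases hm : m = l₀
          · subst hm
            have : x m = 0 := by simpa using congrFun hx 0
            rw [this, mul_zero]
          · rw [oneBut_ne hm, Units.val_one, one_mul]
      rw [hz'] at hfix
      have hy := heig (dg (oneBut l₀ δ)) (δ : F) (by
        rw [ap_dg_single, oneBut_self, mul_one, ← Pi.single_smul', smul_eq_mul, mul_one])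
      rw [hz'] at hy
      obtain ⟨p, q, hpq, hp, hq'⟩ := exists_two_zeros_of_eigen hfix (by omega) hy (fun e => hγ (by
        have : δ = 1 := Units.ext e
        rwa [hδ, inv_eq_one] at this))
      exact ⟨g₀⁻¹, inv_mem hg₀, hin, l₀, p, q, hpq, hp, hq'⟩
    · exact ⟨_, hz, hzm, two_zeros_of_fixed hn hH (i := i₀) (γ := γ) (by
        rw [ap_mul, ap_mul, ← hv, hwv, ap_smul, hv, ap_inv_ap])⟩

variable (hq : 5 ≤ Fintype.card F)
include hq hcase

/-- Some non-monomial element of `M` fixes a coordinate line. -/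
lemma exists_fixed_line_small {g₀ : GL ι F} (hg₀ : g₀ ∈ M) (hg₀n : ¬ IsMon g₀) :
    ∃ z ∈ M, ¬ IsMon z ∧ ∃ o, ∃ γ : F, ap z e[o] = γ • e[o] := by
  classical
  by_contra hc
  have hN : ∀ z ∈ M, ¬ IsMon z → ∀ o (γ : F), ap z e[o] ≠ γ • e[o] :=
    fun z hz hzn o γ h => hc ⟨z, hz, hzn, o, γ, h⟩
  -- no column is a multiple of a basis vector
  have hN' : ∀ z ∈ M, ¬ IsMon z → ∀ o p, ¬ ∀ m, m ≠ p → ap z e[o] m = (0 : F) := by
    intro z hz hzn o p h
    by_cases hop : p = o
    · subst hop
      exact hN z hz hzn p (ap z e[p] p) (funext fun m => by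
        by_cases hm : m = p
        · subst hm; simp
        · simp [hm, h m hm])
    obtain ⟨r, -, hr⟩ := Finset.exists_mem_notMem_of_card_lt_card (t := (Finset.univ : Finset ι))
      (s := {o, p}) (lt_of_le_of_lt Finset.card_le_two (by rw [Finset.card_univ]; omega))
    simp only [Finset.mem_insert, Finset.mem_singleton, not_or] at hr
    set w : GL ι F := mon (Equiv.swap o p) (oneBut r (-1)) with hw
    have hwM : w ∈ M := hH _ _ (by
      rw [det_mon, prod_oneBut, Equiv.Perm.sign_swap (Ne.symm hop)]; simp)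
    refine hN (w * z) (mul_mem hwM hz) (fun hm => hzn ?_) o (ap (w * z) e[o] o) (funext fun m => ?_)
    · have := (show IsMon w⁻¹ from IsMon.inv ⟨_, _, hw⟩).mul hm
      rwa [inv_mul_cancel_left] at this
    by_cases hm : m = o
    · subst hm; simp
    · rw [ap_mul, hw, ap_mon, Pi.smul_apply, Pi.single_eq_of_ne hm, smul_zero]
      rw [h _ (by
        intro e
        rw [Equiv.symm_swap] at e
        have := congrArg (Equiv.swap o p) e
        rw [Equiv.swap_apply_self, Equiv.swap_apply_right] at this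
        exact hm this), mul_zero]
  obtain ⟨g, hg, hgn, j, a, b, hab, ha, hb⟩ := exists_two_zeros_small hn hcase hH hg₀ hg₀n
  obtain ⟨p, q, hp, -⟩ := exists_pair hq hH hg hN hab ha hb
  have hin : ¬ IsMon g⁻¹ := fun h => hgn (by simpa using h.inv)
  obtain ⟨S, hS, hS3⟩ := Finset.exists_subset_card_eq (s := ({p, q}ᶜ : Finset ι)) (n := 3) (by
    have := Finset.card_le_two (a := p) (b := q)
    rw [Finset.card_compl]; omega)
  obtain ⟨l₁, l₂, l₃, h12, h13, h23, hS'⟩ := Finset.card_eq_three.mp hS3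
  have hz : ∀ l ∈ S, ap g⁻¹ e[a] l = (0 : F) := fun l hl => by
    have := hS hl
    simp only [Finset.mem_compl, Finset.mem_insert, Finset.mem_singleton, not_or] at this
    exact hp l this.1 this.2
  subst hS'
  obtain ⟨p₁, q₁, hA1, hA2⟩ := exists_pair hq hH (inv_mem hg) hN h12 (hz l₁ (by simp))
    (hz l₂ (by simp))
  obtain ⟨p₂, q₂, hA1', hA3⟩ := exists_pair hq hH (inv_mem hg) hN h13 (hz l₁ (by simp))
    (hz l₃ (by simp))
  rw [inv_inv] at hA1 hA2 hA1' hA3
  -- the first column lies in both planes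
  by_cases hsame : (p₂ = p₁ ∨ p₂ = q₁) ∧ (q₂ = p₁ ∨ q₂ = q₁)
  · have hA3' : ∀ m, m ≠ p₁ → m ≠ q₁ → ap g e[l₃] m = (0 : F) := fun m h1 h2 => hA3 m
      (by rcases hsame.1 with e | e <;> rw [e] <;> assumption)
      (by rcases hsame.2 with e | e <;> rw [e] <;> assumption)
    let Ψ : (Fin 3 → F) →ₗ[F] (Fin 2 → F) :=
      LinearMap.pi fun i => ∑ l, ap g e[![l₁, l₂, l₃] l] (![p₁, q₁] i) • LinearMap.proj l
    obtain ⟨δ, hδ, hδ0⟩ := Submodule.exists_mem_ne_zero_of_ne_bot
      (LinearMap.ker_ne_bot_of_finrank_lt (f := Ψ) (by simp))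
    have h0 : ap g (∑ l, δ l • e[![l₁, l₂, l₃] l]) = 0 := by
      rw [← apEquiv_apply, map_sum]
      funext m
      simp only [map_smul, apEquiv_apply, Finset.sum_apply, Pi.smul_apply, smul_eq_mul,
        Pi.zero_apply]
      have hrow : ∀ i : Fin 2, ∑ l, δ l * ap g e[![l₁, l₂, l₃] l] (![p₁, q₁] i) = 0 := by
        intro i
        have := congrFun (LinearMap.mem_ker.mp hδ) i
        simp only [Ψ, LinearMap.pi_apply, LinearMap.sum_apply, LinearMap.smul_apply,
          LinearMap.proj_apply, smul_eq_mul, Pi.zero_apply] at this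
        rw [← this]
        exact Finset.sum_congr rfl fun l _ => mul_comm _ _
      by_cases h1 : m = p₁
      · subst h1; simpa using hrow 0
      by_cases h2 : m = q₁
      · subst h2; simpa using hrow 1
      · simp [Fin.sum_univ_three, hA1 m h1 h2, hA2 m h1 h2, hA3' m h1 h2]
    have h1 := ap_injective g (h0.trans (ap_zero g).symm)
    refine hδ0 (funext fun l => ?_)
    have := congrFun h1 (![l₁, l₂, l₃] l)
    simp only [Fin.sum_univ_three] at this
    fin_cases l <;>
      simp [h12, h13, h23, h12.symm, h13.symm, h23.symm] at this ⊢ <;> assumption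
  · rw [not_and_or, not_or, not_or] at hsame
    rcases hsame with ⟨h1, h2⟩ | ⟨h1, h2⟩
    · exact hN' g hg hgn l₁ q₂ fun m hm => by
        by_cases e : m = p₂
        · subst e; exact hA1 _ h1 h2
        · exact hA1' m e hm
    · exact hN' g hg hgn l₁ p₂ fun m hm => by
        by_cases e : m = q₂
        · subst e; exact hA1 _ h1 h2
        · exact hA1' m hm e

end Steps

/-- The monomial subgroup of the special linear group is maximal, in dimension at least six. -/
theorem specialLinear_le_of_monomial_small [Fintype F] (hq : 5 ≤ Fintype.card F)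
    (hn : 6 ≤ Fintype.card ι) (hcase : (2 : F) ≠ 0 ∨ ∃ γ : Fˣ, γ ^ Fintype.card ι ≠ 1)
    {M : Subgroup (GL ι F)} (hM : M ≤ Cfsg.Geo.specialLinear ι F)
    (hH : ∀ π c, (mon π c : Matrix ι ι F).det = 1 → mon π c ∈ M) {g : GL ι F} (hg : g ∈ M)
    (hgn : ¬ IsMon g) : Cfsg.Geo.specialLinear ι F ≤ M := by
  obtain ⟨z, hz, hzn, o, γ, h⟩ := exists_fixed_line_small hn hcase hH hq hg hgn
  exact specialLinear_le_of_fixed_line hq (by omega) hM hH hz hzn h

namespace Decomp

variable [Fintype F] {t k : ℕ} {D : Fin t → Submodule F (ι → F)}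
  (hD : Cfsg.Geo.IsMDecomposition k D)
include hD

/-- Decompositions into lines, given the statement for the monomial group. -/
theorem decompStab_isMaximalIn_of_one_of (hk : k = 1)
    (hgen : ∀ M : Subgroup (GL ι F), M ≤ Cfsg.Geo.specialLinear ι F →
      (∀ π c, (mon π c : Matrix ι ι F).det = 1 → mon π c ∈ M) →
      ∀ g ∈ M, ¬ IsMon g → Cfsg.Geo.specialLinear ι F ≤ M) : Cfsg.Geo.IsMaximalIn (Cfsg.Geo.specialLinear ι F)
      (Cfsg.Geo.decompositionStabilizer D ⊓ Cfsg.Geo.specialLinear ι F) := by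
  classical
  choose U hU hU0 using exists_ne_zero_mem hD
  choose κ hκ hκU using exists_coord hD hk hU hU0
  let Θ : (Fin t → F) →ₗ[F] (ι → F) := Fintype.linearCombination F U
  have hΘ : ∀ c, Θ c = ∑ l, c l • U l := Fintype.linearCombination_apply (R := F) (v := U)
  have hcomp : ∀ c l, comp hD l (Θ c) = c l • U l := fun c l => by
    rw [hΘ]; exact comp_sum_of_mem hD (fun l => c l • U l) (fun r => (D r).smul_mem _ (hU r)) l
  have hbij : Function.Bijective Θ := by
    refine ⟨fun c c' h => funext fun l => ?_, fun x => ⟨fun l => κ l x, ?_⟩⟩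
    · have := (hcomp c l).symm.trans ((congrArg (comp hD l) h).trans (hcomp c' l))
      exact smul_left_injective F (hU0 l) this
    · refine ext_comp hD fun l => ?_
      rw [hcomp, hκ]
  let Θe := LinearEquiv.ofBijective Θ hbij
  have hcard : Fintype.card ι = Fintype.card (Fin t) := by
    simpa [Module.finrank_fintype_fun_eq_card] using Θe.finrank_eq.symm
  let e : ι ≃ Fin t := Fintype.equivOfCardEq hcard
  set P := ofEquiv ((LinearEquiv.funCongrLeft F F e.symm).trans Θe) with hP
  have hPe : ∀ j a, ap P (Pi.single j a) = a • U (e j) := by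
    intro j a
    rw [hP, ap_ofEquiv, LinearEquiv.trans_apply]
    change Θ _ = _
    rw [hΘ, Finset.sum_eq_single (e j)]
    · simp [LinearEquiv.funCongrLeft_apply]
    · intro l _ hl
      have : e.symm l ≠ j := fun h => hl (by rw [← h, Equiv.apply_symm_apply])
      simp [LinearEquiv.funCongrLeft_apply, this]
    · simp
  have hmem : ∀ l x, x ∈ D l → ∃ a, x = ap P (Pi.single (e.symm l) a) := by
    intro l x hx
    refine ⟨κ l x, ?_⟩
    rw [hPe, Equiv.apply_symm_apply, ← hκ, comp_of_mem hD hx, if_pos rfl]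
  refine ⟨stab_lt hD, fun M hHM hMS => ?_⟩
  by_cases hM : M ≤ Cfsg.Geo.decompositionStabilizer D
  · exact Or.inl (le_antisymm (le_inf hM hMS) hHM)
  refine Or.inr (le_antisymm hMS fun s hs => ?_)
  obtain ⟨g, hgM, hg⟩ := SetLike.not_le_iff_exists.mp hM
  have hdet : ∀ x : GL ι F, (P * x * P⁻¹ : GL ι F).val.det = (x : Matrix ι ι F).det := fun x => by
    rw [Units.val_mul, Units.val_mul, Matrix.det_units_conj]
  let M' : Subgroup (GL ι F) := M.comap (MulAut.conj P).toMonoidHom
  have hM' : ∀ x, x ∈ M' ↔ P * x * P⁻¹ ∈ M := fun x => Iff.rfl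
  have hMS' : M' ≤ Cfsg.Geo.specialLinear ι F := fun x hx => by
    rw [mem_specialLinear_iff, ← hdet]
    exact (mem_specialLinear_iff _).mp (hMS ((hM' x).mp hx))
  have hmon : ∀ π c, (mon π c : Matrix ι ι F).det = 1 → mon π c ∈ M' := by
    intro π c h1
    refine (hM' _).mpr (hHM ⟨mem_decompStab_of_mapsTo hD (fun l => e (π (e.symm l)))
      fun l x hx => ?_, (mem_specialLinear_iff _).mpr ((hdet _).trans h1)⟩)
    obtain ⟨a, rfl⟩ := hmem l x hx
    rw [ap_mul, ap_mul, ap_inv_ap, ap_mon_single, hPe]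
    exact Submodule.smul_mem _ _ (hU _)
  have hng : ¬ IsMon (P⁻¹ * g * P) := by
    rintro ⟨π, c, hπ⟩
    refine hg (mem_decompStab_of_mapsTo hD (fun l => e (π (e.symm l))) fun l x hx => ?_)
    obtain ⟨a, rfl⟩ := hmem l x hx
    have : g * P = P * mon π c := by rw [← hπ]; group
    rw [← ap_mul, this, ap_mul, ap_mon_single, hPe]
    exact Submodule.smul_mem _ _ (hU _)
  have h := hgen M' hMS' hmon _ ((hM' _).mpr (by simpa [mul_assoc] using hgM)) hng
  have hs' : P⁻¹ * s * P ∈ Cfsg.Geo.specialLinear ι F := by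
    rw [mem_specialLinear_iff, ← hdet]
    simpa [mul_assoc] using (mem_specialLinear_iff _).mp hs
  simpa [hM', mul_assoc] using h hs'

/-- Decompositions into lines. -/
theorem decompStab_isMaximalIn_of_one_small (hk : k = 1) (hq : 5 ≤ Fintype.card F)
    (hn : 6 ≤ Fintype.card ι)
    (hcase : (2 : F) ≠ 0 ∨ ∃ γ : Fˣ, γ ^ Fintype.card ι ≠ 1) : Cfsg.Geo.IsMaximalIn (Cfsg.Geo.specialLinear ι F)
      (Cfsg.Geo.decompositionStabilizer D ⊓ Cfsg.Geo.specialLinear ι F) :=
  decompStab_isMaximalIn_of_one_of hD hk fun _ hMS hmon _ hg hgn =>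
    specialLinear_le_of_monomial_small hq hn hcase hMS hmon hg hgn

end Decomp

end CfsgLib.Geometric
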