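import Cfsg.Agent.Lib.SL2.Dickson.Normalise
import Cfsg.Agent.Lib.SL2.Dickson.Generation

/-!
Subgroups of `SL₂` containing a root subgroup over a proper subspace and an opposite element.
-/

set_option autoImplicit false

open Matrix
open scoped MatrixGroups
open CfsgLib.ClassicalLinear (upS upS_coe upS_add upS_injective)
open CfsgLib.SL2.Dickson (lowS lowS_coe transl mem_transl mem_borelPart)

namespace CfsgLib.Geometric

variable {F : Type*} [Field F] [Finite F]

/-- A subfield of prime degree: upper translations over an `F₀`-subspace of dimension at least two,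
other than the whole field, together with a lower element generate further upper translations. -/
theorem exists_upS_notMem {F₀ : Subfield F} {r : ℕ} (hr : r.Prime)
    (hcard : Nat.card F = Nat.card F₀ ^ r) {G : Subgroup SL(2, F)} (V : Submodule F₀ F)
    (hV : V ≠ ⊤) {a b : F} (ha : a ∈ V) (hb : b ∈ V)
    (hab : ∀ p q : F₀, (p : F) * a + (q : F) * b = 0 → p = 0 ∧ q = 0)
    (hVG : ∀ x ∈ V, upS x ∈ G) {β : F} (hβ : β ≠ 0) (hl : lowS β ∈ G) :
    ∃ x, x ∉ V ∧ upS x ∈ G := by
  classical
  by_contra hc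
  push Not at hc
  have hG : ∀ x, upS x ∈ G → x ∈ V := fun x hx => by_contra fun h => hc x h hx
  set G₁ := G ⊔ Subgroup.center SL(2, F)
  have hle : G ≤ G₁ := le_sup_left
  have hq : 2 ≤ Nat.card F₀ := Finite.one_lt_card
  have hA : ∀ x, x ∈ transl G₁ ↔ x ∈ V := by
    refine fun x => ⟨fun hx => ?_, fun hx => mem_transl.2 (hle (hVG x hx))⟩
    obtain ⟨g, hg, z, hz, he⟩ := Subgroup.mem_sup_of_normal_right.1 (mem_transl.1 hx)
    rcases (CfsgLib.SL2.mem_center_iff z).1 hz with rfl | rfl
    · rw [mul_one] at he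
      exact hG x (he ▸ hg)
    · by_cases h2 : (2 : F) = 0
      · have h1 : (-1 : SL(2, F)) = 1 := by
          have e : (-1 : F) = 1 := by linear_combination -h2
          apply Subtype.ext
          ext i j
          simp [Matrix.one_apply, apply_ite, e]
        rw [h1, mul_one] at he
        exact hG x (he ▸ hg)
      · have h2x : x + x ∈ V := hG _ (by
          rw [upS_add, ← he]
          simpa using mul_mem hg hg)
        have := V.smul_mem (2 : F₀)⁻¹ h2x
        rw [Subfield.smul_def, Subfield.coe_inv] at this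
        rwa [smul_eq_mul, show ((2 : F₀) : F) = 2 from map_ofNat F₀.subtype 2,
          show (2 : F)⁻¹ * (x + x) = x by field_simp; ring] at this
  have hAV : Nat.card (transl G₁) = Nat.card V := Nat.card_congr (Equiv.subtypeEquivRight hA)
  have hbig : Nat.card F₀ ^ 2 ≤ Nat.card V := by
    rw [sq, ← Nat.card_prod]
    refine Nat.card_le_card_of_injective (fun pq : F₀ × F₀ =>
      (⟨pq.1 • a + pq.2 • b, V.add_mem (V.smul_mem _ ha) (V.smul_mem _ hb)⟩ : V)) ?_
    rintro ⟨p, q⟩ ⟨p', q'⟩ h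
    have h' : (p : F) * a + (q : F) * b = (p' : F) * a + (q' : F) * b := congrArg Subtype.val h
    obtain ⟨h1, h2⟩ := hab (p - p') (q - q') (by push_cast; linear_combination h')
    rw [sub_eq_zero.1 h1, sub_eq_zero.1 h2]
  have h4 : 4 ≤ Nat.card (transl G₁) := by
    rw [hAV]; exact le_trans (Nat.pow_le_pow_left hq 2) hbig
  have ha0 : a ≠ 0 := fun h => by
    have := (hab 1 0 (by simp [h])).1
    exact one_ne_zero this
  rcases CfsgLib.SL2.Dickson.structure_modular (G := G₁) le_sup_right (hle (hVG a ha)) ha0 with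
    h | ⟨h2, -⟩ | ⟨h3, -⟩ | ⟨h3, -⟩ | ⟨k, hk2, hkq, hrg, hcG, hidx, d, hd, htd, -, hcd, hnd⟩
  · have := (h ▸ Subgroup.mem_top _ : (⟨lowS β, hle hl⟩ : G₁) ∈ CfsgLib.SL2.Dickson.borelPart G₁)
    rw [mem_borelPart] at this
    simp [lowS_coe, hβ] at this
  · omega
  · omega
  · omega
  · obtain ⟨R, -, hR, -⟩ :=
      CfsgLib.SL2.Dickson.structure_subfield le_sup_right hk2 hkq hrg hcG hidx hd htd hcd hnd
    rw [hAV] at hR
    have hVm := Module.natCard_eq_pow_finrank (K := F₀) (V := V)
    set m := Module.finrank F₀ V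
    have hF := Module.natCard_eq_pow_finrank (K := R) (V := F)
    rw [hcard, hR, hVm, ← pow_mul] at hF
    have hrm := Nat.pow_right_injective hq hF
    have hm : 2 ≤ m := (Nat.pow_le_pow_iff_right hq).1 (hVm ▸ hbig)
    rcases (Nat.dvd_prime hr).1 (Dvd.intro _ hrm.symm) with h | h
    · omega
    · apply hV
      have hVF : Nat.card V = Nat.card F := by rw [hVm, h, hcard]
      exact Submodule.toAddSubgroup_injective (AddSubgroup.eq_top_of_card_eq _ hVF)

/-- Upper translations over an `F₀`-subspace of dimension at least two and a lower element give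
an upper triangular element whose trace is not in `F₀`. -/
theorem exists_borel_trace_notMem {F₀ : Subfield F} {r : ℕ} (hr : r.Prime)
    (hcard : Nat.card F = Nat.card F₀ ^ r) (hF4 : Nat.card F ≠ 4) {G : Subgroup SL(2, F)}
    (V : Submodule F₀ F)
    {a b : F} (ha : a ∈ V) (hb : b ∈ V)
    (hab : ∀ p q : F₀, (p : F) * a + (q : F) * b = 0 → p = 0 ∧ q = 0)
    (hVG : ∀ x ∈ V, upS x ∈ G) {β : F} (hβ : β ≠ 0) (hl : lowS β ∈ G) :
    ∃ g ∈ G, (g : Matrix (Fin 2) (Fin 2) F) 1 0 = 0 ∧
      (g : Matrix (Fin 2) (Fin 2) F) 0 0 + (g : Matrix (Fin 2) (Fin 2) F) 1 1 ∉ F₀ := by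
  classical
  set G₁ := G ⊔ Subgroup.center SL(2, F)
  have hle : G ≤ G₁ := le_sup_left
  set q := Nat.card F₀ with hqdef
  have hq : 2 ≤ q := Finite.one_lt_card
  have hbig : q ^ 2 ≤ Nat.card (transl G₁) := by
    rw [sq, hqdef, ← Nat.card_prod]
    refine Nat.card_le_card_of_injective (fun pq : F₀ × F₀ =>
      (⟨(pq.1 : F) * a + (pq.2 : F) * b, mem_transl.2 (hle (hVG _
        (V.add_mem (V.smul_mem pq.1 ha) (V.smul_mem pq.2 hb))))⟩ : transl G₁)) ?_
    rintro ⟨p, s⟩ ⟨p', s'⟩ h
    have h' : (p : F) * a + (s : F) * b = (p' : F) * a + (s' : F) * b := congrArg Subtype.val h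
    obtain ⟨h1, h2⟩ := hab (p - p') (s - s') (by push_cast; linear_combination h')
    rw [sub_eq_zero.1 h1, sub_eq_zero.1 h2]
  have h4 : 4 ≤ Nat.card (transl G₁) := le_trans (Nat.pow_le_pow_left hq 2) hbig
  have ha0 : a ≠ 0 := fun h => by
    have := (hab 1 0 (by simp [h])).1
    exact one_ne_zero this
  rcases CfsgLib.SL2.Dickson.structure_modular (G := G₁) le_sup_right (hle (hVG a ha)) ha0 with
    h | ⟨h2, -⟩ | ⟨h3, -⟩ | ⟨h3, -⟩ | ⟨k, hk2, hkq, hrg, hcG, hidx, d, hd, htd, -, hcd, hnd⟩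
  · have := (h ▸ Subgroup.mem_top _ : (⟨lowS β, hle hl⟩ : G₁) ∈ CfsgLib.SL2.Dickson.borelPart G₁)
    rw [mem_borelPart] at this
    simp [lowS_coe, hβ] at this
  · omega
  · omega
  · omega
  by_contra hc
  push Not at hc
  obtain ⟨p, hp, hchar, -⟩ := CfsgLib.SL2.exists_charP (F := F)
  have := Fact.mk hp
  have heven : (2 : F) = 0 → 2 ∣ Nat.card (transl G₁) := by
    intro h
    obtain ⟨x, hx⟩ : ∃ x : transl G₁, (x : F) = a :=
      ⟨⟨a, mem_transl.2 (hle (hVG a ha))⟩, rfl⟩
    have hx0 : x ≠ 0 := fun h => ha0 (by rw [← hx, h]; rfl)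
    have : Fact (Nat.Prime 2) := ⟨Nat.prime_two⟩
    have : addOrderOf x = 2 := addOrderOf_eq_prime (Subtype.ext (by
      rw [two_nsmul, AddSubgroup.coe_add, ← two_mul, h, zero_mul]; rfl)) hx0
    exact this ▸ addOrderOf_dvd_natCard x
  -- the diagonal characters are many
  have hlarge : q ^ 2 - 1 ≤ Nat.card (CfsgLib.SL2.Dickson.borelChar G₁).range := by
    rw [hrg]
    rcases hkq with e | e
    · calc q ^ 2 - 1 ≤ 1 * k := by omega
        _ ≤ _ := Nat.mul_le_mul_right _ Nat.card_pos
    · have h2 : (2 : F) ≠ 0 := by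
        intro h
        have := heven h
        omega
      rw [CfsgLib.SL2.center_card_of_odd h2]
      omega
  -- and every one lies in an extension of degree at most two
  obtain ⟨⟨c, y, hy⟩, hgen⟩ :=
    IsCyclic.exists_ofOrder_eq_natCard (α := (CfsgLib.SL2.Dickson.borelChar G₁).range)
  obtain ⟨g, hg, z, hz, he⟩ := Subgroup.mem_sup_of_normal_right.1 (y : G₁).2
  have hy10 : (((y : G₁) : SL(2, F)) : Matrix (Fin 2) (Fin 2) F) 1 0 = 0 := y.2
  have hc' : (c : F) = (((y : G₁) : SL(2, F)) : Matrix (Fin 2) (Fin 2) F) 0 0 := by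
    rw [← hy]; rfl
  have hdet : (c : F) * (((y : G₁) : SL(2, F)) : Matrix (Fin 2) (Fin 2) F) 1 1 = 1 := by
    have h := CfsgLib.SL2.det_eq ((y : G₁) : SL(2, F))
    rw [hy10] at h
    rw [hc']
    linear_combination h
  have htr : (c : F) + ((c : F))⁻¹ ∈ F₀ := by
    rw [← eq_inv_of_mul_eq_one_right hdet, hc', ← he]
    rcases (CfsgLib.SL2.mem_center_iff z).1 hz with rfl | rfl
    · rw [mul_one] at he ⊢
      exact hc g hg (by rw [he]; exact hy10)
    · have h10 : (g : Matrix (Fin 2) (Fin 2) F) 1 0 = 0 := by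
        rw [← he] at hy10
        simpa using hy10
      have := F₀.neg_mem (hc g hg h10)
      simp only [mul_neg, mul_one, Matrix.SpecialLinearGroup.coe_neg, Matrix.neg_apply]
      convert this using 1
      ring
  have : Fintype F₀ := Fintype.ofFinite F₀
  have hfr : ((c : F) + (c : F)⁻¹) ^ q = (c : F) + (c : F)⁻¹ := by
    have := congrArg (F₀.subtype) (FiniteField.pow_card (⟨_, htr⟩ : F₀))
    rw [map_pow] at this
    rw [hqdef, Nat.card_eq_fintype_card]
    exact this
  have : CharP F₀ p := (RingHom.charP_iff F₀.subtype F₀.subtype.injective p).2 hchar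
  obtain ⟨n, -, hn⟩ := FiniteField.card F₀ p
  rw [hqdef, Nat.card_eq_fintype_card, hn, add_pow_char_pow, inv_pow, ← hn,
    ← Nat.card_eq_fintype_card, ← hqdef] at hfr
  have hc0 : (c : F) ≠ 0 := c.ne_zero
  have hor : (c : F) ^ (q - 1) = 1 ∨ (c : F) ^ (q + 1) = 1 := by
    have hqq : (c : F) ^ q = (c : F) ^ (q - 1) * c := by
      rw [← pow_succ, Nat.sub_add_cancel (by omega : 1 ≤ q)]
    have h1 : ((c : F) ^ q - c) * (1 - ((c : F) ^ q)⁻¹ * (c : F)⁻¹) = 0 := by
      field_simp at hfr ⊢
      linear_combination hfr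
    rcases mul_eq_zero.1 h1 with h | h
    · refine Or.inl (mul_right_cancel₀ hc0 ?_)
      rw [← hqq, one_mul, sub_eq_zero.1 h]
    · right
      rw [← mul_inv, sub_eq_zero, eq_comm, inv_eq_one] at h
      rw [pow_succ, h]
  have hord : Nat.card (CfsgLib.SL2.Dickson.borelChar G₁).range ≤ q + 1 := by
    rw [← hgen, ← Subgroup.orderOf_coe]
    rcases hor with h | h
    · have h1 : c ^ (q - 1) = 1 := Units.ext (by simpa using h)
      exact (Nat.le_of_dvd (by omega) (orderOf_dvd_of_pow_eq_one h1)).trans (by omega)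
    · exact Nat.le_of_dvd (by omega) (orderOf_dvd_of_pow_eq_one (Units.ext (by simpa using h)))
  have hqq : q + 2 ≤ q ^ 2 - 1 ∨ q = 2 := by
    rcases Nat.lt_or_ge q 3 with h | h
    · right; omega
    · left
      have : 3 * q ≤ q ^ 2 := by rw [sq]; exact Nat.mul_le_mul_right q h
      omega
  rcases hqq with h | h
  · omega
  · -- over the field of two elements only the field with four elements is left
    have h1 : (2 : F) = 0 := by
      have h0 : ((Nat.card F₀ : ℕ) : F₀) = 0 := by simp [Nat.card_eq_fintype_card]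
      rw [← hqdef, h] at h0
      rw [← map_ofNat F₀.subtype 2, show (2 : F₀) = 0 by exact_mod_cast h0, map_zero]
    have hk4 : Nat.card (transl G₁) = 4 := by
      have h3 : k ≤ 3 := by
        have e := hord
        rw [hrg, h] at e
        exact le_trans (Nat.le_mul_of_pos_left k Nat.card_pos) e
      have := heven h1
      rcases hkq with e | e <;> omega
    obtain ⟨R, -, hR, -⟩ :=
      CfsgLib.SL2.Dickson.structure_subfield le_sup_right hk2 hkq hrg hcG hidx hd htd hcd hnd
    rw [hk4] at hR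
    have hF := Module.natCard_eq_pow_finrank (K := R) (V := F)
    rw [hcard, hR, h, show (4 : ℕ) = 2 ^ 2 from rfl, ← pow_mul] at hF
    have hr2 : r = 2 := ((Nat.prime_dvd_prime_iff_eq Nat.prime_two hr).1
      (Dvd.intro _ (Nat.pow_right_injective le_rfl hF).symm)).symm
    apply hF4
    rw [hcard, h, hr2]
    rfl

end CfsgLib.Geometric
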