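import Cfsg.Agent.Lib.Geometric.UnitarySubfield
import Cfsg.Agent.Lib.Geometric.SubfieldSL2

/-!
Subfield groups are maximal in the special linear group.

With `Λ` the field of `μ` such that all `tv a (μ • ψ)`, `a` and `ψ` over `F₀`, lie in the
overgroup, commutators show that unless `Λ = F` every transvection with a centre or functional
meeting `F₀ ^ n` badly forces the two-dimensional group of `exists_upS_notMem`.
-/

set_option autoImplicit false

namespace CfsgLib.Geometric

open Matrix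
open scoped MatrixGroups

variable {ι : Type} [Fintype ι] [DecidableEq ι] {F : Type*} [Field F]

lemma tv_zero (v : ι → F) (h : (0 : (ι → F) →ₗ[F] F) v = 0) : tv v 0 h = 1 :=
  gl_ext fun x => by simp

lemma tv_smul_centre (c : F) (v : ι → F) (φ : (ι → F) →ₗ[F] F) (h : φ (c • v) = 0)
    (h' : (c • φ) v = 0) : tv (c • v) φ h = tv v (c • φ) h' :=
  tv_eq_tv _ _ fun x => by simp [smul_smul, mul_comm]

/-- The commutator of two transvections when the second functional kills the first centre. -/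
lemma comm_mem {M : Subgroup (GL ι F)} {v w : ι → F} {φ χ : (ι → F) →ₗ[F] F} {hv : φ v = 0}
    {hw : χ w = 0} (h1 : tv v φ hv ∈ M) (h2 : tv w χ hw ∈ M) (hχ : χ v = 0) :
    tv v (φ w • χ) (by simp [hχ]) ∈ M := by
  have h : tv v (φ w • χ) (by simp [hχ]) =
      tv v φ hv * tv w χ hw * (tv v φ hv)⁻¹ * (tv w χ hw)⁻¹ := by
    rw [tv_inv, tv_inv]
    apply gl_ext
    intro x
    simp [ap_mul, hv, hw, hχ]
    module
  rw [h]
  exact mul_mem (mul_mem (mul_mem h1 h2) (inv_mem h1)) (inv_mem h2)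

namespace LSubfld

variable (F₀ : Subfield F)

/-- A vector with coordinates in the subfield. -/
def RatV (x : ι → F) : Prop := ∀ i, x i ∈ F₀

/-- A functional with coefficients in the subfield. -/
def RatF (φ : (ι → F) →ₗ[F] F) : Prop := ∀ i, φ (Pi.single i 1) ∈ F₀

/-- The functional with given coefficients. -/
def coef (u : ι → F) : (ι → F) →ₗ[F] F := ∑ i, u i • LinearMap.proj i

variable {F₀}

lemma coef_apply (u z : ι → F) : coef u z = ∑ i, u i * z i := by simp [coef]

lemma coef_single (u : ι → F) (i : ι) : coef u (Pi.single i 1) = u i := by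
  simp [coef_apply, Pi.single_apply]

lemma apply_eq_sum (φ : (ι → F) →ₗ[F] F) (z : ι → F) : φ z = ∑ i, φ (Pi.single i 1) * z i := by
  conv_lhs => rw [pi_eq_sum_univ' z]
  simp [map_sum, mul_comm]

lemma ratF_apply {φ : (ι → F) →ₗ[F] F} {x : ι → F} (hφ : RatF F₀ φ) (hx : RatV F₀ x) :
    φ x ∈ F₀ := by
  rw [apply_eq_sum]
  exact sum_mem fun i _ => mul_mem (hφ i) (hx i)

lemma ratV_single (i : ι) : RatV F₀ (Pi.single i (1 : F)) := fun j => by
  rw [Pi.single_apply]
  split_ifs
  exacts [one_mem F₀, zero_mem F₀]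

lemma RatV.smul {x : ι → F} (hx : RatV F₀ x) {c : F} (hc : c ∈ F₀) : RatV F₀ (c • x) :=
  fun i => mul_mem hc (hx i)

lemma RatV.sub {x y : ι → F} (hx : RatV F₀ x) (hy : RatV F₀ y) : RatV F₀ (x - y) :=
  fun i => sub_mem (hx i) (hy i)

lemma RatV.add {x y : ι → F} (hx : RatV F₀ x) (hy : RatV F₀ y) : RatV F₀ (x + y) :=
  fun i => add_mem (hx i) (hy i)

lemma RatF.smul {φ : (ι → F) →ₗ[F] F} (hφ : RatF F₀ φ) {c : F} (hc : c ∈ F₀) :
    RatF F₀ (c • φ) := fun i => mul_mem hc (hφ i)

lemma ratF_coef {u : ι → F} (hu : RatV F₀ u) : RatF F₀ (coef u) := fun i => by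
  rw [coef_single]; exact hu i

lemma ratV_coefs {φ : (ι → F) →ₗ[F] F} (hφ : RatF F₀ φ) :
    RatV F₀ (fun i => φ (Pi.single i 1)) := hφ

variable (hn : 3 ≤ Fintype.card ι)
include hn

/-- A non-zero vector over the subfield orthogonal to two given ones. -/
lemma exists_orth {a b : ι → F} (ha : RatV F₀ a) (hb : RatV F₀ b) :
    ∃ u, RatV F₀ u ∧ u ≠ 0 ∧ ∑ i, u i * a i = 0 ∧ ∑ i, u i * b i = 0 := by
  let L : (ι → F₀) →ₗ[F₀] F₀ × F₀ :=
    (∑ i, (⟨a i, ha i⟩ : F₀) • LinearMap.proj i).prod (∑ i, (⟨b i, hb i⟩ : F₀) • LinearMap.proj i)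
  have hk : LinearMap.ker L ≠ ⊥ := by
    intro h
    have := LinearMap.finrank_le_finrank_of_injective (LinearMap.ker_eq_bot.1 h)
    simp only [Module.finrank_fintype_fun_eq_card, Module.finrank_prod, Module.finrank_self] at this
    omega
  obtain ⟨u, hu, hu0⟩ := Submodule.exists_mem_ne_zero_of_ne_bot hk
  refine ⟨fun i => (u i : F), fun i => (u i).2, fun h => hu0 (funext fun i =>
    Subtype.ext (congrFun h i)), ?_, ?_⟩
  · have := congrArg (fun p : F₀ × F₀ => (p.1 : F)) (LinearMap.mem_ker.1 hu)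
    simpa [L, mul_comm] using this
  · have := congrArg (fun p : F₀ × F₀ => (p.2 : F)) (LinearMap.mem_ker.1 hu)
    simpa [L, mul_comm] using this

lemma exists_ratF_kill {a b : ι → F} (ha : RatV F₀ a) (hb : RatV F₀ b) :
    ∃ χ, RatF F₀ χ ∧ χ ≠ 0 ∧ χ a = 0 ∧ χ b = 0 := by
  obtain ⟨u, hu, hu0, h1, h2⟩ := exists_orth hn ha hb
  refine ⟨coef u, ratF_coef hu, fun h => hu0 (funext fun i => ?_), by rwa [coef_apply],
    by rwa [coef_apply]⟩
  rw [← coef_single u i, h]
  rfl

lemma exists_ratV_kill {φ χ : (ι → F) →ₗ[F] F} (hφ : RatF F₀ φ) (hχ : RatF F₀ χ) :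
    ∃ b, RatV F₀ b ∧ b ≠ 0 ∧ φ b = 0 ∧ χ b = 0 := by
  obtain ⟨u, hu, hu0, h1, h2⟩ := exists_orth hn (ratV_coefs hφ) (ratV_coefs hχ)
  refine ⟨u, hu, hu0, ?_, ?_⟩
  · rw [apply_eq_sum, ← h1]; simp [mul_comm]
  · rw [apply_eq_sum, ← h2]; simp [mul_comm]

omit hn

lemma exists_single_ne {φ : (ι → F) →ₗ[F] F} (hφ : φ ≠ 0) : ∃ i, φ (Pi.single i 1) ≠ 0 := by
  by_contra h
  push Not at h
  exact hφ (LinearMap.ext fun z => by simp [apply_eq_sum φ z, h])

/-- A functional over the subfield killing a vector over it but not a given other vector. -/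
lemma exists_ratF_sep {w v : ι → F} (hw : RatV F₀ w) (hw0 : w ≠ 0)
    (hv : v ∉ Submodule.span F {w}) : ∃ χ, RatF F₀ χ ∧ χ w = 0 ∧ χ v ≠ 0 := by
  obtain ⟨i, hi⟩ := Function.ne_iff.1 hw0
  simp only [Pi.zero_apply] at hi
  by_contra h
  push Not at h
  apply hv
  refine Submodule.mem_span_singleton.2 ⟨v i / w i, funext fun j => ?_⟩
  set χ : (ι → F) →ₗ[F] F := LinearMap.proj j - (w j / w i) • LinearMap.proj i with hχ
  have h1 : RatF F₀ χ := fun k => by
    simp only [hχ, LinearMap.sub_apply, LinearMap.smul_apply, LinearMap.proj_apply]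
    exact sub_mem (ratV_single k j) (mul_mem (div_mem (hw j) (hw i)) (ratV_single k i))
  have h2 : χ w = 0 := by simp [hχ, hi]
  have h3 := h χ h1 h2
  simp only [hχ, LinearMap.sub_apply, LinearMap.smul_apply, LinearMap.proj_apply, smul_eq_mul,
    sub_eq_zero] at h3
  simp only [Pi.smul_apply, smul_eq_mul, h3]
  field_simp

lemma tv_mem_subfield {a : ι → F} {ψ : (ι → F) →ₗ[F] F} (h : ψ a = 0) (ha : RatV F₀ a)
    (hψ : RatF F₀ ψ) : tv a ψ h ∈ Cfsg.Geo.subfieldSubgroup F₀ (1 : GL ι F) := by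
  refine Subfld.mem_of_rat fun r hr i => ?_
  have hr' : RatV F₀ r := fun j => by simpa using hr j
  have e : ap (1 : GL ι F)⁻¹ (ap (tv a ψ h) r) = r + ψ r • a := by simp
  rw [e]
  exact hr'.add (ha.smul (ratF_apply hψ hr')) i

/-- Mapping rational vectors into rational lines characterises the subfield group. -/
lemma mem_of_lineRat {g : GL ι F} [Nonempty ι]
    (hg : ∀ x, RatV F₀ x → ∃ (c : F) (r : ι → F), RatV F₀ r ∧ ap g x = c • r) :
    g ∈ Cfsg.Geo.subfieldSubgroup F₀ (1 : GL ι F) := by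
  choose c r hr hgr using fun j : ι => hg _ (ratV_single (F₀ := F₀) j)
  have hne : ∀ j, c j ≠ 0 ∧ r j ≠ 0 := fun j => by
    have := ap_ne_zero g (x := Pi.single j (1 : F)) (by simp)
    rw [hgr j] at this
    exact smul_ne_zero_iff.1 this
  have hli : ∀ i j, i ≠ j → r j ∉ Submodule.span F {r i} := by
    intro i j hij h
    obtain ⟨t, ht⟩ := Submodule.mem_span_singleton.1 h
    have e : Pi.single j (1 : F) = (c j * t * (c i)⁻¹) • Pi.single i (1 : F) := by
      apply ap_injective g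
      rw [ap_smul, hgr j, hgr i, ← ht, smul_smul, smul_smul, inv_mul_cancel_right₀ (hne i).1]
    have := congrFun e j
    simp [hij.symm] at this
  have hq : ∀ i j, c j / c i ∈ F₀ := by
    intro i j
    by_cases hij : i = j
    · rw [hij, div_self (hne j).1]; exact one_mem F₀
    obtain ⟨d, s, hs, hd⟩ := hg _ ((ratV_single (F₀ := F₀) i).add (ratV_single j))
    rw [ap_add, hgr, hgr] at hd
    have key : ∀ i j, i ≠ j → c i • r i + c j • r j = d • s → d ≠ 0 ∧ c j / d ∈ F₀ := by
      intro i j hij hd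
      obtain ⟨χ, hχ, h1, h2⟩ := exists_ratF_sep (hr i) (hne i).2 (hli i j hij)
      have h3 := congrArg χ hd
      simp only [map_add, map_smul, h1, smul_eq_mul, mul_zero, zero_add] at h3
      have hd0 : d ≠ 0 := by
        intro h
        rw [h, zero_mul] at h3
        exact mul_ne_zero (hne j).1 h2 h3
      refine ⟨hd0, ?_⟩
      rw [show c j / d = χ s / χ (r j) by field_simp; linear_combination h3]
      exact div_mem (ratF_apply hχ hs) (ratF_apply hχ (hr j))
    obtain ⟨hd0, h1⟩ := key i j hij hd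
    obtain ⟨-, h2⟩ := key j i (Ne.symm hij) (by rw [add_comm]; exact hd)
    have := div_mem h1 h2
    rwa [div_div_div_cancel_right₀ hd0] at this
  obtain ⟨i⟩ := ‹Nonempty ι›
  refine Subfld.scalar_mul_mem (c := Units.mk0 (c i) (hne i).1) fun x hx k => ?_
  have hx' : RatV F₀ x := fun j => by simpa using hx j
  have hgx : ap g x = ∑ j, x j • (c j • r j) := by
    conv_lhs => rw [pi_eq_sum_univ' x]
    simp only [← hgr, ← ap_smul]
    exact map_sum (apEquiv g) _ _
  simp only [inv_one, ap_one, Units.val_mk0, Pi.smul_apply, hgx, Finset.sum_apply, smul_eq_mul,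
    Finset.mul_sum]
  refine sum_mem fun j _ => ?_
  rw [show (c i)⁻¹ * (x j * (c j * r j k)) = x j * (c j / c i) * r j k by ring]
  exact mul_mem (mul_mem (hx' j) (hq i j)) (hr j k)

variable (F₀) in
/-- The multiplier condition at one transvection over the subfield. -/
def InL (M : Subgroup (GL ι F)) (μ : F) (a : ι → F) (ψ : (ι → F) →ₗ[F] F) : Prop :=
  ∀ h : (μ • ψ) a = 0, tv a (μ • ψ) h ∈ M

variable {M : Subgroup (GL ι F)}
  (hM : ∀ a ψ (h : ψ a = 0), RatV F₀ a → RatF F₀ ψ → tv a ψ h ∈ M)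
include hM hn

lemma InL.functional {μ : F} {a : ι → F} {ψ χ : (ι → F) →ₗ[F] F} (hL : InL M μ a ψ)
    (ha : RatV F₀ a) (hψ : RatF F₀ ψ) (hψ0 : ψ ≠ 0) (hψa : ψ a = 0) (hχ : RatF F₀ χ)
    (hχa : χ a = 0) : InL M μ a χ := by
  -- one commutator step
  have step : ∀ {ψ χ : (ι → F) →ₗ[F] F} (b : ι → F), InL M μ a ψ → RatF F₀ ψ → ψ a = 0 →
      RatF F₀ χ → χ a = 0 → RatV F₀ b → χ b = 0 → ψ b ≠ 0 → InL M μ a χ := by
    intro ψ χ b hL hψ hψa hχ hχa hb hχb hψb h
    have h1 := comm_mem (hL (by simp [hψa])) (hM ((ψ b)⁻¹ • b) χ (by simp [hχb])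
      (hb.smul (inv_mem (ratF_apply hψ hb))) hχ) hχa
    convert h1 using 2
    simp [smul_smul]
    congr 1
    field_simp
  obtain ⟨i, hi⟩ := exists_single_ne hψ0
  set b := (Pi.single i (1 : F) : ι → F)
  have hb : RatV F₀ b := ratV_single i
  by_cases hχb : χ b = 0
  · exact step b hL hψ hψa hχ hχa hb hχb hi
  obtain ⟨χ', hχ', h0, hχ'a, hχ'b⟩ := exists_ratF_kill hn ha hb
  obtain ⟨j, hj⟩ := exists_single_ne h0
  set z := (Pi.single j (1 : F) : ι → F)
  have hz : RatV F₀ z := ratV_single j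
  refine step (z - (χ z / χ b) • b) (step b hL hψ hψa hχ' hχ'a hb hχ'b hi) hχ' hχ'a hχ hχa
    (hz.sub (hb.smul (div_mem (ratF_apply hχ hz) (ratF_apply hχ hb)))) ?_ ?_
  · simp [hχb]
  · simpa [hχ'b] using hj

lemma InL.spread {μ : F} {a : ι → F} {ψ : (ι → F) →ₗ[F] F} (hL : InL M μ a ψ)
    (ha : RatV F₀ a) (ha0 : a ≠ 0) (hψ : RatF F₀ ψ) (hψ0 : ψ ≠ 0) (hψa : ψ a = 0)
    {b : ι → F} {χ : (ι → F) →ₗ[F] F} (hb : RatV F₀ b) (hb0 : b ≠ 0) (hχ : RatF F₀ χ)
    (hχb : χ b = 0) : InL M μ b χ := by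
  obtain ⟨η, hη, hη0, hηa, hηb⟩ := exists_ratF_kill hn ha hb
  have h1 : InL M μ a η := hL.functional hn hM ha hψ hψ0 hψa hη hηa
  by_cases hab : a ∈ Submodule.span F {b}
  · obtain ⟨c, hc⟩ := Submodule.mem_span_singleton.1 hab
    obtain ⟨i, hi⟩ := Function.ne_iff.1 hb0
    simp only [Pi.zero_apply] at hi
    have hcF : c ∈ F₀ := by
      have e : c = a i / b i := by rw [← hc]; simp [hi]
      rw [e]; exact div_mem (ha i) (hb i)
    have hc0 : c ≠ 0 := fun h => ha0 (by rw [← hc, h, zero_smul])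
    refine InL.functional hn hM (ψ := c • η) ?_ hb (hη.smul hcF) (smul_ne_zero hc0 hη0)
      (by simp [hηb]) hχ hχb
    intro h
    convert h1 (by simp [hηa]) using 1
    exact tv_eq_tv _ _ fun x => by simp [← hc, smul_smul]; ring_nf
  · obtain ⟨ξ, hξ, hξb, hξa⟩ := exists_ratF_sep hb hb0 hab
    have hs : InL M μ b η := by
      intro h
      have hξ' : RatF F₀ ((ξ a)⁻¹ • ξ) := hξ.smul (inv_mem (ratF_apply hξ ha))
      have h2 := comm_mem (hM b ((ξ a)⁻¹ • ξ) (by simp [hξb]) hb hξ') (h1 (by simp [hηa]))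
        (by simp [hηb])
      convert h2 using 2
      simp [hξa]
    exact hs.functional hn hM hb hη hη0 hηb hχ hχb

lemma InL.mul {μ ν : F}
    (hμ : ∀ a ψ, RatV F₀ a → RatF F₀ ψ → ψ a = 0 → InL M μ a ψ)
    (hν : ∀ a ψ, RatV F₀ a → RatF F₀ ψ → ψ a = 0 → InL M ν a ψ)
    (a : ι → F) (χ : (ι → F) →ₗ[F] F) (ha : RatV F₀ a) (hχ : RatF F₀ χ) (h0 : χ a = 0) :
    InL M (μ * ν) a χ := fun h => by
  by_cases ha0 : a = 0
  · rw [show tv a ((μ * ν) • χ) h = 1 from gl_ext fun x => by simp [ha0]]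
    exact one_mem M
  obtain ⟨i, hi⟩ := Function.ne_iff.1 ha0
  simp only [Pi.zero_apply] at hi
  obtain ⟨b, hb, hb0, hχb, hξb⟩ :=
    exists_ratV_kill hn hχ (χ := LinearMap.proj i) (fun k => ratV_single (F₀ := F₀) k i)
  simp only [LinearMap.proj_apply] at hξb
  obtain ⟨ψ, hψ, hψa, hψb⟩ := exists_ratF_sep ha ha0 (v := b) (by
    intro h'
    obtain ⟨c, hc⟩ := Submodule.mem_span_singleton.1 h'
    rw [← hc] at hξb
    simp [hi] at hξb
    exact hb0 (by rw [← hc, hξb, zero_smul]))
  have hb' : RatV F₀ ((ψ b)⁻¹ • b) := hb.smul (inv_mem (ratF_apply hψ hb))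
  have := comm_mem (hμ a ψ ha hψ hψa (by simp [hψa]))
    (hν _ χ hb' hχ (by simp [hχb]) (by simp [hχb])) (by simp [h0])
  convert this using 2
  simp [smul_smul]
  congr 1
  field_simp

/-- The field of multipliers of transvections over the subfield. -/
def lam [Finite F] : Subfield F where
  carrier := {μ | ∀ a ψ, RatV F₀ a → RatF F₀ ψ → ψ a = 0 → InL M μ a ψ}
  zero_mem' := fun a ψ _ _ _ h => by
    rw [show tv a ((0 : F) • ψ) h = 1 from gl_ext fun x => by simp]
    exact one_mem M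
  one_mem' := fun a ψ ha hψ h0 h => by
    convert hM a ψ h0 ha hψ using 2
    simp
  add_mem' := fun {μ ν} hμ hν a ψ ha hψ h0 h => by
    have := mul_mem (hμ a ψ ha hψ h0 (by simp [h0])) (hν a ψ ha hψ h0 (by simp [h0]))
    rw [tv_add] at this
    convert this using 2
    rw [add_smul]
  neg_mem' := fun {μ} hμ a ψ ha hψ h0 h => by
    have := inv_mem (hμ a ψ ha hψ h0 (by simp [h0]))
    rw [tv_inv] at this
    convert this using 2
    module
  mul_mem' := fun hμ hν => InL.mul hn hM hμ hν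
  inv_mem' := fun μ hμ => by
    have : Fintype F := Fintype.ofFinite F
    by_cases h0 : μ = 0
    · subst h0
      rw [_root_.inv_zero]
      exact hμ
    have hpow : ∀ m : ℕ, ∀ a ψ, RatV F₀ a → RatF F₀ ψ → ψ a = 0 → InL M (μ ^ m) a ψ := by
      intro m
      induction m with
      | zero =>
        intro a ψ ha hψ h0 h
        convert hM a ψ h0 ha hψ using 2
        simp
      | succ m ih =>
        rw [pow_succ]
        exact InL.mul hn hM ih hμ
    have h2 := Fintype.one_lt_card (α := F)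
    have h1 : μ⁻¹ = μ ^ (Fintype.card F - 2) := by
      have hc := FiniteField.pow_card_sub_one_eq_one μ h0
      rw [show Fintype.card F - 1 = Fintype.card F - 2 + 1 by omega, pow_succ] at hc
      exact (eq_inv_of_mul_eq_one_left hc).symm
    rw [h1]
    exact hpow _

lemma le_lam [Finite F] : F₀ ≤ lam hn hM := fun c hc a ψ ha hψ h0 h =>
  hM a (c • ψ) h ha (hψ.smul hc)

lemma mem_lam_of [Finite F] {μ : F} {a : ι → F} {ψ : (ι → F) →ₗ[F] F} (hL : InL M μ a ψ)
    (ha : RatV F₀ a) (ha0 : a ≠ 0) (hψ : RatF F₀ ψ) (hψ0 : ψ ≠ 0) (hψa : ψ a = 0) :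
    μ ∈ lam hn hM := fun b χ hb hχ hχb => by
  by_cases hb0 : b = 0
  · intro h
    rw [show tv b (μ • χ) h = 1 from gl_ext fun x => by simp [hb0]]
    exact one_mem M
  · exact hL.spread hn hM ha ha0 hψ hψ0 hψa hb hb0 hχ hχb

lemma apply_mem_lam [Finite F] {w b : ι → F} {φ : (ι → F) →ₗ[F] F} {h : φ w = 0}
    (hT : tv w φ h ∈ M) (hw : RatV F₀ w) (hw0 : w ≠ 0) (hb : RatV F₀ b) :
    φ b ∈ lam hn hM := by
  obtain ⟨χ, hχ, hχ0, hχw, hχb⟩ := exists_ratF_kill hn hw hb
  exact mem_lam_of hn hM (fun _ => comm_mem hT (hM b χ hχb hb hχ) hχw) hw hw0 hχ hχ0 hχw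

lemma centre_mem_lam [Finite F] {v : ι → F} {χ ξ : (ι → F) →ₗ[F] F} {h : χ v = 0}
    (hT : tv v χ h ∈ M) (hχ : RatF F₀ χ) (hχ0 : χ ≠ 0) (hξ : RatF F₀ ξ) :
    ξ v ∈ lam hn hM := by
  obtain ⟨b, hb, hb0, hξb, hχb⟩ := exists_ratV_kill hn hξ hχ
  exact mem_lam_of hn hM (fun _ => comm_mem (hM b ξ hξb hb hξ) hT hχb) hb hb0 hχ hχ0 hχb

omit hn hM

/-- If every multiplier occurs then the overgroup contains the special linear group. -/
lemma specialLinear_le_of_all
    (hall : ∀ (μ : F) a ψ, RatV F₀ a → RatF F₀ ψ → ψ a = 0 → InL M μ a ψ) :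
    Cfsg.Geo.specialLinear ι F ≤ M := by
  refine specialLinear_le_of_tv_mem fun v φ hφ => ?_
  by_cases hv : v = 0
  · rw [show tv v φ hφ = 1 from gl_ext fun x => by simp [hv]]
    exact one_mem M
  obtain ⟨i, hi⟩ := Function.ne_iff.1 hv
  simp only [Pi.zero_apply] at hi
  -- rational centres, every functional
  have hrat : ∀ (j : ι) (φ : (ι → F) →ₗ[F] F) (h : φ (Pi.single j 1) = 0),
      tv (Pi.single j 1) φ h ∈ M := by
    intro j φ h
    have he : φ = ∑ k ∈ Finset.univ.erase j, φ (Pi.single k 1) • LinearMap.proj k := by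
      refine LinearMap.ext fun z => ?_
      rw [apply_eq_sum φ z, ← Finset.add_sum_erase _ _ (Finset.mem_univ j), h, zero_mul, zero_add]
      simp
    suffices hs : ∀ s : Finset ι, j ∉ s → ∀ h,
        tv (Pi.single j 1) (∑ k ∈ s, φ (Pi.single k 1) • LinearMap.proj k) h ∈ M by
      have := hs (Finset.univ.erase j) (by simp) (by rw [← he]; exact h)
      convert this using 2
    intro s
    induction s using Finset.induction with
    | empty =>
      intro _ h
      simp only [Finset.sum_empty, tv_zero, one_mem]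
    | insert k s hk ih =>
      intro hj h
      simp only [Finset.mem_insert, not_or] at hj
      have h0 : (φ (Pi.single k 1) • LinearMap.proj k : (ι → F) →ₗ[F] F) (Pi.single j 1) = 0 := by
        simp [Ne.symm hj.1]
      have h1 : (∑ l ∈ s, φ (Pi.single l 1) • LinearMap.proj l : (ι → F) →ₗ[F] F)
          (Pi.single j 1) = 0 := by
        rw [Finset.sum_insert hk, LinearMap.add_apply, h0, zero_add] at h
        exact h
      have := mul_mem (hall (φ (Pi.single k 1)) (Pi.single j 1) (LinearMap.proj k)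
        (ratV_single j) (fun l => ratV_single l k) (by simp [Ne.symm hj.1]) h0) (ih hj.2 h1)
      rw [tv_add] at this
      convert this using 2
      rw [Finset.sum_insert hk]
  -- every centre
  suffices hs : ∀ s : Finset ι, i ∉ s → ∀ φ h,
      tv (v i • Pi.single i 1 + ∑ j ∈ s, v j • Pi.single j 1) φ h ∈ M by
    have e : v i • Pi.single i 1 + ∑ j ∈ Finset.univ.erase i, v j • Pi.single j 1 = v := by
      rw [Finset.add_sum_erase _ (fun j => v j • (Pi.single j 1 : ι → F)) (Finset.mem_univ i)]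
      exact (pi_eq_sum_univ' v).symm
    have := hs (Finset.univ.erase i) (by simp) φ (by rw [e]; exact hφ)
    convert this using 2
    exact e.symm
  intro s
  induction s using Finset.induction with
  | empty =>
    intro _ φ h
    simp only [Finset.sum_empty, add_zero] at h ⊢
    rw [tv_smul_centre _ _ _ _ (by simpa using h)]
    exact hrat i _ _
  | insert k s hk ih =>
    intro hi' φ h
    simp only [Finset.mem_insert, not_or] at hi'
    set u := v i • Pi.single i 1 + ∑ j ∈ s, v j • (Pi.single j 1 : ι → F) with hu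
    have hui : u i = v i := by
      simp only [hu, Pi.add_apply, Finset.sum_apply, Pi.smul_apply, smul_eq_mul, Pi.single_eq_same,
        mul_one]
      rw [Finset.sum_eq_zero fun j hj => by
        rw [Pi.single_eq_of_ne (fun e : i = j => hi'.2 (e ▸ hj)), mul_zero], add_zero]
    have hk0 : ((v k / v i) • LinearMap.proj i : (ι → F) →ₗ[F] F) (Pi.single k 1) = 0 := by
      simp [hi'.1]
    set g := tv (Pi.single k 1) ((v k / v i) • LinearMap.proj i) hk0 with hg
    have hgu : ap g u = v i • Pi.single i 1 + ∑ j ∈ insert k s, v j • (Pi.single j 1 : ι → F) := by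
      rw [hg, ap_tv, Finset.sum_insert hk, LinearMap.smul_apply, LinearMap.proj_apply, hui,
        smul_eq_mul, div_mul_cancel₀ _ hi, hu]
      abel
    have hu0 : (φ.comp (apEquiv g).toLinearMap) u = 0 := by
      simp only [LinearMap.comp_apply, LinearEquiv.coe_coe, apEquiv_apply, hgu]
      exact h
    have hgM : g ∈ M := hrat k _ _
    have := mul_mem (mul_mem hgM (ih hi'.2 _ hu0)) (inv_mem hgM)
    rw [conj_tv] at this
    convert this using 1
    exact tv_eq_tv _ _ fun x => by simp [hgu, ap_ap_inv]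

include hn hM

/-- If the multipliers form the subfield then all transvection centres are over it. -/
lemma centre_lineRat [Finite F] {r : ℕ} (hr : r.Prime) (hcard : Nat.card F = Nat.card F₀ ^ r)
    (hΛ : ∀ μ ∈ lam hn hM, μ ∈ F₀) {v : ι → F} {φ : (ι → F) →ₗ[F] F} {hv : φ v = 0}
    (hT : tv v φ hv ∈ M) (hv0 : v ≠ 0) (hφ0 : φ ≠ 0) :
    ∃ (c : F) (x : ι → F), RatV F₀ x ∧ v = c • x := by
  classical
  have hC : ∀ {w : ι → F} {ψ : (ι → F) →ₗ[F] F} {h : ψ w = 0}, tv w ψ h ∈ M → RatV F₀ w →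
      w ≠ 0 → RatF F₀ ψ := fun hT hw hw0 j => hΛ _ (apply_mem_lam hn hM hT hw hw0 (ratV_single j))
  have hC' : ∀ {u : ι → F} {χ : (ι → F) →ₗ[F] F} {h : χ u = 0}, tv u χ h ∈ M → RatF F₀ χ →
      χ ≠ 0 → RatV F₀ u := fun hT hχ hχ0 j => hΛ _
    (centre_mem_lam hn hM hT hχ hχ0 (ξ := LinearMap.proj j) fun l => ratV_single l j)
  -- a vector over the subfield in the kernel of the functional
  by_cases hA : ∃ w, RatV F₀ w ∧ w ≠ 0 ∧ φ w = 0
  · obtain ⟨w, hw, hw0, hφw⟩ := hA
    by_cases hvw : v ∈ Submodule.span F {w}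
    · obtain ⟨c, hc⟩ := Submodule.mem_span_singleton.1 hvw
      exact ⟨c, w, hw, hc.symm⟩
    obtain ⟨χ, hχ, hχw, hχv⟩ := exists_ratF_sep hw hw0 hvw
    have h1 := comm_mem (hM w χ hχw hw hχ) hT hφw
    have h2 : RatF F₀ (χ v • φ) := hC h1 hw hw0
    have h3 : tv ((χ v)⁻¹ • v) (χ v • φ) (by simp [hv]) ∈ M := by
      convert hT using 1
      exact tv_eq_tv _ _ fun x => by simp [smul_smul]; field_simp
    exact ⟨χ v, _, hC' h3 h2 (smul_ne_zero hχv hφ0), by rw [smul_smul, mul_inv_cancel₀ hχv, one_smul]⟩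
  push Not at hA
  -- a functional over the subfield killing the centre
  by_cases hB : ∃ χ, RatF F₀ χ ∧ χ ≠ 0 ∧ χ v = 0
  · obtain ⟨χ, hχ, hχ0, hχv⟩ := hB
    obtain ⟨w, hw, hw0, hχw, -⟩ := exists_ratV_kill hn hχ hχ
    have hβ : φ w ≠ 0 := hA w hw hw0
    have h1 := comm_mem hT (hM w χ hχw hw hχ) hχv
    rw [← tv_smul_centre (φ w) v χ (by simp [hχv]) _] at h1
    exact ⟨(φ w)⁻¹, _, hC' h1 hχ hχ0, by rw [smul_smul, inv_mul_cancel₀ hβ, one_smul]⟩
  push Not at hB
  exfalso
  obtain ⟨i, j, l, hij, hil, hjl⟩ := Fintype.two_lt_card_iff.1 (by omega : 2 < Fintype.card ι)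
  set w : ι → F := Pi.single i 1 with hwdef
  have hwR : RatV F₀ w := ratV_single i
  have hβ : φ w ≠ 0 := hA w hwR (by simp [hwdef])
  set W := Submodule.span F {w, v}
  have hwW : w ∈ W := Submodule.subset_span (by simp)
  have hvW : v ∈ W := Submodule.subset_span (by simp)
  -- the two-dimensional group
  let Lift : SL(2, F) → GL ι F → Prop := fun s h =>
    (∀ x, ap h x - x ∈ W) ∧ ap h w = s.1 0 0 • w + s.1 1 0 • v ∧
      ap h v = s.1 0 1 • w + s.1 1 1 • v
  let S : Submonoid SL(2, F) :=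
    { carrier := {s | ∃ h ∈ M, Lift s h}
      one_mem' := ⟨1, one_mem M, fun x => by simp, by simp, by simp⟩
      mul_mem' := by
        rintro s t ⟨g, hg, g1, g2, g3⟩ ⟨h, hh, h1, h2, h3⟩
        refine ⟨g * h, mul_mem hg hh, fun x => ?_, ?_, ?_⟩
        · rw [ap_mul, ← sub_add_sub_cancel (ap g (ap h x)) (ap h x) x]
          exact W.add_mem (g1 _) (h1 x)
        · rw [ap_mul, h2, ap_add, ap_smul, ap_smul, g2, g3]
          simp only [Matrix.SpecialLinearGroup.coe_mul, Matrix.mul_apply, Fin.sum_univ_two]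
          module
        · rw [ap_mul, h3, ap_add, ap_smul, ap_smul, g2, g3]
          simp only [Matrix.SpecialLinearGroup.coe_mul, Matrix.mul_apply, Fin.sum_univ_two]
          module }
  let G : Subgroup SL(2, F) :=
    { S with
      inv_mem' := fun {s} hs => by
        have e : s⁻¹ = s ^ (orderOf s - 1) := by
          refine inv_eq_of_mul_eq_one_right ?_
          rw [← pow_succ', Nat.sub_add_cancel (orderOf_pos s), pow_orderOf_eq_one]
        show s⁻¹ ∈ S
        rw [e]
        exact S.pow_mem hs _ }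
  let V : Submodule F₀ F :=
    { carrier := {x | ∃ χ, RatF F₀ χ ∧ χ w = 0 ∧ χ v = x}
      zero_mem' := ⟨0, fun k => by simp, by simp, by simp⟩
      add_mem' := by
        rintro _ _ ⟨χ, hχ, h1, rfl⟩ ⟨ξ, hξ, h2, rfl⟩
        exact ⟨χ + ξ, fun k => add_mem (hχ k) (hξ k), by simp [h1, h2], by simp⟩
      smul_mem' := by
        rintro c _ ⟨χ, hχ, h1, rfl⟩
        exact ⟨(c : F) • χ, hχ.smul c.2, by simp [h1], by simp [Subfield.smul_def]⟩ }
  have hproj : ∀ k : ι, RatF F₀ (LinearMap.proj k : (ι → F) →ₗ[F] F) :=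
    fun k m => ratV_single m k
  have hVt : V ≠ ⊤ := by
    intro h
    obtain ⟨χ, hχ, h1, h2⟩ : v i ∈ V := h ▸ Submodule.mem_top
    refine hB (χ - LinearMap.proj i) (fun k => sub_mem (hχ k) (hproj i k)) ?_ (by simp [h2])
    intro e
    have := LinearMap.congr_fun e w
    rw [LinearMap.sub_apply, h1] at this
    simp [hwdef] at this
  have hab : ∀ p q : F₀, (p : F) * v j + (q : F) * v l = 0 → p = 0 ∧ q = 0 := by
    intro p q h
    by_contra hc
    refine hB ((p : F) • LinearMap.proj j + (q : F) • LinearMap.proj l)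
      (fun k => add_mem ((hproj j).smul p.2 k) ((hproj l).smul q.2 k)) ?_ (by simpa using h)
    intro e
    have e1 := LinearMap.congr_fun e (Pi.single j (1 : F))
    have e2 := LinearMap.congr_fun e (Pi.single l (1 : F))
    simp [hjl.symm] at e1
    simp [hjl] at e2
    exact hc ⟨e1, e2⟩
  have hVG : ∀ x ∈ V, CfsgLib.ClassicalLinear.upS x ∈ G := by
    rintro _ ⟨χ, hχ, h1, rfl⟩
    refine ⟨tv w χ h1, hM w χ h1 hwR hχ, fun x => ?_, ?_, ?_⟩
    · simp [W.smul_mem _ hwW]
    · simp [CfsgLib.ClassicalLinear.upS_coe, h1]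
    · simp [CfsgLib.ClassicalLinear.upS_coe, add_comm]
  have hlG : CfsgLib.SL2.Dickson.lowS (φ w) ∈ G := by
    refine ⟨tv v φ hv, hT, fun x => ?_, ?_, ?_⟩
    · simp [W.smul_mem _ hvW]
    · simp [CfsgLib.SL2.Dickson.lowS_coe]
    · simp [CfsgLib.SL2.Dickson.lowS_coe, hv]
  obtain ⟨x, hx, h, hh, h1, h2, h3⟩ := exists_upS_notMem (G := G) hr hcard V hVt
    (a := v j) (b := v l) ⟨_, hproj j, by simp [hwdef, hij.symm], rfl⟩
    ⟨_, hproj l, by simp [hwdef, hil.symm], rfl⟩ hab hVG hβ hlG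
  simp only [CfsgLib.ClassicalLinear.upS_coe, Matrix.of_apply, Matrix.cons_val', Matrix.cons_val_zero,
    Matrix.cons_val_one, Matrix.cons_val_fin_one, one_smul, zero_smul, add_zero] at h2 h3
  have hinvw : ap h⁻¹ w = w := by
    conv_lhs => rw [← h2]
    rw [ap_inv_ap]
  have hinvv : ap h⁻¹ v = v - x • w := by
    apply ap_injective h
    rw [ap_ap_inv, ap_sub, ap_smul, h2, h3]
    abel
  -- the lift centralises the root group over the subfield
  obtain ⟨χ, hχ, hχw, hχv⟩ : ∃ χ, RatF F₀ χ ∧ χ w = 0 ∧ χ v ≠ 0 :=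
    ⟨_, hproj j, by simp [hwdef, hij.symm], by
      simp only [LinearMap.proj_apply]
      intro e
      exact hB _ (hproj j) (fun e' => by
        have := LinearMap.congr_fun e' (Pi.single j (1 : F)); simp at this) e⟩
  have hconj := mul_mem (mul_mem hh (hM w χ hχw hwR hχ)) (inv_mem hh)
  rw [conj_tv, ] at hconj
  have hconj' : tv w (χ.comp (apEquiv h⁻¹).toLinearMap) (by simp [hinvw, hχw]) ∈ M := by
    convert hconj using 1
    exact tv_eq_tv _ _ fun z => by simp [h2]
  have hR := hC hconj' hwR (by simp [hwdef])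
  have heq : χ.comp (apEquiv h⁻¹).toLinearMap = χ := by
    by_contra e
    refine hB (χ.comp (apEquiv h⁻¹).toLinearMap - χ) (fun k => sub_mem (hR k) (hχ k))
      (sub_ne_zero.2 e) ?_
    simp [hinvv, hχw]
  have hline : ∀ z, ∃ a : F, ap h z - z = a • w := by
    intro z
    obtain ⟨a, b, hab'⟩ := Submodule.mem_span_pair.1 (h1 z)
    have h4 : χ (ap h z) = χ z := by
      have := LinearMap.congr_fun heq (ap h z)
      simpa [ap_inv_ap] using this.symm
    have h5 := congrArg χ hab'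
    simp only [map_add, map_smul, map_sub, h4, sub_self, hχw, smul_eq_mul, mul_zero,
      zero_add] at h5
    refine ⟨a, ?_⟩
    rw [← hab', (mul_eq_zero.1 h5).resolve_right hχv, zero_smul, add_zero]
  set A : (ι → F) →ₗ[F] F :=
    (LinearMap.proj i).comp ((apEquiv h).toLinearMap - LinearMap.id) with hAdef
  have hh' : ∀ z, ap h z = z + A z • w := by
    intro z
    obtain ⟨a, ha⟩ := hline z
    have : A z = a := by simp [hAdef, ← Pi.sub_apply, ha, hwdef]
    rw [this, ← ha]
    abel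
  have hAw : A w = 0 := by simp [hAdef, h2]
  have hAR : RatF F₀ A := hC (w := w) (ψ := A) (h := hAw) (by
    convert hh using 1
    exact gl_ext fun z => by simp [hh']) hwR (by simp [hwdef])
  apply hx
  refine ⟨A, hAR, hAw, ?_⟩
  have hvi : v ∉ Submodule.span F {w} := by
    intro e
    obtain ⟨c, rfl⟩ := Submodule.mem_span_singleton.1 e
    exact hB (LinearMap.proj j) (hproj j) (fun e' => by
      have := LinearMap.congr_fun e' (Pi.single j (1 : F)); simp at this)
      (by simp [hwdef, hij.symm])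
  have h6 := hh' v
  rw [h3] at h6
  have h7 := congrFun h6 i
  simp [hwdef] at h7
  linear_combination -h7

end LSubfld

open LSubfld in
/-- The subfield group of prime degree is maximal in the special linear group. -/
theorem linearSubfield_isMaximalIn [Finite F] (hn : 3 ≤ Fintype.card ι) (F₀ : Subfield F) {r : ℕ}
    (hr : r.Prime) (hcard : Nat.card F = Nat.card F₀ ^ r) :
    Cfsg.Geo.IsMaximalIn (Cfsg.Geo.specialLinear ι F)
      (Cfsg.Geo.subfieldSubgroup F₀ (1 : GL ι F) ⊓ Cfsg.Geo.specialLinear ι F) := by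
  classical
  have : Nonempty ι := Fintype.card_pos_iff.1 (by omega)
  refine ⟨lt_of_le_of_ne inf_le_right fun heq => ?_, fun M hHM hMS => ?_⟩
  · -- a transvection with a multiplier outside the subfield
    obtain ⟨μ, hμ⟩ : ∃ μ, μ ∉ F₀ := by
      by_contra h
      push Not at h
      have : Nat.card F₀ = Nat.card F := Nat.card_congr (Equiv.subtypeUnivEquiv h)
      rw [this] at hcard
      have h1 : 1 = r := Nat.pow_right_injective Finite.one_lt_card (by simpa using hcard)
      exact hr.one_lt.ne h1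
    obtain ⟨i, j, k, hij, hik, hjk⟩ := Fintype.two_lt_card_iff.1 (by omega : 2 < Fintype.card ι)
    have h0 : (μ • LinearMap.proj j : (ι → F) →ₗ[F] F) (Pi.single i 1) = 0 := by
      simp [hij.symm]
    have hm : tv (Pi.single i 1) (μ • LinearMap.proj j) h0 ∈
        Cfsg.Geo.subfieldSubgroup F₀ (1 : GL ι F) ⊓ Cfsg.Geo.specialLinear ι F := by
      rw [heq]; exact tv_mem_specialLinear _ _ _
    obtain ⟨c, x, hx, hc⟩ := Subfld.lineRat_of_mem hm.1
      (show Subfld.Rat F₀ (1 : GL ι F) (Pi.single j (1 : F)) from fun l => by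
        simpa using ratV_single (F₀ := F₀) j l)
    have e1 := congrFun hc i
    have e2 := congrFun hc j
    simp [hij, hij.symm] at e1 e2
    have hc0 : c ≠ 0 := fun h => by simp [h] at e2
    have hx' : RatV F₀ x := fun l => by simpa using hx l
    apply hμ
    rw [show μ = x i / x j by
      rw [e1]; field_simp [show x j ≠ 0 from fun h => by simp [h] at e2]; linear_combination -(x i) * e2]
    exact div_mem (hx' i) (hx' j)
  have hM : ∀ a ψ (h : ψ a = 0), RatV F₀ a → RatF F₀ ψ → tv a ψ h ∈ M := fun a ψ h ha hψ =>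
    hHM ⟨tv_mem_subfield h ha hψ, tv_mem_specialLinear _ _ _⟩
  let N : Submodule F₀ F :=
    { carrier := (lam hn hM : Set F)
      zero_mem' := zero_mem (lam hn hM)
      add_mem' := fun h1 h2 => add_mem h1 h2
      smul_mem' := fun c x hx => mul_mem (le_lam hn hM c.2) hx }
  have h1 := Module.natCard_eq_pow_finrank (K := F₀) (V := N)
  have h2 := Module.natCard_eq_pow_finrank (K := lam hn hM) (V := F)
  have h3 : Nat.card N = Nat.card (lam hn hM) := rfl
  rw [hcard, ← h3, h1, ← pow_mul] at h2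
  have h4 := Nat.pow_right_injective Finite.one_lt_card h2
  rcases (Nat.dvd_prime hr).1 (Dvd.intro _ h4.symm) with h | h
  · -- the multipliers form the subfield
    left
    rw [h, pow_one] at h1
    have hΛ : ∀ μ ∈ lam hn hM, μ ∈ F₀ := by
      have e : (F₀ : Set F) = (lam hn hM : Set F) :=
        Set.eq_of_subset_of_ncard_le (le_lam hn hM) (le_of_eq (h3.symm.trans h1)) (Set.toFinite _)
      exact fun μ hμ => by rw [← SetLike.mem_coe, e]; exact hμ
    refine le_antisymm (le_inf (fun g hg => mem_of_lineRat fun x hx => ?_) hMS) hHM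
    by_cases hx0 : x = 0
    · exact ⟨0, 0, fun _ => zero_mem F₀, by simp [hx0, ap_zero]⟩
    obtain ⟨ψ, hψ, hψ0, hψx, -⟩ := exists_ratF_kill hn hx hx
    have hc := mul_mem (mul_mem hg (hM x ψ hψx hx hψ)) (inv_mem hg)
    rw [conj_tv] at hc
    refine centre_lineRat hn hM hr hcard hΛ hc (ap_ne_zero g hx0) ?_
    intro e
    obtain ⟨k, hk⟩ := exists_single_ne hψ0
    have := LinearMap.congr_fun e (ap g (Pi.single k (1 : F)))
    simp [ap_inv_ap] at this
    exact hk this
  · right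
    refine le_antisymm hMS (specialLinear_le_of_all (F₀ := F₀) fun μ => ?_)
    have hV : Nat.card (lam hn hM) = Nat.card F := by rw [← h3, h1, h, hcard]
    have e : (lam hn hM : Set F) = Set.univ :=
      Set.eq_of_subset_of_ncard_le (Set.subset_univ _)
        (by rw [Set.ncard_univ]; exact hV.ge) (Set.toFinite _)
    exact e.ge (Set.mem_univ μ)

/-- Conjugating the larger and the smaller group preserves maximality. -/
lemma isMaximalIn_map_equiv {G : Type*} [Group G] {K H : Subgroup G}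
    (h : Cfsg.Geo.IsMaximalIn K H) (e : G ≃* G) :
    Cfsg.Geo.IsMaximalIn (K.map e.toMonoidHom) (H.map e.toMonoidHom) := by
  refine ⟨(Subgroup.map_lt_map_iff_of_injective e.injective).2 h.1, fun M hHM hMK => ?_⟩
  have hM : (M.comap e.toMonoidHom).map e.toMonoidHom = M :=
    Subgroup.map_comap_eq_self_of_surjective e.surjective M
  rcases h.2 (M.comap e.toMonoidHom) (Subgroup.map_le_iff_le_comap.1 hHM)
    (by
      intro x hx
      obtain ⟨y, hy, hxy⟩ := hMK hx
      exact e.injective hxy ▸ hy) with h1 | h1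
  · exact Or.inl (by rw [← hM, h1])
  · exact Or.inr (by rw [← hM, h1])

/-- The subfield group of any rational structure is maximal in the special linear group. -/
theorem linearSubfield_isMaximalIn' [Finite F] (hn : 3 ≤ Fintype.card ι) (F₀ : Subfield F) {r : ℕ}
    (hr : r.Prime) (hcard : Nat.card F = Nat.card F₀ ^ r) (P : GL ι F) :
    Cfsg.Geo.IsMaximalIn (Cfsg.Geo.specialLinear ι F)
      (Cfsg.Geo.subfieldSubgroup F₀ P ⊓ Cfsg.Geo.specialLinear ι F) := by
  have hSL : (Cfsg.Geo.specialLinear ι F).map (MulAut.conj P).toMonoidHom =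
      Cfsg.Geo.specialLinear ι F := by
    have : (Cfsg.Geo.specialLinear ι F).Normal := by
      unfold Cfsg.Geo.specialLinear; infer_instance
    ext g
    rw [Subgroup.mem_map_equiv, MulAut.conj_symm_apply]
    exact ⟨fun h => by simpa [mul_assoc] using this.conj_mem _ h P,
      fun h => by simpa [mul_assoc] using this.conj_mem _ h P⁻¹⟩
  have := isMaximalIn_map_equiv (linearSubfield_isMaximalIn hn F₀ hr hcard) (MulAut.conj P)
  rw [Subgroup.map_inf _ _ _ (MulAut.conj P).injective, hSL] at this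
  convert this using 2
  rw [Cfsg.Geo.subfieldSubgroup, Cfsg.Geo.subfieldSubgroup, map_one (MulAut.conj (G := GL ι F)),
    Subgroup.map_map]
  rfl

end CfsgLib.Geometric
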