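import Cfsg.Agent.Lib.Geometric.LinearTensorUnip

/-!
The stabiliser of a tensor decomposition `F^n₁ ⊗ F^n₂` with `n₁ < n₂` is maximal in the special
linear group.
-/

namespace CfsgLib.Geometric

open Matrix

variable {ι : Type} [Fintype ι] [DecidableEq ι] {F : Type*} [Field F]

namespace LTensor

open Tensor

variable {n₁ n₂ : ℕ} {e : ι ≃ Fin n₁ × Fin n₂} {P : GL ι F} {M : Subgroup (GL ι F)}
  (hH : Cfsg.Geo.tensorProductSubgroup n₁ n₂ e P ⊓ Cfsg.Geo.specialLinear ι F ≤ M)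

omit hH in
/-- A factorwise transvection of the second factor. -/
lemma ap_kron_tv (w : Fin n₂ → F) (φ : (Fin n₂ → F) →ₗ[F] F) (h : φ w = 0) (v : ι → F) :
    ap (kron e P (1 : GL (Fin n₁) F) (tv w φ h)) v = v + pt e P (con e P φ v) w := by
  have h1 : (apEquiv (kron e P (1 : GL (Fin n₁) F) (tv w φ h))).toLinearMap =
      LinearMap.id + (ptl e P w).comp (con e P φ) :=
    ext_pt e P fun a b => by simp [pt_add_right, pt_smul_right]
  exact LinearMap.congr_fun h1 v

include hH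

/-- An element outside the stabiliser fixing a slice forces the whole special linear group. -/
lemma specialLinear_le_of_slice_fix (hS : M ≤ Cfsg.Geo.specialLinear ι F) (hn₁ : 2 ≤ n₁)
    (hn₂ : 3 ≤ n₂) (hc : 3 ≤ n₁ ∨ ∃ c : F, c ≠ 0 ∧ c ≠ 1) {g : GL ι F} (hg : g ∈ M)
    (hgT : g ∉ Cfsg.Geo.tensorProductSubgroup n₁ n₂ e P) {w : Fin n₂ → F} (hw : w ≠ 0)
    (hmap : ∀ x ∈ slice e P w, ap g x ∈ slice e P w) : Cfsg.Geo.specialLinear ι F ≤ M := by
  obtain ⟨ω, -, hω⟩ := exists_functional_eq_one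
    (U := (⊥ : Submodule F (Fin n₂ → F))) (x := w) (by simpa using hw)
  -- the action on the slice
  set G₀ := (con e P ω).comp ((apEquiv g).toLinearMap.comp (ptl e P w)) with hG₀
  have hG : ∀ u, ap g (pt e P u w) = pt e P (G₀ u) w := by
    intro u
    obtain ⟨u', hu'⟩ := hmap _ (pt_mem_slice e P u w)
    simp only [ptl_apply] at hu'
    simp [hG₀, ← hu', hω]
  have hGinj : Function.Injective G₀ := by
    intro u u' h
    refine pt_inj_left e P hw (ap_injective g ?_)
    rw [hG, hG, h]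
  let G : GL (Fin n₁) F :=
    ofEquiv (LinearEquiv.ofBijective G₀ ⟨hGinj, LinearMap.injective_iff_surjective.mp hGinj⟩)
  have hGap : ∀ u, ap G u = G₀ u := fun u => by rw [ap_ofEquiv]; rfl
  have hginv : ∀ u, ap g⁻¹ (pt e P u w) = pt e P (ap G⁻¹ u) w := by
    intro u
    apply ap_injective g
    rw [ap_ap_inv, hG, ← hGap, ap_ap_inv]
  -- conjugates of the factorwise transvections
  have hgood : ∀ φ : (Fin n₂ → F) →ₗ[F] F, φ w = 0 →
      Good e P M w ((apEquiv G).toLinearMap.comp ((con e P φ).comp (apEquiv g⁻¹).toLinearMap)) := by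
    intro φ hφ
    obtain ⟨h, hm⟩ := good_con hH hφ
    refine ⟨LinearMap.ext fun u => by simp [hginv, hφ, ap_zero], ?_⟩
    convert M.mul_mem (M.mul_mem hg hm) (M.inv_mem hg) using 1
    refine gl_ext fun x => ?_
    simp [ap_mul, ap_add, ap_ap_inv, hG, hGap]
  by_cases hall : ∀ φ : (Fin n₂ → F) →ₗ[F] F, φ w = 0 → ∀ y u, ∃ c : F,
      ap G (con e P φ (ap g⁻¹ (pt e P u y))) = c • u
  swap
  · push Not at hall
    obtain ⟨φ, hφ, y, u, hu⟩ := hall
    exact specialLinear_le_of_good hH hn₁ hn₂ hc hw (hgood φ hφ) (u := u) (y := y) fun c => by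
      simpa using hu c
  set q := kron e P G 1 * g⁻¹ with hq
  have hqw : ∀ u, ap q (pt e P u w) = pt e P u w := fun u => by
    rw [hq, ap_mul, hginv, ap_kron, ap_ap_inv, ap_one]
  have hconq : ∀ φ x, con e P φ (ap q x) = ap G (con e P φ (ap g⁻¹ x)) := by
    intro φ x
    rw [hq, ap_mul]
    exact LinearMap.congr_fun (ext_pt e P
      (f := (con e P φ).comp (apEquiv (kron e P G 1)).toLinearMap)
      (g := (apEquiv G).toLinearMap.comp (con e P φ)) fun a b => by simp [ap_smul]) _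
  obtain ⟨u₀, hu₀⟩ : ∃ u₀ : Fin n₁ → F, u₀ ≠ 0 :=
    ⟨Pi.single ⟨0, by omega⟩ 1, fun h => by simpa using congrFun h ⟨0, by omega⟩⟩
  obtain ⟨α, -, hα⟩ := exists_functional_eq_one
    (U := (⊥ : Submodule F (Fin n₁ → F))) (x := u₀) (by simpa using hu₀)
  set T₀ := (conr e P α).comp ((apEquiv q).toLinearMap.comp (ptr e P u₀)) with hT₀
  have hT : ∀ φ : (Fin n₂ → F) →ₗ[F] F, φ w = 0 → ∀ u y,
      con e P φ (ap q (pt e P u y)) = φ (T₀ y) • u := by
    intro φ hφ u y
    obtain ⟨c, hc'⟩ := exists_scalar (B := (apEquiv G).toLinearMap.comp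
      ((con e P φ).comp ((apEquiv g⁻¹).toLinearMap.comp (ptl e P y)))) fun v => by
        simpa using hall φ hφ y v
    simp only [LinearMap.comp_apply, LinearEquiv.coe_coe, apEquiv_apply, ptl_apply] at hc'
    have : φ (T₀ y) = c := by
      simp [hT₀, apply_conr, hconq, hc', hα]
    rw [hconq, hc', this]
  have hTw : T₀ w = w := by simp [hT₀, hqw, hα]
  have hTmod : ∀ u y, ap q (pt e P u y) - pt e P u (T₀ y) =
      pt e P (con e P ω (ap q (pt e P u y) - pt e P u (T₀ y))) w := fun u y =>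
    mem_slice_of_con e P hω fun φ hφ => by rw [map_sub, hT φ hφ, con_pt, sub_self]
  have hTinj : Function.Injective T₀ := by
    intro y y' h
    rw [← sub_eq_zero] at h ⊢
    rw [← map_sub] at h
    set z := y - y' with hz
    have h1 := hTmod u₀ z
    rw [h, pt_zero_right, sub_zero, ← hqw] at h1
    have h2 := ap_injective q h1
    have h3 : z = α (con e P ω (ap q (pt e P u₀ z))) • w := by
      have := congrArg (conr e P α) h2
      simpa [hα] using this
    rw [h3, map_smul, hTw] at h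
    rw [h3, h]
  let T : GL (Fin n₂) F :=
    ofEquiv (LinearEquiv.ofBijective T₀ ⟨hTinj, LinearMap.injective_iff_surjective.mp hTinj⟩)
  have hTap : ∀ y, ap T y = T₀ y := fun y => by rw [ap_ofEquiv]; rfl
  have hTw' : ap T⁻¹ w = w := ap_injective T (by rw [ap_ap_inv, hTap, hTw])
  set r := kron e P G T⁻¹ * g⁻¹ with hr
  have hrq : r = kron e P 1 T⁻¹ * q := by
    rw [hr, hq, ← mul_assoc]
    congr 1
    exact gl_ext_pt e P fun x y => by simp [ap_mul]
  have hrw : ∀ u, ap r (pt e P u w) = pt e P u w := fun u => by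
    rw [hrq, ap_mul, hqw, ap_kron, ap_one, hTw']
  set S := (con e P ω).comp ((apEquiv r).toLinearMap - LinearMap.id) with hS'
  have hrS : ∀ x, ap r x = x + pt e P (S x) w := by
    refine LinearMap.congr_fun (ext_pt e P (f := (apEquiv r).toLinearMap)
      (g := LinearMap.id + (ptl e P w).comp S) fun u y => ?_)
    have h1 : ap r (pt e P u y) - pt e P u y =
        ap (kron e P 1 T⁻¹) (ap q (pt e P u y) - pt e P u (T₀ y)) := by
      rw [hrq, ap_mul, ap_sub, ap_kron, ap_one, ← hTap, ap_inv_ap]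
    rw [hTmod, ap_kron, ap_one, hTw'] at h1
    simp only [LinearMap.add_apply, LinearMap.id_apply, LinearMap.comp_apply, ptl_apply,
      LinearEquiv.coe_coe, apEquiv_apply, hS', LinearMap.sub_apply]
    rw [h1, con_pt, hω, one_smul, ← h1]
    abel
  have hS0 : S.comp (ptl e P w) = 0 := LinearMap.ext fun u => by simp [hS', hrw]
  have hru : r = unip (ptl e P w) S hS0 := gl_ext fun x => by rw [hrS, ap_unip, ptl_apply]
  have hgS := hS hg
  have hk : kron e P G T⁻¹ ∈
      Cfsg.Geo.tensorProductSubgroup n₁ n₂ e P ⊓ Cfsg.Geo.specialLinear ι F := by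
    refine ⟨kron_mem e P _ _, ?_⟩
    have h1 : r * g ∈ Cfsg.Geo.specialLinear ι F :=
      mul_mem (hru ▸ unip_mem_specialLinear _ _ _) hgS
    rwa [hr, inv_mul_cancel_right] at h1
  have hrM : r ∈ M := M.mul_mem (hH hk) (M.inv_mem hg)
  have hSgood : Good e P M w S := ⟨hS0, hru ▸ hrM⟩
  by_cases hall' : ∀ y u, ∃ c : F, S (pt e P u y) = c • u
  swap
  · push Not at hall'
    obtain ⟨y, u, hu⟩ := hall'
    exact specialLinear_le_of_good hH hn₁ hn₂ hc hw hSgood (u := u) (y := y) hu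
  exfalso
  set σ := α.comp (S.comp (ptr e P u₀)) with hσ
  have hσS : ∀ u y, S (pt e P u y) = σ y • u := by
    intro u y
    obtain ⟨c, hc'⟩ := exists_scalar (B := S.comp (ptl e P y)) fun v => by simpa using hall' y v
    simp only [LinearMap.comp_apply, ptl_apply] at hc'
    simp [hσ, hc', hα]
  have hσw : σ w = 0 := by
    have := LinearMap.congr_fun hS0 u₀
    simp only [LinearMap.comp_apply, ptl_apply, LinearMap.zero_apply] at this
    simp [hσ, this]
  have hrk : r = kron e P 1 (tv w σ hσw) := gl_ext_pt e P fun u y => by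
    rw [hrS, hσS, ap_kron, ap_one, ap_tv, pt_add_right, pt_smul_left, pt_smul_right]
  refine hgT ?_
  have : g = r⁻¹ * kron e P G T⁻¹ := by rw [hr, _root_.mul_inv_rev, inv_inv, inv_mul_cancel_right]
  rw [this, hrk]
  exact mul_mem (inv_mem (kron_mem e P _ _)) (kron_mem e P _ _)

/-- An element outside the stabiliser mapping a slice into a slice forces the whole special
linear group. -/
lemma specialLinear_le_of_slice_map (hS : M ≤ Cfsg.Geo.specialLinear ι F) (hn₁ : 2 ≤ n₁)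
    (hn₂ : 3 ≤ n₂) (hc : 3 ≤ n₁ ∨ ∃ c : F, c ≠ 0 ∧ c ≠ 1) {g : GL ι F} (hg : g ∈ M)
    (hgT : g ∉ Cfsg.Geo.tensorProductSubgroup n₁ n₂ e P) {w w' : Fin n₂ → F} (hw : w ≠ 0)
    (hw' : w' ≠ 0) (hmap : ∀ x ∈ slice e P w, ap g x ∈ slice e P w') :
    Cfsg.Geo.specialLinear ι F ≤ M := by
  obtain ⟨b, hb, c, hbw⟩ : ∃ b ∈ Cfsg.Geo.specialLinear (Fin n₂) F, ∃ c : F, ap b w' = c • w := by
    by_cases hdep : w ∈ Submodule.span F {w'}
    · obtain ⟨t, ht⟩ := Submodule.mem_span_singleton.mp hdep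
      have ht0 : t ≠ 0 := fun h => hw (by rw [← ht, h, zero_smul])
      exact ⟨1, one_mem _, t⁻¹, by rw [ap_one, ← ht, inv_smul_smul₀ ht0]⟩
    · obtain ⟨φ, hφ, hm⟩ := exists_tv_map (notMem_span_sub hw' hdep)
      exact ⟨tv _ φ hφ, tv_mem_specialLinear _ _ _, 1, by rw [hm, one_smul]⟩
  have hk := kron_mem_inf e P (one_mem _) hb
  refine specialLinear_le_of_slice_fix hH hS hn₁ hn₂ hc (M.mul_mem (hH hk) hg) (fun h => ?_) hw
    fun x hx => ?_
  · exact hgT (by simpa using mul_mem (inv_mem (kron_mem e P (1 : GL (Fin n₁) F) b)) h)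
  · obtain ⟨u, hu⟩ := hmap x hx
    simp only [ptl_apply] at hu
    rw [ap_mul, ← hu, ap_kron, ap_one, hbw, pt_smul_right, ← pt_smul_left]
    exact pt_mem_slice e P _ _

/-- The special linear group lies in any strictly larger group of it. -/
theorem specialLinear_le_of_ne (hS : M ≤ Cfsg.Geo.specialLinear ι F) (hn₁ : 2 ≤ n₁)
    (h12 : n₁ < n₂) (hc : 3 ≤ n₁ ∨ ∃ c : F, c ≠ 0 ∧ c ≠ 1)
    (hne : M ≠ Cfsg.Geo.tensorProductSubgroup n₁ n₂ e P ⊓ Cfsg.Geo.specialLinear ι F) :
    Cfsg.Geo.specialLinear ι F ≤ M := by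
  classical
  have hn₂ : 3 ≤ n₂ := by omega
  by_contra hfalse
  have hstar : ∀ g ∈ M, ∀ w w' : Fin n₂ → F, w ≠ 0 → w' ≠ 0 →
      (∀ x ∈ slice e P w, ap g x ∈ slice e P w') →
      g ∈ Cfsg.Geo.tensorProductSubgroup n₁ n₂ e P := by
    intro g hg w w' hw hw' hmap
    by_contra hgT
    exact hfalse (specialLinear_le_of_slice_map hH hS hn₁ hn₂ hc hg hgT hw hw' hmap)
  -- a conjugate of a factorwise transvection is factorwise only trivially
  have hconj : ∀ g ∈ M, ∀ (w : Fin n₂ → F) (φ : (Fin n₂ → F) →ₗ[F] F) (h : φ w = 0), w ≠ 0 →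
      φ ≠ 0 → g * kron e P 1 (tv w φ h) * g⁻¹ ∈ Cfsg.Geo.tensorProductSubgroup n₁ n₂ e P →
      g ∈ Cfsg.Geo.tensorProductSubgroup n₁ n₂ e P := by
    intro g hg w φ h hw hφ hT
    set y := g * kron e P 1 (tv w φ h) * g⁻¹ with hy
    have hyx : ∀ x, ap y x = x + ap g (pt e P (con e P φ (ap g⁻¹ x)) w) := by
      refine LinearMap.congr_fun (f := (apEquiv y).toLinearMap)
        (g := LinearMap.id + (apEquiv g).toLinearMap.comp
          ((ptl e P w).comp ((con e P φ).comp (apEquiv g⁻¹).toLinearMap))) ?_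
      refine LinearMap.ext fun x => ?_
      obtain ⟨z, rfl⟩ : ∃ z, ap g z = x := ⟨_, ap_ap_inv g x⟩
      simp only [LinearEquiv.coe_coe, apEquiv_apply, LinearMap.add_apply, LinearMap.id_apply,
        LinearMap.comp_apply, ptl_apply, ap_inv_ap, hy, ap_mul, ← ap_add]
      congr 1
      exact ap_kron_tv w φ h z
    obtain ⟨a, b, hab⟩ := (mem_iff e P y).mp hT
    -- every vector of the first factor is an eigenvector
    have heig : ∀ u, ∃ c : F, (apEquiv a).toLinearMap u = c • u := by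
      intro u
      by_cases hu : u = 0
      · exact ⟨0, by simp [hu, ap_zero]⟩
      have hker : LinearMap.ker ((con e P φ).comp ((apEquiv g⁻¹).toLinearMap.comp (ptr e P u)))
          ≠ ⊥ := LinearMap.ker_ne_bot_of_finrank_lt (by simpa using h12)
      obtain ⟨z, hz, hz0⟩ := Submodule.exists_mem_ne_zero_of_ne_bot hker
      simp only [LinearMap.mem_ker, LinearMap.comp_apply, LinearEquiv.coe_coe, apEquiv_apply,
        ptr_apply] at hz
      have h1 := hyx (pt e P u z)
      rw [hz, pt_zero_left, ap_zero, add_zero, hab] at h1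
      obtain ⟨j, hj⟩ := Function.ne_iff.mp (ap_ne_zero b hz0)
      refine ⟨z j / ap b z j, funext fun i => ?_⟩
      have h2 := congrFun ((coords e P).injective h1) (i, j)
      simp only [Pi.zero_apply] at hj
      simp only [LinearEquiv.coe_coe, apEquiv_apply, Pi.smul_apply, smul_eq_mul] at h2 ⊢
      field_simp
      linear_combination h2
    obtain ⟨μ, hμ⟩ := exists_scalar heig
    simp only [LinearEquiv.coe_coe, apEquiv_apply] at hμ
    have hyb : ∀ u z, ap y (pt e P u z) = pt e P u (μ • ap b z) := fun u z => by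
      rw [hab, hμ, pt_smul_left, pt_smul_right]
    obtain ⟨z, hz⟩ : ∃ z, μ • ap b z - z ≠ 0 := by
      by_contra hc'
      push Not at hc'
      have hy1 : y = 1 := gl_ext_pt e P fun u z => by
        rw [hyb, sub_eq_zero.mp (hc' z), ap_one]
      have hk1 : kron e P 1 (tv w φ h) = 1 := by
        rwa [hy, conj_eq_one_iff] at hy1
      obtain ⟨x, hx⟩ : ∃ x, φ x ≠ 0 := by
        by_contra hc''
        push Not at hc''
        exact hφ (LinearMap.ext hc'')
      set u₁ : Fin n₁ → F := Pi.single ⟨0, by omega⟩ 1 with hu₁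
      have hu₁0 : u₁ ≠ 0 := fun h0 => by simpa [hu₁] using congrFun h0 ⟨0, by omega⟩
      have := congrArg (fun k => ap k (pt e P u₁ x)) hk1
      simp only [ap_kron, ap_one, ap_tv] at this
      have := pt_inj_right e P hu₁0 this
      simp [hw, hx] at this
    have hsl : ∀ x ∈ slice e P (μ • ap b z - z), ap g⁻¹ x ∈ slice e P w := by
      rintro _ ⟨u, rfl⟩
      have h1 := hyx (pt e P u z)
      rw [hyb, add_comm, ← sub_eq_iff_eq_add, ← pt_sub_right] at h1
      rw [ptl_apply, h1, ap_inv_ap]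
      exact pt_mem_slice e P _ _
    simpa using inv_mem (hstar g⁻¹ (M.inv_mem hg) _ w hz hw hsl)
  -- intersections of slices with moved slices
  set W : ℕ → Prop := fun d => ∃ g ∈ M, g ∉ Cfsg.Geo.tensorProductSubgroup n₁ n₂ e P ∧
    ∃ w w' : Fin n₂ → F, w ≠ 0 ∧ w' ≠ 0 ∧
      d ≤ Module.finrank F ↥((slice e P w).map (apEquiv g).toLinearMap ⊓ slice e P w') with hW
  obtain ⟨g₀, hg₀, hg₀T⟩ : ∃ g ∈ M, g ∉ Cfsg.Geo.tensorProductSubgroup n₁ n₂ e P := by
    by_contra hc'
    push Not at hc'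
    exact hne (le_antisymm (le_inf hc' hS) hH)
  set j₀ : Fin n₂ := ⟨0, by omega⟩
  set j₁ : Fin n₂ := ⟨1, by omega⟩
  set w₀ : Fin n₂ → F := Pi.single j₀ 1 with hw₀
  set φ₀ : (Fin n₂ → F) →ₗ[F] F := LinearMap.proj j₁ with hφ₀
  have hw₀0 : w₀ ≠ 0 := fun h => by simpa [hw₀] using congrFun h j₀
  have hφw : φ₀ w₀ = 0 := by simp [hφ₀, hw₀, j₀, j₁]
  have hφ₀0 : φ₀ ≠ 0 := fun h => by
    simpa [hφ₀] using LinearMap.congr_fun h (Pi.single j₁ 1)
  -- a moved slice meeting a slice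
  have hW1 : W 1 := by
    set y := g₀ * kron e P 1 (tv w₀ φ₀ hφw) * g₀⁻¹ with hy
    have hyM : y ∈ M := M.mul_mem (M.mul_mem hg₀
      (hH (kron_mem_inf e P (one_mem _) (tv_mem_specialLinear _ _ _)))) (M.inv_mem hg₀)
    have hyT : y ∉ Cfsg.Geo.tensorProductSubgroup n₁ n₂ e P := fun h =>
      hg₀T (hconj g₀ hg₀ w₀ φ₀ hφw hw₀0 hφ₀0 h)
    set u₁ : Fin n₁ → F := Pi.single ⟨0, by omega⟩ 1 with hu₁
    have hu₁0 : u₁ ≠ 0 := fun h0 => by simpa [hu₁] using congrFun h0 ⟨0, by omega⟩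
    have hker : LinearMap.ker ((con e P φ₀).comp ((apEquiv g₀⁻¹).toLinearMap.comp (ptr e P u₁)))
        ≠ ⊥ := LinearMap.ker_ne_bot_of_finrank_lt (by simpa using h12)
    obtain ⟨z, hz, hz0⟩ := Submodule.exists_mem_ne_zero_of_ne_bot hker
    simp only [LinearMap.mem_ker, LinearMap.comp_apply, LinearEquiv.coe_coe, apEquiv_apply,
      ptr_apply] at hz
    have hfix : ap y (pt e P u₁ z) = pt e P u₁ z := by
      rw [hy, ap_mul, ap_mul]
      have : ap (kron e P 1 (tv w₀ φ₀ hφw)) (ap g₀⁻¹ (pt e P u₁ z)) =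
          ap g₀⁻¹ (pt e P u₁ z) := by
        rw [ap_kron_tv, hz, pt_zero_left, add_zero]
      rw [this, ap_ap_inv]
    refine ⟨y, hyM, hyT, z, z, hz0, hz0, Submodule.one_le_finrank_iff.mpr ?_⟩
    intro hbot
    have : pt e P u₁ z ∈ (slice e P z).map (apEquiv y).toLinearMap ⊓ slice e P z :=
      ⟨⟨_, pt_mem_slice e P u₁ z, hfix⟩, pt_mem_slice e P u₁ z⟩
    rw [hbot, Submodule.mem_bot] at this
    exact pt_ne_zero e P hu₁0 hz0 this
  have hbound : ∀ d, W d → d ≤ n₁ := by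
    rintro d ⟨g, -, -, w, w', -, -, hd⟩
    refine hd.trans ((Submodule.finrank_mono inf_le_right).trans ?_)
    exact ((ptl e P w').finrank_range_le).trans (by simp)
  set d := Nat.findGreatest W n₁ with hd
  have hWd : W d := Nat.findGreatest_spec (hbound 1 hW1) hW1
  have hd1 : 1 ≤ d := Nat.le_findGreatest (hbound 1 hW1) hW1
  obtain ⟨g, hg, hgT, w, w', hw, hw', hdim⟩ := hWd
  set L := (slice e P w).map (apEquiv g).toLinearMap with hL
  set D := L ⊓ slice e P w' with hD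
  have hDne : D ≠ ⊥ := fun h => by
    rw [h, finrank_bot] at hdim
    omega
  obtain ⟨_, ⟨hdL, ⟨dU, rfl⟩⟩, hd0⟩ := Submodule.exists_mem_ne_zero_of_ne_bot hDne
  have hdU : dU ≠ 0 := fun h => hd0 (by simp [h, pt_zero_left])
  obtain ⟨zz, ⟨z₀, hz₀w, rfl⟩, hzw'⟩ : ∃ z ∈ L, z ∉ slice e P w' := by
    by_contra hc'
    push Not at hc'
    exact hgT (hstar g hg w w' hw hw' fun x hx => hc' _ ⟨x, hx, rfl⟩)
  simp only [LinearEquiv.coe_coe, apEquiv_apply] at hzw'
  -- a factorwise transvection preserving more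
  let Φ : ((Fin n₂ → F) →ₗ[F] F) →ₗ[F] F × (Fin n₁ → F) :=
    { toFun := fun φ => (φ w', con e P φ (ap g z₀))
      map_add' := fun φ ψ => by simp [con_add]
      map_smul' := fun c φ => by simp [con_smul] }
  obtain ⟨φ, hφ0, hφw', t, hφz⟩ : ∃ φ : (Fin n₂ → F) →ₗ[F] F, φ ≠ 0 ∧ φ w' = 0 ∧
      ∃ t : F, con e P φ (ap g z₀) = t • dU := by
    by_cases hinj : Function.Injective Φ
    · have hfr := LinearMap.finrank_le_finrank_of_injective hinj
      have hdual : Module.finrank F ((Fin n₂ → F) →ₗ[F] F) = n₂ := by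
        rw [Subspace.dual_finrank_eq, Module.finrank_fin_fun]
      have hsur : Function.Surjective Φ := by
        refine (LinearMap.injective_iff_surjective_of_finrank_eq_finrank ?_).mp hinj
        rw [hdual] at hfr ⊢
        simp at hfr ⊢
        omega
      obtain ⟨φ, hφ⟩ := hsur (0, dU)
      have h1 : φ w' = 0 := congrArg Prod.fst hφ
      have h2 : con e P φ (ap g z₀) = dU := congrArg Prod.snd hφ
      refine ⟨φ, fun h => hdU ?_, h1, 1, by rw [h2, one_smul]⟩
      rw [← h2, h]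
      have : con e P (0 : (Fin n₂ → F) →ₗ[F] F) = 0 := by
        simpa using con_smul e P (0 : F) (0 : (Fin n₂ → F) →ₗ[F] F)
      rw [this, LinearMap.zero_apply]
    · rw [← LinearMap.ker_eq_bot] at hinj
      obtain ⟨φ, hφ, hφ0⟩ := Submodule.exists_mem_ne_zero_of_ne_bot hinj
      exact ⟨φ, hφ0, congrArg Prod.fst hφ, 0, (congrArg Prod.snd hφ).trans (zero_smul F dU).symm⟩
  set x := kron e P 1 (tv w' φ hφw') with hx
  have hxv : ∀ v, ap x v = v + pt e P (con e P φ v) w' := ap_kron_tv w' φ hφw'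
  have hxM : x ∈ M := hH (kron_mem_inf e P (one_mem _) (tv_mem_specialLinear _ _ _))
  set k := g⁻¹ * x * g⁻¹⁻¹ with hk
  have hkM : k ∈ M := M.mul_mem (M.mul_mem (M.inv_mem hg) hxM) (by simpa using hg)
  have hkT : k ∉ Cfsg.Geo.tensorProductSubgroup n₁ n₂ e P := fun h =>
    hgT (by simpa using inv_mem (hconj g⁻¹ (M.inv_mem hg) w' φ hφw' hw' hφ0 h))
  have hxfix : ∀ v ∈ slice e P w', ap x v = v := by
    rintro _ ⟨u, rfl⟩
    simp [hxv, hφw', pt_zero_left]
  set z := ap g z₀ with hz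
  have hxz : ap x z ∈ L := by
    rw [hxv, hφz, pt_smul_left]
    exact L.add_mem ⟨z₀, hz₀w, rfl⟩ (L.smul_mem t hdL)
  have hxz' : ap x z ∉ slice e P w' := fun h => hzw' <| by
    rw [hxv] at h
    simpa using (slice e P w').sub_mem h (pt_mem_slice e P (con e P φ z) w')
  set E := D ⊔ Submodule.span F {ap x z} with hE
  have hlt : D < E := lt_of_le_of_ne le_sup_left fun h => hxz' <| by
    have : ap x z ∈ D := by
      rw [h]
      exact Submodule.mem_sup_right (Submodule.mem_span_singleton_self _)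
    exact this.2
  have hinto : E.map (apEquiv g⁻¹).toLinearMap ≤
      (slice e P w).map (apEquiv k).toLinearMap ⊓ slice e P w := by
    rw [hE, Submodule.map_sup, Submodule.map_span, Set.image_singleton, sup_le_iff,
      Submodule.span_singleton_le_iff_mem]
    have hback : ∀ v ∈ L, ap g⁻¹ v ∈ slice e P w := by
      rintro _ ⟨v, hv, rfl⟩
      simpa [ap_inv_ap] using hv
    refine ⟨?_, ⟨z₀, hz₀w, ?_⟩, hback _ hxz⟩
    · rintro _ ⟨v, hv, rfl⟩
      refine ⟨⟨ap g⁻¹ v, hback v hv.1, ?_⟩, hback v hv.1⟩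
      simp [hk, ap_mul, ap_ap_inv, hxfix v hv.2]
    · simp [hk, ap_mul, hz]
  have hdim' : d + 1 ≤ Module.finrank F
      ↥((slice e P w).map (apEquiv k).toLinearMap ⊓ slice e P w) := by
    refine le_trans ?_ (Submodule.finrank_mono hinto)
    rw [LinearEquiv.finrank_map_eq]
    have := Submodule.finrank_lt_finrank_of_lt hlt
    omega
  have hWd' : W (d + 1) := ⟨k, hkM, hkT, w, w, hw, hw, hdim'⟩
  exact Nat.findGreatest_is_greatest (Nat.lt_succ_self _) (hbound _ hWd') hWd'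

omit hH in
/-- The stabiliser of a tensor decomposition is maximal in the special linear group. -/
theorem isMaximalIn {n₁ n₂ : ℕ} (hn₁ : 2 ≤ n₁) (h12 : n₁ < n₂)
    (hc : 3 ≤ n₁ ∨ ∃ c : F, c ≠ 0 ∧ c ≠ 1) (e : ι ≃ Fin n₁ × Fin n₂) (P : GL ι F) :
    Cfsg.Geo.IsMaximalIn (Cfsg.Geo.specialLinear ι F)
      (Cfsg.Geo.tensorProductSubgroup n₁ n₂ e P ⊓ Cfsg.Geo.specialLinear ι F) := by
  refine ⟨lt_of_le_of_ne inf_le_right fun he => ?_, fun M hHM hMS => ?_⟩
  · set i₀ : Fin n₁ := ⟨0, by omega⟩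
    set i₁ : Fin n₁ := ⟨1, by omega⟩
    set j₀ : Fin n₂ := ⟨0, by omega⟩
    set j₁ : Fin n₂ := ⟨1, by omega⟩
    have hij : i₀ ≠ i₁ := by simp [i₀, i₁, Fin.ext_iff]
    have hjj : j₀ ≠ j₁ := by simp [j₀, j₁, Fin.ext_iff]
    set φ : (ι → F) →ₗ[F] F := (LinearMap.proj i₁).comp (con e P (LinearMap.proj j₁)) with hφ
    have h0 : φ (pt e P (Pi.single i₀ 1) (Pi.single j₀ 1)) = 0 := by simp [hφ, hij.symm, hjj.symm]
    have hm : tv _ φ h0 ∈
        Cfsg.Geo.tensorProductSubgroup n₁ n₂ e P ⊓ Cfsg.Geo.specialLinear ι F := by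
      rw [he]
      exact tv_mem_specialLinear _ _ _
    obtain ⟨a, b, hab⟩ := (mem_iff e P _).mp hm.1
    have h := hab (Pi.single i₁ 1) (Pi.single j₁ 1)
    rw [ap_tv] at h
    simp only [hφ, LinearMap.comp_apply, con_pt, LinearMap.proj_apply, Pi.single_eq_same,
      one_smul] at h
    simp only [pt, ← map_add] at h
    have h' := (coords e P).injective h
    have h00 := congrFun h' (i₀, j₀)
    have h11 := congrFun h' (i₁, j₁)
    have h01 := congrFun h' (i₀, j₁)
    simp [hij, hij.symm, hjj, hjj.symm] at h00 h11 h01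
    rcases h01 with h01 | h01
    · rw [h01, zero_mul] at h00
      exact one_ne_zero h00
    · rw [h01, mul_zero] at h11
      exact one_ne_zero h11
  · by_cases hM : M = Cfsg.Geo.tensorProductSubgroup n₁ n₂ e P ⊓ Cfsg.Geo.specialLinear ι F
    · exact Or.inl hM
    · exact Or.inr (le_antisymm hMS (LTensor.specialLinear_le_of_ne hHM hMS hn₁ h12 hc hM))

end LTensor

end CfsgLib.Geometric
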