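import Cfsg.Agent.Lib.Geometric.TensorMaps

/-!
An overgroup of the stabiliser of a tensor decomposition inside the special linear group with a
unipotent element `x ↦ x + A x ⊗ w` whose components are not all scalar contains the special
linear group.
-/

namespace CfsgLib.Geometric

open Matrix

variable {ι : Type} [Fintype ι] [DecidableEq ι] {F : Type*} [Field F]

lemma tv_add_left {v v' : ι → F} {φ : (ι → F) →ₗ[F] F} (h : φ v = 0) (h' : φ v' = 0) :
    tv v φ h * tv v' φ h' = tv (v + v') φ (by simp [h, h']) := by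
  apply gl_ext
  intro x
  simp [ap_mul, h']
  abel

lemma tv_zero_fun (v : ι → F) : tv v (0 : (ι → F) →ₗ[F] F) rfl = 1 := gl_ext fun x => by simp

lemma tv_zero_left (φ : (ι → F) →ₗ[F] F) : tv (0 : ι → F) φ (map_zero φ) = 1 :=
  gl_ext fun x => by simp

/-- The elementary transvections of any frame generate the special linear group. -/
theorem specialLinear_le_of_elementary {κ : Type} [Fintype κ] [DecidableEq κ]
    (c : (κ → F) ≃ₗ[F] (ι → F)) {M : Subgroup (GL ι F)}
    (hM : ∀ p q : κ, p ≠ q → ∀ r : F, ∀ h : ((LinearMap.proj q).comp c.symm.toLinearMap)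
        (r • c (Pi.single p 1)) = 0,
      tv (r • c (Pi.single p 1)) ((LinearMap.proj q).comp c.symm.toLinearMap) h ∈ M) :
    Cfsg.Geo.specialLinear ι F ≤ M := by
  set δ : κ → (ι → F) →ₗ[F] F := fun q => (LinearMap.proj q).comp c.symm.toLinearMap with hδ
  have hδc : ∀ q z, δ q (c z) = z q := fun q z => by simp [hδ]
  -- a single functional
  have h1 : ∀ q v, ∀ h : δ q v = 0, tv v (δ q) h ∈ M := by
    intro q v h
    obtain ⟨z, rfl⟩ := c.surjective v
    have hz : c z = ∑ p, z p • c (Pi.single p 1) := by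
      conv_lhs => rw [pi_eq_sum_univ' z, map_sum]
      exact Finset.sum_congr rfl fun p _ => c.map_smul _ _
    have key : ∀ s : Finset κ, ∀ h : δ q (∑ p ∈ s, z p • c (Pi.single p 1)) = 0, q ∉ s →
        tv (∑ p ∈ s, z p • c (Pi.single p 1)) (δ q) h ∈ M := by
      intro s
      induction s using Finset.induction with
      | empty =>
        intro h _
        simp only [Finset.sum_empty]
        rw [tv_zero_left]
        exact one_mem M
      | insert p s hp ih =>
        intro h hq
        rw [Finset.mem_insert, not_or] at hq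
        have hA : δ q (z p • c (Pi.single p 1)) = 0 := by simp [hδc, hq.1]
        have hB : δ q (∑ i ∈ s, z i • c (Pi.single i 1)) = 0 := by
          rw [Finset.sum_insert hp, map_add, hA, zero_add] at h
          exact h
        have heq := tv_add_left hA hB
        simp only [Finset.sum_insert hp]
        exact heq ▸ M.mul_mem (hM p q (Ne.symm hq.1) _ hA) (ih hB hq.2)
    have hzq : z q = 0 := by rwa [hδc] at h
    have hs : c z = ∑ p ∈ Finset.univ.erase q, z p • c (Pi.single p 1) := by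
      rw [hz, Finset.sum_erase]
      simp [hzq]
    rw [tv_eq_tv h (hs ▸ h) (fun x => by rw [hs])]
    exact key _ _ (Finset.notMem_erase q _)
  -- a basis vector
  have h2 : ∀ p φ, ∀ h : φ (c (Pi.single p 1)) = 0, tv (c (Pi.single p 1)) φ h ∈ M := by
    intro p φ h
    set a : κ → F := fun q => φ (c (Pi.single q 1)) with ha
    have hφ : ∀ x, φ x = ∑ q, a q * δ q x := by
      intro x
      obtain ⟨z, rfl⟩ := c.surjective x
      conv_lhs => rw [pi_eq_sum_univ' z, map_sum, map_sum]
      simp only [map_smul, smul_eq_mul, hδc, ha]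
      exact Finset.sum_congr rfl fun q _ => mul_comm _ _
    have key : ∀ s : Finset κ, ∀ h : (∑ q ∈ s, a q • δ q) (c (Pi.single p 1)) = 0, p ∉ s →
        tv (c (Pi.single p 1)) (∑ q ∈ s, a q • δ q) h ∈ M := by
      intro s
      induction s using Finset.induction with
      | empty =>
        intro h _
        simp only [Finset.sum_empty]
        rw [tv_zero_fun]
        exact one_mem M
      | insert q s hq ih =>
        intro h hp
        rw [Finset.mem_insert, not_or] at hp
        have hA : (a q • δ q) (c (Pi.single p 1)) = 0 := by simp [hδc, Ne.symm hp.1]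
        have hB : (∑ i ∈ s, a i • δ i) (c (Pi.single p 1)) = 0 := by
          rw [Finset.sum_insert hq, LinearMap.add_apply, hA, zero_add] at h
          exact h
        have heq := tv_add (c (Pi.single p 1)) _ _ hA hB
        simp only [Finset.sum_insert hq]
        refine heq ▸ M.mul_mem ?_ (ih hB hp.2)
        have hC : δ q (a q • c (Pi.single p 1)) = 0 := by simp [hδc, Ne.symm hp.1]
        rw [tv_eq_tv hA hC fun x => by simp [smul_smul, mul_comm]]
        exact hM p q hp.1 _ hC
    have hap : a p = 0 := h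
    have hs : φ = ∑ q ∈ Finset.univ.erase p, a q • δ q := by
      refine LinearMap.ext fun x => ?_
      rw [LinearMap.sum_apply, hφ]
      simp only [LinearMap.smul_apply, smul_eq_mul]
      rw [Finset.sum_erase]
      simp [hap]
    rw [tv_eq_tv h (hs ▸ h) (fun x => by rw [← hs])]
    exact key _ _ (Finset.notMem_erase p _)
  refine specialLinear_le_of_tv_mem fun v φ h => ?_
  obtain ⟨z, rfl⟩ := c.surjective v
  by_cases hz : z = 0
  · have : tv (c z) φ h = 1 := gl_ext fun x => by simp [hz]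
    rw [this]
    exact one_mem M
  obtain ⟨q, hq⟩ := Function.ne_iff.mp hz
  simp only [Pi.zero_apply] at hq
  set u := -((z q)⁻¹ • (c z - z q • c (Pi.single q 1))) with hu
  have huq : δ q u = 0 := by simp [hu, hδc]
  have hm : ap (tv u (δ q) huq) (c z) = z q • c (Pi.single q 1) := by
    rw [ap_tv, hδc, hu, smul_neg, smul_smul, mul_inv_cancel₀ hq, one_smul]
    abel
  set g := tv u (δ q) huq with hg
  have hgM : g ∈ M := h1 q u huq
  have hconj := conj_tv g (c z) φ h
  have hd : (z q • φ.comp (apEquiv g⁻¹).toLinearMap) (c (Pi.single q 1)) = 0 := by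
    have := congrArg (ap g⁻¹) hm
    rw [ap_inv_ap, ap_smul] at this
    simp only [LinearMap.smul_apply, LinearMap.comp_apply, LinearEquiv.coe_coe, apEquiv_apply,
      ← map_smul, ← this, h]
  have hd' : (φ.comp (apEquiv g⁻¹).toLinearMap) (ap g (c z)) = 0 := by simp [ap_inv_ap, h]
  have htarget : g * tv (c z) φ h * g⁻¹ ∈ M := by
    rw [hconj, tv_eq_tv _ hd fun x => by simp [hm, smul_smul, mul_comm]]
    exact h2 q _ hd
  simpa [mul_assoc] using M.mul_mem (M.mul_mem (M.inv_mem hgM) htarget) hgM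

omit [DecidableEq ι] in
/-- A linear map with only eigenvectors is scalar. -/
lemma exists_scalar {m : ℕ} {B : (Fin m → F) →ₗ[F] (Fin m → F)}
    (h : ∀ u, ∃ c : F, B u = c • u) : ∃ c : F, ∀ u, B u = c • u := by
  by_cases hm : ∀ u : Fin m → F, u = 0
  · exact ⟨0, fun u => by rw [hm u, map_zero, smul_zero]⟩
  push Not at hm
  obtain ⟨u₀, hu₀⟩ := hm
  obtain ⟨c₀, hc₀⟩ := h u₀
  refine ⟨c₀, fun u => ?_⟩
  by_cases hu : u ∈ Submodule.span F {u₀}
  · obtain ⟨t, rfl⟩ := Submodule.mem_span_singleton.mp hu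
    rw [map_smul, hc₀, smul_comm]
  obtain ⟨c, hc⟩ := h u
  obtain ⟨d, hd⟩ := h (u + u₀)
  rw [map_add, hc, hc₀, smul_add] at hd
  have h1 : (c - d) • u = (d - c₀) • u₀ := by linear_combination (norm := module) hd
  have h2 : c = d := by
    by_contra hne
    refine hu (Submodule.mem_span_singleton.mpr ⟨(c - d)⁻¹ * (d - c₀), ?_⟩)
    rw [mul_smul, ← h1, inv_smul_smul₀ (sub_ne_zero.mpr hne)]
  have h3 : d = c₀ := by
    by_contra hne
    rw [h2, sub_self, zero_smul] at h1
    exact hu₀ ((smul_eq_zero.mp h1.symm).resolve_left (sub_ne_zero.mpr hne))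
  rw [hc, h2, h3]

/-- A transvection taking a vector to an independent one. -/
lemma exists_tv_map {x y : ι → F} (h : x ∉ Submodule.span F {y - x}) :
    ∃ (φ : (ι → F) →ₗ[F] F) (hφ : φ (y - x) = 0), ap (tv (y - x) φ hφ) x = y := by
  obtain ⟨φ, hφ, hφx⟩ := exists_functional_eq_one h
  exact ⟨φ, hφ _ (Submodule.mem_span_singleton_self _), by rw [ap_tv, hφx, one_smul]; abel⟩

omit [Fintype ι] [DecidableEq ι] in
lemma notMem_span_sub {x y : ι → F} (hx : x ≠ 0) (hy : y ∉ Submodule.span F {x}) :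
    x ∉ Submodule.span F {y - x} := by
  intro h
  obtain ⟨t, ht⟩ := Submodule.mem_span_singleton.mp h
  by_cases h0 : t = 0
  · rw [h0, zero_smul] at ht
    exact hx ht.symm
  · refine hy (Submodule.mem_span_singleton.mpr ⟨t⁻¹ * (1 + t), ?_⟩)
    rw [mul_smul, inv_smul_eq_iff₀ h0, add_smul, one_smul]
    nth_rw 1 [← ht]
    rw [smul_sub]
    abel

omit [Fintype ι] [DecidableEq ι] in
/-- Two vectors do not span a space of dimension at least three. -/
lemma exists_notMem_span_two {m : ℕ} (hm : 3 ≤ m) (x y : Fin m → F) :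
    ∃ z, z ∉ Submodule.span F ({x, y} : Set (Fin m → F)) := by
  by_contra h
  push Not at h
  have htop : Submodule.span F (Set.range ![x, y]) = ⊤ :=
    eq_top_iff.mpr fun z _ => by simpa [Set.pair_comm] using h z
  have h1 := finrank_range_le_card (R := F) ![x, y]
  rw [Set.finrank, htop, finrank_top, Module.finrank_fin_fun, Fintype.card_fin] at h1
  omega

namespace LTensor

open Tensor

variable {n₁ n₂ : ℕ} {e : ι ≃ Fin n₁ × Fin n₂} {P : GL ι F} {M : Subgroup (GL ι F)}
  (hH : Cfsg.Geo.tensorProductSubgroup n₁ n₂ e P ⊓ Cfsg.Geo.specialLinear ι F ≤ M)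

variable (e P M) in
/-- The maps `A` with `x ↦ x + A x ⊗ w` in `M`. -/
def Good (w : Fin n₂ → F) (A : (ι → F) →ₗ[F] (Fin n₁ → F)) : Prop :=
  ∃ h : A.comp (ptl e P w) = 0, unip (ptl e P w) A h ∈ M

lemma Good.congr {w : Fin n₂ → F} {A A' : (ι → F) →ₗ[F] (Fin n₁ → F)}
    (hA : Good e P M w A) (h : A = A') : Good e P M w A' := h ▸ hA

lemma Good.add {w : Fin n₂ → F} {A A' : (ι → F) →ₗ[F] (Fin n₁ → F)} (hA : Good e P M w A)
    (hA' : Good e P M w A') : Good e P M w (A + A') := by
  obtain ⟨h, hm⟩ := hA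
  obtain ⟨h', hm'⟩ := hA'
  refine ⟨by rw [LinearMap.add_comp, h, h', add_zero], ?_⟩
  convert M.mul_mem hm hm' using 1
  refine gl_ext fun x => ?_
  rw [ap_mul, ap_unip, ap_unip, ap_unip, map_add, LinearMap.add_apply, map_add,
    unip_comp_eq_zero h, add_zero]
  abel

lemma Good.neg {w : Fin n₂ → F} {A : (ι → F) →ₗ[F] (Fin n₁ → F)} (hA : Good e P M w A) :
    Good e P M w (-A) := by
  obtain ⟨h, hm⟩ := hA
  refine ⟨by rw [LinearMap.neg_comp, h, neg_zero], ?_⟩
  convert M.inv_mem hm using 1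
  refine (inv_eq_of_mul_eq_one_right (gl_ext fun x => ?_)).symm
  rw [ap_mul, ap_unip, ap_unip, ap_one, map_add, LinearMap.neg_apply, map_neg, map_neg,
    unip_comp_eq_zero h, neg_zero, add_zero]
  abel

lemma Good.sub {w : Fin n₂ → F} {A A' : (ι → F) →ₗ[F] (Fin n₁ → F)} (hA : Good e P M w A)
    (hA' : Good e P M w A') : Good e P M w (A - A') := by
  rw [sub_eq_add_neg]
  exact hA.add hA'.neg

include hH

lemma good_con {w : Fin n₂ → F} {φ : (Fin n₂ → F) →ₗ[F] F} (hφ : φ w = 0) :
    Good e P M w (con e P φ) := by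
  refine ⟨LinearMap.ext fun x => by simp [hφ], hH ?_⟩
  have : unip (ptl e P w) (con e P φ) (LinearMap.ext fun x => by simp [hφ]) =
      kron e P 1 (tv w φ hφ) := gl_ext_pt e P fun x y => by
    simp [pt_add_right, pt_smul_left, pt_smul_right]
  rw [this]
  exact kron_mem_inf e P (one_mem _) (tv_mem_specialLinear _ _ _)

lemma Good.conj {w : Fin n₂ → F} {A : (ι → F) →ₗ[F] (Fin n₁ → F)} (hA : Good e P M w A)
    {a : GL (Fin n₁) F} {b : GL (Fin n₂) F} (ha : a ∈ Cfsg.Geo.specialLinear (Fin n₁) F)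
    (hb : b ∈ Cfsg.Geo.specialLinear (Fin n₂) F) (hbw : ap b w = w) :
    Good e P M w
      ((apEquiv a).toLinearMap.comp (A.comp (apEquiv (kron e P a b)⁻¹).toLinearMap)) := by
  obtain ⟨h, hm⟩ := hA
  have hh := hH (kron_mem_inf e P ha hb)
  have hbw' : ap b⁻¹ w = w := by
    conv_lhs => rw [← hbw, ap_inv_ap]
  refine ⟨LinearMap.ext fun x => ?_, ?_⟩
  · simp only [LinearMap.comp_apply, LinearEquiv.coe_coe, apEquiv_apply, ptl_apply, kron_inv,
      ap_kron, hbw', LinearMap.zero_apply]
    rw [← ptl_apply, unip_comp_eq_zero h, ap_zero]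
  convert M.mul_mem (M.mul_mem hh hm) (M.inv_mem hh) using 1
  refine gl_ext fun x => ?_
  simp only [ap_mul, ap_unip, ap_add, ap_ap_inv, LinearMap.comp_apply, LinearEquiv.coe_coe,
    apEquiv_apply, ptl_apply, ap_kron, hbw]

/-- An element with a non-scalar component gives an absorbed map. -/
lemma exists_absorbed (hn₂ : 3 ≤ n₂) {w : Fin n₂ → F} (hw : w ≠ 0)
    {A : (ι → F) →ₗ[F] (Fin n₁ → F)} (hA : Good e P M w A)
    {y : Fin n₂ → F} {u : Fin n₁ → F} (hu : ∀ c : F, A (pt e P u y) ≠ c • u) :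
    ∀ ψ : (Fin n₂ → F) →ₗ[F] F, ψ w = 0 →
      Good e P M w ((A.comp (ptl e P y)).comp (con e P ψ)) := by
  -- components along hyperplanes through `w` and the vector
  have step : ∀ (A : (ι → F) →ₗ[F] (Fin n₁ → F)), Good e P M w A →
      ∀ (z : Fin n₂ → F) (ψ : (Fin n₂ → F) →ₗ[F] F), ψ w = 0 → ψ z = 0 →
        Good e P M w ((A.comp (ptl e P z)).comp (con e P ψ)) := by
    intro A hA z ψ hψw hψz
    have h := hA.sub (hA.conj hH (one_mem _) (tv_mem_specialLinear z ψ hψz)
      (by simp [hψw]))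
    refine h.congr (ext_pt e P fun x v => ?_)
    simp [kron_inv, tv_inv, pt_add_right, pt_sub_right, pt_neg_right, pt_smul_left,
      pt_smul_right, map_neg]
  have hwy : y ∉ Submodule.span F {w} := by
    intro h
    obtain ⟨t, rfl⟩ := Submodule.mem_span_singleton.mp h
    obtain ⟨h0, -⟩ := hA
    refine hu 0 ?_
    rw [pt_smul_right, map_smul, ← ptl_apply, unip_comp_eq_zero h0, smul_zero, zero_smul]
  obtain ⟨z, hz⟩ := exists_notMem_span_two hn₂ w y
  obtain ⟨ψ₀, hψ₀, hψ₀z⟩ := exists_functional_eq_one hz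
  have hψ₀w : ψ₀ w = 0 := hψ₀ w (Submodule.subset_span (by simp))
  have hψ₀y : ψ₀ y = 0 := hψ₀ y (Submodule.subset_span (by simp))
  obtain ⟨χ₁, hχ₁, hχ₁y⟩ := exists_functional_eq_one hwy
  set χ := χ₁ - χ₁ z • ψ₀ with hχ
  have hχw : χ w = 0 := by
    simp [hχ, hψ₀w, hχ₁ w (Submodule.mem_span_singleton_self w)]
  have hχy : χ y = 1 := by simp [hχ, hψ₀y, hχ₁y]
  have hχz : χ z = 0 := by simp [hχ, hψ₀z]
  intro ψ hψ
  have h1 := step A hA y (ψ - ψ y • χ) (by simp [hψ, hχw]) (by simp [hχy])
  have h2 := step _ (step A hA y ψ₀ hψ₀w hψ₀y) z (ψ y • χ) (by simp [hχw]) (by simp [hχz])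
  refine (h1.add h2).congr (ext_pt e P fun x v => ?_)
  simp [hψ₀z, sub_smul, pt_sub_left, pt_smul_left, smul_smul]

/-- An element with a non-scalar component forces the whole special linear group. -/
theorem specialLinear_le_of_good (hn₁ : 2 ≤ n₁) (hn₂ : 3 ≤ n₂)
    (hc : 3 ≤ n₁ ∨ ∃ c : F, c ≠ 0 ∧ c ≠ 1) {w : Fin n₂ → F} (hw : w ≠ 0)
    {A : (ι → F) →ₗ[F] (Fin n₁ → F)} (hA : Good e P M w A)
    {y : Fin n₂ → F} {u : Fin n₁ → F} (hu : ∀ c : F, A (pt e P u y) ≠ c • u) :
    Cfsg.Geo.specialLinear ι F ≤ M := by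
  set B₀ := A.comp (ptl e P y) with hB₀
  let S : ((Fin n₁ → F) →ₗ[F] (Fin n₁ → F)) → Prop := fun B =>
    ∀ ψ : (Fin n₂ → F) →ₗ[F] F, ψ w = 0 → Good e P M w (B.comp (con e P ψ))
  have hS₀ : S B₀ := exists_absorbed hH hn₂ hw hA hu
  have hSadd : ∀ B B', S B → S B' → S (B + B') := fun B B' hB hB' ψ hψ => by
    rw [LinearMap.add_comp]; exact (hB ψ hψ).add (hB' ψ hψ)
  have hSsub : ∀ B B', S B → S B' → S (B - B') := fun B B' hB hB' ψ hψ => by
    rw [LinearMap.sub_comp]; exact (hB ψ hψ).sub (hB' ψ hψ)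
  have hSsmul : ∀ (c : F) B, S B → S (c • B) := fun c B hB ψ hψ => by
    rw [LinearMap.smul_comp, ← LinearMap.comp_smul, ← con_smul]
    exact hB _ (by simp [hψ])
  have hSconj : ∀ B, S B → ∀ a ∈ Cfsg.Geo.specialLinear (Fin n₁) F,
      S ((apEquiv a).toLinearMap.comp (B.comp (apEquiv a⁻¹).toLinearMap)) := by
    intro B hB a ha ψ hψ
    refine ((hB ψ hψ).conj hH (b := 1) ha (one_mem _) (ap_one w)).congr
      (ext_pt e P fun x v => ?_)
    simp [kron_inv, ap_smul]
  -- commutation with a transvection of the first factor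
  let D : ((Fin n₁ → F) →ₗ[F] (Fin n₁ → F)) → (Fin n₁ → F) → ((Fin n₁ → F) →ₗ[F] F) →
      (Fin n₁ → F) →ₗ[F] (Fin n₁ → F) := fun B v α =>
    α.smulRight v ∘ₗ B - B ∘ₗ α.smulRight v - α.smulRight v ∘ₗ B ∘ₗ α.smulRight v
  have hSD : ∀ B, S B → ∀ v α, α v = 0 → S (D B v α) := by
    intro B hB v α hαv
    have h := hSsub _ _ (hSconj B hB _ (tv_mem_specialLinear v α hαv)) hB
    convert h using 1
    refine LinearMap.ext fun x => ?_
    simp [D, tv_inv]
    module
  -- one rank one nilpotent map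
  have hne : u ≠ 0 := fun h => hu 0 (by rw [h, pt_zero_left, map_zero, smul_zero])
  have hB₀u : B₀ u ∉ Submodule.span F {u} := fun h => by
    obtain ⟨t, ht⟩ := Submodule.mem_span_singleton.mp h
    exact hu t ht.symm
  obtain ⟨α, hα, hαB⟩ := exists_functional_eq_one hB₀u
  have hαu : α u = 0 := hα u (Submodule.mem_span_singleton_self u)
  obtain ⟨α₁, hα₁0, hα₁u, hS₁⟩ : ∃ α₁ : (Fin n₁ → F) →ₗ[F] F, α₁ ≠ 0 ∧ α₁ u = 0 ∧
      S (α₁.smulRight u) := by
    rcases hc with h3 | ⟨c, hc0, hc1⟩
    · obtain ⟨x, hx⟩ := exists_notMem_span_two h3 u (B₀ u)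
      obtain ⟨β, hβ, hβx⟩ := exists_functional_eq_one hx
      have hβu : β u = 0 := hβ u (Submodule.subset_span (by simp))
      have hβB : β (B₀ u) = 0 := hβ _ (Submodule.subset_span (by simp))
      refine ⟨β, fun h => by simp [h] at hβx, hβu, ?_⟩
      have h := hSsub _ _ (hSadd _ _ (hSD B₀ hS₀ u α hαu) (hSD B₀ hS₀ u β hβu))
        (hSD B₀ hS₀ u (α + β) (by simp [hαu, hβu]))
      convert h using 1
      refine LinearMap.ext fun z => ?_
      simp [D, hαB, hβB, map_add]
      module
    · refine ⟨α, fun h => by simp [h] at hαB, hαu, ?_⟩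
      have h := hSsmul (c - c * c)⁻¹ _
        (hSsub _ _ (hSD B₀ hS₀ u (c • α) (by simp [hαu])) (hSsmul c _ (hSD B₀ hS₀ u α hαu)))
      convert h using 1
      refine LinearMap.ext fun z => ?_
      have hcc : c - c * c ≠ 0 := by
        rw [show c - c * c = c * (1 - c) by ring]
        exact mul_ne_zero hc0 (sub_ne_zero.mpr (Ne.symm hc1))
      simp [D, hαB]
      match_scalars
      all_goals field_simp
      all_goals ring
  -- all rank one nilpotent maps
  have rule : ∀ v (γ : (Fin n₁ → F) →ₗ[F] F), v ≠ 0 → γ ≠ 0 → γ v = 0 → S (γ.smulRight v) →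
      ∀ β : (Fin n₁ → F) →ₗ[F] F, β v = 0 → S (β.smulRight v) := by
    intro v γ hv hγ hγv hS β hβv
    by_cases hker : LinearMap.ker β ≤ LinearMap.ker γ
    · by_cases hβ : β = 0
      · subst hβ
        have h0 := hSsmul 0 _ hS
        convert h0 using 1
        refine LinearMap.ext fun z => ?_
        simp
      · obtain ⟨x, hx⟩ : ∃ x, β x ≠ 0 := by
          by_contra h
          push Not at h
          exact hβ (LinearMap.ext h)
        have hγx : γ x ≠ 0 := by
          intro h0
          apply hγ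
          refine LinearMap.ext fun z => ?_
          have hm : z - (β z / β x) • x ∈ LinearMap.ker γ := hker (by simp [hx])
          simpa [h0] using hm
        have h0 := hSsmul (β x / γ x) _ hS
        convert h0 using 1
        refine LinearMap.ext fun z => ?_
        have hm : z - (β z / β x) • x ∈ LinearMap.ker γ := hker (by simp [hx])
        simp only [LinearMap.mem_ker, map_sub, map_smul, smul_eq_mul, sub_eq_zero] at hm
        simp only [LinearMap.smulRight_apply, LinearMap.smul_apply, hm, smul_smul]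
        congr 1
        field_simp
    · obtain ⟨x, hxβ, hxγ⟩ := Set.not_subset.mp hker
      simp only [SetLike.mem_coe, LinearMap.mem_ker] at hxβ hxγ
      have h0 := hSsmul (-(γ x)⁻¹) _ (hSD _ hS x β hxβ)
      convert h0 using 1
      refine LinearMap.ext fun z => ?_
      simp [D, hβv]
      match_scalars
      field_simp
  have hall : ∀ v (β : (Fin n₁ → F) →ₗ[F] F), β v = 0 → S (β.smulRight v) := by
    intro v β hβv
    by_cases hv : v = 0
    · subst hv
      have h0 := hSsmul 0 _ hS₁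
      convert h0 using 1
      refine LinearMap.ext fun z => ?_
      simp
    by_cases hdep : v ∈ Submodule.span F {u}
    · obtain ⟨t, rfl⟩ := Submodule.mem_span_singleton.mp hdep
      have ht : t ≠ 0 := fun h => hv (by rw [h, zero_smul])
      refine rule _ α₁ hv hα₁0 (by simp [hα₁u]) ?_ β hβv
      have h0 := hSsmul t _ hS₁
      convert h0 using 1
      refine LinearMap.ext fun z => ?_
      simp only [LinearMap.smulRight_apply, LinearMap.smul_apply]
      exact smul_comm _ _ _
    obtain ⟨φ, hφ, hmap⟩ := exists_tv_map (notMem_span_sub hne hdep)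
    set a := tv (v - u) φ hφ with ha
    refine rule v (α₁.comp (apEquiv a⁻¹).toLinearMap) hv ?_ ?_ ?_ β hβv
    · intro h
      refine hα₁0 (LinearMap.ext fun z => ?_)
      simpa [ap_inv_ap] using LinearMap.congr_fun h (ap a z)
    · simp [← hmap, ap_inv_ap, hα₁u]
    · convert hSconj _ hS₁ a (tv_mem_specialLinear _ _ _) using 1
      refine LinearMap.ext fun z => ?_
      simp [ap_smul, hmap]
  -- the transvections with both parts singular
  have hdoub : ∀ (w' : Fin n₂ → F) (x : Fin n₁ → F) (β : (Fin n₁ → F) →ₗ[F] F), β x = 0 →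
      ∀ (ψ : (Fin n₂ → F) →ₗ[F] F), ψ w' = 0 →
      ∀ h : (β.comp (con e P ψ)) (pt e P x w') = 0,
        tv (pt e P x w') (β.comp (con e P ψ)) h ∈ M := by
    have base : ∀ (x : Fin n₁ → F) (β : (Fin n₁ → F) →ₗ[F] F), β x = 0 →
      ∀ (ψ : (Fin n₂ → F) →ₗ[F] F), ψ w = 0 →
      ∀ h : (β.comp (con e P ψ)) (pt e P x w) = 0,
        tv (pt e P x w) (β.comp (con e P ψ)) h ∈ M := by
      intro x β hβ ψ hψ h
      obtain ⟨h', hm⟩ := hall x β hβ ψ hψ
      convert hm using 1
      refine gl_ext fun z => ?_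
      simp [pt_smul_left]
    intro w' x β hβ ψ hψ h
    by_cases hdep : w' ∈ Submodule.span F {w}
    · obtain ⟨t, rfl⟩ := Submodule.mem_span_singleton.mp hdep
      by_cases ht : t = 0
      · have : tv (pt e P x (t • w)) (β.comp (con e P ψ)) h = 1 :=
          gl_ext fun z => by simp [ht, pt_zero_right]
        rw [this]
        exact one_mem M
      have h' : (β.comp (con e P ψ)) (pt e P (t • x) w) = 0 := by
        rwa [pt_smul_left, ← pt_smul_right]
      rw [tv_eq_tv h h' fun z => by rw [pt_smul_left, pt_smul_right]]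
      refine base _ β (by simp [hβ]) ψ ?_ _
      simpa [ht] using hψ
    obtain ⟨φ, hφ, hmap⟩ := exists_tv_map (notMem_span_sub hw hdep)
    set b := tv (w' - w) φ hφ with hb
    set k := kron e P (1 : GL (Fin n₁) F) b with hk
    have hkM : k ∈ M := hH (kron_mem_inf e P (one_mem _) (tv_mem_specialLinear _ _ _))
    have hψb : (ψ.comp (apEquiv b).toLinearMap) w = 0 := by simp [hmap, hψ]
    have hbase : (β.comp (con e P (ψ.comp (apEquiv b).toLinearMap))) (pt e P x w) = 0 := by
      simp [hmap, hψ]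
    have h0 := M.mul_mem (M.mul_mem hkM (base x β hβ _ hψb hbase)) (M.inv_mem hkM)
    convert h0 using 1
    refine gl_ext fun z => ?_
    have hz : ap k (pt e P x w) = pt e P x w' := by rw [hk, ap_kron, ap_one, hmap]
    have hcon : con e P (ψ.comp (apEquiv b).toLinearMap) (ap k⁻¹ z) = con e P ψ z :=
      LinearMap.congr_fun (ext_pt e P
        (f := (con e P (ψ.comp (apEquiv b).toLinearMap)).comp (apEquiv k⁻¹).toLinearMap)
        (g := con e P ψ) fun p r => by simp [hk, kron_inv, ap_ap_inv]) z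
    simp [ap_mul, ap_add, ap_smul, ap_ap_inv, hz, hcon]
  -- elementary transvections
  refine specialLinear_le_of_elementary (coords e P) ?_
  set cs := coords e P with hcs
  have hdirect : ∀ p q : Fin n₁ × Fin n₂, p.1 ≠ q.1 → p.2 ≠ q.2 → ∀ r : F,
      ∀ h : ((LinearMap.proj q).comp cs.symm.toLinearMap) (r • cs (Pi.single p 1)) = 0,
        tv (r • cs (Pi.single p 1)) ((LinearMap.proj q).comp cs.symm.toLinearMap) h ∈ M := by
    intro p q h1 h2 r h
    have hv : r • cs (Pi.single p 1) = pt e P (r • Pi.single p.1 1) (Pi.single p.2 1) := by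
      rw [pt_smul_left, pt_single]
    have hφ : (LinearMap.proj q).comp cs.symm.toLinearMap =
        (LinearMap.proj q.1).comp (con e P (LinearMap.proj q.2)) :=
      LinearMap.ext fun z => rfl
    have hd := hdoub (Pi.single p.2 1) (r • Pi.single p.1 1) (LinearMap.proj q.1)
      (by simp [Ne.symm h1]) (LinearMap.proj q.2) (by simp [Ne.symm h2]) (by rw [← hv, ← hφ]; exact h)
    convert hd using 1
    exact tv_eq_tv _ _ fun z => by rw [hv, hφ]
  -- commutators of elementary transvections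
  have hcomm : ∀ p s q : Fin n₁ × Fin n₂, p ≠ q → p ≠ s → s ≠ q →
      (∀ r : F, ∀ h : ((LinearMap.proj s).comp cs.symm.toLinearMap) (r • cs (Pi.single p 1)) = 0,
        tv (r • cs (Pi.single p 1)) ((LinearMap.proj s).comp cs.symm.toLinearMap) h ∈ M) →
      (∀ r : F, ∀ h : ((LinearMap.proj q).comp cs.symm.toLinearMap) (r • cs (Pi.single s 1)) = 0,
        tv (r • cs (Pi.single s 1)) ((LinearMap.proj q).comp cs.symm.toLinearMap) h ∈ M) →
      ∀ r : F, ∀ h : ((LinearMap.proj q).comp cs.symm.toLinearMap) (r • cs (Pi.single p 1)) = 0,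
        tv (r • cs (Pi.single p 1)) ((LinearMap.proj q).comp cs.symm.toLinearMap) h ∈ M := by
    intro p s q hpq hps hsq hA hB r h
    have a0 : ((LinearMap.proj s).comp cs.symm.toLinearMap) (r • cs (Pi.single p 1)) = 0 := by
      simp [Ne.symm hps]
    have b0 : ((LinearMap.proj q).comp cs.symm.toLinearMap) ((1 : F) • cs (Pi.single s 1)) = 0 := by
      simp [Ne.symm hsq]
    have h0 := M.mul_mem (M.mul_mem (M.mul_mem (hA r a0) (hB 1 b0)) (M.inv_mem (hA r a0)))
      (M.inv_mem (hB 1 b0))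
    convert h0 using 1
    refine gl_ext fun z => ?_
    simp [ap_mul, tv_inv, hps, Ne.symm hps, hsq, Ne.symm hsq, hpq, Ne.symm hpq]
    module
  have hrow : ∀ i : Fin n₁, ∀ j l : Fin n₂, j ≠ l → ∀ r : F,
      ∀ h : ((LinearMap.proj (i, l)).comp cs.symm.toLinearMap) (r • cs (Pi.single (i, j) 1)) = 0,
        tv (r • cs (Pi.single (i, j) 1)) ((LinearMap.proj (i, l)).comp cs.symm.toLinearMap) h
          ∈ M := by
    intro i j l hjl
    obtain ⟨m, hm⟩ := Fintype.exists_ne_of_one_lt_card (α := Fin n₁) (by simp; omega) i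
    obtain ⟨s, hsj, hsl⟩ : ∃ s : Fin n₂, s ≠ j ∧ s ≠ l := by
      by_contra hc
      push Not at hc
      have h1 := Finset.card_le_card (s := (Finset.univ : Finset (Fin n₂))) (t := {j, l})
        fun s _ => by
          by_cases hs : s = j
          · simp [hs]
          · simp [hc s hs]
      have h2 := Finset.card_le_two (a := j) (b := l)
      simp at h1
      omega
    exact hcomm (i, j) (m, s) (i, l) (by simp [hjl]) (by simp [Ne.symm hm]) (by simp [hm])
      (hdirect _ _ (Ne.symm hm) (Ne.symm hsj)) (hdirect _ _ hm hsl)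
  intro p q hpq
  obtain ⟨i, j⟩ := p
  obtain ⟨k, l⟩ := q
  by_cases hik : i = k
  · subst hik
    exact hrow i j l fun h => hpq (by rw [h])
  by_cases hjl : j = l
  · subst hjl
    obtain ⟨s, hs⟩ := Fintype.exists_ne_of_one_lt_card (α := Fin n₂) (by simp; omega) j
    exact hcomm (i, j) (i, s) (k, j) hpq (by simp [Ne.symm hs]) (by simp [hik])
      (hrow i j s (Ne.symm hs)) (hdirect _ _ hik hs)
  exact hdirect _ _ hik hjl

end LTensor

end CfsgLib.Geometric
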