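import Cfsg.Agent.Lib.Geometric.LinearUnitary

/-!
The similarity group of a unitary form is maximal in the special linear group, dimension at least four.
-/

namespace CfsgLib.Geometric

open Matrix

variable {ι : Type} [Fintype ι] [DecidableEq ι] {F : Type*} [Field F]

namespace Unitary

variable [Finite F] {σ : F ≃+* F} {f : (ι → F) → (ι → F) → F} (hf : IsSkewForm σ f)
include hf

/-- Isotropic vectors orthogonal to `u` span the orthogonal of `u`. -/
lemma exists_isotropic_add_perp_four (hn : 4 ≤ Fintype.card ι) (u x : ι → F) (hx : f x u = 0) :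
    ∃ v₁ v₂, f v₁ u = 0 ∧ f v₂ u = 0 ∧ f v₁ v₁ = 0 ∧ f v₂ v₂ = 0 ∧ x = v₁ + v₂ := by
  by_cases hxx : f x x = 0
  · exact ⟨x, 0, hx, zero_left hf u, hxx, zero_left hf 0, (add_zero x).symm⟩
  obtain ⟨e, -, hee, hxe, hue⟩ := exists_anisotropic_perp_four hf (top_nondegenerate hf)
    (by rw [finrank_top, Module.finrank_fintype_fun_eq_card]; exact hn) (x := x) (y := u) trivial
    trivial (Or.inr (Or.inl hxx))
  obtain ⟨v₁, v₂, h₁, h₂, h₃, h₄, h₅⟩ := exists_isotropic_add hf
    (S := LinearMap.ker (fl hf u)) (x := x) (e := e) (LinearMap.mem_ker.mpr (by simpa using hx))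
    (LinearMap.mem_ker.mpr (by simpa using (eq_zero_comm hf).mp hue)) hee hxe
  exact ⟨v₁, v₂, by simpa using h₁, by simpa using h₂, h₃, h₄, h₅⟩

lemma exists_isotropic_sum_four (hn : 4 ≤ Fintype.card ι) (x : ι → F) :
    ∃ v₁ v₂, f v₁ v₁ = 0 ∧ f v₂ v₂ = 0 ∧ x = v₁ + v₂ := by
  obtain ⟨v₁, v₂, -, -, h₁, h₂, h₃⟩ :=
    exists_isotropic_add_perp_four hf hn 0 x (zero_right hf x)
  exact ⟨v₁, v₂, h₁, h₂, h₃⟩

/-- An element mapping isotropic vectors to isotropic vectors is a similarity. -/
lemma mem_similarityGroup_of_isotropic_four (hn : 4 ≤ Fintype.card ι) {g : GL ι F}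
    (hg : ∀ v, f v v = 0 → f (ap g v) (ap g v) = 0) : g ∈ Cfsg.Geo.similarityGroup f := by
  classical
  obtain ⟨a, ha⟩ : ∃ a, σ a ≠ a := by
    by_contra h
    push Not at h
    exact hf.ne_refl (RingEquiv.ext h)
  set B : (ι → F) → (ι → F) → F := fun x y => f (ap g x) (ap g y)
  -- orthogonality of isotropic vectors is kept
  have horth : ∀ u x, f u u = 0 → f x u = 0 → B x u = 0 := by
    intro u x hu hxu
    have key : ∀ v, f v v = 0 → f v u = 0 → B v u = 0 := by
      intro v hv hvu
      let W : Submodule F (ι → F) := Submodule.span F {ap g v, ap g u}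
      refine totallySingular_of_isotropic hf (W := W) (fun z hz => ?_)
        (Submodule.subset_span (by simp)) (Submodule.subset_span (by simp))
      obtain ⟨p, q, rfl⟩ := Submodule.mem_span_pair.mp hz
      rw [← ap_smul, ← ap_smul, ← ap_add]
      apply hg
      simp [hf.add_left, add_right hf, hf.smul_left, smul_right hf, hv, hu, hvu,
        (eq_zero_comm hf).mp hvu]
    obtain ⟨v₁, v₂, h₁, h₂, h₃, h₄, rfl⟩ := exists_isotropic_add_perp_four hf hn u x hxu
    have e1 := key v₁ h₃ h₁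
    have e2 := key v₂ h₄ h₂
    simp only [B] at e1 e2 ⊢
    rw [ap_add, hf.add_left, e1, e2, add_zero]
  have hκ : ∀ u, f u u = 0 → u ≠ 0 → ∃ κ, ∀ x, B x u = κ * f x u := by
    intro u hu hu0
    obtain ⟨p, hp⟩ := (hf.nondegenerate u hu0).1
    refine ⟨B p u / f p u, fun x => ?_⟩
    have h0 := horth u (x - (f x u / f p u) • p) hu (by
      rw [sub_left hf, hf.smul_left, div_mul_cancel₀ _ hp, sub_self])
    simp only [B] at h0 ⊢
    rw [ap_sub, ap_smul, sub_left hf, hf.smul_left, sub_eq_zero] at h0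
    rw [h0]
    ring
  choose! κ hκ using hκ
  have hpair : ∀ u w, f u u = 0 → f w w = 0 → u ≠ 0 → w ≠ 0 → f u w ≠ 0 → κ u = σ (κ w) := by
    intro u w hu hw hu0 hw0 hne
    have h1 := hκ w hw hw0 u
    have h2 := hκ u hu hu0 w
    simp only [B] at h1 h2
    rw [hf.skew (ap g w) (ap g u), h1, map_mul, hf.skew w u] at h2
    have hne' : σ (f u w) ≠ 0 := (EmbeddingLike.map_ne_zero_iff (f := σ)).mpr hne
    have h3 : (κ u - σ (κ w)) * σ (f u w) = 0 := by linear_combination h2
    exact sub_eq_zero.mp ((mul_eq_zero.mp h3).resolve_right hne')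
  have hconst : ∀ u w, f u u = 0 → f w w = 0 → u ≠ 0 → w ≠ 0 → κ u = κ w := by
    intro u w hu hw hu0 hw0
    have hA : ∀ z, z ≠ 0 → ¬ (⊤ : Submodule F (ι → F)) ≤ LinearMap.ker (fl hf z) := by
      intro z hz hle
      obtain ⟨p, hp⟩ := (hf.nondegenerate z hz).1
      exact hp (by simpa using hle (Submodule.mem_top (x := p)))
    obtain ⟨p, -, hpu, hpw⟩ := exists_mem_notMem_notMem (hA u hu0) (hA w hw0)
    simp only [LinearMap.mem_ker, fl_apply] at hpu hpw
    -- an isotropic vector not orthogonal to either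
    obtain ⟨z, hz, hzu, hzw⟩ : ∃ z, f z z = 0 ∧ f z u ≠ 0 ∧ f z w ≠ 0 := by
      by_cases huw : f u w = 0
      · obtain ⟨l, hl⟩ := exists_isotropic_shift hf hu hpu
        refine ⟨_, hl, ?_, ?_⟩
        · rwa [hf.add_left, hf.smul_left, hu, mul_zero, add_zero]
        · rwa [hf.add_left, hf.smul_left, huw, mul_zero, add_zero]
      · obtain ⟨μ, hμ1, hμ2⟩ : ∃ μ : F, μ ≠ 0 ∧ σ (μ * f u w) = μ * f u w := by
          refine ⟨σ (f u w), (EmbeddingLike.map_ne_zero_iff (f := σ)).mpr huw, ?_⟩
          rw [map_mul, hf.involutive]; ring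
        refine ⟨μ • u + w, ?_, ?_, ?_⟩
        · simp only [hf.add_left, add_right hf, hf.smul_left, smul_right hf, hu, hw,
            hf.skew w u]
          rw [map_mul] at hμ2
          linear_combination -hμ2
        · rw [hf.add_left, hf.smul_left, hu, mul_zero, zero_add]
          exact huw ∘ (eq_zero_comm hf).mp
        · rw [hf.add_left, hf.smul_left, hw, add_zero]
          exact mul_ne_zero hμ1 huw
    have hz0 : z ≠ 0 := fun h => hzu (by rw [h, zero_left hf])
    rw [hpair u z hu hz hu0 hz0 (hzu ∘ (eq_zero_comm hf).mp),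
      hpair w z hw hz hw0 hz0 (hzw ∘ (eq_zero_comm hf).mp)]
  obtain ⟨u, -, hu0, hu⟩ := exists_isotropic hf (top_nondegenerate hf)
    (by rw [finrank_top, Module.finrank_fintype_fun_eq_card]; omega)
  have hall : ∀ x y, B x y = κ u * f x y := by
    intro x y
    have key : ∀ v, f v v = 0 → B x v = κ u * f x v := by
      intro v hv
      by_cases hv0 : v = 0
      · simp [B, hv0, ap_zero, zero_right hf]
      · rw [hκ v hv hv0 x, hconst u v hu hv hu0 hv0]
    obtain ⟨v₁, v₂, h₁, h₂, rfl⟩ := exists_isotropic_sum_four hf hn y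
    have e1 := key v₁ h₁
    have e2 := key v₂ h₂
    simp only [B] at e1 e2 ⊢
    rw [ap_add, add_right hf, add_right hf, e1, e2, mul_add]
  have hne : κ u ≠ 0 := by
    intro h
    obtain ⟨x, hx⟩ := (hf.nondegenerate _ (ap_ne_zero g hu0)).1
    apply hx
    have := hall (ap g⁻¹ x) u
    simp only [B] at this
    rwa [ap_ap_inv, h, zero_mul] at this
  exact ⟨Units.mk0 (κ u) hne, hall⟩

/-- The similarities of a skew-hermitian form are maximal in the special linear group. -/
theorem similarityGroup_isMaximalIn_four (hn : 4 ≤ Fintype.card ι) :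
    Cfsg.Geo.IsMaximalIn (Cfsg.Geo.specialLinear ι F)
      (Cfsg.Geo.similarityGroup f ⊓ Cfsg.Geo.specialLinear ι F) := by
  classical
  have htop := top_nondegenerate hf
  have htdim : Module.finrank F (⊤ : Submodule F (ι → F)) = Fintype.card ι := by
    rw [finrank_top, Module.finrank_fintype_fun_eq_card]
  obtain ⟨u, -, hu0, hu⟩ := exists_isotropic hf htop (by omega)
  refine ⟨lt_of_le_of_ne inf_le_right fun he => ?_, fun M hHM hMS => ?_⟩
  · obtain ⟨a, ha⟩ : ∃ a, σ a ≠ a := by
      by_contra h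
      push Not at h
      exact hf.ne_refl (RingEquiv.ext h)
    have hm : tv u (a • fl hf u) (smul_fl_self hf hu a) ∈
        Cfsg.Geo.similarityGroup f ⊓ Cfsg.Geo.specialLinear ι F := by
      rw [he]; exact tv_mem_specialLinear _ _ _
    obtain ⟨k, hk⟩ := hm.1
    obtain ⟨y, hy⟩ := (hf.nondegenerate u hu0).1
    have hy' : f u y ≠ 0 := hy ∘ (eq_zero_comm hf).mp
    have h1 := hk u y
    simp only [← ap_def, ap_tv, LinearMap.smul_apply, fl_apply, smul_eq_mul, hu, mul_zero,
      zero_smul, add_zero, add_right hf, smul_right hf] at h1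
    have hk1 : (k : F) = 1 := mul_right_cancel₀ hy' (h1.symm.trans (one_mul _).symm)
    have h2 := hk y y
    simp only [← ap_def, ap_tv, LinearMap.smul_apply, fl_apply, smul_eq_mul, hk1, one_mul,
      hf.add_left, add_right hf, hf.smul_left, smul_right hf, map_mul, hu, mul_zero, add_zero] at h2
    rw [hf.skew u y] at h2
    have hs : σ (f y u) ≠ 0 := (EmbeddingLike.map_ne_zero_iff (f := σ)).mpr hy
    have h3 : f y u * σ (f y u) * (σ a - a) = 0 := by linear_combination h2
    exact ha (sub_eq_zero.mp ((mul_eq_zero.mp h3).resolve_left (mul_ne_zero hy hs)))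
  by_cases hM : M ≤ Cfsg.Geo.similarityGroup f
  · exact Or.inl (le_antisymm (le_inf hM hMS) hHM)
  refine Or.inr (le_antisymm hMS ?_)
  obtain ⟨g, hgM, hg⟩ := SetLike.not_le_iff_exists.mp hM
  have hI : sisom hf ≤ M :=
    le_trans (inf_le_inf_right _ (isom_le_similarityGroup f)) hHM
  have hHas : HasT hf M := fun v hv c hc => hI (T_mem hf hv hc)
  let S : (ι → F) → (ι → F) → Prop := fun a b =>
    ∀ h : (fl hf b) a = 0, tv a (fl hf b) h ∈ M
  have hzero : ∀ a b, fl hf b a = 0 → fl hf (0 : ι → F) a = 0 := fun a b _ => by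
    simp [zero_right hf]
  have hfladd : ∀ b b', fl hf (b + b') = fl hf b + fl hf b' := fun b b' =>
    LinearMap.ext fun x => by simp [add_right hf]
  have hSadd : ∀ a b b', f b a = 0 → f b' a = 0 → S a b → S a b' → S a (b + b') := by
    intro a b b' hb hb' h h' hh
    have := mul_mem (h (by simpa using (eq_zero_comm hf).mp hb))
      (h' (by simpa using (eq_zero_comm hf).mp hb'))
    rw [tv_add] at this
    convert this using 2
    exact hfladd b b'
  -- invariance
  have hSconj : ∀ k ∈ M, k ∈ isom f → ∀ a b, f a b = 0 → S a b → S (ap k a) (ap k b) := by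
    intro k hk hkI a b hab h hh
    have h2 := mul_mem (mul_mem hk (h (by simpa using hab))) (inv_mem hk)
    rw [conj_tv] at h2
    convert h2 using 2
    refine LinearMap.ext fun x => ?_
    have := (mem_isom_iff.mp hkI) (ap k⁻¹ x) b
    rw [ap_ap_inv] at this
    simp [this]
  -- one transvection with anisotropic centre
  obtain ⟨a, b, haa, hb0, hab, hS₀⟩ : ∃ a b, f a a ≠ 0 ∧ b ≠ 0 ∧ f a b = 0 ∧ S a b := by
    obtain ⟨v, hv, hgv⟩ : ∃ v, f v v = 0 ∧ f (ap g v) (ap g v) ≠ 0 := by
      by_contra h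
      push Not at h
      exact hg (mem_similarityGroup_of_isotropic_four hf (by omega) h)
    have hv0 : v ≠ 0 := fun h => hgv (by simp [h, ap_zero, zero_left hf])
    obtain ⟨b, hb⟩ := exists_eq_fl hf ((fl hf v).comp (apEquiv g⁻¹).toLinearMap)
    have hb' : ∀ x, f x b = f (ap g⁻¹ x) v := fun x => by rw [← fl_apply hf, hb]; rfl
    refine ⟨ap g v, b, hgv, fun h => ?_, by rw [hb', ap_inv_ap, hv], fun hh => ?_⟩
    · obtain ⟨x, hx⟩ := (hf.nondegenerate v hv0).1
      apply hx
      have := hb' (ap g x)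
      rw [ap_inv_ap, h, zero_right hf] at this
      exact this.symm
    · have h2 := mul_mem (mul_mem hgM (hHas v hv 1 (map_one σ))) (inv_mem hgM)
      rw [T, conj_tv] at h2
      convert h2 using 2
      refine LinearMap.ext fun x => ?_
      simp [hb']
  -- all functionals at that centre
  set U := Submodule.span F {a} with hUdef
  have hU : Cfsg.Geo.IsNondegenerateOn f U := by
    intro x hx hx0
    obtain ⟨c, rfl⟩ := Submodule.mem_span_singleton.mp hx
    have hc : c ≠ 0 := fun h => hx0 (by rw [h, zero_smul])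
    have haU : a ∈ U := Submodule.mem_span_singleton_self a
    refine ⟨⟨a, haU, ?_⟩, ⟨a, haU, ?_⟩⟩
    · rw [smul_right hf]
      exact mul_ne_zero ((EmbeddingLike.map_ne_zero_iff (f := σ)).mpr hc) haa
    · rw [hf.smul_left]; exact mul_ne_zero hc haa
  have hPn := perp_nondegenerate hf hU
  have hPdim : 3 ≤ Module.finrank F (perp hf U) := by
    have h1 := finrank_add_perp hf hU
    have ha0 : a ≠ 0 := fun h => haa (by rw [h, zero_left hf])
    rw [hUdef, finrank_span_singleton ha0, ← hUdef] at h1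
    omega
  have hbP : b ∈ perp hf U := (mem_perp_span hf).mpr ((eq_zero_comm hf).mp hab)
  obtain ⟨w, hwP, hww, hbw⟩ : ∃ w ∈ perp hf U, f w w = 0 ∧ f w b ≠ 0 := by
    obtain ⟨p, hp, hpb⟩ := (hPn b hbP hb0).1
    by_cases hpp : f p p = 0
    · exact ⟨p, hp, hpp, hpb⟩
    obtain ⟨e, -, hee, hpe, hae⟩ := exists_anisotropic_perp_four hf htop (by omega) (x := p) (y := a)
      trivial trivial (Or.inr (Or.inl hpp))
    have he : e ∈ perp hf U := (mem_perp_span hf).mpr ((eq_zero_comm hf).mp hae)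
    obtain ⟨v₁, v₂, h₁, h₂, h₃, h₄, rfl⟩ := exists_isotropic_add hf hp he hee hpe
    by_cases h : f v₁ b = 0
    · exact ⟨v₂, h₂, h₄, by rwa [hf.add_left, h, zero_add] at hpb⟩
    · exact ⟨v₁, h₁, h₃, h⟩
  have hwa : f w a = 0 := (mem_perp_span hf).mp hwP
  have hw0 : w ≠ 0 := fun h => hbw (by rw [h, zero_left hf])
  set k := σ (f w b) with hk
  have hk0 : k ≠ 0 := (EmbeddingLike.map_ne_zero_iff (f := σ)).mpr hbw
  have hS₁ : S a (k • w) := by
    intro hh
    have ht₂ := hS₀ (by simpa using hab)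
    have hT := hHas w hww 1 (map_one σ)
    have h2 := mul_mem (mul_mem (mul_mem ht₂ hT) (inv_mem ht₂)) (inv_mem hT)
    convert h2 using 1
    apply gl_ext
    intro x
    rw [T, tv_inv, tv_inv]
    simp only [ap_mul, ap_tv, LinearMap.smul_apply, LinearMap.neg_apply,
      fl_apply, smul_eq_mul, hf.add_left, hf.smul_left, neg_left hf, smul_right hf, hk,
      hf.involutive, hab, hww, hwa, (eq_zero_comm hf).mp hwa, one_mul]
    module
  have hmoveP : ∀ w' ∈ perp hf U, f w' w' = 0 → S a w' := by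
    intro w' hw'P hw'
    by_cases hw'0 : w' = 0
    · subst hw'0
      intro hh
      have : tv a (fl hf (0 : ι → F)) hh = 1 := gl_ext fun x => by simp [zero_right hf]
      rw [this]; exact one_mem M
    obtain ⟨h, hhM, hhI, hfix, hm⟩ := exists_move hf hHas (by omega) hPn (by omega)
      ((perp hf U).smul_mem k hwP) hw'P (isotropic_smul hf hww k) hw'
      (smul_ne_zero hk0 hw0) hw'0
    have := hSconj h hhM hhI.1 a (k • w)
      (by rw [smul_right hf, (eq_zero_comm hf).mp hwa, mul_zero]) hS₁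
    rwa [hfix a (Submodule.mem_span_singleton_self a), hm] at this
  -- the centres with every transvection in `M`
  let Φ : Set (ι → F) := {x | ∀ (φ : (ι → F) →ₗ[F] F) (h : φ x = 0), tv x φ h ∈ M}
  have haΦ : a ∈ Φ := by
    intro φ h
    obtain ⟨y, rfl⟩ := exists_eq_fl hf φ
    have hy : y ∈ perp hf U := (mem_perp_span hf).mpr ((eq_zero_comm hf).mp (by simpa using h))
    by_cases hyy : f y y = 0
    · exact hmoveP y hy hyy h
    obtain ⟨e, -, hee, hye, hae⟩ := exists_anisotropic_perp_four hf htop (by omega) (x := y) (y := a)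
      trivial trivial (Or.inr (Or.inl hyy))
    have he : e ∈ perp hf U := (mem_perp_span hf).mpr ((eq_zero_comm hf).mp hae)
    obtain ⟨v₁, v₂, h₁, h₂, h₃, h₄, rfl⟩ := exists_isotropic_add hf hy he hee hye
    exact hSadd a v₁ v₂ ((mem_perp_span hf).mp h₁) ((mem_perp_span hf).mp h₂)
      (hmoveP v₁ h₁ h₃) (hmoveP v₂ h₂ h₄) h
  have hΦM : ∀ m ∈ M, ∀ x ∈ Φ, ap m x ∈ Φ := by
    intro m hm x hx φ h
    have hψ : (φ.comp (apEquiv m).toLinearMap) x = 0 := h
    have h2 := mul_mem (mul_mem hm (hx _ hψ)) (inv_mem hm)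
    rw [conj_tv] at h2
    convert h2 using 2
    exact LinearMap.ext fun y => by simp [ap_ap_inv]
  have hΦzero : (0 : ι → F) ∈ Φ := fun φ h => by
    have : tv 0 φ h = 1 := gl_ext fun y => by simp
    rw [this]; exact one_mem M
  have hΦsmul : ∀ x ∈ Φ, ∀ c : F, c • x ∈ Φ := by
    intro x hx c φ h
    by_cases hc : c = 0
    · subst hc
      have : tv ((0 : F) • x) φ h = 1 := gl_ext fun y => by simp
      rw [this]; exact one_mem M
    have hψ : (c • φ) x = 0 := by simpa [hc] using h
    rw [tv_eq_tv (w := x) h hψ fun y => by simp [smul_smul, mul_comm]]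
    exact hx _ _
  have hΦadd : ∀ x ∈ Φ, ∀ y ∈ Φ, x + y ∈ Φ := by
    intro x hx y hy
    by_cases hdep : x ∈ Submodule.span F {y}
    · obtain ⟨c, rfl⟩ := Submodule.mem_span_singleton.mp hdep
      rw [show c • y + y = (c + 1) • y by rw [add_smul, one_smul]]
      exact hΦsmul y hy _
    obtain ⟨φ, hφ, hφx⟩ := exists_functional_eq_one hdep
    have h := hΦM _ (hy φ (hφ y (Submodule.mem_span_singleton_self y))) x hx
    rwa [ap_tv, hφx, one_smul] at h
  let Ψ : Submodule F (ι → F) :=
    { carrier := Φ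
      add_mem' := fun {x y} hx hy => hΦadd x hx y hy
      zero_mem' := hΦzero
      smul_mem' := fun c x hx => hΦsmul x hx c }
  have hiso : ∀ v, f v v = 0 → v ∈ Ψ := by
    obtain ⟨v₁, v₂, h₁, h₂, hav⟩ := exists_isotropic_sum_four hf (by omega) a
    have hv : ∃ v, f v v = 0 ∧ f a v ≠ 0 := by
      by_contra h
      push Not at h
      apply haa
      conv_lhs => arg 2; rw [hav]
      rw [add_right hf, h v₁ h₁, h v₂ h₂, add_zero]
    obtain ⟨v, hv, hav'⟩ := hv
    have h := hΦM _ (hHas v hv 1 (map_one σ)) a haΦ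
    rw [ap_T hf, one_mul] at h
    have hvΨ : v ∈ Ψ := by
      have h2 : f a v • v ∈ Ψ := by
        have := Ψ.sub_mem (show a + f a v • v ∈ Ψ from h) (show a ∈ Ψ from haΦ)
        simpa using this
      simpa [smul_smul, inv_mul_cancel₀ hav'] using Ψ.smul_mem (f a v)⁻¹ h2
    have hv0 : v ≠ 0 := fun h => hav' (by rw [h, zero_right hf])
    intro y hy
    by_cases hy0 : y = 0
    · rw [hy0]; exact Ψ.zero_mem
    have hbot : perp hf (⊥ : Submodule F (ι → F)) = ⊤ :=
      eq_top_iff.mpr fun z _ => mem_perp_bot hf z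
    obtain ⟨h', hh', -, -, hm⟩ := exists_move hf hHas (by omega) (U := ⊥)
      (by rw [hbot]; exact htop) (by rw [hbot, htdim]; omega) (mem_perp_bot hf v)
      (mem_perp_bot hf y) hv hy hv0 hy0
    exact hm ▸ hΦM _ hh' v hvΨ
  refine specialLinear_le_of_tv_mem fun x φ h => ?_
  obtain ⟨v₁, v₂, h₁, h₂, rfl⟩ := exists_isotropic_sum_four hf (by omega) x
  exact (show v₁ + v₂ ∈ Ψ from Ψ.add_mem (hiso v₁ h₁) (hiso v₂ h₂)) φ h

end Unitary

/-- The similarities of a unitary form are maximal in the special linear group, dimension at least four. -/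
theorem unitarySimilarity_isMaximalIn_four [Finite F] (hn : 4 ≤ Fintype.card ι) {σ : F ≃+* F}
    {f : (ι → F) → (ι → F) → F} (hf : Cfsg.Geo.IsUnitaryForm σ f) :
    Cfsg.Geo.IsMaximalIn (Cfsg.Geo.specialLinear ι F)
      (Cfsg.Geo.similarityGroup f ⊓ Cfsg.Geo.specialLinear ι F) := by
  obtain ⟨ζ, hζ, hsk⟩ := exists_skewForm_of_unitary hf
  have hmax := Unitary.similarityGroup_isMaximalIn_four hsk hn
  rwa [similarityGroup_mul_const hζ] at hmax

end CfsgLib.Geometric
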