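import Cfsg.Agent.Lib.Geometric.Basic

/-!
Monomial matrices acting on `ι → F`, and how many basis vectors they fix.
-/

namespace CfsgLib.Geometric

open Matrix

variable {ι : Type} [Fintype ι] [DecidableEq ι] {F : Type*} [Field F]

/-- The monomial map sending the coordinate at `j` to the place `π j`, scaled there by `c`. -/
def mon (π : Equiv.Perm ι) (c : ι → Fˣ) : GL ι F :=
  ofEquiv
    { toFun := fun x m => (c m : F) * x (π.symm m)
      map_add' := fun x y => by ext m; simp [mul_add]
      map_smul' := fun a x => by ext m; simp [mul_left_comm]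
      invFun := fun y j => (((c (π j))⁻¹ : Fˣ) : F) * y (π j)
      left_inv := fun x => by ext j; simp
      right_inv := fun y => by ext m; simp }

lemma ap_mon (π : Equiv.Perm ι) (c : ι → Fˣ) (x : ι → F) (m : ι) :
    ap (mon π c) x m = (c m : F) * x (π.symm m) := by
  rw [mon, ap_ofEquiv]
  rfl

lemma ap_mon_single (π : Equiv.Perm ι) (c : ι → Fˣ) (j : ι) (a : F) :
    ap (mon π c) (Pi.single j a) = Pi.single (π j) ((c (π j) : F) * a) := by
  ext m
  rw [ap_mon]
  by_cases h : m = π j
  · subst h; simp
  · have : π.symm m ≠ j := fun e => h (by rw [← e, Equiv.apply_symm_apply])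
    simp [h, this]

lemma mon_one : mon (1 : Equiv.Perm ι) (1 : ι → Fˣ) = 1 :=
  gl_ext fun x => funext fun m => by rw [ap_mon, ap_one]; simp [show (Equiv.symm (1 : Equiv.Perm ι)) = 1 from rfl]

lemma mon_mul (π ρ : Equiv.Perm ι) (c d : ι → Fˣ) :
    mon π c * mon ρ d = mon (π * ρ) (fun m => c m * d (π.symm m)) :=
  gl_ext fun x => funext fun m => by
    simp [ap_mul, ap_mon, Equiv.Perm.mul_def, mul_assoc]

lemma mon_inv (π : Equiv.Perm ι) (c : ι → Fˣ) :
    (mon π c)⁻¹ = mon π⁻¹ (fun j => (c (π j))⁻¹) := by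
  refine inv_eq_of_mul_eq_one_right ?_
  rw [mon_mul, ← mon_one, mul_inv_cancel]
  congr 1
  ext m
  simp

lemma det_mon (π : Equiv.Perm ι) (c : ι → Fˣ) :
    (mon π c : Matrix ι ι F).det = ((Equiv.Perm.sign π : ℤ) : F) * ∏ m, (c m : F) := by
  have h : (mon π c : Matrix ι ι F) =
      (Matrix.diagonal fun j => (c (π j) : F)).submatrix π.symm id := by
    ext i j
    have := congrFun (ap_mon_single π c j 1) i
    simp [ap] at this
    rw [this, submatrix_apply, id_eq]
    by_cases h : π.symm i = j
    · subst h; simp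
    · have : i ≠ π j := fun e => h (by rw [e, Equiv.symm_apply_apply])
      simp [h, this]
  rw [h, Matrix.det_permute, Matrix.det_diagonal, Equiv.Perm.sign_symm,
    Equiv.prod_comp π (fun m => (c m : F))]

/-- Monomial matrices. -/
def IsMon (g : GL ι F) : Prop := ∃ π c, g = mon π c

lemma IsMon.mul {g h : GL ι F} : IsMon g → IsMon h → IsMon (g * h) := by
  rintro ⟨π, c, rfl⟩ ⟨ρ, d, rfl⟩
  exact ⟨_, _, mon_mul π ρ c d⟩

lemma IsMon.inv {g : GL ι F} : IsMon g → IsMon g⁻¹ := by
  rintro ⟨π, c, rfl⟩
  exact ⟨_, _, mon_inv π c⟩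

/-- An invertible matrix with one non-zero entry at most in each column is monomial. -/
lemma isMon_of_cols {g : GL ι F} (f : ι → ι)
    (h : ∀ j k, k ≠ f j → ap g (Pi.single j 1) k = 0) : IsMon g := by
  have hg : ∀ j, ap g (Pi.single j (1 : F)) =
      Pi.single (f j) (ap g (Pi.single j 1) (f j)) := by
    intro j
    ext k
    by_cases hk : k = f j
    · subst hk; simp
    · simp [hk, h j k hk]
  have hne : ∀ j, ap g (Pi.single j (1 : F)) (f j) ≠ 0 := fun j h0 =>
    ap_ne_zero g (x := Pi.single j 1) (by simp) (by rw [hg j, h0, Pi.single_zero])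
  have hinj : Function.Injective f := by
    intro j j' he
    by_contra hjj
    obtain ⟨b, hb⟩ : ∃ b, ap g (Pi.single j' 1) (f j') = b := ⟨_, rfl⟩
    obtain ⟨a, ha⟩ : ∃ a, ap g (Pi.single j 1) (f j) = a := ⟨_, rfl⟩
    have : ap g (b • Pi.single j 1 - a • Pi.single j' 1) = 0 := by
      rw [ap_sub, ap_smul, ap_smul, hg j, hg j', ha, hb, he]
      ext k
      by_cases hk : k = f j' <;> simp [hk, mul_comm]
    have h0 := congrFun (ap_injective g (this.trans (ap_zero g).symm)) j
    simp [hjj] at h0
    exact hne j' (hb.trans h0)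
  let π : Equiv.Perm ι := Equiv.ofBijective f (Finite.injective_iff_bijective.mp hinj)
  refine ⟨π, fun m => Units.mk0 _ (hne (π.symm m)), ?_⟩
  refine Units.ext (Matrix.ext_of_mulVec_single fun j => ?_)
  change ap g (Pi.single j 1) = ap (mon π _) (Pi.single j 1)
  rw [ap_mon_single, hg j]
  simp [π]

lemma exists_two_nonzero {g : GL ι F} (h : ¬ IsMon g) :
    ∃ j a b, a ≠ b ∧ ap g (Pi.single j 1) a ≠ 0 ∧ ap g (Pi.single j 1) b ≠ 0 := by
  by_contra hc
  push Not at hc
  have he : ∀ j, ∃ a, ap g (Pi.single j (1 : F)) a ≠ 0 := fun j =>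
    Function.ne_iff.mp (ap_ne_zero g (x := Pi.single j 1) (by simp))
  choose f hf using he
  exact h (isMon_of_cols f fun j k hk => by_contra fun h0 => hk
    (by_contra fun hne => h0 (hc j (f j) k (Ne.symm hne) (hf j))))

/-- If the fixed space of a monomial map has codimension at most `r`, then at most `2 r` basis
vectors move. -/
lemma card_fixed_mon {π : Equiv.Perm ι} {c : ι → Fˣ} {r : ℕ}
    (h : Fintype.card ι ≤ Module.finrank F (fixSpace (mon π c)) + r)
    {s : Finset ι} (hs : ∀ m, ap (mon π c) (Pi.single m 1) = Pi.single m 1 → m ∈ s) :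
    Fintype.card ι ≤ s.card + 2 * r := by
  classical
  letI : LinearOrder ι := LinearOrder.lift' (Fintype.equivFin ι) (Equiv.injective _)
  have hfx : ∀ x ∈ fixSpace (mon π c), ∀ m, x (π m) = (c (π m) : F) * x m := by
    intro x hx m
    conv_lhs => rw [← mem_fixSpace.mp hx]
    rw [ap_mon, Equiv.symm_apply_apply]
  have key : ∀ (lt : ι → ι → Prop), WellFounded lt → ∀ R : Finset ι,
      (∀ m, m ∉ R → π m ≠ m → lt (π m) m) → (∀ m, π m = m → (c m : F) = 1 → m ∈ R) →
      Module.finrank F (fixSpace (mon π c)) ≤ R.card := by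
    intro lt hwf R h1 h2
    have hz : ∀ x ∈ fixSpace (mon π c), (∀ m ∈ R, x m = 0) → ∀ m, x m = 0 := by
      intro x hx hR m
      induction m using hwf.induction with
      | _ m ih =>
        by_cases hm : m ∈ R
        · exact hR m hm
        by_cases hπ : π m = m
        · have e := hfx x hx m
          rw [hπ] at e
          by_contra h0
          exact hm (h2 m hπ (mul_right_cancel₀ h0 (e.symm.trans (one_mul _).symm)))
        · have e := hfx x hx m
          rw [ih (π m) (h1 m hm hπ)] at e
          exact (mul_eq_zero.mp e.symm).resolve_left (c (π m)).ne_zero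
    have hinj : Function.Injective
        ((LinearMap.funLeft F F (Subtype.val : R → ι)).comp (fixSpace (mon π c)).subtype) := by
      intro x y hxy
      apply Subtype.ext
      have := hz _ (sub_mem x.2 y.2) fun m hm => by
        simpa [sub_eq_zero] using congrFun hxy ⟨m, hm⟩
      exact funext fun m => sub_eq_zero.mp (this m)
    simpa [Module.finrank_fintype_fun_eq_card] using
      LinearMap.finrank_le_finrank_of_injective hinj
  set Fx := Finset.univ.filter fun m => π m = m ∧ (c m : F) = 1 with hFx
  set A := Finset.univ.filter fun m => m < π m with hA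
  set B := Finset.univ.filter fun m => π m < m with hB
  have hk1 := key (· < ·) wellFounded_lt (Fx ∪ A)
    (fun m hm hπ => by
      simp only [Finset.mem_union, hA, Finset.mem_filter, Finset.mem_univ, true_and, not_or] at hm
      exact lt_of_le_of_ne (le_of_not_gt hm.2) hπ)
    (fun m hπ hc => by simp [hFx, hπ, Units.val_eq_one.mp hc])
  have hk2 := key (· > ·) wellFounded_gt (Fx ∪ B)
    (fun m hm hπ => by
      simp only [Finset.mem_union, hB, Finset.mem_filter, Finset.mem_univ, true_and, not_or] at hm
      exact lt_of_le_of_ne (le_of_not_gt hm.2) (Ne.symm hπ))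
    (fun m hπ hc => by simp [hFx, hπ, Units.val_eq_one.mp hc])
  have hsub : Fx ⊆ s := fun m hm => by
    simp only [hFx, Finset.mem_filter, Finset.mem_univ, true_and] at hm
    exact hs m (by simp [ap_mon_single, hm.1, hm.2])
  have hdis : (Fx ∪ A).card + (Fx ∪ B).card ≤ Fintype.card ι + Fx.card := by
    rw [← Finset.card_union_add_card_inter]
    refine Nat.add_le_add (Finset.card_le_univ _) (Finset.card_le_card fun m hm => ?_)
    simp only [Finset.mem_inter, Finset.mem_union, hA, hB, Finset.mem_filter, Finset.mem_univ,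
      true_and] at hm
    rcases hm with ⟨h | h, h' | h'⟩
    exacts [h, h, h', absurd h (lt_asymm h')]
  have := Finset.card_le_card hsub
  omega

/-- The fixed space of `g⁻¹ d g` when `d` only changes the coordinates in `J`. -/
lemma card_le_fixSpace_conj {g d : GL ι F} {J : Finset ι}
    (hd : ∀ x, (∀ l ∈ J, x l = 0) → ap d x = x) :
    Fintype.card ι ≤ Module.finrank F (fixSpace (g⁻¹ * d * g)) + J.card := by
  let Φ : (ι → F) →ₗ[F] (J → F) :=
    (LinearMap.funLeft F F (Subtype.val : J → ι)).comp (apEquiv g).toLinearMap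
  have h1 := Φ.finrank_range_add_finrank_ker
  have h2 : Module.finrank F (LinearMap.range Φ) ≤ J.card :=
    (Submodule.finrank_le _).trans_eq (by simp [Module.finrank_fintype_fun_eq_card])
  have h3 : LinearMap.ker Φ ≤ fixSpace (g⁻¹ * d * g) := fun x hx => by
    rw [mem_fixSpace, ap_mul, ap_mul, hd _ fun l hl => congrFun (LinearMap.mem_ker.mp hx) ⟨l, hl⟩,
      ap_inv_ap]
  have h4 := Submodule.finrank_mono h3
  rw [Module.finrank_fintype_fun_eq_card] at h1
  omega

end CfsgLib.Geometric
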