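import Cfsg.Agent.Lib.Geometric.Decomp

/-!
A group of isometries containing the stabiliser of a pair of complementary totally singular
subspaces, and something else, contains an element fixing exactly one of them.
-/

namespace CfsgLib.Geometric

open Matrix

variable {ι : Type} [Fintype ι] [DecidableEq ι] {F : Type*} [Field F]

/-- `g` maps `U` into `U'`. -/
def MapsIn (g : GL ι F) (U U' : Submodule F (ι → F)) : Prop := ∀ x ∈ U, ap g x ∈ U'

lemma MapsIn.mul {g h : GL ι F} {U U' U'' : Submodule F (ι → F)} (hg : MapsIn g U' U'')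
    (hh : MapsIn h U U') : MapsIn (g * h) U U'' := fun x hx => by
  rw [ap_mul]; exact hg _ (hh x hx)

lemma MapsIn.inv {g : GL ι F} {U U' : Submodule F (ι → F)} (hg : MapsIn g U U')
    (hd : Module.finrank F U' ≤ Module.finrank F U) : MapsIn g⁻¹ U' U := by
  intro y hy
  have h : U.map (apEquiv g).toLinearMap = U' := Submodule.eq_of_le_of_finrank_le
    (by rintro _ ⟨x, hx, rfl⟩; exact hg x hx) (by rwa [LinearEquiv.finrank_map_eq])
  rw [← h] at hy
  obtain ⟨x, hx, rfl⟩ := hy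
  simpa [ap_inv_ap] using hx

lemma MapsIn.map_eq {g : GL ι F} {U U' : Submodule F (ι → F)} (hg : MapsIn g U U')
    (hd : Module.finrank F U' ≤ Module.finrank F U) :
    U.map (Matrix.toLin' (g : Matrix ι ι F)) = U' := by
  refine Submodule.eq_of_le_of_finrank_le (by rintro _ ⟨x, hx, rfl⟩; exact hg x hx) ?_
  change _ ≤ Module.finrank F (U.map (apEquiv g).toLinearMap : Submodule F (ι → F))
  rwa [LinearEquiv.finrank_map_eq]

/-- A reflexive pairing, linear in the first variable and semilinear in the second, with two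
complementary totally singular subspaces. -/
structure PairSpace (τ : F ≃+* F) (B : (ι → F) → (ι → F) → F)
    (U U' : Submodule F (ι → F)) : Prop where
  add_left : ∀ x y z, B (x + y) z = B x z + B y z
  smul_left : ∀ (c : F) x y, B (c • x) y = c * B x y
  add_right : ∀ x y z, B x (y + z) = B x y + B x z
  smul_right : ∀ (c : F) x y, B x (c • y) = τ c * B x y
  eq_zero_comm : ∀ x y, B x y = 0 ↔ B y x = 0
  sep : ∀ (S : Submodule F (ι → F)) (x : ι → F), x ∉ S →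
    ∃ y, (∀ s ∈ S, B s y = 0) ∧ B x y = 1
  compl : IsCompl U U'
  sing : ∀ a ∈ U, ∀ b ∈ U, B a b = 0
  sing' : ∀ a ∈ U', ∀ b ∈ U', B a b = 0
  finrank_eq : Module.finrank F U' = Module.finrank F U
  three_le : 3 ≤ Module.finrank F U

variable {τ : F ≃+* F} {B : (ι → F) → (ι → F) → F} {U U' : Submodule F (ι → F)}

namespace PairSpace

variable (hP : PairSpace τ B U U')
include hP

omit [DecidableEq ι] [Fintype ι] in
lemma sub_left (x y z : ι → F) : B (x - y) z = B x z - B y z := by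
  have := hP.add_left (x - y) y z
  rw [sub_add_cancel] at this
  exact (eq_sub_of_add_eq this.symm)

omit [DecidableEq ι] [Fintype ι] in
lemma zero_left (y : ι → F) : B 0 y = 0 := by simpa using hP.smul_left 0 0 y

omit [DecidableEq ι] [Fintype ι] in
lemma zero_right (y : ι → F) : B y 0 = 0 := (hP.eq_zero_comm _ _).1 (hP.zero_left y)

omit [DecidableEq ι] [Fintype ι] in
lemma symm' : PairSpace τ B U' U :=
  { hP with
    compl := hP.compl.symm
    sing := hP.sing'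
    sing' := hP.sing
    finrank_eq := hP.finrank_eq.symm
    three_le := hP.finrank_eq.symm ▸ hP.three_le }

omit [DecidableEq ι] [Fintype ι] in
lemma decomp (x : ι → F) : ∃ u ∈ U, ∃ u' ∈ U', x = u + u' := by
  obtain ⟨a, ha, b, hb, h⟩ := Submodule.mem_sup.mp
    (hP.compl.sup_eq_top.symm ▸ Submodule.mem_top : x ∈ U ⊔ U')
  exact ⟨a, ha, b, hb, h.symm⟩

omit [DecidableEq ι] [Fintype ι] in
lemma unique {u u' v v' : ι → F} (hu : u ∈ U) (hu' : u' ∈ U') (hv : v ∈ U) (hv' : v' ∈ U')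
    (h : u + u' = v + v') : u = v ∧ u' = v' := by
  have h1 : u - v = v' - u' := by rw [sub_eq_sub_iff_add_eq_add, h, add_comm]
  have h2 : u - v = 0 := Submodule.disjoint_def.mp hP.compl.disjoint _ (U.sub_mem hu hv)
    (h1 ▸ U'.sub_mem hv' hu')
  refine ⟨sub_eq_zero.1 h2, ?_⟩
  rw [h1] at h2
  exact (sub_eq_zero.1 h2).symm

omit [DecidableEq ι] [Fintype ι] in
/-- Separation of `x ∈ U` from a subspace of `U` by an element of `U'`. -/
lemma sep' {S : Submodule F (ι → F)} (hS : S ≤ U) {x : ι → F} (hx : x ∈ U) (hxS : x ∉ S) :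
    ∃ y ∈ U', (∀ s ∈ S, B s y = 0) ∧ B x y = 1 := by
  obtain ⟨y, hy, hxy⟩ := hP.sep S x hxS
  obtain ⟨a, ha, a', ha', rfl⟩ := hP.decomp y
  refine ⟨a', ha', fun s hs => ?_, ?_⟩
  · have := hy s hs
    rwa [hP.add_right, hP.sing s (hS hs) a ha, zero_add] at this
  · rwa [hP.add_right, hP.sing x hx a ha, zero_add] at hxy

omit [DecidableEq ι] [Fintype ι] in
lemma sep_one {x y : ι → F} (hx : x ∈ U) (hy : y ∈ U) (h : x ∉ Submodule.span F {y}) :
    ∃ a ∈ U', B y a = 0 ∧ B x a = 1 := by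
  obtain ⟨a, ha, h1, h2⟩ := hP.sep' ((Submodule.span_singleton_le_iff_mem _ _).2 hy) hx h
  exact ⟨a, ha, h1 y (Submodule.mem_span_singleton_self y), h2⟩

omit [DecidableEq ι] in
/-- A vector of `U` orthogonal to `z` outside a line. -/
lemma exists_perp (z v : ι → F) :
    ∃ b ∈ U, B b z = 0 ∧ b ∉ Submodule.span F {v} := by
  let φ : (ι → F) →ₗ[F] F :=
    { toFun := fun x => B x z
      map_add' := fun x y => hP.add_left x y z
      map_smul' := fun c x => hP.smul_left c x z }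
  by_contra hc
  push Not at hc
  have hle : U ⊓ LinearMap.ker φ ≤ Submodule.span F {v} := fun b hb => hc b hb.1 hb.2
  have h1 := Submodule.finrank_mono hle
  have h2 : Module.finrank F (Submodule.span F {v}) ≤ 1 := by
    by_cases hv : v = 0
    · rw [hv, Submodule.span_zero_singleton, finrank_bot]; omega
    · rw [finrank_span_singleton hv]
  have h3 := Submodule.finrank_sup_add_finrank_inf_eq U (LinearMap.ker φ)
  have h4 := Submodule.finrank_le (U ⊔ LinearMap.ker φ)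
  have h5 := φ.finrank_range_add_finrank_ker
  have h6 : Module.finrank F (LinearMap.range φ) ≤ 1 :=
    (Submodule.finrank_le _).trans_eq (Module.finrank_self F)
  have := hP.three_le
  omega

omit [DecidableEq ι] in
/-- Two independent vectors of `U` killed by three pairings. -/
lemma exists_two (h7 : 5 ≤ Module.finrank F U) (z₁ z₂ z₃ : ι → F) :
    ∃ b₁ b₂, b₁ ∈ U ∧ b₂ ∈ U ∧ b₁ ≠ 0 ∧ b₂ ∉ Submodule.span F {b₁} ∧
      (B b₁ z₁ = 0 ∧ B b₁ z₂ = 0 ∧ B b₁ z₃ = 0) ∧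
      (B b₂ z₁ = 0 ∧ B b₂ z₂ = 0 ∧ B b₂ z₃ = 0) := by
  let φ : (ι → F) →ₗ[F] (F × F × F) :=
    { toFun := fun x => (B x z₁, B x z₂, B x z₃)
      map_add' := fun x y => by simp [hP.add_left]
      map_smul' := fun c x => by simp [hP.smul_left] }
  set K := U ⊓ LinearMap.ker φ with hK
  have h3 := Submodule.finrank_sup_add_finrank_inf_eq U (LinearMap.ker φ)
  have h4 := Submodule.finrank_le (U ⊔ LinearMap.ker φ)
  have h5 := φ.finrank_range_add_finrank_ker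
  have h6 : Module.finrank F (LinearMap.range φ) ≤ 3 :=
    (Submodule.finrank_le _).trans_eq (by simp)
  rw [← hK] at h3
  obtain ⟨b₁, hb₁, hb₁0⟩ := Submodule.exists_mem_ne_zero_of_ne_bot (p := K) fun h => by
    rw [h, finrank_bot] at h3
    omega
  obtain ⟨b₂, hb₂, hb₂1⟩ := Set.not_subset.mp (fun h : K ≤ Submodule.span F {b₁} => by
    have := Submodule.finrank_mono h
    rw [finrank_span_singleton hb₁0] at this
    omega)
  have e₁ : φ b₁ = 0 := hb₁.2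
  have e₂ : φ b₂ = 0 := hb₂.2
  simp [φ] at e₁ e₂
  exact ⟨b₁, b₂, hb₁.1, hb₂.1, hb₁0, hb₂1, e₁, e₂⟩

/-- Some element of `M` fixes exactly one of `U` and `U'`. -/
theorem exists_fix_one (hdim : 5 ≤ Module.finrank F U) {M : Subgroup (GL ι F)} {ε : F}
    (hε : ε ≠ 0)
    (hMB : ∀ g ∈ M, ∀ x y, B (ap g x) (ap g y) = B x y)
    (hs : ∀ a ∈ U', ∀ b ∈ U, B a b = 0 →
      ∃ h ∈ M, ∀ x, ap h x = x + B x a • b + (ε * B x b) • a)
    {sw : GL ι F} (hsw : sw ∈ M) (hsw₁ : MapsIn sw U U') (hsw₂ : MapsIn sw U' U)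
    {g : GL ι F} (hg : g ∈ M) (hg₁ : ¬ (MapsIn g U U ∧ MapsIn g U' U'))
    (hg₂ : ¬ (MapsIn g U U' ∧ MapsIn g U' U)) :
    ∃ k ∈ M, MapsIn k U U ∧ ∃ x ∈ U', ap k x ∉ U' := by
  by_contra hcon
  push Not at hcon
  have hd := hP.finrank_eq
  have hno : ∀ k ∈ M, MapsIn k U U → MapsIn k U' U' := hcon
  have hno' : ∀ k ∈ M, MapsIn k U' U' → MapsIn k U U := by
    intro k hk h
    have h1 := hno _ (mul_mem (mul_mem hsw hk) (inv_mem hsw))
      ((hsw₂.mul h).mul (hsw₂.inv hd.ge))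
    have h2 := ((hsw₁.inv hd.le).mul h1).mul hsw₁
    intro x hx
    have := h2 x hx
    simpa [mul_assoc, ap_mul, ap_inv_ap] using this
  have hconj : ∀ k ∈ M, ∀ a ∈ U', ∀ b ∈ U, B a b = 0 → ∃ h ∈ M, ∀ x,
      ap h x = x + B x (ap k a) • ap k b + (ε * B x (ap k b)) • ap k a := by
    intro k hk a ha b hb hab
    obtain ⟨h, hh, hap⟩ := hs a ha b hb hab
    refine ⟨k * h * k⁻¹, mul_mem (mul_mem hk hh) (inv_mem hk), fun x => ?_⟩
    obtain ⟨y, rfl⟩ : ∃ y, x = ap k y := ⟨ap k⁻¹ x, (ap_ap_inv k x).symm⟩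
    rw [ap_mul, ap_mul, ap_inv_ap, hap, hMB k hk, hMB k hk, ap_add, ap_add, ap_smul, ap_smul]
  -- `g U` lies in neither subspace
  have hgU : ¬ MapsIn g U U := fun h => hg₁ ⟨h, hno g hg h⟩
  have hgU' : ¬ MapsIn g U U' := fun h => by
    refine hg₂ ⟨h, ?_⟩
    have h1 := hno _ (mul_mem hsw hg) (hsw₂.mul h)
    intro x hx
    have := (hsw₁.inv hd.le).mul h1 x hx
    simpa [mul_assoc, ap_mul, ap_inv_ap] using this
  obtain ⟨x, hx, u, hu, u', hu', hy, hu0, hu'0⟩ : ∃ x ∈ U, ∃ u ∈ U, ∃ u' ∈ U',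
      ap g x = u + u' ∧ u ≠ 0 ∧ u' ≠ 0 := by
    obtain ⟨x₁, hx₁, h₁⟩ : ∃ x ∈ U, ap g x ∉ U := by simpa [MapsIn] using hgU
    obtain ⟨x₂, hx₂, h₂⟩ : ∃ x ∈ U, ap g x ∉ U' := by simpa [MapsIn] using hgU'
    obtain ⟨a₁, ha₁, a₁', ha₁', e₁⟩ := hP.decomp (ap g x₁)
    obtain ⟨a₂, ha₂, a₂', ha₂', e₂⟩ := hP.decomp (ap g x₂)
    have n₁ : a₁' ≠ 0 := fun h => h₁ (by rw [e₁, h, add_zero]; exact ha₁)
    have n₂ : a₂ ≠ 0 := fun h => h₂ (by rw [e₂, h, zero_add]; exact ha₂')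
    by_cases c₁ : a₁ = 0
    swap; · exact ⟨x₁, hx₁, a₁, ha₁, a₁', ha₁', e₁, c₁, n₁⟩
    by_cases c₂ : a₂' = 0
    swap; · exact ⟨x₂, hx₂, a₂, ha₂, a₂', ha₂', e₂, n₂, c₂⟩
    exact ⟨x₁ + x₂, U.add_mem hx₁ hx₂, a₂, ha₂, a₁', ha₁',
      by rw [ap_add, e₁, e₂, c₁, c₂]; abel, n₂, n₁⟩
  -- a conjugate of a root element moving `U`
  obtain ⟨k, hk, hkU, z₁, z₂, hkfix⟩ : ∃ k ∈ M, ¬ MapsIn k U U ∧ ∃ z₁ z₂,
      ∀ b, B b z₁ = 0 → B b z₂ = 0 → ap k b = b := by
    by_contra hc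
    push Not at hc
    have key : ∀ a ∈ U', ∀ b ∈ U, B a b = 0 →
        ∃ y ∈ U, ap g y = B (ap g x) a • b + (ε * B (ap g x) b) • a := by
      intro a ha b hb hab
      obtain ⟨h, hh, hap⟩ := hs a ha b hb hab
      have hkM := mul_mem (mul_mem (inv_mem hg) hh) hg
      by_cases hm : MapsIn (g⁻¹ * h * g) U U
      · refine ⟨ap (g⁻¹ * h * g) x - x, U.sub_mem (hm x hx) hx, ?_⟩
        rw [ap_sub, ap_mul, ap_mul, ap_ap_inv, hap]
        abel
      · obtain ⟨b', hb₁, hb₂, hb'⟩ := hc _ hkM hm (ap g⁻¹ a) (ap g⁻¹ b)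
        exfalso
        refine hb' ?_
        rw [← hMB g hg, ap_ap_inv] at hb₁ hb₂
        rw [ap_mul, ap_mul, hap, hb₁, hb₂]
        simp [ap_inv_ap]
    obtain ⟨b, hb, hbu', hbu⟩ := hP.exists_perp u' u
    obtain ⟨a, ha, hba, hua⟩ := hP.sep_one hu hb fun h => hbu (by
      obtain ⟨c, hc⟩ := Submodule.mem_span_singleton.1 h
      have hc0 : c ≠ 0 := fun h0 => hu0 (by rw [← hc, h0, zero_smul])
      exact Submodule.mem_span_singleton.2 ⟨c⁻¹, by
        rw [← hc, smul_smul, inv_mul_cancel₀ hc0, one_smul]⟩)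
    obtain ⟨y₁, hy₁, e₁⟩ := key a ha b hb ((hP.eq_zero_comm _ _).1 hba)
    rw [hy, hP.add_left, hP.add_left, hua, hP.sing' _ hu' _ ha, hP.sing _ hu _ hb,
      (hP.eq_zero_comm _ _).1 hbu'] at e₁
    simp at e₁
    obtain ⟨a₀, ha₀, hua₀, hba₀⟩ := hP.sep_one hb hu hbu
    have ha₀u' : u' ∉ Submodule.span F {a₀} := fun h => by
      obtain ⟨c, hc⟩ := Submodule.mem_span_singleton.1 h
      have hc0 : c ≠ 0 := fun h0 => hu'0 (by rw [← hc, h0, zero_smul])
      rw [← hc, hP.smul_right, hba₀, mul_one] at hbu'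
      exact hc0 (EmbeddingLike.map_eq_zero_iff.1 hbu')
    obtain ⟨b₀, hb₀, hab₀, hub₀⟩ := hP.symm'.sep_one hu' ha₀ ha₀u'
    obtain ⟨y₀, hy₀, e₀⟩ := key a₀ ha₀ b₀ hb₀ hab₀
    rw [hy, hP.add_left, hP.add_left, hua₀, hP.sing' _ hu' _ ha₀, hP.sing _ hu _ hb₀, hub₀] at e₀
    simp at e₀
    have h1 : B (ap g y₁) (ap g y₀) = 0 := by rw [hMB g hg]; exact hP.sing _ hy₁ _ hy₀
    rw [e₁, e₀, hP.smul_right, hba₀, mul_one, EmbeddingLike.map_eq_zero_iff] at h1
    exact hε h1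
  -- its second subspace is fixed
  refine hkU (hno' k hk fun a' ha' => ?_)
  obtain ⟨κ, hκ, A', hA', hA⟩ := hP.decomp (ap k a')
  obtain ⟨b₁, b₂, hb₁, hb₂, hb₁0, hb₂1, ⟨h11, h12, h13⟩, ⟨h21, h22, h23⟩⟩ :=
    hP.exists_two hdim z₁ z₂ a'
  have main : ∀ b ∈ U, b ≠ 0 → ap k b = b → B b a' = 0 → κ ∈ Submodule.span F {b} := by
    intro b hb hb0 hkb hba'
    obtain ⟨h, hh, hap⟩ := hconj k hk a' ha' b hb ((hP.eq_zero_comm _ _).1 hba')
    rw [hkb] at hap
    have hU : MapsIn h U U := fun y hy => by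
      rw [hap, hP.sing y hy b hb, mul_zero, zero_smul, add_zero]
      exact U.add_mem hy (U.smul_mem _ hb)
    obtain ⟨z, hz, -, hbz⟩ := hP.sep' (S := ⊥) bot_le hb (by simpa using hb0)
    have hzb : B z b ≠ 0 := fun h => one_ne_zero (hbz.symm.trans ((hP.eq_zero_comm _ _).1 h))
    have h1 := hno h hh hU z hz
    rw [hap, hA] at h1
    have e : B z (κ + A') • b + (ε * B z b) • κ ∈ U' := by
      have h2 := U'.sub_mem (U'.sub_mem h1 hz) (U'.smul_mem (ε * B z b) hA')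
      convert h2 using 1
      rw [smul_add]
      abel
    have e0 := Submodule.disjoint_def.mp hP.compl.disjoint _
      (U.add_mem (U.smul_mem _ hb) (U.smul_mem _ hκ)) e
    refine Submodule.mem_span_singleton.2 ⟨-((ε * B z b)⁻¹ * B z (κ + A')), ?_⟩
    have h3 : (ε * B z b) • κ = -(B z (κ + A') • b) := eq_neg_of_add_eq_zero_right e0
    rw [neg_smul, mul_smul, ← smul_neg, ← h3, smul_smul, inv_mul_cancel₀ (mul_ne_zero hε hzb),
      one_smul]
  have hb₂0 : b₂ ≠ 0 := fun h => hb₂1 (h ▸ zero_mem _)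
  obtain ⟨c₁, hc₁⟩ := Submodule.mem_span_singleton.1 (main b₁ hb₁ hb₁0 (hkfix _ h11 h12) h13)
  obtain ⟨c₂, hc₂⟩ := Submodule.mem_span_singleton.1 (main b₂ hb₂ hb₂0 (hkfix _ h21 h22) h23)
  have hκ0 : κ = 0 := by
    by_cases h : c₂ = 0
    · rw [← hc₂, h, zero_smul]
    exfalso
    refine hb₂1 (Submodule.mem_span_singleton.2 ⟨c₂⁻¹ * c₁, ?_⟩)
    rw [mul_smul, hc₁, ← hc₂, smul_smul, inv_mul_cancel₀ h, one_smul]
  rw [hA, hκ0, zero_add]
  exact hA'

end PairSpace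

lemma mem_pairStab {k : ℕ} {D : Fin 2 → Submodule F (ι → F)}
    (hD : Cfsg.Geo.IsMDecomposition k D) {g : GL ι F} :
    g ∈ Cfsg.Geo.decompositionStabilizer D ↔
      (MapsIn g (D 0) (D 0) ∧ MapsIn g (D 1) (D 1)) ∨
        (MapsIn g (D 0) (D 1) ∧ MapsIn g (D 1) (D 0)) := by
  refine ⟨fun ⟨π, hπ⟩ => ?_, fun h => ?_⟩
  · have hmap : ∀ i, MapsIn g (D i) (D (π i)) := fun i x hx => hπ i ▸ ⟨x, hx, rfl⟩
    have hne : π 0 ≠ π 1 := fun h => absurd (π.injective h) (by decide)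
    rcases Fin.exists_fin_two.1 ⟨π 0, rfl⟩ with h0 | h0
    · have h1 : π 1 = 1 := Fin.eq_one_of_ne_zero _ fun h => hne (h0.trans h.symm)
      exact Or.inl ⟨by simpa [h0] using hmap 0, by simpa [h1] using hmap 1⟩
    · have h1 : π 1 = 0 := by
        by_contra h
        exact hne (h0.trans (Fin.eq_one_of_ne_zero _ h).symm)
      exact Or.inr ⟨by simpa [h0] using hmap 0, by simpa [h1] using hmap 1⟩
  · have hd : ∀ i j, Module.finrank F (D j) ≤ Module.finrank F (D i) := fun i j => by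
      rw [hD.finrank_eq, hD.finrank_eq]
    rcases h with ⟨h0, h1⟩ | ⟨h0, h1⟩
    · refine ⟨1, fun i => ?_⟩
      rcases Fin.exists_fin_two.1 ⟨i, rfl⟩ with rfl | rfl
      exacts [h0.map_eq (hd _ _), h1.map_eq (hd _ _)]
    · refine ⟨Equiv.swap 0 1, fun i => ?_⟩
      rcases Fin.exists_fin_two.1 ⟨i, rfl⟩ with rfl | rfl
      · rw [Equiv.swap_apply_left]; exact h0.map_eq (hd _ _)
      · rw [Equiv.swap_apply_right]; exact h1.map_eq (hd _ _)

lemma isCompl_pair {k : ℕ} {D : Fin 2 → Submodule F (ι → F)}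
    (hD : Cfsg.Geo.IsMDecomposition k D) : IsCompl (D 0) (D 1) := by
  refine ⟨hD.indep.pairwiseDisjoint (by decide), codisjoint_iff.2 ?_⟩
  rw [← hD.iSup_eq_top]
  refine le_antisymm (sup_le (le_iSup D 0) (le_iSup D 1)) (iSup_le fun i => ?_)
  rcases Fin.exists_fin_two.1 ⟨i, rfl⟩ with rfl | rfl
  exacts [le_sup_left, le_sup_right]

end CfsgLib.Geometric
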