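import Cfsg.Agent.Lib.Geometric.Symp

/-!
A non-scalar algebra of endomorphisms invariant under a symplectic group contains all maps of
rank one.
-/

namespace CfsgLib.Geometric

open Matrix

variable {ι : Type} [Fintype ι] [DecidableEq ι] {F : Type*} [Field F]
variable {f : (ι → F) → (ι → F) → F} (hf : Cfsg.Geo.IsSymplecticForm f)
include hf

namespace Symp

/-- Isometries act transitively on non-zero vectors. -/
lemma exists_isom_map {x y : ι → F} (hx : x ≠ 0) (hy : y ≠ 0) :
    ∃ g ∈ isom f, ap g x = y := by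
  obtain ⟨h, hh, -, -, hm⟩ := exists_move hf (M := isom f) (U := ⊥)
    (fun v _ c => T_mem_isom hf v c) (x := x) (y := y) (mem_perp_bot hf _)
    (exists_perp_ne hf (by simpa using hx)) (exists_perp_ne hf (by simpa using hy))
  exact ⟨h, hh, hm⟩

/-- Isometries fixing a vector act transitively on the vectors outside its line with a given
product with it. -/
lemma exists_isom_map_fix {w x y : ι → F} (hx : x ∉ Submodule.span F {w})
    (hy : y ∉ Submodule.span F {w}) (h : f x w = f y w) :
    ∃ g ∈ isom f, ap g w = w ∧ ap g x = y := by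
  obtain ⟨g, hg, -, hfix, hm⟩ := exists_move hf (M := isom f) (U := Submodule.span F {w})
    (fun v _ c => T_mem_isom hf v c) (x := x) (y := y)
    ((mem_perp_span hf).mpr (by rw [sub_left hf, h, sub_self]))
    (exists_perp_ne hf hx) (exists_perp_ne hf hy)
  exact ⟨g, hg, hfix w (Submodule.mem_span_singleton_self w), hm⟩

/-- A vector orthogonal to `w` pairing to one with `x`. -/
lemma exists_perp_one {U : Submodule F (ι → F)} {x : ι → F} (hx : x ∉ U) :
    ∃ p ∈ perp hf U, f x p = 1 := by
  obtain ⟨p, hp, hne⟩ := exists_perp_ne hf hx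
  exact ⟨(f x p)⁻¹ • p, (perp hf U).smul_mem _ hp,
    by rw [hf.bilinear.smul_right, inv_mul_cancel₀ hne]⟩

omit hf in
/-- The rank one map `x ↦ f(x, v) u`. -/
def rk (hf : Cfsg.Geo.IsSymplecticForm f) (u v : ι → F) : (ι → F) →ₗ[F] (ι → F) :=
  (fl hf v).smulRight u

@[simp] lemma rk_apply (u v x : ι → F) : rk hf u v x = f x v • u := rfl

lemma zero_not_mem_span {w : ι → F} {x y : ι → F} (hxy : f x y ≠ 0) (hw : f w y = 0) :
    x ∉ Submodule.span F {w} := by
  intro h
  obtain ⟨t, rfl⟩ := Submodule.mem_span_singleton.mp h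
  exact hxy (by rw [hf.bilinear.smul_left, hw, mul_zero])

variable {S : ((ι → F) →ₗ[F] (ι → F)) → Prop} (hadd : ∀ A B, S A → S B → S (A + B))
  (hsmul : ∀ (c : F) A, S A → S (c • A))
  (hconj : ∀ g ∈ isom f, ∀ A, S A →
    S ((apEquiv g).toLinearMap ∘ₗ A ∘ₗ (apEquiv g⁻¹).toLinearMap))
  (hmul : ∀ A B, S A → S B → S (A ∘ₗ B))
include hadd hsmul hconj hmul

/-- Commutation with a symplectic transvection. -/
lemma mem_commutation {A : (ι → F) →ₗ[F] (ι → F)} (hA : S A) (u : ι → F) (t : F)
    {C : (ι → F) →ₗ[F] (ι → F)}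
    (h : ∀ x, C x = (t * f (A x) u) • u - (t * f x u) • A u -
      (t * t * f x u * f (A u) u) • u) : S C := by
  have h1 := hadd _ _ (hconj _ (T_mem_isom hf u t) A hA) (hsmul (-1) A hA)
  convert h1 using 1
  refine LinearMap.ext fun x => ?_
  have hi : ap (T hf u t)⁻¹ x = x + (-t * f x u) • u := by
    apply ap_injective (T hf u t)
    rw [ap_ap_inv, ap_T hf, hf.bilinear.add_left, hf.bilinear.smul_left, hf.alternating u]
    module
  simp only [h, LinearMap.add_apply, LinearMap.smul_apply, LinearMap.comp_apply,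
    LinearEquiv.coe_coe, apEquiv_apply, hi, map_add, map_smul, ap_T hf, hf.bilinear.add_left,
    hf.bilinear.smul_left]
  module

omit hsmul hadd hmul in
lemma rk_conj {u v : ι → F} (h : S (rk hf u v)) {g : GL ι F} (hg : g ∈ isom f) :
    S (rk hf (ap g u) (ap g v)) := by
  convert hconj g hg _ h using 1
  refine LinearMap.ext fun x => ?_
  have := (mem_isom_iff.mp hg) (ap g⁻¹ x) v
  rw [ap_ap_inv] at this
  simp [this, ap_smul]

/-- One symmetric map of rank one gives all maps of rank one. -/
lemma rk_mem_of_self {u₀ : ι → F} (hu₀ : u₀ ≠ 0) (h₀ : S (rk hf u₀ u₀)) (u v : ι → F) :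
    S (rk hf u v) := by
  have hzero : S 0 := by
    have := hsmul 0 _ h₀
    rwa [zero_smul] at this
  have hself : ∀ u, S (rk hf u u) := by
    intro u
    by_cases hu : u = 0
    · subst hu
      convert hzero using 1
      exact LinearMap.ext fun x => by simp
    · obtain ⟨g, hg, rfl⟩ := exists_isom_map hf hu₀ hu
      exact rk_conj hf hconj h₀ hg
  have hne : ∀ u v, f u v ≠ 0 → S (rk hf u v) := by
    intro u v huv
    convert hsmul (f v u)⁻¹ _ (hmul _ _ (hself u) (hself v)) using 1
    refine LinearMap.ext fun x => ?_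
    have : f v u ≠ 0 := fun h => huv ((eq_zero_comm hf).mp h)
    simp [smul_smul, hf.bilinear.smul_left]
    match_scalars
    field_simp
  by_cases hu : u = 0
  · subst hu
    convert hzero using 1
    exact LinearMap.ext fun x => by simp
  by_cases hv : v = 0
  · subst hv
    convert hzero using 1
    exact LinearMap.ext fun x => by simp [zero_right hf]
  obtain ⟨a, -, ha⟩ := exists_perp_one hf (U := ⊥) (x := u) (by simpa using hu)
  have ha0 : a ≠ 0 := by
    rintro rfl
    rw [zero_right hf] at ha
    exact zero_ne_one ha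
  obtain ⟨b, -, hb, hb'⟩ : ∃ b ∈ (⊤ : Submodule F (ι → F)),
      b ∉ LinearMap.ker (fl hf a) ∧ b ∉ LinearMap.ker (fl hf v) := by
    refine exists_mem_notMem_notMem (fun h => ?_) (fun h => ?_)
    · obtain ⟨x, hx⟩ := (hf.nondegenerate a ha0).1
      exact hx (by simpa using h (Submodule.mem_top (x := x)))
    · obtain ⟨x, hx⟩ := (hf.nondegenerate v hv).1
      exact hx (by simpa using h (Submodule.mem_top (x := x)))
  simp only [LinearMap.mem_ker, fl_apply] at hb hb'
  convert hsmul (f b a)⁻¹ _
    (hmul _ _ (hne u a (by rw [ha]; exact one_ne_zero)) (hne b v hb')) using 1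
  refine LinearMap.ext fun x => ?_
  simp [smul_smul, hf.bilinear.smul_left]
  match_scalars
  field_simp

/-- A map `x ↦ f(x,u) v - f(x,v) u` on an orthogonal pair gives all maps of rank one. -/
lemma rk_mem_of_pair {u v : ι → F} (hu : u ≠ 0) (hv : v ∉ Submodule.span F {u}) (huv : f u v = 0)
    (h : S (rk hf v u + (-1 : F) • rk hf u v)) (p r : ι → F) : S (rk hf p r) := by
  obtain ⟨a, ha, hav⟩ := exists_perp_one hf hv
  have hau : f a u = 0 := (mem_perp_span hf).mp ha
  have hvu : f v u = 0 := (eq_zero_comm hf).mp huv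
  have haind : a ∉ Submodule.span F {u} := zero_not_mem_span hf (y := v)
    (fun h0 => one_ne_zero (hav.symm.trans ((eq_zero_comm hf).mp h0))) huv
  -- move the pair `(u, v)` to `(a, u)`
  have ha0 : a ≠ 0 := fun h0 => haind (by rw [h0]; exact Submodule.zero_mem _)
  obtain ⟨g₁, hg₁, hg₁u⟩ := exists_isom_map hf hu ha0
  have hg₁v : ap g₁ v ∉ Submodule.span F {a} := by
    intro h0
    obtain ⟨t, ht⟩ := Submodule.mem_span_singleton.mp h0
    rw [← hg₁u, ← ap_smul] at ht
    exact hv (Submodule.mem_span_singleton.mpr ⟨t, ap_injective g₁ ht⟩)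
  have hua : u ∉ Submodule.span F {a} := by
    intro h0
    obtain ⟨t, ht⟩ := Submodule.mem_span_singleton.mp h0
    by_cases ht0 : t = 0
    · exact hu (by rw [← ht, ht0, zero_smul])
    · exact haind (Submodule.mem_span_singleton.mpr
        ⟨t⁻¹, by rw [← ht, inv_smul_smul₀ ht0]⟩)
  have hgg : f (ap g₁ v) a = f u a := by
    rw [← hg₁u, (mem_isom_iff.mp hg₁) v u, hvu, hg₁u, (eq_zero_comm hf).mp hau]
  obtain ⟨g₂, hg₂, hg₂a, hg₂v⟩ := exists_isom_map_fix hf hg₁v hua hgg
  have hbeta : S (rk hf u a + (-1 : F) • rk hf a u) := by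
    convert hconj (g₂ * g₁) (mul_mem hg₂ hg₁) _ h using 1
    refine LinearMap.ext fun x => ?_
    have hg := mem_isom_iff.mp (mul_mem hg₂ hg₁)
    have h1 : ap (g₂ * g₁) u = a := by rw [ap_mul, hg₁u, hg₂a]
    have h2 : ap (g₂ * g₁) v = u := by rw [ap_mul, hg₂v]
    have h3 : ∀ z, f (ap (g₂ * g₁)⁻¹ x) z = f x (ap (g₂ * g₁) z) := fun z => by
      rw [← hg (ap (g₂ * g₁)⁻¹ x) z, ap_ap_inv]
    simp only [LinearMap.add_apply, LinearMap.smul_apply, LinearMap.comp_apply,
      LinearEquiv.coe_coe, apEquiv_apply, rk_apply, ap_add, ap_smul, h3, h1, h2]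
  refine rk_mem_of_self hf hadd hsmul hconj hmul hu ?_ p r
  convert hsmul (f a v) _ (hmul _ _ h hbeta) using 1
  refine LinearMap.ext fun x => ?_
  have hva : f a v = -1 := by rw [hf.skew a v, hav]
  simp only [LinearMap.smul_apply, LinearMap.comp_apply, LinearMap.add_apply, rk_apply,
    hf.bilinear.add_left, hf.bilinear.smul_left, hf.alternating u, hau, hav, huv, hva]
  module

/-- An algebra with a non-scalar member contains all maps of rank one. -/
theorem rk_mem_of_nonscalar (hq : (∃ c : F, c ≠ 0 ∧ c ≠ 1) ∨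
      ((∀ c : F, c = 0 ∨ c = 1) ∧ 3 ≤ Fintype.card ι))
    {A : (ι → F) →ₗ[F] (ι → F)} (hA : S A) {x₀ : ι → F}
    (hx₀ : A x₀ ∉ Submodule.span F {x₀}) (p r : ι → F) : S (rk hf p r) := by
  by_cases hdiag : ∀ u, f (A u) u = 0
  · -- the alternating part
    have hx0 : x₀ ≠ 0 := fun h => hx₀ (by simp [h])
    have hpol : ∀ x u, f (A x) u = f x (A u) := by
      intro x u
      have h := hdiag (x + u)
      rw [map_add, hf.bilinear.add_left, hf.bilinear.add_right, hf.bilinear.add_right, hdiag,
        hdiag, hf.skew (A u) x] at h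
      linear_combination h
    refine rk_mem_of_pair hf hadd hsmul hconj hmul hx0 hx₀ ((eq_zero_comm hf).mp (hdiag x₀)) ?_ p r
    refine mem_commutation hf hadd hsmul hconj hmul hA x₀ (-1) fun x => ?_
    simp only [LinearMap.add_apply, LinearMap.smul_apply, rk_apply, hpol,
      (eq_zero_comm hf).mp (hdiag x₀)]
    module
  push Not at hdiag
  obtain ⟨u, hu⟩ := hdiag
  have hu0 : u ≠ 0 := fun h => hu (by simp [h, zero_right hf])
  rcases hq with ⟨c, hc0, hc1⟩ | ⟨h01, hcard⟩
  · refine rk_mem_of_self hf hadd hsmul hconj hmul hu0 ?_ p r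
    let C : F → (ι → F) →ₗ[F] (ι → F) := fun t => t • ((fl hf u).comp A).smulRight u -
      t • (fl hf u).smulRight (A u) - (t * t * f (A u) u) • rk hf u u
    have hC : ∀ t, S (C t) := fun t => mem_commutation hf hadd hsmul hconj hmul hA u t fun x => by
      simp [C, smul_smul]
      match_scalars <;> ring
    convert hsmul ((c - c * c) * f (A u) u)⁻¹ _ (hadd _ _ (hC c) (hsmul (-c) _ (hC 1))) using 1
    refine LinearMap.ext fun x => ?_
    have hcc : c - c * c ≠ 0 := by
      rw [show c - c * c = c * (1 - c) by ring]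
      exact mul_ne_zero hc0 (sub_ne_zero.mpr (Ne.symm hc1))
    simp [C]
    match_scalars <;> field_simp <;> ring
  · have hAu : f (A u) u = 1 := (h01 _).resolve_left hu
    let p' := A u + u
    have hp' : f p' u = 1 := by simp [p', hf.bilinear.add_left, hAu, hf.alternating u]
    have hup : f u p' = -1 := by rw [hf.skew, hp']
    obtain ⟨x, -, hx⟩ : ∃ x ∈ (⊤ : Submodule F (ι → F)), x ∉ Submodule.span F {u, p'} := by
      refine SetLike.exists_of_lt (lt_top_iff_ne_top.mpr fun h => ?_)
      have h1 := finrank_range_le_card (R := F) ![u, p']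
      rw [Set.finrank, show Set.range ![u, p'] = {u, p'} by simp [Set.pair_comm], h, finrank_top,
        Module.finrank_fintype_fun_eq_card, Fintype.card_fin] at h1
      omega
    obtain ⟨w, hw, hxw⟩ := exists_perp_one hf hx
    have hwu : f w u = 0 := hw u (Submodule.subset_span (by simp))
    have hwp : f w p' = 0 := hw p' (Submodule.subset_span (by simp))
    have hw0 : w ≠ 0 := fun h => by simp [h, zero_right hf] at hxw
    set v := -u + w with hvdef
    have hvu : f v u = 0 := by
      rw [hvdef, hf.bilinear.add_left, neg_left hf, hf.alternating u, hwu, neg_zero, add_zero]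
    have hvp : f v p' = 1 := by
      rw [hvdef, hf.bilinear.add_left, neg_left hf, hup, hwp, neg_neg, add_zero]
    have hvind : v ∉ Submodule.span F {u} := fun h0 => by
      have h1 : w ∈ Submodule.span F {u} := by
        have := Submodule.add_mem _ h0 (Submodule.mem_span_singleton_self u)
        rwa [hvdef, neg_add_cancel_comm] at this
      obtain ⟨t, ht⟩ := Submodule.mem_span_singleton.mp h1
      rw [← ht, hf.bilinear.smul_left, hup] at hwp
      exact hw0 (by rw [← ht, show t = 0 by linear_combination -hwp, zero_smul])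
    have hv0 : v ≠ 0 := fun h => hvind (by rw [h]; exact Submodule.zero_mem _)
    let D : (ι → F) →ₗ[F] (ι → F) := ((fl hf u).comp A).smulRight u -
      (fl hf u).smulRight (A u) - rk hf u u
    have hD : S D := mem_commutation hf hadd hsmul hconj hmul hA u 1 fun x => by
      simp [D, hAu]
    have hpv : f p' v = -1 := by rw [hf.skew, hvp]
    have hDfv : ∀ x, f (D x) v = f x u := fun x => by
      have e1 : f (A u) v + f u v = -1 := by
        rw [← hf.bilinear.add_left]; exact hpv
      have e2 : f u v = 0 := (eq_zero_comm hf).mp hvu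
      simp only [D, LinearMap.sub_apply, LinearMap.smulRight_apply, LinearMap.comp_apply,
        fl_apply, rk_apply, sub_left hf, hf.bilinear.smul_left, e2]
      rw [e2, add_zero] at e1
      rw [e1]
      ring
    set k := f (A v) u with hk
    have hDv : D v = k • u := by
      simp [D, hvu, hk]
    have hC : S (rk hf v u + (-k) • rk hf u v) := by
      refine mem_commutation hf hadd hsmul hconj hmul hD v 1 fun x => ?_
      rw [hDfv, hDv, hf.bilinear.smul_left, (eq_zero_comm hf).mp hvu]
      simp only [LinearMap.add_apply, LinearMap.smul_apply, rk_apply]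
      module
    rcases h01 k with hk0 | hk1
    · -- rank one on an orthogonal pair
      rw [hk0, neg_zero, zero_smul, add_zero] at hC
      obtain ⟨a, ha, hau⟩ := exists_perp_one hf (U := Submodule.span F {v}) (x := u) (by
        intro h0
        obtain ⟨t, ht⟩ := Submodule.mem_span_singleton.mp h0
        have ht0 : t ≠ 0 := fun h => hu0 (by rw [← ht, h, zero_smul])
        exact hvind (Submodule.mem_span_singleton.mpr ⟨t⁻¹, by rw [← ht, inv_smul_smul₀ ht0]⟩))
      have hav : f a v = 0 := (mem_perp_span hf).mp ha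
      have ha0 : a ≠ 0 := fun h => by simp [h, zero_right hf] at hau
      have hva : v ∉ Submodule.span F {a} := by
        intro h0
        obtain ⟨t, ht⟩ := Submodule.mem_span_singleton.mp h0
        have h1 : f u v = t := by rw [← ht, hf.bilinear.smul_right, hau, mul_one]
        rw [(eq_zero_comm hf).mp hvu] at h1
        exact hv0 (by rw [← ht, ← h1, zero_smul])
      obtain ⟨g₁, hg₁, hg₁v⟩ := exists_isom_map hf hv0 ha0
      obtain ⟨g₂, hg₂, hg₂a, hg₂u⟩ := exists_isom_map_fix hf (w := a) (x := ap g₁ u) (y := v)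
        (fun h0 => by
          obtain ⟨t, ht⟩ := Submodule.mem_span_singleton.mp h0
          rw [← hg₁v, ← ap_smul] at ht
          have := ap_injective g₁ ht
          have ht0 : t ≠ 0 := fun h => hu0 (by rw [← this, h, zero_smul])
          exact hvind (Submodule.mem_span_singleton.mpr
            ⟨t⁻¹, by rw [← this, inv_smul_smul₀ ht0]⟩))
        hva (by rw [← hg₁v, (mem_isom_iff.mp hg₁) u v, (eq_zero_comm hf).mp hvu, hg₁v,
          (eq_zero_comm hf).mp hav])
      have h2 := rk_conj hf hconj hC (mul_mem hg₂ hg₁)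
      rw [ap_mul, ap_mul, hg₁v, hg₂a, hg₂u] at h2
      refine rk_mem_of_self hf hadd hsmul hconj hmul hv0 ?_ p r
      convert hsmul (f a u)⁻¹ _ (hmul _ _ hC h2) using 1
      refine LinearMap.ext fun x => ?_
      have hau' : f a u ≠ 0 := fun h => one_ne_zero (hau.symm.trans ((eq_zero_comm hf).mp h))
      simp [smul_smul, hf.bilinear.smul_left]
      rw [mul_left_comm, inv_mul_cancel₀ hau', mul_one]
    · rw [hk1] at hC
      exact rk_mem_of_pair hf hadd hsmul hconj hmul hu0 hvind ((eq_zero_comm hf).mp hvu) hC p r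

end Symp

end CfsgLib.Geometric
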