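import Cfsg.Agent.Lib.Geometric.Tensor

/-!
Contractions, slices and factorwise maps for a tensor decomposition of `ι → F`.
-/

namespace CfsgLib.Geometric

open Matrix
open scoped Kronecker

variable {ι : Type} [Fintype ι] [DecidableEq ι] {F : Type*} [Field F]
variable {n₁ n₂ : ℕ} (e : ι ≃ Fin n₁ × Fin n₂) (P : GL ι F)

namespace Tensor

/-- Tensoring with a fixed vector of the second factor. -/
def ptl (y : Fin n₂ → F) : (Fin n₁ → F) →ₗ[F] (ι → F) where
  toFun x := pt e P x y
  map_add' x x' := pt_add_left e P x x' y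
  map_smul' c x := pt_smul_left e P c x y

@[simp] lemma ptl_apply (y : Fin n₂ → F) (x : Fin n₁ → F) : ptl e P y x = pt e P x y := rfl

lemma pt_add_right (x : Fin n₁ → F) (y y' : Fin n₂ → F) :
    pt e P x (y + y') = pt e P x y + pt e P x y' := (ptr e P x).map_add y y'

lemma pt_sub_right (x : Fin n₁ → F) (y y' : Fin n₂ → F) :
    pt e P x (y - y') = pt e P x y - pt e P x y' := (ptr e P x).map_sub y y'

lemma pt_neg_right (x : Fin n₁ → F) (y : Fin n₂ → F) :
    pt e P x (-y) = -pt e P x y := (ptr e P x).map_neg y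

lemma pt_sub_left (x x' : Fin n₁ → F) (y : Fin n₂ → F) :
    pt e P (x - x') y = pt e P x y - pt e P x' y := (ptl e P y).map_sub x x'

lemma pt_zero_left (y : Fin n₂ → F) : pt e P 0 y = 0 := (ptl e P y).map_zero

lemma pt_ne_zero {x : Fin n₁ → F} {y : Fin n₂ → F} (hx : x ≠ 0) (hy : y ≠ 0) :
    pt e P x y ≠ 0 := fun h =>
  hy (pt_inj_right e P hx (h.trans (pt_zero_right e P x).symm))

/-- The slice of a vector `y` of the second factor. -/
def slice (y : Fin n₂ → F) : Submodule F (ι → F) := LinearMap.range (ptl e P y)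

lemma mem_slice {y : Fin n₂ → F} {v : ι → F} : v ∈ slice e P y ↔ ∃ x, pt e P x y = v := Iff.rfl

lemma pt_mem_slice (x : Fin n₁ → F) (y : Fin n₂ → F) : pt e P x y ∈ slice e P y := ⟨x, rfl⟩

/-- Contraction with a functional on the second factor. -/
def con (φ : (Fin n₂ → F) →ₗ[F] F) : (ι → F) →ₗ[F] (Fin n₁ → F) :=
  (LinearMap.pi fun i => φ.comp (LinearMap.pi fun j => LinearMap.proj (i, j))).comp
    (coords e P).symm.toLinearMap

lemma con_apply (φ : (Fin n₂ → F) →ₗ[F] F) (v : ι → F) (i : Fin n₁) :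
    con e P φ v i = φ fun j => (coords e P).symm v (i, j) := rfl

@[simp] lemma con_pt (φ : (Fin n₂ → F) →ₗ[F] F) (x : Fin n₁ → F) (y : Fin n₂ → F) :
    con e P φ (pt e P x y) = φ y • x := by
  funext i
  rw [con_apply, pt, LinearEquiv.symm_apply_apply]
  change φ (x i • y) = _
  rw [map_smul, Pi.smul_apply, smul_eq_mul, smul_eq_mul, mul_comm]

lemma con_add (φ ψ : (Fin n₂ → F) →ₗ[F] F) : con e P (φ + ψ) = con e P φ + con e P ψ := by
  refine LinearMap.ext fun v => funext fun i => ?_
  simp [con_apply]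

lemma con_smul (c : F) (φ : (Fin n₂ → F) →ₗ[F] F) : con e P (c • φ) = c • con e P φ := by
  refine LinearMap.ext fun v => funext fun i => ?_
  simp [con_apply]

/-- Contraction with a functional on the first factor. -/
def conr (α : (Fin n₁ → F) →ₗ[F] F) : (ι → F) →ₗ[F] (Fin n₂ → F) :=
  (LinearMap.pi fun j => α.comp (LinearMap.pi fun i => LinearMap.proj (i, j))).comp
    (coords e P).symm.toLinearMap

lemma conr_apply (α : (Fin n₁ → F) →ₗ[F] F) (v : ι → F) (j : Fin n₂) :
    conr e P α v j = α fun i => (coords e P).symm v (i, j) := rfl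

@[simp] lemma conr_pt (α : (Fin n₁ → F) →ₗ[F] F) (x : Fin n₁ → F) (y : Fin n₂ → F) :
    conr e P α (pt e P x y) = α x • y := by
  funext j
  rw [conr_apply, pt, LinearEquiv.symm_apply_apply]
  change α (fun i => x i * y j) = _
  rw [show (fun i => x i * y j) = y j • x from funext fun i => mul_comm _ _, map_smul,
    Pi.smul_apply, smul_eq_mul, smul_eq_mul, mul_comm]

/-- Linear maps agreeing on pure tensors are equal. -/
lemma ext_pt {M : Type*} [AddCommGroup M] [Module F M] {f g : (ι → F) →ₗ[F] M}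
    (h : ∀ x y, f (pt e P x y) = g (pt e P x y)) : f = g := by
  have hc : f.comp (coords e P).toLinearMap = g.comp (coords e P).toLinearMap := by
    refine LinearMap.pi_ext' fun a => LinearMap.ext_ring ?_
    simp only [LinearMap.comp_apply, LinearEquiv.coe_coe, LinearMap.single_apply]
    rw [← pt_single]
    exact h _ _
  refine LinearMap.ext fun v => ?_
  obtain ⟨z, rfl⟩ := (coords e P).surjective v
  exact LinearMap.congr_fun hc z

/-- Invertible matrices agreeing on pure tensors are equal. -/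
lemma gl_ext_pt {g h : GL ι F} (H : ∀ x y, ap g (pt e P x y) = ap h (pt e P x y)) : g = h :=
  gl_ext (LinearMap.congr_fun (ext_pt e P (f := (apEquiv g).toLinearMap)
    (g := (apEquiv h).toLinearMap) H))

/-- The two contractions commute. -/
lemma apply_conr (α : (Fin n₁ → F) →ₗ[F] F) (φ : (Fin n₂ → F) →ₗ[F] F) (v : ι → F) :
    φ (conr e P α v) = α (con e P φ v) :=
  LinearMap.congr_fun (ext_pt e P (f := φ.comp (conr e P α)) (g := α.comp (con e P φ))
    fun x y => by simp [mul_comm]) v

/-- A vector killed by the contractions vanishing at `w` lies in the slice of `w`. -/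
lemma mem_slice_of_con {w : Fin n₂ → F} {ω : (Fin n₂ → F) →ₗ[F] F} (hω : ω w = 1) {v : ι → F}
    (h : ∀ φ : (Fin n₂ → F) →ₗ[F] F, φ w = 0 → con e P φ v = 0) :
    v = pt e P (con e P ω v) w := by
  refine (coords e P).symm.injective (funext fun a => ?_)
  obtain ⟨i, j⟩ := a
  set π : (Fin n₂ → F) →ₗ[F] F := LinearMap.proj j with hπ
  have h1 := congrFun (h (π - π w • ω) (by simp [hω])) i
  simp only [con_apply, LinearMap.sub_apply, LinearMap.smul_apply, Pi.zero_apply,
    sub_eq_zero] at h1
  rw [pt, LinearEquiv.symm_apply_apply]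
  simp only [hπ, LinearMap.proj_apply, smul_eq_mul] at h1
  simp only [con_apply]
  rw [h1, mul_comm]

/-- Factorwise action of a pair of invertible matrices. -/
def kron (a : GL (Fin n₁) F) (b : GL (Fin n₂) F) : GL ι F :=
  P * Cfsg.Geo.glReindex e.symm
    { val := (a : Matrix _ _ F) ⊗ₖ (b : Matrix _ _ F)
      inv := ((a⁻¹ : GL (Fin n₁) F) : Matrix _ _ F) ⊗ₖ ((b⁻¹ : GL (Fin n₂) F) : Matrix _ _ F)
      val_inv := by
        rw [← Matrix.mul_kronecker_mul, ← Units.val_mul, ← Units.val_mul, mul_inv_cancel,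
          mul_inv_cancel, Units.val_one, Units.val_one, Matrix.one_kronecker_one]
      inv_val := by
        rw [← Matrix.mul_kronecker_mul, ← Units.val_mul, ← Units.val_mul, inv_mul_cancel,
          inv_mul_cancel, Units.val_one, Units.val_one, Matrix.one_kronecker_one] } * P⁻¹

lemma kron_mem (a : GL (Fin n₁) F) (b : GL (Fin n₂) F) :
    kron e P a b ∈ Cfsg.Geo.tensorProductSubgroup n₁ n₂ e P :=
  ⟨_, ⟨_, ⟨a, b, rfl⟩, rfl⟩, rfl⟩

@[simp] lemma ap_kron (a : GL (Fin n₁) F) (b : GL (Fin n₂) F) (x : Fin n₁ → F)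
    (y : Fin n₂ → F) : ap (kron e P a b) (pt e P x y) = pt e P (ap a x) (ap b y) := by
  simp only [kron, pt, coords_apply, ap_mul, ap_inv_ap]
  congr 1
  simp only [ap_def, Cfsg.Geo.glReindex]
  funext i
  simp only [Function.comp_apply, Matrix.mulVec, dotProduct]
  refine (Equiv.sum_comp e fun l => ((a : Matrix _ _ F) ⊗ₖ (b : Matrix _ _ F)) (e i) l *
    (x l.1 * y l.2)).trans ?_
  exact congrFun (kronecker_mulVec (a : Matrix _ _ F) (b : Matrix _ _ F) x y) (e i)

lemma kron_inv (a : GL (Fin n₁) F) (b : GL (Fin n₂) F) :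
    (kron e P a b)⁻¹ = kron e P a⁻¹ b⁻¹ := by
  refine inv_eq_of_mul_eq_one_right (gl_ext_pt e P fun x y => ?_)
  rw [ap_mul, ap_kron, ap_kron, ap_ap_inv, ap_ap_inv, ap_one]

lemma det_kron (a : GL (Fin n₁) F) (b : GL (Fin n₂) F) :
    ((kron e P a b : GL ι F) : Matrix ι ι F).det =
      (a : Matrix (Fin n₁) (Fin n₁) F).det ^ n₂ * (b : Matrix (Fin n₂) (Fin n₂) F).det ^ n₁ := by
  rw [kron, Units.val_mul, Units.val_mul, Matrix.det_units_conj]
  simp [Cfsg.Geo.glReindex, Matrix.det_kronecker]

/-- Factorwise pairs of determinant one act with determinant one. -/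
lemma kron_mem_inf {a : GL (Fin n₁) F} {b : GL (Fin n₂) F}
    (ha : a ∈ Cfsg.Geo.specialLinear (Fin n₁) F) (hb : b ∈ Cfsg.Geo.specialLinear (Fin n₂) F) :
    kron e P a b ∈
      Cfsg.Geo.tensorProductSubgroup n₁ n₂ e P ⊓ Cfsg.Geo.specialLinear ι F := by
  refine ⟨kron_mem e P a b, (mem_specialLinear_iff _).mpr ?_⟩
  rw [det_kron, (mem_specialLinear_iff a).mp ha,
    (mem_specialLinear_iff b).mp hb, one_pow, one_pow, one_mul]

/-- `x ↦ x + L (A x)` for maps with `A ∘ L = 0`. -/
def unip {M : Type*} [AddCommGroup M] [Module F M] (L : M →ₗ[F] (ι → F))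
    (A : (ι → F) →ₗ[F] M) (h : A.comp L = 0) : GL ι F :=
  ofEquiv
    { toFun := fun x => x + L (A x)
      invFun := fun x => x - L (A x)
      map_add' := fun x y => by simp only [map_add]; abel
      map_smul' := fun c x => by simp only [map_smul, smul_add, RingHom.id_apply]
      left_inv := fun x => by
        have := LinearMap.congr_fun h (A x)
        simp only [LinearMap.comp_apply, LinearMap.zero_apply] at this
        simp [map_add, this]
      right_inv := fun x => by
        have := LinearMap.congr_fun h (A x)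
        simp only [LinearMap.comp_apply, LinearMap.zero_apply] at this
        simp [map_sub, this] }

omit [DecidableEq ι] in
lemma unip_comp_eq_zero {M : Type*} [AddCommGroup M] [Module F M] {L : M →ₗ[F] (ι → F)}
    {A : (ι → F) →ₗ[F] M} (h : A.comp L = 0) (x : M) : A (L x) = 0 := LinearMap.congr_fun h x

@[simp] lemma ap_unip {M : Type*} [AddCommGroup M] [Module F M] (L : M →ₗ[F] (ι → F))
    (A : (ι → F) →ₗ[F] M) (h : A.comp L = 0) (x : ι → F) :
    ap (unip L A h) x = x + L (A x) := by
  rw [unip, ap_ofEquiv]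
  rfl

lemma unip_mem_specialLinear {m : ℕ} (L : (Fin m → F) →ₗ[F] (ι → F))
    (A : (ι → F) →ₗ[F] (Fin m → F)) (h : A.comp L = 0) :
    unip L A h ∈ Cfsg.Geo.specialLinear ι F := by
  rw [mem_specialLinear_iff]
  have hm : ((unip L A h : GL ι F) : Matrix ι ι F) =
      1 + LinearMap.toMatrix' L * LinearMap.toMatrix' A := by
    refine Matrix.ext_of_mulVec_single fun i => ?_
    rw [← ap_def, ap_unip, Matrix.add_mulVec, Matrix.one_mulVec, ← Matrix.mulVec_mulVec,
      LinearMap.toMatrix'_mulVec, LinearMap.toMatrix'_mulVec]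
  rw [hm, Matrix.det_one_add_mul_comm, ← LinearMap.toMatrix'_comp, h, map_zero, add_zero,
    Matrix.det_one]

end Tensor

end CfsgLib.Geometric
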