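import Cfsg.Agent.Lib.Geometric.SympDecompBasic

/-!
Stabilisers of orthogonal decompositions into isometric non-degenerate subspaces are maximal in
the isometry group of a symplectic form.
-/

namespace CfsgLib.Geometric

open Matrix

variable {ι : Type} [Fintype ι] [DecidableEq ι] {F : Type*} [Field F]
variable {f : (ι → F) → (ι → F) → F} (hf : Cfsg.Geo.IsSymplecticForm f)

namespace Symp

variable {t k : ℕ} {D : Fin t → Submodule F (ι → F)}
  (hD : Cfsg.Geo.IsNondegenerateMDecomposition f k D)

lemma D_le_perp (hD : Cfsg.Geo.IsNondegenerateMDecomposition f k D) {i j : Fin t} (h : i ≠ j) :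
    D i ≤ perp hf (D j) := fun x hx u hu => hD.orthogonal i j h x hx u hu

/-- The components of a vector along the decomposition. -/
noncomputable abbrev cp (hD : Cfsg.Geo.IsNondegenerateMDecomposition f k D) (i : Fin t) :
    (ι → F) →ₗ[F] (ι → F) :=
  pr hf (hD.nondegenerate i)

include hf hD

lemma cp_of_mem {i j : Fin t} {x : ι → F} (hx : x ∈ D i) :
    cp hf hD j x = if j = i then x else 0 := by
  split_ifs with h
  · subst h
    exact pr_of_mem hf _ hx
  · exact pr_of_mem_perp hf _ (D_le_perp hf hD (Ne.symm h) hx)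

lemma sum_cp (x : ι → F) : ∑ i, cp hf hD i x = x := by
  classical
  set d := x - ∑ i, cp hf hD i x with hd
  have h : ∀ j, d ∈ perp hf (D j) := by
    intro j
    have e : d = (x - cp hf hD j x) - ∑ i ∈ Finset.univ.erase j, cp hf hD i x := by
      rw [hd, ← Finset.add_sum_erase _ _ (Finset.mem_univ j)]
      abel
    rw [e]
    exact (perp hf (D j)).sub_mem (sub_pr_mem_perp hf _ x) (Submodule.sum_mem _ fun i hi =>
      D_le_perp hf hD (Finset.ne_of_mem_erase hi) (pr_mem hf _ x))
  have hd0 : d = 0 := by
    by_contra hne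
    obtain ⟨y, hy⟩ := (hf.nondegenerate d hne).2
    have : (⊤ : Submodule F (ι → F)) ≤ LinearMap.ker ((fl hf).flip d) := by
      rw [← hD.decomp.iSup_eq_top]
      exact iSup_le fun j u hu => by simpa using h j u hu
    exact hy (by simpa using this (Submodule.mem_top (x := y)))
  exact (sub_eq_zero.mp hd0).symm

/-- The set of members in which a vector has a non-zero component. -/
noncomputable def supp (x : ι → F) : Finset (Fin t) :=
  letI := Classical.decEq (ι → F)
  Finset.univ.filter fun i => cp hf hD i x ≠ 0

lemma mem_supp {x : ι → F} {i : Fin t} : i ∈ supp hf hD x ↔ cp hf hD i x ≠ 0 := by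
  classical
  simp [supp]

lemma cp_sum_of_mem (S : Finset (Fin t)) (z : Fin t → ι → F) (hz : ∀ l, z l ∈ D l) (i : Fin t) :
    cp hf hD i (∑ l ∈ S, z l) = if i ∈ S then z i else 0 := by
  simp only [map_sum, fun l => cp_of_mem hf hD (j := i) (hz l), Finset.sum_ite_eq]

lemma supp_sum_of_mem (S : Finset (Fin t)) (z : Fin t → ι → F) (hz : ∀ l, z l ∈ D l)
    (hne : ∀ l ∈ S, z l ≠ 0) : supp hf hD (∑ l ∈ S, z l) = S := by
  ext i
  rw [mem_supp hf hD, cp_sum_of_mem hf hD S z hz]
  by_cases h : i ∈ S <;> simp [h, hne]

lemma T_mem_decompStab {i : Fin t} {v : ι → F} (hv : v ∈ D i) (c : F) :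
    T hf v c ∈ Cfsg.Geo.decompositionStabilizer D ⊓ isom f := by
  refine ⟨⟨1, fun l => ?_⟩, T_mem_isom hf v c⟩
  change (D l).map (Matrix.toLin' _) = D l
  refine Submodule.eq_of_le_of_finrank_eq ?_
    (LinearEquiv.finrank_map_eq (apEquiv (T hf v c)) (D l))
  rintro _ ⟨x, hx, rfl⟩
  rw [Matrix.toLin'_apply, ← ap_def, ap_T hf]
  by_cases h : l = i
  · subst h
    exact (D l).add_mem hx ((D l).smul_mem _ hv)
  · rw [hD.orthogonal l i h x hx v hv, mul_zero, zero_smul, add_zero]
    exact hx

lemma exists_pair (i : Fin t) : ∃ a b, a ∈ D i ∧ b ∈ D i ∧ f a b = 1 := by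
  have h : D i ≠ ⊥ := by
    intro h
    have := hD.decomp.finrank_eq i
    rw [h, finrank_bot] at this
    exact absurd hD.decomp.pos (by omega)
  obtain ⟨b, hb, hb0⟩ := Submodule.exists_mem_ne_zero_of_ne_bot h
  obtain ⟨a, ha, hne⟩ := (hD.nondegenerate i b hb hb0).1
  exact ⟨(f a b)⁻¹ • a, b, (D i).smul_mem _ ha, hb, by
    rw [hf.bilinear.smul_left, inv_mul_cancel₀ hne]⟩

/-- An element stabilises the decomposition as soon as it maps each member into some member. -/
lemma mem_decompStab_of_mapsTo {g : GL ι F} (s : Fin t → Fin t)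
    (h : ∀ l, ∀ x ∈ D l, ap g x ∈ D (s l)) : g ∈ Cfsg.Geo.decompositionStabilizer D := by
  have he : ∀ l, (D l).map (Matrix.toLin' (g : Matrix ι ι F)) = D (s l) := fun l =>
    Submodule.eq_of_le_of_finrank_eq (by
      rintro _ ⟨x, hx, rfl⟩
      exact h l x hx) ((LinearEquiv.finrank_map_eq (apEquiv g) (D l)).trans
        ((hD.decomp.finrank_eq l).trans (hD.decomp.finrank_eq (s l)).symm))
  have hinj : Function.Injective s := by
    intro a b hab
    by_contra hne
    obtain ⟨u, v, hu, hv, huv⟩ := exists_pair hf hD a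
    have hu' : ap g u ∈ (D b).map (Matrix.toLin' (g : Matrix ι ι F)) := by
      rw [he b, ← hab]; exact h a u hu
    obtain ⟨w, hw, hwu⟩ := hu'
    have h1 : w = u := ap_injective g hwu
    subst h1
    rw [hD.orthogonal b a (Ne.symm hne) w hw v hv] at huv
    exact zero_ne_one huv
  exact ⟨Equiv.ofBijective s (Finite.injective_iff_bijective.mp hinj), he⟩

lemma exists_swap_mem {i j : Fin t} (hij : i ≠ j) :
    ∃ σ ∈ Cfsg.Geo.decompositionStabilizer D ⊓ isom f,
      ∀ l, ∀ x ∈ D l, ap σ x ∈ D (Equiv.swap i j l) := by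
  obtain ⟨σ, hσ, hA, hB, hC⟩ := exists_swap hf (hD.nondegenerate i) (hD.nondegenerate j)
    (D_le_perp hf hD hij) ((hD.decomp.finrank_eq i).trans (hD.decomp.finrank_eq j).symm)
  have h : ∀ l, ∀ x ∈ D l, ap σ x ∈ D (Equiv.swap i j l) := by
    intro l x hx
    by_cases hi : l = i
    · subst hi
      rw [Equiv.swap_apply_left]
      exact hA x hx
    by_cases hj : l = j
    · subst hj
      rw [Equiv.swap_apply_right]
      exact hB x hx
    rw [Equiv.swap_apply_of_ne_of_ne hi hj, hC x ⟨D_le_perp hf hD hi hx, D_le_perp hf hD hj hx⟩]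
    exact hx
  exact ⟨σ, ⟨mem_decompStab_of_mapsTo hf hD _ h, hσ⟩, h⟩

/-- The stabiliser of an orthogonal decomposition into non-degenerate subspaces is maximal in the
isometry group, unless the members are planes over the field with two elements. -/
theorem decompStab_isMaximalIn [Fintype F] (hex : ¬ (k = 2 ∧ Fintype.card F = 2)) :
    Cfsg.Geo.IsMaximalIn (isom f) (Cfsg.Geo.decompositionStabilizer D ⊓ isom f) := by
  classical
  set H := Cfsg.Geo.decompositionStabilizer D ⊓ isom f with hH
  -- two suitable vectors with product zero in each member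
  have hzero : ∀ i, ∃ a b, a ∈ D i ∧ b ∈ D i ∧ a ≠ 0 ∧ b ≠ 0 ∧ a + b ≠ 0 ∧ f a b = 0 := by
    intro i
    obtain ⟨u, v, hu, hv, huv⟩ := exists_pair hf hD i
    have hu0 : u ≠ 0 := fun h => by rw [h, zero_left hf] at huv; exact zero_ne_one huv
    by_cases hq : ∃ l : F, l ≠ 0 ∧ l ≠ -1
    · obtain ⟨l, hl0, hl1⟩ := hq
      refine ⟨l • u, u, (D i).smul_mem l hu, hu, smul_ne_zero hl0 hu0, hu0, fun h => ?_, ?_⟩
      · have h2 : (l + 1) • u = 0 := by rwa [add_smul, one_smul]
        exact hl1 (eq_neg_of_add_eq_zero_left ((smul_eq_zero.mp h2).resolve_right hu0))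
      · rw [hf.bilinear.smul_left, hf.alternating, mul_zero]
    -- otherwise the field has two elements and the members have dimension at least three
    push Not at hq
    have hcard : Fintype.card F = 2 := by
      have hsub : (Finset.univ : Finset F) ⊆ {0, -1} := by
        intro l _
        by_cases hl : l = 0
        · simp [hl]
        · simp [hq l hl]
      have h1 := (Finset.card_le_card hsub).trans Finset.card_le_two
      rw [Finset.card_univ] at h1
      have h2 := Fintype.one_lt_card (α := F)
      omega
    have hli : Submodule.span F {u, v} ≤ D i := by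
      rw [Submodule.span_le]
      rintro x (rfl | rfl) <;> assumption
    obtain ⟨z, hz, hzn⟩ : ∃ z ∈ D i, z ∉ Submodule.span F {u, v} := by
      apply Set.not_subset.mp
      intro hle
      have h1 := Submodule.finrank_mono (t := Submodule.span F {u, v}) hle
      have h2 : Module.finrank F (Submodule.span F {u, v}) ≤ 2 := by
        have := finrank_span_finset_le_card (R := F) ({u, v} : Finset (ι → F))
        rw [Finset.coe_insert, Finset.coe_singleton] at this
        exact this.trans Finset.card_le_two
      rw [hD.decomp.finrank_eq i] at h1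
      have hk : 2 ≤ k := by
        by_contra hk
        have hk1 : k = 1 := by have := hD.decomp.pos; omega
        have he : Submodule.span F {u} = D i := Submodule.eq_of_le_of_finrank_eq
          ((Submodule.span_singleton_le_iff_mem _ _).mpr hu)
          (by rw [finrank_span_singleton hu0, hD.decomp.finrank_eq i, hk1])
        obtain ⟨c, rfl⟩ := Submodule.mem_span_singleton.mp (he.symm ▸ hv)
        rw [hf.bilinear.smul_right, hf.alternating, mul_zero] at huv
        exact zero_ne_one huv
      exact hex ⟨by omega, hcard⟩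
    refine ⟨z - f z u • (-v) - f z v • u, u, (D i).sub_mem ((D i).sub_mem hz
      ((D i).smul_mem _ ((D i).neg_mem hv))) ((D i).smul_mem _ hu), hu, fun h => hzn ?_, hu0,
      fun h => hzn ?_, ?_⟩
    · exact Submodule.mem_span_pair.mpr ⟨f z v, -f z u, by linear_combination (norm := module) -h⟩
    · exact Submodule.mem_span_pair.mpr
        ⟨f z v - 1, -f z u, by linear_combination (norm := module) -h⟩
    · rw [sub_left hf, sub_left hf, hf.bilinear.smul_left, hf.bilinear.smul_left,
        neg_left hf, hf.alternating, hf.skew v u, huv]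
      ring
  choose A B hA hB hA0 hB0 hAB hAB0 using hzero
  choose U V hU hV hUV using fun i => exists_pair hf hD i
  have hU0 : ∀ i, U i ≠ 0 := fun i h => by
    have := hUV i; rw [h, zero_left hf] at this; exact zero_ne_one this
  have hV0 : ∀ i, V i ≠ 0 := fun i h => by
    have := hUV i; rw [h, zero_right hf] at this; exact zero_ne_one this
  have hUV0 : ∀ i, U i + V i ≠ 0 := fun i h => by
    have := hUV i
    rw [eq_neg_of_add_eq_zero_left h, neg_left hf, hf.alternating, neg_zero] at this
    exact zero_ne_one this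
  refine ⟨lt_of_le_of_ne inf_le_right fun he => ?_, fun M hHM hMS => ?_⟩
  · let i : Fin t := ⟨0, by have := hD.decomp.two_le; omega⟩
    let j : Fin t := ⟨1, by have := hD.decomp.two_le; omega⟩
    have hij : i ≠ j := by simp [i, j, Fin.ext_iff]
    have hm : T hf (V i + U j) 1 ∈ H := by rw [he]; exact T_mem_isom hf _ _
    obtain ⟨s, hs⟩ := hm.1
    have h1 : ap (T hf (V i + U j) 1) (U i) ∈ D (s i) := by
      rw [← hs i]; exact ⟨U i, hU i, rfl⟩
    rw [ap_T hf, hf.bilinear.add_right, hUV i, hD.orthogonal i j hij _ (hU i) _ (hU j),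
      add_zero, mul_one, one_smul] at h1
    have hci : cp hf hD i (U i + (V i + U j)) = U i + V i := by
      rw [map_add, map_add, cp_of_mem hf hD (hU i), cp_of_mem hf hD (hV i),
        cp_of_mem hf hD (hU j)]
      simp [hij]
    have hcj : cp hf hD j (U i + (V i + U j)) = U j := by
      rw [map_add, map_add, cp_of_mem hf hD (hU i), cp_of_mem hf hD (hV i),
        cp_of_mem hf hD (hU j)]
      simp [hij.symm]
    by_cases hsi : s i = i
    · have := cp_of_mem hf hD (j := j) h1
      rw [hcj, hsi, if_neg hij.symm] at this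
      exact hU0 j this
    · have := cp_of_mem hf hD (j := i) h1
      rw [hci, if_neg (Ne.symm hsi)] at this
      exact hUV0 i this
  by_cases hM : M ≤ Cfsg.Geo.decompositionStabilizer D
  · exact Or.inl (le_antisymm (le_inf hM hMS) hHM)
  refine Or.inr (le_antisymm hMS (le_of_centres_eq_univ hf ?_))
  obtain ⟨g, hgM, hg⟩ := SetLike.not_le_iff_exists.mp hM
  have hX : ∀ i, ∀ v ∈ D i, v ∈ centres hf M := fun i v hv c =>
    hHM (T_mem_decompStab hf hD hv c)
  have hcs : ∀ {v : ι → F} (h : v ∈ centres hf M) {w : ι → F}, w ∈ centres hf M →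
      ap (T hf v 1) w ∈ centres hf M := fun {v} h {w} hw =>
    ap_mem_centres hf (h 1) (T_mem_isom hf v 1) hw
  -- vectors with the same members in their support
  have same : ∀ w ∈ centres hf M, ∀ z, supp hf hD z = supp hf hD w → z ∈ centres hf M := by
    intro w hw z hsupp
    have key : ∀ A : Finset (Fin t), w + ∑ l ∈ A, (cp hf hD l z - cp hf hD l w) ∈ centres hf M := by
      intro A
      induction A using Finset.induction_on with
      | empty => simpa using hw
      | insert a A ha ih =>
        rw [Finset.sum_insert ha, add_left_comm]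
        set cur := w + ∑ l ∈ A, (cp hf hD l z - cp hf hD l w) with hcur
        by_cases hz : cp hf hD a z = 0
        · have : cp hf hD a w = 0 := by
            by_contra h
            exact (mem_supp hf hD).mp (hsupp ▸ (mem_supp hf hD).mpr h) hz
          rw [hz, this, sub_self, zero_add]
          exact ih
        have hw' : cp hf hD a w ≠ 0 := fun h =>
          (mem_supp hf hD).mp (hsupp ▸ (mem_supp hf hD).mpr hz) h
        have hcp : cp hf hD a cur = cp hf hD a w := by
          rw [hcur, map_add,
            cp_sum_of_mem hf hD A _ (fun l => (D l).sub_mem (pr_mem hf _ z) (pr_mem hf _ w)),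
            if_neg ha, add_zero]
        have hpp : ∀ v ∈ perp hf (perp hf (D a)), v ∈ D a := fun v hv =>
          mem_of_forall_perp hf fun p hp => hv p hp
        have hp' : ∀ v ∈ D a, v ∈ perp hf (perp hf (D a)) := fun v hv p hp =>
          (eq_zero_comm hf).mp (hp v hv)
        have hnot : ∀ v ∈ D a, v ≠ 0 → v ∉ perp hf (D a) := by
          intro v hv hv0 h
          obtain ⟨y, hy, hne⟩ := (hD.nondegenerate a v hv hv0).2
          exact hne (h y hy)
        obtain ⟨h, hh, hi, hfix, hm⟩ := exists_move hf (M := M) (U := perp hf (D a))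
          (fun v hv c => hX a v (hpp v hv) c)
          (x := cp hf hD a w) (y := cp hf hD a z)
          (hp' _ ((D a).sub_mem (pr_mem hf _ z) (pr_mem hf _ w)))
          (exists_perp_ne hf (hnot _ (pr_mem hf _ w) hw'))
          (exists_perp_ne hf (hnot _ (pr_mem hf _ z) hz))
        have hrest : cur - cp hf hD a cur ∈ perp hf (D a) := sub_pr_mem_perp hf _ cur
        have := ap_mem_centres hf hh hi ih
        rw [← add_sub_cancel (cp hf hD a cur) cur, ap_add, hfix _ hrest, hcp, hm] at this
        convert this using 1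
        abel
    have := key Finset.univ
    rwa [Finset.sum_sub_distrib, sum_cp hf hD, sum_cp hf hD, add_sub_cancel] at this
  -- a centre with at least two components
  obtain ⟨w, hw, i, j, hij, hiw, hjw⟩ : ∃ w ∈ centres hf M, ∃ i j, i ≠ j ∧
      i ∈ supp hf hD w ∧ j ∈ supp hf hD w := by
    by_contra hc
    push Not at hc
    have h1 : ∀ l, ∀ x ∈ D l, ∀ a b, a ≠ b → cp hf hD a (ap g x) ≠ 0 →
        cp hf hD b (ap g x) = 0 := by
      intro l x hx a b hab ha
      by_contra hb
      exact hc _ (ap_mem_centres hf hgM (hMS hgM) (hX l x hx)) a b hab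
        ((mem_supp hf hD).mpr ha) ((mem_supp hf hD).mpr hb)
    have hin : ∀ l, ∀ x ∈ D l, ∀ a, cp hf hD a (ap g x) ≠ 0 → ap g x ∈ D a := by
      intro l x hx a ha
      rw [← sum_cp hf hD (ap g x)]
      refine Submodule.sum_mem _ fun b _ => ?_
      by_cases hab : a = b
      · subst hab; exact pr_mem hf _ _
      · rw [h1 l x hx a b hab ha]; exact Submodule.zero_mem _
    have hne : ∀ l, ∃ a, cp hf hD a (ap g (U l)) ≠ 0 := by
      intro l
      by_contra h
      push Not at h
      exact ap_ne_zero g (hU0 l) (by rw [← sum_cp hf hD (ap g (U l))]; simp [h])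
    choose s hs using hne
    refine hg (mem_decompStab_of_mapsTo hf hD s fun l x hx => ?_)
    rw [← sum_cp hf hD (ap g x)]
    refine Submodule.sum_mem _ fun b _ => ?_
    by_cases hb : s l = b
    · subst hb; exact pr_mem hf _ _
    · by_cases hbx : cp hf hD b (ap g x) = 0
      · rw [hbx]; exact Submodule.zero_mem _
      exfalso
      have e1 := cp_of_mem hf hD (j := b) (hin l (U l) (hU l) _ (hs l))
      rw [if_neg (Ne.symm hb)] at e1
      have e2 := cp_of_mem hf hD (j := s l) (hin l x hx b hbx)
      rw [if_neg hb] at e2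
      refine hc _ (ap_mem_centres hf hgM (hMS hgM) (hX l _ ((D l).add_mem hx (hU l)))) b (s l)
        (Ne.symm hb) ((mem_supp hf hD).mpr ?_) ((mem_supp hf hD).mpr ?_)
      · rw [ap_add, map_add, e1, add_zero]; exact hbx
      · rw [ap_add, map_add, e2, zero_add]; exact hs l
  -- two components
  set S := supp hf hD w with hS
  let a : Fin t → ι → F := fun l => if l = i then U i else if l = j then A j else - cp hf hD l w
  let b : Fin t → ι → F := fun l => if l = i then V i else if l = j then B j else cp hf hD l w
  have ha : ∀ l, a l ∈ D l := by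
    intro l; simp only [a]; split_ifs with h h'
    exacts [h ▸ hU i, h' ▸ hA j, (D l).neg_mem (pr_mem hf _ w)]
  have hb : ∀ l, b l ∈ D l := by
    intro l; simp only [b]; split_ifs with h h'
    exacts [h ▸ hV i, h' ▸ hB j, pr_mem hf _ w]
  have ha0 : ∀ l ∈ S, a l ≠ 0 := by
    intro l hl; simp only [a]; split_ifs
    exacts [hU0 i, hA0 j, neg_ne_zero.mpr ((mem_supp hf hD).mp hl)]
  have hb0 : ∀ l ∈ S, b l ≠ 0 := by
    intro l hl; simp only [b]; split_ifs
    exacts [hV0 i, hB0 j, (mem_supp hf hD).mp hl]
  have hxX := same w hw _ (supp_sum_of_mem hf hD S a ha ha0)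
  have hyX := same w hw _ (supp_sum_of_mem hf hD S b hb hb0)
  have hfsum : f (∑ l ∈ S, a l) (∑ l ∈ S, b l) = 1 := by
    rw [← fl_apply hf, map_sum]
    simp only [map_sum, LinearMap.sum_apply, fl_apply]
    rw [Finset.sum_comm]
    rw [Finset.sum_eq_single i, Finset.sum_eq_single i]
    · simp [a, b, hUV]
    · intro l _ hli
      exact hD.orthogonal l i hli _ (ha l) _ (hb i)
    · exact fun h => absurd hiw h
    · intro l hl hli
      rw [Finset.sum_eq_single l]
      · by_cases hlj : l = j
        · subst hlj; simp [a, b, hli, hAB0]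
        · simp [a, b, hli, hlj, neg_left hf, hf.alternating]
      · exact fun r _ hr => hD.orthogonal r l hr _ (ha r) _ (hb l)
      · exact fun h => absurd hl h
    · exact fun h => absurd hiw h
  have h2X := hcs hyX hxX
  rw [ap_T hf, hfsum, one_mul, one_smul, ← Finset.sum_add_distrib] at h2X
  have hsupp2 : supp hf hD (∑ l ∈ S, (a l + b l)) = {i, j} := by
    ext l
    rw [mem_supp hf hD, cp_sum_of_mem hf hD S _ (fun l => (D l).add_mem (ha l) (hb l))]
    by_cases hli : l = i
    · subst hli; simp [hiw, a, b, hUV0]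
    by_cases hlj : l = j
    · subst hlj; simp [hjw, a, b, hli, hAB]
    simp [a, b, hli, hlj]
  -- every pair
  have pair : ∀ i' j', i' ≠ j' → ∀ z, supp hf hD z = {i', j'} → z ∈ centres hf M := by
    have move : ∀ p q r : Fin t, ∀ v ∈ centres hf M, supp hf hD v = {p, q} →
        ∃ v' ∈ centres hf M, supp hf hD v' = {r, Equiv.swap p r q} := by
      intro p q r v hv hvs
      by_cases hpr : p = r
      · subst hpr; exact ⟨v, hv, by simpa using hvs⟩
      obtain ⟨σ, hσ, hmap⟩ := exists_swap_mem hf hD hpr
      refine ⟨ap σ v, ap_mem_centres hf (hHM hσ) hσ.2 hv, ?_⟩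
      have hv' : ap σ v = ∑ l, ap σ (cp hf hD (Equiv.swap p r l) v) := by
        rw [Equiv.sum_comp (Equiv.swap p r) (fun l => ap σ (cp hf hD l v))]
        conv_lhs => rw [← sum_cp hf hD v]
        exact map_sum (apEquiv σ) _ _
      ext l
      rw [mem_supp hf hD, hv', cp_sum_of_mem hf hD _ _ (fun l => by
        simpa using hmap _ _ (pr_mem hf (hD.nondegenerate (Equiv.swap p r l)) v)), if_pos (Finset.mem_univ l)]
      have : cp hf hD (Equiv.swap p r l) v ≠ 0 ↔ Equiv.swap p r l ∈ ({p, q} : Finset (Fin t)) := by
        rw [← hvs, mem_supp hf hD]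
      constructor
      · intro h
        have h' := this.mp fun h0 => h (by rw [h0, ap_zero])
        simp only [Finset.mem_insert, Finset.mem_singleton] at h' ⊢
        rcases h' with h' | h'
        · left
          simpa using congrArg (Equiv.swap p r) h'
        · right
          simpa using congrArg (Equiv.swap p r) h'
      · intro h
        apply ap_ne_zero
        apply this.mpr
        simp only [Finset.mem_insert, Finset.mem_singleton] at h ⊢
        rcases h with rfl | rfl
        · left; simp
        · right; simp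
    intro i' j' hij' z hz
    obtain ⟨v, hv, hvs⟩ := move i j i' _ h2X hsupp2
    rw [Finset.pair_comm] at hvs
    obtain ⟨v', hv', hvs'⟩ := move _ _ j' v hv hvs
    refine same v' hv' z ?_
    have hne : Equiv.swap i i' j ≠ i' := by
      intro h
      have := congrArg (Equiv.swap i i') h
      rw [Equiv.swap_apply_self, Equiv.swap_apply_right] at this
      exact hij this.symm
    rw [hvs', hz, Finset.pair_comm, Equiv.swap_apply_of_ne_of_ne hne.symm hij']
  intro z
  haveI : Nonempty (Fin t) := ⟨i⟩
  induction hn : (supp hf hD z).card using Nat.strong_induction_on generalizing z with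
  | _ n ih =>
    by_cases h1 : (supp hf hD z).card ≤ 1
    · rcases Finset.card_le_one_iff_subset_singleton.mp h1 with ⟨l, hl⟩
      refine hX l z ?_
      rw [← sum_cp hf hD z]
      refine Submodule.sum_mem _ fun r _ => ?_
      by_cases hr : r = l
      · subst hr; exact pr_mem hf _ _
      · have : cp hf hD r z = 0 := by
          by_contra hne
          exact hr (Finset.mem_singleton.mp (hl ((mem_supp hf hD).mpr hne)))
        rw [this]; exact Submodule.zero_mem _
    by_cases h2 : (supp hf hD z).card = 2
    · obtain ⟨p, q, hpq, hs⟩ := Finset.card_eq_two.mp h2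
      exact pair p q hpq z hs
    obtain ⟨l, hl, m, hm, hlm⟩ := Finset.one_lt_card.mp (not_le.mp h1)
    rw [mem_supp hf hD] at hl hm
    obtain ⟨y₀, hy₀, hne⟩ := (hD.nondegenerate m _ (pr_mem hf _ z) hm).2
    set bm := (f (cp hf hD m z) y₀)⁻¹ • y₀
    have hbm : bm ∈ D m := (D m).smul_mem _ hy₀
    have hfm : f (cp hf hD m z) bm = 1 := by
      rw [hf.bilinear.smul_right, inv_mul_cancel₀ hne]
    set y := cp hf hD l z + bm
    have hys : supp hf hD y = {l, m} := by
      ext r
      rw [mem_supp hf hD, map_add, cp_of_mem hf hD (pr_mem hf (hD.nondegenerate l) z),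
        cp_of_mem hf hD hbm]
      have hbm0 : bm ≠ 0 := fun h => by rw [h, zero_right hf] at hfm; exact zero_ne_one hfm
      by_cases hrl : r = l
      · subst hrl; simp [hlm, hl]
      by_cases hrm : r = m
      · subst hrm; simp [hrl, hbm0]
      simp [hrl, hrm]
    set x := z - y
    have hxl : cp hf hD l x = 0 := by
      rw [map_sub, map_add, cp_of_mem hf hD (pr_mem hf (hD.nondegenerate l) z),
        cp_of_mem hf hD hbm]
      simp [hlm]
    have hxm : cp hf hD m x = cp hf hD m z - bm := by
      rw [map_sub, map_add, cp_of_mem hf hD (pr_mem hf (hD.nondegenerate l) z),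
        cp_of_mem hf hD hbm]
      simp [hlm.symm]
    have hlt : supp hf hD x ⊆ (supp hf hD z).erase l := by
      intro r hr
      rw [mem_supp hf hD] at hr
      rw [Finset.mem_erase, mem_supp hf hD]
      refine ⟨fun h => hr (h ▸ hxl), fun h0 => hr ?_⟩
      rw [map_sub, map_add, h0, cp_of_mem hf hD (pr_mem hf (hD.nondegenerate l) z),
        cp_of_mem hf hD hbm]
      by_cases hrl : r = l
      · subst hrl; exact absurd h0 hl
      by_cases hrm : r = m
      · subst hrm; exact absurd h0 hm
      simp [hrl, hrm]
    have hcard : (supp hf hD x).card < n := by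
      rw [← hn]
      exact (Finset.card_le_card hlt).trans_lt
        (Finset.card_erase_lt_of_mem ((mem_supp hf hD).mpr hl))
    have hxX' := ih _ hcard x rfl
    have hyX' := pair l m hlm y hys
    have hxy : f x y = 1 := by
      have e : f x y = f (cp hf hD l z) (cp hf hD l x) * (-1) + f (cp hf hD m x) bm := by
        rw [hf.bilinear.add_right, f_pr hf _ (pr_mem hf _ z), hf.skew x (cp hf hD l z),
          hf.skew (cp hf hD m x) bm, f_pr hf _ hbm, hf.skew bm x]
        ring
      rw [e, hxl, zero_right hf, hxm, sub_left hf, hfm, hf.alternating]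
      ring
    have := hcs hyX' hxX'
    rwa [ap_T hf, hxy, one_mul, one_smul, sub_add_cancel] at this

end Symp

end CfsgLib.Geometric
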