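import Cfsg.Agent.Lib.Geometric.UnitaryDecompBasic

/-!
Isotropic and anisotropic vectors of a skew-hermitian space over a finite field, and the norm of
the determinant of an isometry.
-/

namespace CfsgLib.Geometric

open Matrix

variable {ι : Type} [Fintype ι] [DecidableEq ι] {F : Type*} [Field F]

namespace Unitary

variable {σ : F ≃+* F} {f : (ι → F) → (ι → F) → F} (hf : IsSkewForm σ f)
include hf

lemma exists_not_fixed : ∃ a : F, σ a ≠ a := by
  by_contra h
  push Not at h
  exact hf.ne_refl (RingEquiv.ext h)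

/-- Two norm-one scalars different from one and from each other. -/
lemma exists_norm_one_two : ∃ a b : F, a * σ a = 1 ∧ b * σ b = 1 ∧ a ≠ 1 ∧ b ≠ 1 ∧ a ≠ b := by
  obtain ⟨x, hx⟩ := exists_not_fixed hf
  have hx0 : x ≠ 0 := fun h => hx (by rw [h, map_zero])
  have hx1 : x + 1 ≠ 0 := fun h => hx (by
    rw [eq_neg_of_add_eq_zero_left h, map_neg, map_one])
  have hs0 : σ x ≠ 0 := by rwa [ne_eq, EmbeddingLike.map_eq_zero_iff]
  have hs1 : σ x + 1 ≠ 0 := by
    rw [← map_one σ, ← map_add, ne_eq, EmbeddingLike.map_eq_zero_iff]; exact hx1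
  refine ⟨x / σ x, (x + 1) / σ (x + 1), ?_, ?_, ?_, ?_, ?_⟩
  · rw [map_div₀, hf.involutive]; field_simp
  · rw [map_div₀, hf.involutive, map_add, map_one]; field_simp
  · intro h; rw [div_eq_one_iff_eq hs0] at h; exact hx h.symm
  · intro h
    rw [map_add, map_one, div_eq_one_iff_eq hs1, add_left_inj] at h
    exact hx h.symm
  · intro h
    rw [map_add, map_one, div_eq_div_iff hs0 hs1] at h
    exact hx (by linear_combination -h)

/-- A relation `A ω + B σ(ω) + C = 0` on all norm-one scalars is trivial. -/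
lemma norm_one_indep {A B C : F} (h : ∀ ω : F, ω * σ ω = 1 → A * ω + B * σ ω + C = 0) :
    A = 0 ∧ B = 0 ∧ C = 0 := by
  obtain ⟨a, b, ha, hb, ha1, hb1, hab⟩ := exists_norm_one_two hf
  have q : ∀ ω : F, ω * σ ω = 1 → A * ω ^ 2 + C * ω + B = 0 := fun ω hω => by
    linear_combination ω * h ω hω - B * hω
  have h1 := q 1 (by rw [map_one, mul_one])
  have ea : A * (a + 1) + C = 0 := mul_left_cancel₀ (sub_ne_zero.mpr ha1)
    (by linear_combination q a ha - h1)
  have eb : A * (b + 1) + C = 0 := mul_left_cancel₀ (sub_ne_zero.mpr hb1)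
    (by linear_combination q b hb - h1)
  have hA : A = 0 := mul_left_cancel₀ (sub_ne_zero.mpr hab) (by linear_combination ea - eb)
  have hC : C = 0 := by linear_combination ea - (a + 1) * hA
  exact ⟨hA, by linear_combination h1 - hA - hC, hC⟩

/-- A vector with a non-zero self product from an isotropic pair. -/
lemma exists_aniso_of_pair {p q : ι → F} (hp : f p p = 0) (hq : f q q = 0) (hqp : f q p ≠ 0) :
    ∃ t : F, t ≠ 0 ∧ f (p + t • q) (p + t • q) ≠ 0 := by
  obtain ⟨a, ha⟩ := exists_not_fixed hf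
  have ha0 : a ≠ 0 := fun h => ha (by rw [h, map_zero])
  refine ⟨a / f q p, div_ne_zero ha0 hqp, ?_⟩
  have hσ : σ (f q p) ≠ 0 := by rwa [ne_eq, EmbeddingLike.map_eq_zero_iff]
  rw [hf.add_left, add_right hf, add_right hf, hf.smul_left, hf.smul_left, smul_right hf,
    smul_right hf, hp, hq, hf.skew p q, map_div₀]
  simp only [zero_add, add_zero, mul_zero, mul_neg, div_mul_cancel₀ _ hσ, div_mul_cancel₀ _ hqp]
  intro h
  exact ha (by linear_combination -h)

/-- A vector orthogonal to all anisotropic vectors is zero. -/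
lemma eq_zero_of_perp_aniso {p : ι → F} (h : ∀ a, f a a ≠ 0 → f a p = 0) : p = 0 := by
  by_contra hp0
  have hpp : f p p = 0 := by
    by_contra hne
    exact hne (h p hne)
  obtain ⟨q, hq⟩ := (hf.nondegenerate p hp0).1
  have hqq : f q q = 0 := by
    by_contra hne
    exact hq (h q hne)
  obtain ⟨t, ht, hne⟩ := exists_aniso_of_pair hf hpp hqq hq
  have := h _ hne
  rw [hf.add_left, hf.smul_left, hpp, zero_add, mul_eq_zero] at this
  exact this.elim ht hq

/-- Anisotropic vectors span. -/
lemma span_aniso [Finite F] (U : Submodule F (ι → F)) (h : ∀ a, f a a ≠ 0 → a ∈ U) (x : ι → F) :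
    x ∈ U :=
  mem_of_forall_perp hf fun p hp => by
    rw [eq_zero_of_perp_aniso hf fun a ha => (eq_zero_comm hf).mp (hp a (h a ha)), zero_right hf]

/-- Anisotropic vectors orthogonal to an anisotropic one span its orthogonal. -/
lemma span_aniso_perp [Finite F] {v : ι → F} (hv : f v v ≠ 0) (U : Submodule F (ι → F))
    (h : ∀ a, f a a ≠ 0 → f a v = 0 → a ∈ U) {x : ι → F} (hx : f x v = 0) : x ∈ U := by
  set K := U ⊓ LinearMap.ker (fl hf v) with hK
  have htop : ∀ y, y ∈ K ⊔ Submodule.span F {v} := by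
    intro y
    refine mem_of_forall_perp hf fun p hp => ?_
    have hpv : f p v = 0 := hp v (Submodule.mem_sup_right (Submodule.mem_span_singleton_self v))
    have hk : ∀ a, f a a ≠ 0 → f a v = 0 → f a p = 0 := fun a ha hav =>
      (eq_zero_comm hf).mp (hp a (Submodule.mem_sup_left ⟨h a ha hav, hav⟩))
    have hp0 : p = 0 := by
      by_contra hp0
      have hpp : f p p = 0 := by
        by_contra hne
        exact hne (hk p hne hpv)
      obtain ⟨q₀, hq₀⟩ := (hf.nondegenerate p hp0).1
      set q := q₀ - (f q₀ v / f v v) • v with hq'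
      have hqv : f q v = 0 := by
        rw [hq', sub_left hf, hf.smul_left, div_mul_cancel₀ _ hv, sub_self]
      have hq : f q p ≠ 0 := by
        rwa [hq', sub_left hf, hf.smul_left, (eq_zero_comm hf).mp hpv, mul_zero, sub_zero]
      have hqq : f q q = 0 := by
        by_contra hne
        exact hq (hk q hne hqv)
      obtain ⟨t, ht, hne⟩ := exists_aniso_of_pair hf hpp hqq hq
      have := hk _ hne (by rw [hf.add_left, hf.smul_left, hpv, hqv, mul_zero, add_zero])
      rw [hf.add_left, hf.smul_left, hpp, zero_add, mul_eq_zero] at this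
      exact this.elim ht hq
    rw [hp0, zero_right hf]
  obtain ⟨k, hk, z, hz, rfl⟩ := Submodule.mem_sup.mp (htop x)
  obtain ⟨r, rfl⟩ := Submodule.mem_span_singleton.mp hz
  rw [hf.add_left, hf.smul_left, show f k v = 0 from hk.2, zero_add, mul_eq_zero] at hx
  rw [hx.resolve_right hv, zero_smul, add_zero]
  exact hk.1

variable [Finite F]

/-- An anisotropic vector orthogonal to two given ones, in dimension at least five. -/
lemma exists_aniso_perp_two (hn : 5 ≤ Fintype.card ι) (w z : ι → F) :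
    ∃ e, f e w = 0 ∧ f e z = 0 ∧ f e e ≠ 0 := by
  by_contra hcon
  push Not at hcon
  set U := Submodule.span F (Set.range ![w, z]) with hU
  have hP : ∀ x ∈ perp hf U, f x x = 0 := fun x hx =>
    hcon x (hx w (Submodule.subset_span ⟨0, rfl⟩)) (hx z (Submodule.subset_span ⟨1, rfl⟩))
  have hle : perp hf U ≤ U := fun x hx => mem_of_forall_perp hf fun p hp =>
    totallySingular_of_isotropic hf hP hx hp
  have h2 : Module.finrank F U ≤ 2 := by
    have := finrank_range_le_card (R := F) ![w, z]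
    rwa [Set.finrank, Fintype.card_fin] at this
  have h3 := card_le_finrank_add_finrank_perp hf U
  have h4 := Submodule.finrank_mono hle
  omega

/-- In dimension at least five a vector orthogonal to `w` is a sum of two isotropic ones. -/
lemma exists_perp_iso_add (hn : 5 ≤ Fintype.card ι) {w z : ι → F} (hz : f z w = 0) :
    ∃ v₁ v₂, f v₁ w = 0 ∧ f v₂ w = 0 ∧ f v₁ v₁ = 0 ∧ f v₂ v₂ = 0 ∧ z = v₁ + v₂ := by
  obtain ⟨e, hew, hez, hee⟩ := exists_aniso_perp_two hf hn w z
  obtain ⟨v₁, v₂, h₁, h₂, hi₁, hi₂, rfl⟩ := exists_isotropic_add hf (S := LinearMap.ker (fl hf w))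
    (x := z) (e := e) hz hew hee ((eq_zero_comm hf).mp hez)
  exact ⟨v₁, v₂, h₁, h₂, hi₁, hi₂, rfl⟩

/-- An isotropic vector orthogonal to `w` pairing to one with `y`. -/
lemma exists_iso_partner (hn : 5 ≤ Fintype.card ι) {w y : ι → F}
    (hy : y ∉ Submodule.span F {w}) : ∃ z, f z w = 0 ∧ f z z = 0 ∧ f z y = 1 := by
  obtain ⟨p, hp, hpy⟩ := exists_perp_ne hf hy
  rw [mem_perp_span hf] at hp
  obtain ⟨v₁, v₂, h₁, h₂, hi₁, hi₂, rfl⟩ := exists_perp_iso_add hf hn hp
  obtain ⟨v, hv, hvv, hvy⟩ : ∃ v, f v w = 0 ∧ f v v = 0 ∧ f v y ≠ 0 := by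
    by_contra hc
    push Not at hc
    exact hpy ((eq_zero_comm hf).mp (by rw [hf.add_left, hc v₁ h₁ hi₁, hc v₂ h₂ hi₂, add_zero]))
  exact ⟨(f v y)⁻¹ • v, by rw [hf.smul_left, hv, mul_zero], isotropic_smul hf hvv _,
    by rw [hf.smul_left, inv_mul_cancel₀ hvy]⟩

/-- An isotropic vector pairing to one with a non-zero one. -/
lemma exists_iso_pairing (hn : 5 ≤ Fintype.card ι) {y : ι → F} (hy : y ≠ 0) :
    ∃ z, f z z = 0 ∧ f z y = 1 := by
  obtain ⟨z, -, h⟩ := exists_iso_partner hf hn (w := 0) (y := y) (by simpa using hy)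
  exact ⟨z, h⟩

/-- An anisotropic vector meeting two given anisotropic vectors. -/
lemma aniso_connect (hq : (∃ c : F, σ c = c ∧ c ≠ 0 ∧ c ≠ 1) ∨ 3 ≤ Fintype.card ι) {u a : ι → F}
    (hu : f u u ≠ 0) (ha : f a a ≠ 0) : ∃ b, f b b ≠ 0 ∧ f b u ≠ 0 ∧ f b a ≠ 0 := by
  by_cases hua : f u a ≠ 0
  · exact ⟨u, hu, hu, hua⟩
  push Not at hua
  have hau : f a u = 0 := (eq_zero_comm hf).mp hua
  set κ := -f a a / f u u with hκ
  have hσκ : σ κ = κ := by rw [hκ, map_div₀, map_neg, skew_self hf, skew_self hf]; ring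
  have key : ∀ t : F, t ≠ 0 → t * σ t ≠ κ →
      ∃ b, f b b ≠ 0 ∧ f b u ≠ 0 ∧ f b a ≠ 0 := fun t ht hne => by
    refine ⟨t • u + a, fun h => hne ?_, ?_, ?_⟩
    · rw [hf.add_left, add_right hf, add_right hf, hf.smul_left, hf.smul_left, smul_right hf,
        smul_right hf, hua, hau] at h
      rw [hκ, eq_div_iff hu]
      linear_combination h
    · rw [hf.add_left, hf.smul_left, hau, add_zero]; exact mul_ne_zero ht hu
    · rwa [hf.add_left, hf.smul_left, hua, mul_zero, zero_add]
  by_cases h1 : κ ≠ 1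
  · exact key 1 one_ne_zero (by rw [map_one, mul_one]; exact Ne.symm h1)
  push Not at h1
  rcases hq with ⟨c, hc, hc0, hc1⟩ | h3
  · obtain ⟨t, ht⟩ := exists_norm hf hc
    exact key t (fun h => hc0 (by rw [← ht, h, zero_mul])) (by rw [ht, h1]; exact hc1)
  obtain ⟨e, hew, hez, hee⟩ : ∃ e, f e u = 0 ∧ f e a = 0 ∧ f e e ≠ 0 := by
    by_contra hcon
    push Not at hcon
    obtain ⟨x, hx0, hxu, hxa⟩ : ∃ x, x ≠ 0 ∧ f x u = 0 ∧ f x a = 0 := by
      obtain ⟨x, -, hx0, hx⟩ := exists_ne_zero_map_eq_zero (k := 2) (⊤ : Submodule F (ι → F))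
        (LinearMap.pi ![fl hf u, fl hf a]) (by rw [finrank_top, Module.finrank_fintype_fun_eq_card]; omega)
      exact ⟨x, hx0, congrFun hx 0, congrFun hx 1⟩
    have hxx := hcon x hxu hxa
    obtain ⟨q₀, hq₀⟩ := (hf.nondegenerate x hx0).1
    set q := q₀ - (f q₀ u / f u u) • u - (f q₀ a / f a a) • a with hq'
    have hqu : f q u = 0 := by
      rw [hq', sub_left hf, sub_left hf, hf.smul_left, hf.smul_left, hau, div_mul_cancel₀ _ hu]
      ring
    have hqa : f q a = 0 := by
      rw [hq', sub_left hf, sub_left hf, hf.smul_left, hf.smul_left, hua, div_mul_cancel₀ _ ha]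
      ring
    have hqx : f q x ≠ 0 := by
      rwa [hq', sub_left hf, sub_left hf, hf.smul_left, hf.smul_left, (eq_zero_comm hf).mp hxu,
        (eq_zero_comm hf).mp hxa, mul_zero, mul_zero, sub_zero, sub_zero]
    obtain ⟨t, -, hne⟩ := exists_aniso_of_pair hf hxx (hcon q hqu hqa) hqx
    exact hne (hcon _ (by rw [hf.add_left, hf.smul_left, hxu, hqu, mul_zero, add_zero])
      (by rw [hf.add_left, hf.smul_left, hxa, hqa, mul_zero, add_zero]))
  -- over two fixed scalars the three vectors add up to an anisotropic one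
  have hsum : f (u + a + e) (u + a + e) = f e e := by
    simp only [hf.add_left, add_right hf, hua, hau, hew, hez, (eq_zero_comm hf).mp hew,
      (eq_zero_comm hf).mp hez]
    rw [hκ, div_eq_one_iff_eq hu] at h1
    linear_combination -h1
  exact ⟨u + a + e, by rwa [hsum], by rw [hf.add_left, hf.add_left, hau, hew]; simpa using hu,
    by rw [hf.add_left, hf.add_left, hua, hez]; simpa using ha⟩

omit [Finite F] in
/-- An isometry has determinant of norm one. -/
lemma det_norm {g : GL ι F} (hg : g ∈ isom f) :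
    (g : Matrix ι ι F).det * σ (g : Matrix ι ι F).det = 1 := by
  classical
  set J : Matrix ι ι F := Matrix.of fun i j => f (Pi.single i 1) (Pi.single j 1) with hJ
  have hform : ∀ x y : ι → F, f x y = x ⬝ᵥ J *ᵥ (fun i => σ (y i)) := by
    intro x y
    let R : (ι → F) →+ F := ⟨⟨f x, zero_right hf x⟩, add_right hf x⟩
    have hx : ∀ y, f x y = ∑ i, x i * f (Pi.single i 1) y := fun y => by
      have : fl hf y x = ∑ i, x i * fl hf y (Pi.single i 1) := by
        conv_lhs => rw [pi_eq_sum_univ' x]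
        simp [map_sum]
      simpa using this
    rw [hx]
    refine Finset.sum_congr rfl fun i _ => ?_
    congr 1
    let Ri : (ι → F) →+ F :=
      ⟨⟨f (Pi.single i 1), zero_right hf _⟩, add_right hf _⟩
    change Ri y = _
    conv_lhs => rw [pi_eq_sum_univ' y, map_sum]
    simp [Ri, Matrix.mulVec, dotProduct, hJ, smul_right hf, mul_comm]
  have hJ0 : J.det ≠ 0 := by
    intro h0
    obtain ⟨v, hv, hvJ⟩ := Matrix.exists_mulVec_eq_zero_iff.mpr h0
    have hv' : (fun i => σ.symm (v i)) ≠ 0 := fun h => hv (funext fun i => by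
      simpa using congrArg σ (congrFun h i))
    obtain ⟨x, hx⟩ := (hf.nondegenerate _ hv').1
    exact hx (by rw [hform]; simp [hvJ])
  have heq : (g : Matrix ι ι F)ᵀ * J * (g : Matrix ι ι F).map σ = J := by
    ext i j
    have h := mem_isom_iff.mp hg (Pi.single i 1) (Pi.single j 1)
    rw [hform] at h
    conv_rhs => rw [hJ, Matrix.of_apply, ← h]
    simp only [ap_def, Matrix.mulVec_single_one]
    simp only [dotProduct, Matrix.mulVec, Matrix.mul_apply,
      Matrix.col_apply, Matrix.transpose_apply, Matrix.map_apply, Finset.sum_mul, Finset.mul_sum]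
    rw [Finset.sum_comm]
    simp only [mul_assoc]
  have h := congrArg Matrix.det heq
  rw [Matrix.det_mul, Matrix.det_mul, Matrix.det_transpose,
    show (g : Matrix ι ι F).map σ = (σ : F →+* F).mapMatrix (g : Matrix ι ι F) from rfl,
    ← RingHom.map_det] at h
  exact mul_right_cancel₀ hJ0 (by
    rw [one_mul]
    calc (g : Matrix ι ι F).det * σ (g : Matrix ι ι F).det * J.det
        = (g : Matrix ι ι F).det * J.det * σ (g : Matrix ι ι F).det := by ring
      _ = J.det := h)

end Unitary

end CfsgLib.Geometric
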