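import Cfsg.Agent.Lib.Geometric.UnitaryOrthSubfield
import Cfsg.Agent.Lib.Geometric.Orth.Eight.SubfieldMax

/-!
An orthogonal group over the fixed field of the involution is maximal in the special unitary group
of dimension eight, in odd characteristic.

As in dimension nine and more; the fixed vectors of a moved root element contain either an orthogonal
pair of singular vectors, on which the imaginary part is skew, or three independent singular vectors.
-/

set_option autoImplicit false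

namespace CfsgLib.Geometric.UOSubfldEight

open Matrix QuadraticMap CfsgLib.ClassicalForms
open LSubfld (RatV)
open SSubfld (em_add em_sub em_smul em_zero em_injective em_ne_zero ratV_em em_single)
open Orth.OSubfld (form₀ rs ap_rs ap_rs' Pair Ind RatPlane form₀_eq_zero polar₀_eq_zero polar₀_eq_one
  coe_polar₀ coe_form₀ nondeg₀)
open Orth.OSubfld8 (exists_perp_ind)
open UOSubfld (qf qf_rat nondeg_qf polar_qf exists_parts parts_unique f_em f_left isotropic_parts conj_E
  E_congr isotropic_em orth_em rs_eq_E E_rat_mem_sisom)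

variable {ι : Type} [Fintype ι] [DecidableEq ι] {F : Type*} [Field F]
variable {σ : F ≃+* F} {f : (ι → F) → (ι → F) → F}
variable (hf : IsSkewForm σ f) {F₀ : Subfield F} (hfix : ∀ x, σ x = x ↔ x ∈ F₀) {ω : F}
  (hω : σ ω = -ω) (hω0 : ω ≠ 0) (hrat : ∀ u v, RatV F₀ u → RatV F₀ v → ω⁻¹ * f u v ∈ F₀)
  (h2 : (2 : F) ≠ 0)
include hf hfix hω hω0 hrat h2

local notation "hq" => qf_rat hf hfix hω hω0 hrat h2
local notation "Q₀" => form₀ (qf_rat hf hfix hω hω0 hrat h2)

omit hf hfix hω hω0 hrat h2 in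
/-- A non-zero singular vector over the subfield orthogonal to few given ones. -/
lemma exists_singular_perp [Finite F] {Q : QuadraticForm F (ι → F)} (hrat₀ : ∀ v, RatV F₀ v → Q v ∈ F₀)
    (hn : 8 ≤ Fintype.card ι) {j : ℕ} (hj : j ≤ 5) (vs : Fin j → (ι → F₀)) :
    ∃ t : ι → F₀, t ≠ 0 ∧ form₀ hrat₀ t = 0 ∧ ∀ i, polar (form₀ hrat₀) (vs i) t = 0 := by
  obtain ⟨t, ht0, ht, h⟩ := CfsgLib.ClassicalForms.exists_singular_ker (form₀ hrat₀)
    (fun i => polarBilin (form₀ hrat₀) (vs i))
    (by rw [Module.finrank_fintype_fun_eq_card]; omega)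
  exact ⟨t, ht0, ht, fun i => by simpa using h i⟩

variable [Finite F] (hn : 8 ≤ Fintype.card ι) {M : Subgroup (GL ι F)} (hMI : M ≤ isom f)
  (hM : ∀ a w : ι → F₀, qf ω f (SSubfld.em a) = 0 →
    polar (qf ω f) (SSubfld.em a) (SSubfld.em w) = 0 → rs (qf ω f) (SSubfld.em a) (SSubfld.em w) ∈ M)
include hn

/-- Three vectors give a singular vector with prescribed products against two of them. -/
lemma exists_singular_values {x y : ι → F₀} (hi : Ind x y) (α β : F₀) :
    ∃ a : ι → F₀, Q₀ a = 0 ∧ polar Q₀ x a = α ∧ polar Q₀ y a = β := by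
  have hN := nondeg₀ hq (nondeg_qf hf hfix hω hω0 hrat h2)
  have hxy : x ∉ Submodule.span F₀ {y} := fun h => by
    obtain ⟨c, hc⟩ := Submodule.mem_span_singleton.1 h
    exact one_ne_zero (hi 1 (-c) (by rw [← hc]; module)).1
  have hyx : y ∉ Submodule.span F₀ {x} := fun h => by
    obtain ⟨c, hc⟩ := Submodule.mem_span_singleton.1 h
    exact one_ne_zero (hi (-c) 1 (by rw [← hc]; module)).2
  obtain ⟨p, hyp, hxp⟩ := Orth.exists_polar_pair hN hxy
  obtain ⟨q, hxq, hyq⟩ := Orth.exists_polar_pair hN hyx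
  obtain ⟨t, ht0, ht, hp⟩ := exists_singular_perp hq hn (j := 4) (by omega) ![x, y, p, q]
  have hxt : polar Q₀ x t = 0 := hp 0
  have hyt : polar Q₀ y t = 0 := hp 1
  have hpt : polar Q₀ p t = 0 := hp 2
  have hqt : polar Q₀ q t = 0 := hp 3
  have hts : t ∉ Submodule.span F₀ {x, y} := by
    intro e
    obtain ⟨k, l, rfl⟩ := Submodule.mem_span_pair.1 e
    rw [polar_add_right, polar_smul_right, polar_smul_right, polar_comm _ p x, hxp,
      polar_comm _ p y, hyp] at hpt
    rw [polar_add_right, polar_smul_right, polar_smul_right, polar_comm _ q x, hxq,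
      polar_comm _ q y, hyq] at hqt
    simp only [smul_eq_mul, mul_one, mul_zero, add_zero, zero_add] at hpt hqt
    subst hpt hqt
    simp at ht0
  obtain ⟨w, hw, htw⟩ := Orth.exists_polar_sep hN hts
  set p₀ := α • p + β • q + w with hp₀
  have h1 : polar Q₀ x p₀ = α := by
    simp [hp₀, polar_add_right, polar_smul_right, hxp, hxq, hw x (Submodule.subset_span (by simp))]
  have h3 : polar Q₀ y p₀ = β := by
    simp [hp₀, polar_add_right, polar_smul_right, hyp, hyq, hw y (Submodule.subset_span (by simp))]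
  have h4 : polar Q₀ t p₀ = 1 := by
    simp [hp₀, polar_add_right, polar_smul_right, polar_comm _ t p, polar_comm _ t q, hpt, hqt, htw]
  refine ⟨p₀ - Q₀ p₀ • t, ?_, ?_, ?_⟩
  · simp [map_sub_eq, QuadraticMap.map_smul, ht, polar_smul_right, polar_comm _ p₀ t, h4]
  · simp [polar_sub_right, polar_smul_right, h1, hxt]
  · simp [polar_sub_right, polar_smul_right, h3, hyt]

include hMI hM

lemma rs_mem (a w : ι → F₀) (ha : Q₀ a = 0) (haw : polar Q₀ a w = 0) :
    rs (qf ω f) (SSubfld.em a) (SSubfld.em w) ∈ M :=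
  hM a w ((form₀_eq_zero hq).1 ha) ((polar₀_eq_zero hq).1 haw)

/-- The rational singular vectors are one orbit. -/
lemma exists_move {u v : ι → F₀} (hu : Q₀ u = 0) (hv : Q₀ v = 0) (hu0 : u ≠ 0) (hv0 : v ≠ 0) :
    ∃ m ∈ M, ap m (SSubfld.em u) = SSubfld.em v := by
  have hQ := nondeg_qf hf hfix hω hω0 hrat h2
  have z0 : ∀ a : ι → F₀, polar Q₀ 0 a = 0 := fun a => by simp
  obtain ⟨du, -, hudu, -, -⟩ := Orth.OSubfld.exists_dual hq hQ (x := 0) (y := u) (z := 0)
    (by simpa using hu0) hu (z0 u) (z0 u)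
  obtain ⟨dv, -, hvdv, -, -⟩ := Orth.OSubfld.exists_dual hq hQ (x := 0) (y := v) (z := 0)
    (by simpa using hv0) hv (z0 v) (z0 v)
  obtain ⟨w, P, hw⟩ := exists_perp_ind hq (show 7 ≤ Fintype.card ι by omega) (x := u) (d := du) (j := 4) (by omega)
    ![u, v, du, dv] 0 2 rfl rfl (by rw [polar_comm]; exact hudu) hu
  have hvw : polar Q₀ v w = 0 := hw 1
  have hdvw : polar Q₀ dv w = 0 := hw 3
  have P' : Pair hq v w := by
    refine ⟨hv, P.hz, hvw, fun p q e => ?_⟩
    have e1 := congrArg (polar Q₀ dv) e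
    rw [polar_add_right, polar_smul_right, polar_smul_right, polar_comm _ dv v, hvdv, hdvw,
      polar_zero_right] at e1
    have hp : p = 0 := by simpa using e1
    subst hp
    exact ⟨rfl, (P.ind 0 q (by simpa using e)).2⟩
  have step : ∀ {a b : ι → F₀}, Pair hq a b →
      ∃ m ∈ M, ap m (SSubfld.em a) = SSubfld.em b ∧ ap m⁻¹ (SSubfld.em b) = SSubfld.em a := by
    intro a b P
    obtain ⟨a', b', ha', hb', hab', h1, hb1, h3, h4⟩ := P.exists_duals hq hQ
    set y := a' + b' with hy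
    have hQy : Q₀ y = 0 := by
      simp [hy, Orth.OSubfld.map_add_eq, ha', hb', hab']
    have hya : polar Q₀ y a = 1 := by
      simp [hy, polar_add_left, polar_comm _ a' a, polar_comm _ b' a, h1, h3]
    have hyb : polar Q₀ y b = 1 := by
      simp [hy, polar_add_left, polar_comm _ a' b, polar_comm _ b' b, hb1, h4]
    have hd : polar Q₀ y (b - a) = 0 := by rw [polar_sub_right, hya, hyb, sub_self]
    have hm : rs (qf ω f) (SSubfld.em y) (SSubfld.em (b - a)) ∈ M := (rs_mem hf hfix hω hω0 hrat h2 hn hMI hM) y _ hQy hd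
    have hmv : ap (rs (qf ω f) (SSubfld.em y) (SSubfld.em (b - a))) (SSubfld.em a) = SSubfld.em b := by
      rw [Orth.OSubfld.rs_eq ((form₀_eq_zero hq).1 hQy) ((polar₀_eq_zero hq).1 hd)]
      simp only [em_sub]
      exact Orth.ap_sg_move ((form₀_eq_zero hq).1 hQy) ((form₀_eq_zero hq).1 P.hx)
        ((form₀_eq_zero hq).1 P.hz) ((polar₀_eq_one hq).1 hya) ((polar₀_eq_one hq).1 hyb) _
    exact ⟨_, hm, hmv, by rw [← hmv, ap_inv_ap]⟩
  obtain ⟨m, hm, hm1, -⟩ := step P
  obtain ⟨k, hk, -, hk1⟩ := step P'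
  exact ⟨k⁻¹ * m, mul_mem (inv_mem hk) hm, by rw [ap_mul, hm1, hk1]⟩

/-- One transvection at a vector over the subfield gives all of them. -/
lemma inX_rat {u : ι → F₀} (hu : Q₀ u = 0) (hu0 : u ≠ 0) {d : F} (hd : σ d = d) (hd0 : d ≠ 0)
    (hT : Unitary.T hf (SSubfld.em u) d (isotropic_em hf hfix hω hω0 hrat h2 hu) ∈ M) {v : ι → F₀}
    (hv : Q₀ v = 0) : Unitary.InX hf M (SSubfld.em v) := by
  have hu' := isotropic_em hf hfix hω hω0 hrat h2 hu
  have hsq : ∀ k : F₀, Unitary.T hf (SSubfld.em u) ((k : F) * k * d) hu' ∈ M := by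
    intro k
    by_cases hk : k = 0
    · have e : Unitary.T hf (SSubfld.em u) ((k : F) * k * d) hu' = 1 :=
        gl_ext fun x => by simp [Unitary.ap_T, hk]
      rw [e]; exact one_mem M
    obtain ⟨m, hm, hmu⟩ := exists_move hf hfix hω hω0 hrat h2 hn hMI hM hu (v := k • u)
      (by simp [QuadraticMap.map_smul, hu]) hu0 (smul_ne_zero hk hu0)
    have h := mul_mem (mul_mem hm hT) (inv_mem hm)
    rw [Unitary.conj_T hf (hMI hm) hu'] at h
    have e : Unitary.T hf (SSubfld.em u) ((k : F) * k * d) hu' =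
        Unitary.T hf (ap m (SSubfld.em u)) d (Unitary.isotropic_ap hf (hMI hm) hu') := by
      apply gl_ext
      intro x
      rw [Unitary.ap_T hf, Unitary.ap_T hf, hmu, em_smul, Unitary.smul_right hf,
        (hfix _).2 k.2, smul_smul]
      congr 2
      ring
    rw [e]
    exact h
  have hall : Unitary.InX hf M (SSubfld.em u) := by
    refine ⟨hu', fun _ c hc => ?_⟩
    have hcF : c / d ∈ F₀ := (hfix _).1 (by rw [map_div₀, hc, hd])
    have : Fintype F₀ := Fintype.ofFinite F₀
    obtain ⟨s, t, hst⟩ : ∃ s t : F₀, s * s + t * t = ⟨_, hcF⟩ := by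
      have hne : ringChar F₀ ≠ 2 := fun h => h2 (by
        have h' : ((2 : ℕ) : F₀) = 0 := by rw [← h]; exact ringChar.Nat.cast_ringChar
        have := congrArg Subtype.val h'
        simpa [show ((2 : F₀) : F) = 2 from map_ofNat F₀.subtype 2] using this)
      obtain ⟨s, t, h⟩ := FiniteField.exists_root_sum_quadratic
        (f := (Polynomial.X : Polynomial F₀) ^ 2)
        (g := Polynomial.X ^ 2 - Polynomial.C (⟨_, hcF⟩ : F₀))
        (Polynomial.degree_X_pow 2) (Polynomial.degree_X_pow_sub_C two_pos _)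
        (FiniteField.odd_card_of_char_ne_two hne)
      simp only [Polynomial.eval_pow, Polynomial.eval_X, Polynomial.eval_sub,
        Polynomial.eval_C] at h
      exact ⟨s, t, by linear_combination h⟩
    have e : Unitary.T hf (SSubfld.em u) c hu' = Unitary.T hf (SSubfld.em u) ((s : F) * s * d) hu' *
        Unitary.T hf (SSubfld.em u) ((t : F) * t * d) hu' := by
      apply gl_ext
      intro x
      have hst' : (s : F) * s + t * t = c / d := congrArg Subtype.val hst
      rw [eq_div_iff hd0] at hst'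
      simp only [ap_mul, Unitary.ap_T hf, hf.add_left, hf.smul_left, hu', mul_zero, add_zero]
      match_scalars <;> first | ring1 | linear_combination (f x (SSubfld.em u)) * hst' | linear_combination -((f x (SSubfld.em u)) * hst')
    rw [e]
    exact mul_mem (hsq s) (hsq t)
  by_cases hv0 : v = 0
  · rw [hv0, em_zero]; exact Unitary.inX_zero hf
  obtain ⟨m, hm, hmu⟩ := exists_move hf hfix hω hω0 hrat h2 hn hMI hM hu hv hu0 hv0
  rw [← hmu]
  exact Unitary.inX_ap hf hm (hMI hm) hall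

/-- The vectors over the subfield generate all centres. -/
lemma inX_all (hX : ∀ a : ι → F₀, Q₀ a = 0 → Unitary.InX hf M (SSubfld.em a)) {z : ι → F}
    (hz : f z z = 0) : Unitary.InX hf M z := by
  set ν := ω * ω with hν
  have hνF : ν ∈ F₀ := (hfix _).1 (by rw [hν, map_mul, hω]; ring)
  -- moving by a transvection at a vector over the subfield
  have back : ∀ (a x y : ι → F₀) (k : F₀), Q₀ a = 0 →
      Unitary.InX hf M (SSubfld.em (x + (k * ⟨ν, hνF⟩ * polar Q₀ y a) • a) +
        ω • SSubfld.em (y + (k * polar Q₀ x a) • a)) →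
      Unitary.InX hf M (SSubfld.em x + ω • SSubfld.em y) := by
    intro a x y k ha h
    have ha' := isotropic_em hf hfix hω hω0 hrat h2 ha
    have hσ : σ (2 * (k : F)) = 2 * k := by rw [map_mul, map_ofNat, (hfix _).2 k.2]
    have hT := (hX a ha).2 ha' (2 * (k : F)) hσ
    have e : ap (Unitary.T hf (SSubfld.em a) (2 * (k : F)) ha') (SSubfld.em x + ω • SSubfld.em y) =
        SSubfld.em (x + (k * ⟨ν, hνF⟩ * polar Q₀ y a) • a) + ω • SSubfld.em (y + (k * polar Q₀ x a) • a) := by
      rw [Unitary.ap_T hf, f_left hf hfix hω hω0 hrat h2, em_add, em_add, em_smul, em_smul,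
        Subfield.coe_mul, Subfield.coe_mul, Subfield.coe_mul,
        show ((⟨ν, hνF⟩ : F₀) : F) = ω * ω from rfl]
      match_scalars <;> field_simp <;> ring
    have h3 := Unitary.inX_ap hf (inv_mem hT) (hMI (inv_mem hT)) (e ▸ h)
    rwa [ap_inv_ap] at h3
  have mult : ∀ (x y : ι → F₀), ¬ Ind x y → (Q₀ x = 0 ∧ Q₀ y = 0) →
      Unitary.InX hf M (SSubfld.em x + ω • SSubfld.em y) := by
    intro x y hi hQ
    simp only [Ind, not_forall] at hi
    obtain ⟨p, q, hpq, hne⟩ := hi
    by_cases hq0 : q = 0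
    · subst hq0
      have hp : p ≠ 0 := fun hp => hne ⟨hp, rfl⟩
      rw [zero_smul, add_zero, smul_eq_zero] at hpq
      rw [hpq.resolve_left hp, em_zero, zero_add]
      exact Unitary.inX_smul hf (hX y hQ.2) ω
    · have hy : y = (-(q⁻¹ * p)) • x := by
        rw [← inv_smul_smul₀ hq0 y, eq_neg_of_add_eq_zero_right hpq]
        module
      rw [hy, em_smul, smul_smul, show SSubfld.em x + (ω * ((-(q⁻¹ * p) : F₀) : F)) • SSubfld.em x =
        (1 + ω * ((-(q⁻¹ * p) : F₀) : F)) • SSubfld.em x by module]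
      exact Unitary.inX_smul hf (hX x hQ.1) _
  have hQn := nondeg_qf hf hfix hω hω0 hrat h2
  have sing : ∀ x y : ι → F₀, Q₀ x = 0 → Q₀ y = 0 → Unitary.InX hf M (SSubfld.em x + ω • SSubfld.em y) := by
    intro x y hx hy
    by_cases hi : Ind x y
    swap
    · exact mult x y hi ⟨hx, hy⟩
    by_cases hxy : polar Q₀ x y = 0
    swap
    · refine back y x y (-(polar Q₀ x y)⁻¹) hy ?_
      rw [polar_self_mul, hy, mul_zero, mul_zero, zero_smul, add_zero, neg_mul,
        inv_mul_cancel₀ hxy, neg_one_smul, add_neg_cancel, em_zero, smul_zero, add_zero]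
      exact hX x hx
    obtain ⟨d, hd, hxd, hyd⟩ := exists_singular_values hf hfix hω hω0 hrat h2 hn hi 1 0
    have hyd' : Q₀ (y + d) = 0 := by
      simp [Orth.OSubfld.map_add_eq, hy, hd, hyd]
    refine back (y + d) x y (-1) hyd' ?_
    rw [polar_add_right, polar_self_mul, hy, hyd, mul_zero, add_zero, mul_zero, zero_smul,
      add_zero, polar_add_right, hxy, hxd, zero_add, mul_one, neg_one_smul,
      show y + -(y + d) = -d by abel]
    refine back d x (-d) 1 hd ?_
    rw [polar_neg_left, polar_self_mul, hd, mul_zero, neg_zero, mul_zero, zero_smul, add_zero,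
      hxd, one_mul, one_smul, neg_add_cancel, em_zero, smul_zero, add_zero]
    exact hX x hx
  obtain ⟨x, y, rfl⟩ := exists_parts hf hfix hω hω0 h2 z
  have hxy := isotropic_parts hf hfix hω hω0 hrat h2 hz
  by_cases hy : Q₀ y = 0
  · refine sing x y (Subtype.ext ?_) hy
    rw [hxy, hy]; simp
  have hi : Ind x y := by
    intro p q e
    by_contra hne
    by_cases hp : p = 0
    · subst hp
      have hq0 : q ≠ 0 := fun h => hne ⟨rfl, h⟩
      rw [zero_smul, zero_add, smul_eq_zero] at e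
      rw [e.resolve_left hq0] at hy
      simp at hy
    · have hx : x = (-(q / p)) • y := by
        apply smul_right_injective (ι → F₀) hp
        show p • x = p • _
        rw [smul_smul, mul_neg, mul_div_cancel₀ _ hp, neg_smul, eq_neg_iff_add_eq_zero, e]
      rw [hx, QuadraticMap.map_smul, smul_eq_mul, Subfield.coe_mul, Subfield.coe_mul] at hxy
      set l : F₀ := -(q / p)
      have hy' : ((Q₀ y : F₀) : F) ≠ 0 := fun h => hy (Subtype.ext h)
      have h4 : ((l : F) - ω) * ((l : F) + ω) = 0 := by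
        linear_combination mul_right_cancel₀ hy' hxy
      have h5 : σ ω = ω := by
        rcases mul_eq_zero.1 h4 with h | h
        · rw [← sub_eq_zero.1 h, (hfix _).2 l.2]
        · rw [show ω = -(l : F) by linear_combination h, map_neg, (hfix _).2 l.2]
      exact mul_ne_zero h2 hω0 (by linear_combination h5.symm.trans hω)
  obtain ⟨a, ha, hxa, hya⟩ := exists_singular_values hf hfix hω hω0 hrat h2 hn hi 1 1
  refine back a x y (-Q₀ y) ha ?_
  rw [hxa, hya, mul_one, mul_one]
  refine sing _ _ (Subtype.ext ?_) ?_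
  · have e : Q₀ (x + (-Q₀ y * ⟨ν, hνF⟩) • a) = Q₀ x + -Q₀ y * ⟨ν, hνF⟩ := by
      simp [Orth.OSubfld.map_add_eq, QuadraticMap.map_smul, ha, polar_smul_right, hxa]
    rw [e, Subfield.coe_add, Subfield.coe_mul, Subfield.coe_neg, hxy,
      show ((⟨ν, hνF⟩ : F₀) : F) = ω * ω from rfl]
    simp only [ZeroMemClass.coe_zero]
    ring
  · simp [Orth.OSubfld.map_add_eq, QuadraticMap.map_smul, ha, polar_smul_right, hya]

/-- A root element moved off the subfield gives a transvection. -/
lemma exists_T {a : ι → F₀} (ha : Q₀ a = 0) (ha0 : a ≠ 0) {R : GL ι F} (hR : R ∈ M)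
    (hRa : ap R (SSubfld.em a) = SSubfld.em a) {w : ι → F₀} (haw : polar Q₀ a w = 0) {r₁ r₂ : ι → F₀}
    (hw : ap R (SSubfld.em w) = SSubfld.em r₁ + ω • SSubfld.em r₂) (hr : r₂ ∉ Submodule.span F₀ {a}) :
    ∀ v : ι → F₀, Q₀ v = 0 → Unitary.InX hf M (SSubfld.em v) := by
  obtain ⟨w', haw', hrw'⟩ :=
    Orth.exists_polar_pair (nondeg₀ hq (nondeg_qf hf hfix hω hω0 hrat h2)) hr
  have h := mul_mem (mul_mem hR ((rs_mem hf hfix hω hω0 hrat h2 hn hMI hM) a w ha haw)) (inv_mem hR)
  rw [rs_eq_E hf hfix hω hω0 hrat h2 ha haw, conj_E hf (hMI hR),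
    E_congr hf hRa (ap_smul R (2 * ω⁻¹) (SSubfld.em w)) rfl] at h
  have h' := (rs_mem hf hfix hω hω0 hrat h2 hn hMI hM) a w' ha haw'
  rw [rs_eq_E hf hfix hω hω0 hrat h2 ha haw'] at h'
  set v := (2 * ω⁻¹) • ap R (SSubfld.em w) with hv
  set v' := ((2 : F) * ω⁻¹) • SSubfld.em w' with hv'
  have hvu : f v (SSubfld.em a) = 0 := by
    rw [hv, ← ap_smul]
    nth_rewrite 1 [← hRa]
    rw [mem_isom_iff.mp (hMI hR)]
    exact orth_em hf hfix hω hω0 hrat h2 haw
  have hv'u : f v' (SSubfld.em a) = 0 := orth_em hf hfix hω hω0 hrat h2 haw'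
  set d := f v' v - f v v' with hd
  have hσd : σ d = d := by
    rw [hd, hf.skew v v', map_sub, map_neg, hf.involutive]
    ring
  have hd0 : d ≠ 0 := by
    have hrw : f (SSubfld.em w') (ap R (SSubfld.em w)) = ω / 2 * ((polar Q₀ w' r₁ : F₀) : F)
        - ω * (ω / 2 * ((polar Q₀ w' r₂ : F₀) : F)) := by
      rw [hw, Unitary.add_right hf, Unitary.smul_right hf, hω, f_em hf hfix hω hω0 hrat h2,
        f_em hf hfix hω hω0 hrat h2]
      ring
    have e : d = 4 * ((polar Q₀ w' r₂ : F₀) : F) := by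
      rw [hd, hf.skew v v', hv, hv', hf.smul_left, Unitary.smul_right hf, map_mul, map_ofNat,
        map_inv₀, hω, hrw]
      simp only [map_sub, map_mul, map_div₀, map_ofNat, map_inv₀, map_neg, hω,
        (hfix _).2 (polar Q₀ w' r₁).2, (hfix _).2 (polar Q₀ w' r₂).2]
      field_simp
      ring
    rw [e, polar_comm, hrw', OneMemClass.coe_one, mul_one, show (4 : F) = 2 * 2 by norm_num]
    exact mul_ne_zero h2 h2
  refine fun x hx => inX_rat hf hfix hω hω0 hrat h2 hn hMI hM ha ha0 hσd hd0 ?_ hx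
  have hsum : f (v + v') (SSubfld.em a) = 0 := by rw [hf.add_left, hvu, hv'u, add_zero]
  have hsum' : f (v' + v) (SSubfld.em a) = 0 := by rw [hf.add_left, hvu, hv'u, add_zero]
  have h12 := mul_mem h h'
  have h21 := mul_mem h' h
  rw [Unitary.E_mul_E hf hsum] at h12
  rw [Unitary.E_mul_E hf hsum'] at h21
  have h3 := mul_mem (inv_mem h21) h12
  convert h3 using 1
  rw [eq_inv_mul_iff_mul_eq, Unitary.E_mul_T]
  exact E_congr hf rfl (add_comm v' v) (by rw [hd]; ring) _ _

/-- Either there is a transvection, or planes over the subfield go to such planes. -/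
lemma ratPlane_or_inX {g : GL ι F} (hg : g ∈ M) {x z : ι → F₀} (P : Pair hq x z) :
    (∀ v : ι → F₀, Q₀ v = 0 → Unitary.InX hf M (SSubfld.em v)) ∨
      RatPlane F₀ (ap g (SSubfld.em x)) (ap g (SSubfld.em z)) := by
  by_contra hc
  push Not at hc
  obtain ⟨hno, hne⟩ := hc
  have hQn := nondeg_qf hf hfix hω hω0 hrat h2
  have hN := nondeg₀ hq hQn
  set U := ap g (SSubfld.em x) with hU
  set Z := ap g (SSubfld.em z) with hZ
  set κ := (2 : F) * ω⁻¹
  set R := g * rs (qf ω f) (SSubfld.em x) (SSubfld.em z) * g⁻¹ with hR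
  have hRM : R ∈ M := mul_mem (mul_mem hg ((rs_mem hf hfix hω hω0 hrat h2 hn hMI hM) x z P.hx P.hxz)) (inv_mem hg)
  have hRv : ∀ v, ap R v = v + (κ * f v U) • Z - (κ * f v Z) • U := by
    intro v
    obtain ⟨y, rfl⟩ : ∃ y, v = ap g y := ⟨ap g⁻¹ v, (ap_ap_inv g v).symm⟩
    rw [hR, ap_mul, ap_mul, ap_inv_ap, hU, hZ, mem_isom_iff.mp (hMI hg),
      mem_isom_iff.mp (hMI hg), ap_rs' ((form₀_eq_zero hq).1 P.hx) ((form₀_eq_zero hq).1 P.hz)
        ((polar₀_eq_zero hq).1 P.hxz), polar_qf hf hfix hω hω0 hrat _ (ratV_em x),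
      polar_qf hf hfix hω hω0 hrat _ (ratV_em z), ap_sub, ap_add, ap_smul, ap_smul]
    simp only [κ]
    module
  obtain ⟨Ur, Ui, hUp⟩ := exists_parts hf hfix hω hω0 h2 U
  obtain ⟨Zr, Zi, hZp⟩ := exists_parts hf hfix hω hω0 h2 Z
  have hfixed : ∀ a : ι → F₀, polar Q₀ Ur a = 0 → polar Q₀ Ui a = 0 → polar Q₀ Zr a = 0 →
      polar Q₀ Zi a = 0 → ap R (SSubfld.em a) = SSubfld.em a := by
    intro a h1 h2' h3 h4
    have e1 : f (SSubfld.em a) U = 0 := (Unitary.eq_zero_comm hf).mp (by
      rw [hUp, f_left hf hfix hω hω0 hrat h2, h1, h2']; simp)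
    have e2 : f (SSubfld.em a) Z = 0 := (Unitary.eq_zero_comm hf).mp (by
      rw [hZp, f_left hf hfix hω hω0 hrat h2, h3, h4]; simp)
    rw [hRv, e1, e2]
    simp
  -- the imaginary part of the image
  have him : ∀ w : ι → F₀, ∀ a : ι → F₀, Q₀ a = 0 → a ≠ 0 → ap R (SSubfld.em a) = SSubfld.em a →
      polar Q₀ a w = 0 → ∀ r₁ r₂ : ι → F₀, ap R (SSubfld.em w) = SSubfld.em r₁ + ω • SSubfld.em r₂ →
      r₂ ∈ Submodule.span F₀ {a} := by
    intro w a ha ha0 hRa haw r₁ r₂ hw
    by_contra hr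
    obtain ⟨v, hv, hvX⟩ := hno
    exact hvX (exists_T hf hfix hω hω0 hrat h2 hn hMI hM ha ha0 hRM hRa haw hw hr v hv)
  obtain ⟨a, ha0, ha, hpa⟩ := exists_singular_perp hq hn (j := 4) (by omega) ![Ur, Ui, Zr, Zi]
  obtain ⟨p₀, -, hap₀⟩ := Orth.exists_polar_sep hN (U := ⊥) (x := a) (by simpa using ha0)
  obtain ⟨a', ha'0, ha', hpa'⟩ := exists_singular_perp hq hn (j := 5) le_rfl
    ![Ur, Ui, Zr, Zi, p₀]
  have hp₀a' : polar Q₀ p₀ a' = 0 := hpa' 4
  have haa' : a' ∉ Submodule.span F₀ {a} := fun e => by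
    obtain ⟨c, rfl⟩ := Submodule.mem_span_singleton.1 e
    rw [polar_smul_right, polar_comm _ p₀ a, hap₀, smul_eq_mul, mul_one] at hp₀a'
    exact ha'0 (by rw [hp₀a', zero_smul])
  have ha'a : a ∉ Submodule.span F₀ {a'} := fun e => by
    obtain ⟨c, hc⟩ := Submodule.mem_span_singleton.1 e
    have hc0 : c ≠ 0 := fun h => ha0 (by rw [← hc, h, zero_smul])
    exact haa' (Submodule.mem_span_singleton.2 ⟨c⁻¹, by rw [← hc, inv_smul_smul₀ hc0]⟩)
  have hRa : ap R (SSubfld.em a) = SSubfld.em a := hfixed a (hpa 0) (hpa 1) (hpa 2) (hpa 3)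
  have hRa' : ap R (SSubfld.em a') = SSubfld.em a' := hfixed a' (hpa' 0) (hpa' 1) (hpa' 2) (hpa' 3)
  have zero_of : ∀ {u v : ι → F₀}, v ∉ Submodule.span F₀ {u} → Q₀ u = 0 → Q₀ v = 0 → u ≠ 0 →
      v ≠ 0 → ap R (SSubfld.em u) = SSubfld.em u → ap R (SSubfld.em v) = SSubfld.em v → ∀ {w : ι → F₀}, polar Q₀ u w = 0 →
      polar Q₀ v w = 0 → ∀ r₁ r₂ : ι → F₀, ap R (SSubfld.em w) = SSubfld.em r₁ + ω • SSubfld.em r₂ → r₂ = 0 := by
    intro u v hvu hu hv hu0 hv0 hRu hRv' w huw hvw r₁ r₂ hw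
    obtain ⟨k, hk⟩ := Submodule.mem_span_singleton.1 (him w u hu hu0 hRu huw r₁ r₂ hw)
    obtain ⟨l, hl⟩ := Submodule.mem_span_singleton.1 (him w v hv hv0 hRv' hvw r₁ r₂ hw)
    by_cases hl0 : l = 0
    · rw [← hl, hl0, zero_smul]
    · exfalso
      refine hvu (Submodule.mem_span_singleton.2 ⟨l⁻¹ * k, ?_⟩)
      rw [mul_smul, hk, ← hl, inv_smul_smul₀ hl0]
  -- the imaginary parts of the images of two vectors dual to the fixed pair vanish
  obtain ⟨d, d', had, hd'a, ha'd, ha'd', zs, zt⟩ : ∃ d d' : ι → F₀, polar Q₀ a d = 1 ∧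
      polar Q₀ a d' = 0 ∧ polar Q₀ a' d = 0 ∧ polar Q₀ a' d' = 1 ∧
      (∀ s₁ s₂ : ι → F₀, ap R (SSubfld.em d) = SSubfld.em s₁ + ω • SSubfld.em s₂ → s₂ = 0) ∧
      (∀ t₁ t₂ : ι → F₀, ap R (SSubfld.em d') = SSubfld.em t₁ + ω • SSubfld.em t₂ → t₂ = 0) := by
    by_cases haa : polar Q₀ a a' = 0
    · -- an orthogonal pair: the imaginary part is skew, and an isometry preserves no such part
      obtain ⟨d, h21, h11⟩ := Orth.exists_polar_pair hN ha'a
      obtain ⟨d', h12, h22⟩ := Orth.exists_polar_pair hN haa'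
      obtain ⟨s₁, s₂, hs⟩ := exists_parts hf hfix hω hω0 h2 (ap R (SSubfld.em d))
      obtain ⟨t₁, t₂, ht⟩ := exists_parts hf hfix hω hω0 h2 (ap R (SSubfld.em d'))
      obtain ⟨k, hk⟩ := Submodule.mem_span_singleton.1 (him d a' ha' ha'0 hRa' h21 s₁ s₂ hs)
      obtain ⟨l, hl⟩ := Submodule.mem_span_singleton.1 (him d' a ha ha0 hRa h12 t₁ t₂ ht)
      have hQc : Q₀ (a + a') = 0 := by simp [Orth.OSubfld.map_add_eq, ha, ha', haa]
      have hc0 : a + a' ≠ 0 := fun e => haa' (Submodule.mem_span_singleton.2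
        ⟨-1, by rw [neg_one_smul, neg_eq_of_add_eq_zero_right e]⟩)
      have hRc : ap R (SSubfld.em (a + a')) = SSubfld.em (a + a') := by
        rw [em_add, ap_add, hRa, hRa']
      obtain ⟨μ, hμ⟩ := Submodule.mem_span_singleton.1 (him (d - d') (a + a') hQc hc0 hRc
        (by rw [polar_add_left, polar_sub_right, polar_sub_right, h11, h21, h12, h22]; ring)
        (s₁ - t₁) (s₂ - t₂) (by rw [em_sub, ap_sub, hs, ht, em_sub, em_sub]; module))
      have hpair : ∀ p q : F₀, p • a + q • a' = 0 → p = 0 ∧ q = 0 := by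
        intro p q e
        by_cases hq0 : q = 0
        · refine ⟨?_, hq0⟩
          rw [hq0, zero_smul, add_zero, smul_eq_zero] at e
          exact e.resolve_right ha0
        · exact absurd (Submodule.mem_span_singleton.2 ⟨-(q⁻¹ * p), by
            rw [neg_smul, mul_smul, eq_neg_of_add_eq_zero_left e, smul_neg, neg_neg,
              inv_smul_smul₀ hq0]⟩) haa'
      obtain ⟨e1, e2⟩ := hpair (μ + l) (μ - k) (by rw [← hk, ← hl] at hμ; linear_combination (norm := module) hμ)
      have hμk : μ = k := sub_eq_zero.1 e2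
      have hlk : l = -k := eq_neg_of_add_eq_zero_right (by rw [← hμk]; exact e1)
      -- the products of the fixed pair with the images
      have hiso : ∀ (b w r₁ r₂ : ι → F₀), ap R (SSubfld.em b) = SSubfld.em b →
          ap R (SSubfld.em w) = SSubfld.em r₁ + ω • SSubfld.em r₂ → polar Q₀ r₂ b = 0 →
          polar Q₀ r₁ b = polar Q₀ w b := by
        intro b w r₁ r₂ hb hw h0
        have e : f (ap R (SSubfld.em w)) (ap R (SSubfld.em b)) = f (SSubfld.em w) (SSubfld.em b) :=
          mem_isom_iff.mp (hMI hRM) _ _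
        rw [hb, hw, f_left hf hfix hω hω0 hrat h2, f_em hf hfix hω hω0 hrat h2, h0] at e
        apply Subtype.ext
        have e' := mul_left_cancel₀ (div_ne_zero hω0 h2) e
        simpa using e'
      have hs₂a : polar Q₀ s₂ a = 0 := by rw [← hk, polar_smul_left, polar_comm _ a' a, haa, smul_zero]
      have ht₂a : polar Q₀ t₂ a' = 0 := by rw [← hl, polar_smul_left, haa, smul_zero]
      have hs₁ : polar Q₀ s₁ a = 1 := by rw [hiso a d s₁ s₂ hRa hs hs₂a, polar_comm, h11]
      have ht₁ : polar Q₀ t₁ a' = 1 := by rw [hiso a' d' t₁ t₂ hRa' ht ht₂a, polar_comm, h22]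
      have hst : polar Q₀ s₂ t₂ = 0 := by
        rw [← hk, ← hl, polar_smul_left, polar_smul_right, polar_comm _ a' a, haa, smul_zero, smul_zero]
      have hk0 : k = 0 := by
        have e : f (ap R (SSubfld.em d)) (ap R (SSubfld.em d')) = f (SSubfld.em d) (SSubfld.em d') :=
          mem_isom_iff.mp (hMI hRM) _ _
        have e' : f (ap R (SSubfld.em d')) (ap R (SSubfld.em d)) = f (SSubfld.em d') (SSubfld.em d) :=
          mem_isom_iff.mp (hMI hRM) _ _
        have x1 : polar Q₀ s₂ t₁ = k := by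
          rw [← hk, polar_smul_left, polar_comm, ht₁, smul_eq_mul, mul_one]
        have x2 : polar Q₀ s₁ t₂ = -k := by
          rw [← hl, hlk, polar_smul_right, hs₁, smul_eq_mul, mul_one]
        rw [hs, ht, Unitary.add_right hf, Unitary.smul_right hf, hω, f_left hf hfix hω hω0 hrat h2,
          f_left hf hfix hω hω0 hrat h2, f_em hf hfix hω hω0 hrat h2] at e e'
        rw [polar_comm _ t₁ s₁, polar_comm _ t₂ s₁, polar_comm _ t₁ s₂, polar_comm _ t₂ s₂,
          polar_comm _ d' d] at e'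
        rw [x1, x2, hst] at e e'
        simp only [Subfield.coe_neg, ZeroMemClass.coe_zero] at e e'
        have : (2 : F) * ω * ω * (k : F) = 0 := by
          linear_combination (norm := (field_simp; ring)) e - e'
        exact Subtype.ext (by simpa [h2, hω0] using this)
      refine ⟨d, d', h11, h12, h21, h22, fun u₁ u₂ hu => ?_, fun u₁ u₂ hu => ?_⟩
      · rw [hs] at hu
        rw [← (parts_unique hf hfix hω hω0 hu h2).2, ← hk, hk0, zero_smul]
      · rw [ht] at hu
        rw [← (parts_unique hf hfix hω hω0 hu h2).2, ← hl, hlk, hk0, neg_zero, zero_smul]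
    -- otherwise three independent singular vectors
    set β := polar Q₀ a a' with hβ
    obtain ⟨x, hx0, hx⟩ := CfsgLib.ClassicalForms.exists_ne_zero_ker
      (V := ι → F₀) (fun i => polarBilin Q₀ (![Ur, Ui, Zr, Zi, a, a'] i))
      (by rw [Module.finrank_fintype_fun_eq_card]; omega)
    have hxa : polar Q₀ a x = 0 := by simpa using hx 4
    have hxa' : polar Q₀ a' x = 0 := by simpa using hx 5
    set a'' := x + a - (Q₀ x / β) • a' with ha''def
    have ha'' : Q₀ a'' = 0 := by
      simp only [ha''def, map_sub_eq, Orth.OSubfld.map_add_eq, QuadraticMap.map_smul, polar_add_left,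
        polar_smul_right, ha, ha', polar_comm _ x a, polar_comm _ x a', hxa, hxa', smul_eq_mul]
      simp only [← hβ, add_zero, zero_add]
      rw [div_mul_cancel₀ _ haa, mul_zero, add_zero, sub_self]
    have hRa'' : ap R (SSubfld.em a'') = SSubfld.em a'' := by
      have hRx : ap R (SSubfld.em x) = SSubfld.em x :=
        hfixed x (by simpa using hx 0) (by simpa using hx 1) (by simpa using hx 2) (by simpa using hx 3)
      simp only [ha''def, em_sub, em_add, em_smul, ap_sub, ap_add, ap_smul, hRx, hRa, hRa']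
    have ha''s : a'' ∉ Submodule.span F₀ {a, a'} := by
      intro e
      obtain ⟨k, l, hkl⟩ := Submodule.mem_span_pair.1 e
      have hxe : x = (k - 1) • a + (l + Q₀ x / β) • a' := by
        rw [ha''def] at hkl
        linear_combination (norm := module) -hkl
      have e1 := congrArg (polar Q₀ a) hxe
      have e2 := congrArg (polar Q₀ a') hxe
      rw [hxa, polar_add_right, polar_smul_right, polar_smul_right, polar_self_mul, ha, ← hβ] at e1
      rw [hxa', polar_add_right, polar_smul_right, polar_smul_right, polar_self_mul, ha',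
        polar_comm _ a' a, ← hβ] at e2
      simp only [smul_eq_mul, mul_zero, zero_add, add_zero] at e1 e2
      rw [(mul_eq_zero.1 e1.symm).resolve_right haa, (mul_eq_zero.1 e2.symm).resolve_right haa] at hxe
      simp at hxe
      exact hx0 hxe
    have ha''0 : a'' ≠ 0 := fun e => ha''s (e ▸ zero_mem _)
    have nm : ∀ {u v w : ι → F₀}, w ∉ Submodule.span F₀ {u, v} → u ∉ Submodule.span F₀ {v} →
        u ∉ Submodule.span F₀ {v, w} := by
      intro u v w hw hu e
      obtain ⟨k, l, he⟩ := Submodule.mem_span_pair.1 e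
      by_cases hl : l = 0
      · subst hl
        exact hu (Submodule.mem_span_singleton.2 ⟨k, by simpa using he⟩)
      · refine hw (Submodule.mem_span_pair.2 ⟨l⁻¹, -(l⁻¹ * k), ?_⟩)
        rw [← he, smul_add, smul_smul, smul_smul, inv_mul_cancel₀ hl, one_smul]; module
    obtain ⟨d, hd, had⟩ := Orth.exists_polar_sep hN (nm ha''s ha'a)
    obtain ⟨d', hd', ha'd'⟩ := Orth.exists_polar_sep hN
      (nm (show a'' ∉ Submodule.span F₀ {a', a} by rwa [Set.pair_comm]) haa')
    exact ⟨d, d', had, hd' a (Submodule.subset_span (by simp)), hd a' (Submodule.subset_span (by simp)),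
      ha'd', zero_of (fun e => ha''s (Submodule.span_mono (by simp) e)) ha' ha'' ha'0 ha''0 hRa' hRa''
        (hd a' (Submodule.subset_span (by simp))) (hd a'' (Submodule.subset_span (by simp))),
      zero_of (fun e => ha''s (Submodule.span_mono (by simp) e)) ha ha'' ha0 ha''0 hRa hRa''
        (hd' a (Submodule.subset_span (by simp))) (hd' a'' (Submodule.subset_span (by simp)))⟩
  have hratR : ∀ w : ι → F₀, ∃ r : ι → F₀, ap R (SSubfld.em w) = SSubfld.em r := by
    intro w
    set w₁ := w - polar Q₀ a w • d with hw₁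
    set w₀ := w₁ - polar Q₀ a' w₁ • d' with hw₀
    have e1 : polar Q₀ a w₁ = 0 := by
      rw [hw₁, polar_sub_right, polar_smul_right, had, smul_eq_mul, mul_one, sub_self]
    have e2 : polar Q₀ a w₀ = 0 := by
      rw [hw₀, polar_sub_right, polar_smul_right, e1, hd'a, smul_zero, sub_zero]
    have e3 : polar Q₀ a' w₀ = 0 := by
      rw [hw₀, polar_sub_right, polar_smul_right, ha'd', smul_eq_mul, mul_one, sub_self]
    obtain ⟨r₁, r₂, h0⟩ := exists_parts hf hfix hω hω0 h2 (ap R (SSubfld.em w₀))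
    obtain ⟨s₁, s₂, hs⟩ := exists_parts hf hfix hω hω0 h2 (ap R (SSubfld.em d))
    obtain ⟨t₁, t₂, ht⟩ := exists_parts hf hfix hω hω0 h2 (ap R (SSubfld.em d'))
    have z0 := zero_of haa' ha ha' ha0 ha'0 hRa hRa' e2 e3 r₁ r₂ h0
    refine ⟨r₁ + polar Q₀ a' w₁ • t₁ + polar Q₀ a w • s₁, ?_⟩
    conv_lhs => rw [show w = w₀ + polar Q₀ a' w₁ • d' + polar Q₀ a w • d by
      rw [hw₀, hw₁]; abel]
    simp only [em_add, em_smul, ap_add, ap_smul, h0, hs, ht, z0, zs s₁ s₂ hs, zt t₁ t₂ ht, em_zero,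
      smul_zero, add_zero]
  -- two columns span the plane
  choose r hr using fun i : ι => hratR (Pi.single i 1)
  set c : ι → ι → F := fun i j =>
    f (Pi.single i 1) U * f (Pi.single j 1) Z - f (Pi.single j 1) U * f (Pi.single i 1) Z
  have hli : ∀ k : F, Z ≠ k • U := by
    intro k hk
    obtain ⟨x', z', -, -, -, -, -, h3', h4'⟩ := P.exists_duals hq hQn
    rw [hU, hZ, ← ap_smul] at hk
    have := congrArg (fun v => f v (SSubfld.em z')) (ap_injective g hk)
    simp only [hf.smul_left, f_em hf hfix hω hω0 hrat h2, h3', h4'] at this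
    simp [hω0, h2] at this
  obtain ⟨i, j, hij⟩ : ∃ i j, c i j ≠ 0 := by
    by_contra h
    push Not at h
    have hU0 : U ≠ 0 := ap_ne_zero g (em_ne_zero fun e => by
      subst e; exact one_ne_zero (P.ind 1 0 (by simp)).1)
    have hsep : ∀ v : ι → F, (∀ i, f (Pi.single i 1) v = 0) → v = 0 := by
      intro v hv
      by_contra hv0
      obtain ⟨⟨y, hy⟩, -⟩ := hf.nondegenerate v hv0
      apply hy
      rw [← Unitary.fl_apply hf, LSubfld.apply_eq_sum (Unitary.fl hf v) y]
      exact Finset.sum_eq_zero fun i _ => by rw [Unitary.fl_apply, hv i, zero_mul]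
    obtain ⟨i, hi⟩ : ∃ i, f (Pi.single i 1) U ≠ 0 := by
      by_contra h'
      push Not at h'
      exact hU0 (hsep U h')
    set l := f (Pi.single i 1) Z / f (Pi.single i 1) U
    refine hli (σ l) (sub_eq_zero.1 (hsep _ fun j => ?_))
    rw [Unitary.sub_right hf, Unitary.smul_right hf, hf.involutive]
    have := h i j
    simp only [c] at this
    simp only [l]
    field_simp
    linear_combination this
  apply hne
  have hcol : ∀ i, (κ * f (Pi.single i 1) U) • Z - (κ * f (Pi.single i 1) Z) • U =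
      SSubfld.em (r i - Pi.single i 1) := by
    intro i
    rw [em_sub, ← hr i, hRv, em_single]
    abel
  have hκ : κ ≠ 0 := mul_ne_zero h2 (inv_ne_zero hω0)
  refine ⟨r i - Pi.single i 1, r j - Pi.single j 1, ?_, ?_⟩
  · refine Submodule.mem_span_pair.2 ⟨f (Pi.single j 1) U / (κ * c i j),
      -(f (Pi.single i 1) U / (κ * c i j)), ?_⟩
    rw [← hcol, ← hcol]
    simp only [c] at hij ⊢
    have hij' : f (Pi.single j 1) Z * f (Pi.single i 1) U
        - f (Pi.single j 1) U * f (Pi.single i 1) Z ≠ 0 := fun h => hij (by linear_combination h)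
    match_scalars <;> field_simp <;> ring_nf <;> field_simp <;> ring
  · refine Submodule.mem_span_pair.2 ⟨f (Pi.single j 1) Z / (κ * c i j),
      -(f (Pi.single i 1) Z / (κ * c i j)), ?_⟩
    rw [← hcol, ← hcol]
    simp only [c] at hij ⊢
    have hij' : f (Pi.single j 1) Z * f (Pi.single i 1) U
        - f (Pi.single j 1) U * f (Pi.single i 1) Z ≠ 0 := fun h => hij (by linear_combination h)
    match_scalars <;> field_simp <;> ring_nf <;> field_simp <;> ring

omit hMI hM

/-- The orthogonal group over the fixed field is maximal. -/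
theorem isMaximalIn : Cfsg.Geo.IsMaximalIn (Unitary.sisom hf)
    (Cfsg.Geo.subfieldSubgroup F₀ (1 : GL ι F) ⊓ Unitary.sisom hf) := by
  classical
  have hQn := nondeg_qf hf hfix hω hω0 hrat h2
  obtain ⟨u, hu0, hu, -⟩ := exists_singular_perp hq hn (j := 0) (by omega) Fin.elim0
  obtain ⟨d, hd, hud, -, -⟩ := Orth.OSubfld.exists_dual hq hQn (x := 0) (y := u) (z := 0)
    (by simpa using hu0) hu (by simp) (by simp)
  refine ⟨lt_of_le_of_ne inf_le_right fun heq => ?_, fun M hHM hMS => ?_⟩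
  · have hu' := isotropic_em hf hfix hω hω0 hrat h2 hu
    have hm : Unitary.T hf (SSubfld.em u) 1 hu' ∈
        Cfsg.Geo.subfieldSubgroup F₀ (1 : GL ι F) ⊓ Unitary.sisom hf := by
      rw [heq]; exact Unitary.T_mem hf hu' (map_one σ)
    obtain ⟨c, v, hv, hc⟩ := Subfld.lineRat_of_mem hm.1
      (show Subfld.Rat F₀ (1 : GL ι F) (SSubfld.em d) from fun l => by simpa using ratV_em d l)
    have hv' : RatV F₀ v := fun l => by simpa using hv l
    have hdu' : ((polar Q₀ d u : F₀) : F) = 1 := by rw [polar_comm, hud]; rfl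
    rw [Unitary.ap_T hf, one_mul, f_em hf hfix hω hω0 hrat h2, hdu', mul_one] at hc
    have e1 := congrArg (fun w => polar (qf ω f) w (SSubfld.em u)) hc
    have e2 := congrArg (fun w => polar (qf ω f) w (SSubfld.em d)) hc
    simp only [polar_add_left, polar_smul_left, (polar₀_eq_one hq).1 hud,
      polar_comm (qf ω f) (SSubfld.em d) (SSubfld.em u), polar_self_mul, (form₀_eq_zero hq).1 hu,
      (form₀_eq_zero hq).1 hd, smul_eq_mul, mul_zero, mul_one, add_zero, zero_add] at e1 e2
    have h1 := Orth.OSubfld.polar_mem hq hv' (ratV_em u)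
    have h1' := Orth.OSubfld.polar_mem hq hv' (ratV_em d)
    have hne : polar (qf ω f) v (SSubfld.em u) ≠ 0 := fun h => one_ne_zero (by rw [e1, h, mul_zero])
    have h3 : ω / 2 ∈ F₀ := by
      rw [show ω / 2 = polar (qf ω f) v (SSubfld.em d) / polar (qf ω f) v (SSubfld.em u) by
        rw [eq_div_iff hne, e2]; linear_combination (-(polar (qf ω f) v (SSubfld.em d))) * e1]
      exact div_mem h1' h1
    have h4 := (hfix _).2 h3
    rw [map_div₀, map_ofNat, hω, neg_div] at h4
    exact mul_ne_zero h2 (div_ne_zero hω0 h2) (by linear_combination -h4)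
  have hMI : M ≤ isom f := hMS.trans inf_le_left
  have hM : ∀ a w : ι → F₀, qf ω f (SSubfld.em a) = 0 →
      polar (qf ω f) (SSubfld.em a) (SSubfld.em w) = 0 →
      rs (qf ω f) (SSubfld.em a) (SSubfld.em w) ∈ M := by
    intro a w ha' haw'
    have ha := (form₀_eq_zero hq).2 ha'
    have haw := (polar₀_eq_zero hq).2 haw'
    refine hHM ⟨Subfld.mem_of_rat fun v hv i => ?_,
      E_rat_mem_sisom hf hfix hω hω0 hrat h2 ha haw⟩
    have hv' : RatV F₀ v := fun j => by simpa using hv j
    simpa [ap_rs ((form₀_eq_zero hq).1 ha) ((polar₀_eq_zero hq).1 haw)] using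
      sub_mem (add_mem (hv' i) (mul_mem (Orth.OSubfld.polar_mem hq hv' (ratV_em a)) (ratV_em w i)))
        (mul_mem (add_mem (Orth.OSubfld.polar_mem hq hv' (ratV_em w))
          (mul_mem (hq _ (ratV_em w)) (Orth.OSubfld.polar_mem hq hv' (ratV_em a)))) (ratV_em a i))
  by_cases hX : ∀ v : ι → F₀, Q₀ v = 0 → Unitary.InX hf M (SSubfld.em v)
  · exact Or.inr (le_antisymm hMS (Unitary.le_of_hasT hf (by omega) (Unitary.hasT_of_inX hf
      fun z hz => inX_all hf hfix hω hω0 hrat h2 hn hMI hM hX hz)))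
  left
  exact le_antisymm (le_inf (fun g hg => Orth.OSubfld8.mem_subfield_of_planes hq hQn (show 7 ≤ Fintype.card ι by omega)
    fun x z P => (ratPlane_or_inX hf hfix hω hω0 hrat h2 hn hMI hM hg P).resolve_left hX) hMS) hHM

omit hf hfix hω hω0 hrat h2 hn in
/-- The fixed field of the involution and the orthogonal group of a rational structure. -/
theorem isMaximalIn' [Finite F] (hn : 8 ≤ Fintype.card ι) {h : (ι → F) → (ι → F) → F}
    (hh : Cfsg.Geo.IsUnitaryForm σ h) (h2 : (2 : F) ≠ 0) (hfix : ∀ x, σ x = x ↔ x ∈ F₀) {P : GL ι F}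
    (hP : Cfsg.Geo.IsFormRationalStructure h F₀ 1 P) :
    Cfsg.Geo.IsMaximalIn (isom h ⊓ Cfsg.Geo.specialLinear ι F)
      (Cfsg.Geo.subfieldSubgroup F₀ P ⊓ (isom h ⊓ Cfsg.Geo.specialLinear ι F)) := by
  obtain ⟨a, ha⟩ : ∃ a, σ a ≠ a := by
    by_contra hc
    push Not at hc
    exact hh.ne_refl (RingEquiv.ext hc)
  set ω := a - σ a
  have hω0 : ω ≠ 0 := sub_ne_zero.2 (Ne.symm ha)
  have hω : σ ω = -ω := by simp [ω, hh.involutive]
  set f₁ : (ι → F) → (ι → F) → F := fun u v => ω * h (ap P u) (ap P v)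
  have hf₁ : IsSkewForm σ f₁ := by
    refine ⟨hh.ne_refl, hh.involutive, fun x y v => ?_, fun c x v => ?_, fun v w => ?_,
      fun v hv => ?_⟩
    · simp only [f₁, ap_add, hh.add_left, mul_add]
    · simp only [f₁, ap_smul, hh.smul_left]; ring
    · simp only [f₁]
      rw [map_mul, hω, hh.herm (ap P v) (ap P w)]
      ring
    · obtain ⟨⟨z, hz⟩, ⟨y, hy⟩⟩ := hh.nondegenerate _ (ap_ne_zero P hv)
      exact ⟨⟨ap P⁻¹ z, by simp [f₁, ap_ap_inv, hω0, hz]⟩,
        ⟨ap P⁻¹ y, by simp [f₁, ap_ap_inv, hω0, hy]⟩⟩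
  have hSL : (Cfsg.Geo.specialLinear ι F).map (MulAut.conj P).toMonoidHom =
      Cfsg.Geo.specialLinear ι F := by
    have : (Cfsg.Geo.specialLinear ι F).Normal := by
      unfold Cfsg.Geo.specialLinear; infer_instance
    ext g
    rw [Subgroup.mem_map_equiv, MulAut.conj_symm_apply]
    exact ⟨fun h => by simpa [mul_assoc] using this.conj_mem _ h P,
      fun h => by simpa [mul_assoc] using this.conj_mem _ h P⁻¹⟩
  have := isMaximalIn_map_equiv (isMaximalIn hf₁ hfix hω hω0
    (fun u v hu hv => by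
      simpa [f₁, hω0, ← mul_assoc, ap_def] using hP u v hu hv) h2 hn) (MulAut.conj P)
  have hI : (Unitary.sisom hf₁).map (MulAut.conj P).toMonoidHom =
      isom h ⊓ Cfsg.Geo.specialLinear ι F := by
    rw [Subgroup.map_inf _ _ _ (MulAut.conj P).injective, map_conj_isom h hω0 P, hSL]
  rw [hI, Subgroup.map_inf _ _ _ (MulAut.conj P).injective, hI] at this
  convert this using 2
  rw [Cfsg.Geo.subfieldSubgroup, Cfsg.Geo.subfieldSubgroup, map_one (MulAut.conj (G := GL ι F)),
    Subgroup.map_map]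
  rfl

end CfsgLib.Geometric.UOSubfldEight
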