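import Cfsg.Agent.Lib.Geometric.UnitaryVectors
import Mathlib.NumberTheory.LegendreSymbol.QuadraticChar.Basic

/-!
In odd characteristic: products of orthogonal reflections of a skew-hermitian space over a finite
field, and the eigenspaces of similitudes with a scalar square.
-/

namespace CfsgLib.Geometric

open Matrix

variable {ι : Type} [Fintype ι] [DecidableEq ι] {F : Type*} [Field F]

namespace Unitary

variable {σ : F ≃+* F} {f : (ι → F) → (ι → F) → F} (hf : IsSkewForm σ f)

/-- A family of pairwise orthogonal anisotropic vectors. -/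
def Orth (_hf : IsSkewForm σ f) {r : ℕ} (w : Fin r → ι → F) : Prop :=
  (∀ i, f (w i) (w i) ≠ 0) ∧ ∀ i j, i ≠ j → f (w i) (w j) = 0

include hf

lemma orth_comp {r s : ℕ} {w : Fin r → ι → F} (hw : Orth hf w) {g : Fin s → Fin r}
    (hg : Function.Injective g) : Orth hf (w ∘ g) :=
  ⟨fun i => hw.1 (g i), fun i j h => hw.2 _ _ fun h' => h (hg h')⟩

lemma f_sum_smul {r : ℕ} {w : Fin r → ι → F} (hw : Orth hf w) (t : Fin r → F) (i : Fin r) :
    f (∑ j, t j • w j) (w i) = t i * f (w i) (w i) := by
  rw [← fl_apply hf (w i), map_sum, Finset.sum_eq_single i (fun j _ hji => by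
    simp [hf.smul_left, hw.2 j i hji]) (fun h => absurd (Finset.mem_univ i) h)]
  simp [hf.smul_left]

lemma orth_linearIndependent {r : ℕ} {w : Fin r → ι → F} (hw : Orth hf w) :
    LinearIndependent F w := by
  refine Fintype.linearIndependent_iff.mpr fun t ht i => ?_
  have h := f_sum_smul hf hw t i
  rw [ht, zero_left hf, eq_comm, mul_eq_zero] at h
  exact h.resolve_right (hw.1 i)

lemma orth_card_le {r : ℕ} {w : Fin r → ι → F} (hw : Orth hf w) : r ≤ Fintype.card ι := by
  have := (orth_linearIndependent hf hw).fintype_card_le_finrank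
  rwa [Fintype.card_fin, Module.finrank_fintype_fun_eq_card] at this

/-- Two maps agreeing on a full orthogonal family agree. -/
lemma ext_orth {r : ℕ} {w : Fin r → ι → F} (hw : Orth hf w) (hr : r = Fintype.card ι)
    {g h : GL ι F} (H : ∀ i, ap g (w i) = ap h (w i)) : g = h := by
  have hs := (orth_linearIndependent hf hw).span_eq_top_of_card_eq_finrank' (by
    rw [Fintype.card_fin, Module.finrank_fintype_fun_eq_card, hr])
  refine gl_ext fun x => ?_
  have := LinearMap.ext_on hs
    (f := (apEquiv g).toLinearMap) (g := (apEquiv h).toLinearMap) (fun y hy => by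
      obtain ⟨i, rfl⟩ := hy
      exact H i)
  exact LinearMap.congr_fun this x

lemma isom_scalar {g : GL ι F} (hg : g ∈ isom f) {γ : F} (h : ∀ x, ap g x = γ • x) {v : ι → F}
    (hv : f v v ≠ 0) : γ * σ γ = 1 := by
  have := mem_isom_iff.mp hg v v
  rw [h, hf.smul_left, smul_right hf, ← mul_assoc] at this
  exact mul_right_cancel₀ hv (by rw [this, one_mul])

variable [Finite F]

/-- An orthogonal family smaller than the dimension extends. -/
lemma exists_orth_perp {r : ℕ} {w : Fin r → ι → F} (hw : Orth hf w) (hr : r < Fintype.card ι) :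
    ∃ y, f y y ≠ 0 ∧ ∀ i, f y (w i) = 0 := by
  classical
  set U := Submodule.span F (Set.range w) with hU
  have hne : Cfsg.Geo.IsNondegenerateOn f U := by
    intro x hx hx0
    obtain ⟨t, rfl⟩ := (Submodule.mem_span_range_iff_exists_fun F).mp hx
    obtain ⟨i, hi⟩ : ∃ i, t i ≠ 0 := by
      by_contra hc
      push Not at hc
      exact hx0 (by simp [hc])
    have h1 : f (∑ j, t j • w j) (w i) ≠ 0 := by
      rw [f_sum_smul hf hw]
      exact mul_ne_zero hi (hw.1 i)
    first
      | exact ⟨⟨w i, Submodule.subset_span ⟨i, rfl⟩, h1⟩,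
          ⟨w i, Submodule.subset_span ⟨i, rfl⟩, fun h => h1 ((eq_zero_comm hf).mp h)⟩⟩
      | exact ⟨⟨w i, Submodule.subset_span ⟨i, rfl⟩, fun h => h1 ((eq_zero_comm hf).mp h)⟩,
          ⟨w i, Submodule.subset_span ⟨i, rfl⟩, h1⟩⟩
  have h1 := finrank_add_perp hf hne
  have h2 := finrank_range_le_card (R := F) w
  rw [Set.finrank, Fintype.card_fin, ← hU] at h2
  obtain ⟨y, hy, hyy⟩ := exists_anisotropic hf (perp_nondegenerate hf hne) fun h0 => by
    rw [h0, finrank_bot] at h1
    omega
  exact ⟨y, hyy, fun i => hy _ (Submodule.subset_span ⟨i, rfl⟩)⟩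

lemma orth_snoc {r : ℕ} {w : Fin r → ι → F} (hw : Orth hf w) {y : ι → F} (hy : f y y ≠ 0)
    (hyw : ∀ i, f y (w i) = 0) : Orth hf (Fin.snoc w y : Fin (r + 1) → ι → F) := by
  refine ⟨fun i => ?_, fun i j hij => ?_⟩
  · induction i using Fin.lastCases with
    | last => simpa using hy
    | cast i => simpa using hw.1 i
  · induction i using Fin.lastCases with
    | last =>
      induction j using Fin.lastCases with
      | last => exact absurd rfl hij
      | cast j => simpa using hyw j
    | cast i =>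
      induction j using Fin.lastCases with
      | last => simpa using (eq_zero_comm hf).mp (hyw i)
      | cast j => simpa using hw.2 i j fun h => hij (by rw [h])

/-- Orthogonal families of every size up to the dimension exist. -/
lemma exists_orth : ∀ r, r ≤ Fintype.card ι → ∃ w : Fin r → ι → F, Orth hf w
  | 0, _ => ⟨Fin.elim0, fun i => i.elim0, fun i => i.elim0⟩
  | r + 1, h => by
    obtain ⟨w, hw⟩ := exists_orth r (Nat.le_of_succ_le h)
    obtain ⟨y, hy, hyw⟩ := exists_orth_perp hf hw h
    exact ⟨_, orth_snoc hf hw hy hyw⟩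

/-- An isotropic combination of two orthogonal anisotropic vectors. -/
lemma iso_of_orth_pair {a b : ι → F} (ha : f a a ≠ 0) (hb : f b b ≠ 0) (hab : f a b = 0) :
    ∃ t : F, a + t • b ≠ 0 ∧ f (a + t • b) (a + t • b) = 0 := by
  obtain ⟨t, ht⟩ := exists_norm hf (c := -(f a a / f b b)) (by
    rw [map_neg, map_div₀, skew_self hf, skew_self hf, neg_div_neg_eq])
  refine ⟨t, fun h0 => ?_, ?_⟩
  · have := congrArg (fun z => f z a) h0
    simp [hf.add_left, hf.smul_left, (eq_zero_comm hf).mp hab, zero_left hf, ha] at this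
  · rw [hf.add_left, add_right hf, add_right hf, hf.smul_left, hf.smul_left, smul_right hf,
      smul_right hf, hab, (eq_zero_comm hf).mp hab, ← mul_assoc, ht]
    field_simp
    ring

section Odd

variable (h2 : (2 : F) ≠ 0)
include h2

omit [Finite F] in
/-- The product of the reflections of an orthogonal family exists. -/
lemma exists_negOn : ∀ (r : ℕ) (w : Fin r → ι → F), Orth hf w →
    ∃ g ∈ isom f, (g : Matrix ι ι F).det = (-1) ^ r ∧
      ∀ x, ap g x = x - ∑ i, (2 * f x (w i) / f (w i) (w i)) • w i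
  | 0, _, _ => ⟨1, one_mem _, by simp, fun x => by simp⟩
  | r + 1, w, hw => by
    obtain ⟨g, hg, hd, hgx⟩ := exists_negOn r (w ∘ Fin.castSucc)
      (orth_comp hf hw (Fin.castSucc_injective r))
    obtain ⟨k, hk, hkd, hkx⟩ := exists_det hf (hw.1 (Fin.last r)) (s := (-1 : F))
      (by rw [map_neg, map_one]; ring)
    refine ⟨k * g, (isom f).mul_mem hk hg, ?_, fun x => ?_⟩
    · rw [Units.val_mul, Matrix.det_mul, hkd, hd, pow_succ, mul_comm]
    · have hlast : f (ap g x) (w (Fin.last r)) = f x (w (Fin.last r)) := by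
        rw [hgx, sub_left hf, ← fl_apply hf (w (Fin.last r)) (∑ i, _), map_sum,
          Finset.sum_eq_zero fun i _ => ?_, sub_zero]
        simp [hf.smul_left, hw.2 _ _ (Fin.castSucc_ne_last i)]
      rw [ap_mul, hkx, hlast, hgx, Fin.sum_univ_castSucc]
      simp only [Function.comp_apply]
      match_scalars <;> ring

omit [Finite F] in
/-- The product of the reflections of an orthogonal family. -/
noncomputable def negOn {r : ℕ} (w : Fin r → ι → F) (hw : Orth hf w) : GL ι F :=
  (exists_negOn hf h2 r w hw).choose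

variable {r : ℕ} {w : Fin r → ι → F} (hw : Orth hf w)

omit [Finite F] in
lemma negOn_mem : negOn hf h2 w hw ∈ isom f :=
  (exists_negOn hf h2 r w hw).choose_spec.1

omit [Finite F] in
lemma det_negOn : (negOn hf h2 w hw : Matrix ι ι F).det = (-1) ^ r :=
  (exists_negOn hf h2 r w hw).choose_spec.2.1

omit [Finite F] in
lemma ap_negOn (x : ι → F) :
    ap (negOn hf h2 w hw) x = x - ∑ i, (2 * f x (w i) / f (w i) (w i)) • w i :=
  (exists_negOn hf h2 r w hw).choose_spec.2.2 x

omit [Finite F] in
lemma negOn_mem_sisom (hr : Even r) : negOn hf h2 w hw ∈ isom f ⊓ Cfsg.Geo.specialLinear ι F :=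
  ⟨negOn_mem hf h2 hw, (mem_specialLinear_iff _).mpr (by rw [det_negOn, hr.neg_one_pow])⟩

omit [Finite F] in
lemma negOn_fix {x : ι → F} (hx : ∀ i, f x (w i) = 0) : ap (negOn hf h2 w hw) x = x := by
  simp [ap_negOn, hx]

omit [Finite F] in
lemma negOn_neg (j : Fin r) : ap (negOn hf h2 w hw) (w j) = -w j := by
  rw [ap_negOn, Finset.sum_eq_single j (fun i _ hij => by simp [hw.2 j i (Ne.symm hij)])
    (fun h => absurd (Finset.mem_univ j) h), mul_div_assoc, div_self (hw.1 j), mul_one, two_smul]
  abel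

omit [Finite F] in
lemma negOn_sq : negOn hf h2 w hw * negOn hf h2 w hw = 1 := by
  refine gl_ext fun x => ?_
  rw [ap_mul, ap_one]
  conv_lhs => rw [ap_negOn hf h2 hw x, ap_sub, ← apEquiv_apply _ (∑ i, _), map_sum]
  simp only [apEquiv_apply, ap_smul, negOn_neg hf h2 hw, smul_neg, Finset.sum_neg_distrib,
    ap_negOn hf h2 hw x]
  abel

omit [Finite F] in
/-- An element negating the family and fixing its orthogonal is the product of the reflections. -/
lemma eq_negOn {g : GL ι F} (h1 : ∀ x, (∀ i, f x (w i) = 0) → ap g x = x)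
    (hneg : ∀ i, ap g (w i) = -w i) : g = negOn hf h2 w hw := by
  refine gl_ext fun x => ?_
  set p := ∑ i, (f x (w i) / f (w i) (w i)) • w i with hp
  have hperp : ∀ i, f (x - p) (w i) = 0 := fun i => by
    rw [sub_left hf, hp, f_sum_smul hf hw, div_mul_cancel₀ _ (hw.1 i), sub_self]
  have key : ∀ k : GL ι F, (∀ x, (∀ i, f x (w i) = 0) → ap k x = x) →
      (∀ i, ap k (w i) = -w i) → ap k x = x - p - p := by
    intro k hk1 hk2
    have e : ap k p = -p := by
      rw [hp, ← apEquiv_apply k, map_sum]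
      simp [ap_smul, hk2]
    calc ap k x = ap k (x - p) + ap k p := by rw [← ap_add, sub_add_cancel]
      _ = x - p - p := by rw [hk1 _ hperp, e, sub_eq_add_neg]; abel
  rw [key g h1 hneg, key _ (fun x hx => negOn_fix hf h2 hw hx) (negOn_neg hf h2 hw)]

omit [Finite F] in
include hw in
lemma orth_sim {b : GL ι F} {ν : F} (hν : ν ≠ 0)
    (hb : ∀ y y', f (ap b y) (ap b y') = ν * f y y') : Orth hf fun i => ap b (w i) :=
  ⟨fun i => by rw [hb]; exact mul_ne_zero hν (hw.1 i),
    fun i j h => by rw [hb, hw.2 i j h, mul_zero]⟩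

omit [Finite F] in
/-- Conjugation by a similitude. -/
lemma conj_negOn {b : GL ι F} {ν : F} (hν : ν ≠ 0)
    (hb : ∀ y y', f (ap b y) (ap b y') = ν * f y y') :
    b * negOn hf h2 w hw * b⁻¹ = negOn hf h2 _ (orth_sim hf h2 hw hν hb) := by
  refine eq_negOn hf h2 _ (fun x hx => ?_) fun i => ?_
  · rw [ap_mul, ap_mul, negOn_fix hf h2 hw fun i => ?_, ap_ap_inv]
    have := hb (ap b⁻¹ x) (w i)
    rw [ap_ap_inv, hx i, eq_comm, mul_eq_zero] at this
    exact this.resolve_left hν
  · rw [ap_mul, ap_mul, ap_inv_ap, negOn_neg hf h2 hw, ← neg_one_smul F (w i), ap_smul,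
      neg_one_smul]

omit [Finite F] in
/-- The product of the reflections of a family negates no larger orthogonal family. -/
lemma negOn_not_neg {s : ℕ} {y : Fin s → ι → F} (hy : Orth hf y) (hrs : r < s)
    (h : ∀ j, ap (negOn hf h2 w hw) (y j) = -y j) : False := by
  let L : (Fin s → F) →ₗ[F] (Fin r → F) :=
    LinearMap.pi fun i => (fl hf (w i)).comp (Fintype.linearCombination F y)
  obtain ⟨t, ht, ht0⟩ := Submodule.exists_mem_ne_zero_of_ne_bot
    (LinearMap.ker_ne_bot_of_finrank_lt (f := L) (by simpa using hrs))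
  set x := ∑ j, t j • y j with hx
  have hfix : ap (negOn hf h2 w hw) x = x := negOn_fix hf h2 hw fun i => by
    have := congrFun (LinearMap.mem_ker.mp ht) i
    simpa [L, Fintype.linearCombination_apply, ← hx] using this
  have hneg : ap (negOn hf h2 w hw) x = -x := by
    rw [hx, ← apEquiv_apply, map_sum]
    simp [ap_smul, h]
  rw [hfix, eq_neg_iff_add_eq_zero, ← two_smul F x, smul_eq_zero] at hneg
  exact ht0 (funext fun j =>
    Fintype.linearIndependent_iff.mp (orth_linearIndependent hf hy) t (hneg.resolve_left h2) j)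

/-- The scalars fixed by the involution and those of norm one are squares. -/
lemma isSquare_fixed {c : F} (hc : σ c = c) : IsSquare c := by
  classical
  set K := (σ : F →+* F).eqLocusField (RingHom.id F) with hK
  haveI := Fintype.ofFinite K
  obtain ⟨i, hi0, hi⟩ := exists_skew hf
  by_cases hc0 : c = 0
  · exact hc0 ▸ IsSquare.zero
  have hd : i * i ∈ K := by
    rw [hK, RingHom.mem_eqLocusField]
    simp [hi]
  have hd0 : (⟨i * i, hd⟩ : K) ≠ 0 := fun h => mul_ne_zero hi0 hi0 (congrArg Subtype.val h)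
  have hdn : ¬ IsSquare (⟨i * i, hd⟩ : K) := by
    rintro ⟨r, hr⟩
    have hr' : i * i = (r : F) * r := congrArg Subtype.val hr
    have hσr : σ (r : F) = r := RingHom.mem_eqLocusField.mp r.2
    rcases mul_self_eq_mul_self_iff.mp hr' with h | h
    · rw [h] at hi
      rw [hσr, eq_neg_iff_add_eq_zero, ← two_mul, mul_eq_zero] at hi
      exact hi0 (by rw [h, hi.resolve_left h2])
    · rw [h, map_neg, hσr, neg_neg, eq_comm, eq_neg_iff_add_eq_zero, ← two_mul, mul_eq_zero] at hi
      exact hi0 (by rw [h, hi.resolve_left h2, neg_zero])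
  have hcK : c ∈ K := by rw [hK, RingHom.mem_eqLocusField]; simpa using hc
  by_cases hcs : IsSquare (⟨c, hcK⟩ : K)
  · obtain ⟨r, hr⟩ := hcs
    exact ⟨r, congrArg Subtype.val hr⟩
  have h1 := quadraticChar_neg_one_iff_not_isSquare.mpr hcs
  have h3 := quadraticChar_neg_one_iff_not_isSquare.mpr hdn
  have h4 : quadraticChar K (⟨c, hcK⟩ * ⟨i * i, hd⟩) = 1 := by rw [map_mul, h1, h3]; rfl
  obtain ⟨r, hr⟩ := (quadraticChar_one_iff_isSquare
    (mul_ne_zero (fun h => hc0 (congrArg Subtype.val h)) hd0)).mp h4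
  have hr' : c * (i * i) = (r : F) * r := congrArg Subtype.val hr
  exact ⟨(r : F) / i, by field_simp; linear_combination hr'⟩

lemma isSquare_norm_one {u : F} (hu : u * σ u = 1) : IsSquare u := by
  by_cases h : u = -1
  · exact isSquare_fixed hf h2 (by rw [h, map_neg, map_one])
  have ht : 1 + u ≠ 0 := fun h0 => h (eq_neg_of_add_eq_zero_right h0)
  have hσ : σ (1 + u) ≠ 0 := by rwa [ne_eq, EmbeddingLike.map_eq_zero_iff]
  obtain ⟨r, hr⟩ := isSquare_fixed hf h2 (c := (1 + u) * σ (1 + u))
    (by rw [map_mul, hf.involutive, mul_comm])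
  have hr0 : r ≠ 0 := fun h0 => mul_ne_zero ht hσ (by rw [hr, h0, mul_zero])
  refine ⟨(1 + u) / r, ?_⟩
  rw [div_mul_div_comm, ← hr, mul_div_mul_left _ _ ht, eq_div_iff hσ, map_add, map_one]
  linear_combination hu

end Odd

end Unitary

end CfsgLib.Geometric
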