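import Cfsg.Agent.Lib.Geometric.UnitaryDecompBasic

/-!
The stabiliser of an orthogonal decomposition into non-degenerate subspaces of dimension at least
two is maximal in the special unitary group.
-/

namespace CfsgLib.Geometric

open Matrix

variable {ι : Type} [Fintype ι] [DecidableEq ι] {F : Type*} [Field F] [Finite F]

namespace Unitary

variable {σ : F ≃+* F} {f : (ι → F) → (ι → F) → F} (hf : IsSkewForm σ f)
  {t k : ℕ} {D : Fin t → Submodule F (ι → F)}
  (hD : Cfsg.Geo.IsNondegenerateMDecomposition f k D)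
include hf hD

omit [Finite F] in
lemma member_ne_bot (i : Fin t) : D i ≠ ⊥ := fun h => by
  have := hD.decomp.finrank_eq i
  rw [h, finrank_bot] at this
  exact absurd hD.decomp.pos (by omega)

omit [Finite F] in
lemma exists_pairing {i : Fin t} {x : ι → F} (hx : x ∈ D i) (hx0 : x ≠ 0) :
    ∃ p ∈ D i, f p x ≠ 0 :=
  ((hD.nondegenerate i) x hx hx0).1

/-- An isotropic vector of the member pairing non-trivially with `x`. -/
lemma exists_isotropic_pairing (hk : 2 ≤ k) {i : Fin t} {x : ι → F} (hx : x ∈ D i)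
    (hx0 : x ≠ 0) : ∃ e ∈ D i, f e e = 0 ∧ f x e ≠ 0 := by
  obtain ⟨u, hu, hu0, huu⟩ := exists_isotropic hf (hD.nondegenerate i)
    (by rw [hD.decomp.finrank_eq]; exact hk)
  by_cases hxu : f x u = 0
  · obtain ⟨p, hp, hpx⟩ := exists_pairing hf hD hx hx0
    obtain ⟨w, hw, hwu⟩ := exists_pairing hf hD hu hu0
    -- a vector pairing with both `x` and `u`
    obtain ⟨q, hq, hqx, hqu⟩ : ∃ q ∈ D i, f q x ≠ 0 ∧ f q u ≠ 0 := by
      by_cases h1 : f p u = 0
      · by_cases h2 : f w x = 0
        · exact ⟨p + w, (D i).add_mem hp hw, by rwa [hf.add_left, h2, add_zero],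
            by rwa [hf.add_left, h1, zero_add]⟩
        · exact ⟨w, hw, h2, hwu⟩
      · exact ⟨p, hp, hpx, h1⟩
    obtain ⟨l, hl⟩ := exists_isotropic_shift hf huu hqu
    refine ⟨q + l • u, (D i).add_mem hq ((D i).smul_mem _ hu), hl, ?_⟩
    rw [add_right hf, smul_right hf, hxu, mul_zero, add_zero]
    exact hqx ∘ (eq_zero_comm hf).mp
  · exact ⟨u, hu, huu, hxu⟩

/-- A partner for an isotropic vector. -/
lemma exists_partner_iso {i : Fin t} {x : ι → F} (hx : x ∈ D i) (hx0 : x ≠ 0)
    (hxx : f x x = 0) : ∃ g ∈ D i, f g g = 0 ∧ f x g = 1 := by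
  obtain ⟨p, hp, hpx⟩ := exists_pairing hf hD hx hx0
  obtain ⟨l, hl⟩ := exists_isotropic_shift hf hxx hpx
  have h : f x (p + l • x) ≠ 0 := by
    rw [add_right hf, smul_right hf, hxx, mul_zero, add_zero]
    exact hpx ∘ (eq_zero_comm hf).mp
  refine ⟨σ (f x (p + l • x))⁻¹ • (p + l • x),
    (D i).smul_mem _ ((D i).add_mem hp ((D i).smul_mem _ hx)), isotropic_smul hf hl _, ?_⟩
  rw [smul_right hf, hf.involutive, inv_mul_cancel₀ h]

omit hD in
/-- A two-element fixed field forces at most four elements. -/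
lemma card_le_four (h : ∀ c : F, σ c = c → c = 0 ∨ c = 1) : Nat.card F ≤ 4 := by
  classical
  have := Fintype.ofFinite F
  obtain ⟨b, hb⟩ : ∃ b : F, σ b ≠ b := by
    by_contra hc
    push Not at hc
    exact hf.ne_refl (RingEquiv.ext hc)
  have h2 : (2 : F) = 0 := by
    rcases h 2 (map_ofNat σ 2) with h2 | h2
    · exact h2
    · exact absurd (show (1 : F) = 0 by linear_combination h2) one_ne_zero
  have hn : ∀ a : F, a = 0 ∨ a = 1 ∨ a * a + a + 1 = 0 := by
    intro a
    by_cases ha : a = 0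
    · exact Or.inl ha
    have hN : a * σ a = 1 :=
      (h _ (by rw [map_mul, hf.involutive, mul_comm])).resolve_left
        (mul_ne_zero ha ((EmbeddingLike.map_ne_zero_iff (f := σ)).mpr ha))
    rcases h (a + σ a) (by rw [map_add, hf.involutive, add_comm]) with h0 | h1
    · refine Or.inr (Or.inl ?_)
      have : (a - 1) * (a - 1) = 0 := by linear_combination a * h0 - hN + (-a) * h2
      exact sub_eq_zero.1 (mul_self_eq_zero.1 this)
    · exact Or.inr (Or.inr (by linear_combination a * h1 - hN + a * h2))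
  rw [Nat.card_eq_fintype_card, ← Finset.card_univ]
  by_cases hr : ∃ r : F, r * r + r + 1 = 0
  · obtain ⟨r, hr⟩ := hr
    refine (Finset.card_le_card (t := ({0, 1, r, -1 - r} : Finset F)) fun a _ => ?_).trans
      Finset.card_le_four
    rcases hn a with rfl | rfl | ha
    · simp
    · simp
    · have : (a - r) * (a - (-1 - r)) = 0 := by linear_combination ha - hr
      rcases mul_eq_zero.1 this with h1 | h1 <;> simp [sub_eq_zero.1 h1]
  · refine (Finset.card_le_card (t := ({0, 1} : Finset F)) fun a _ => ?_).trans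
      (Finset.card_le_two.trans (by norm_num))
    rcases hn a with rfl | rfl | ha
    · simp
    · simp
    · exact absurd ⟨a, ha⟩ hr

/-- The element of the stabiliser moving one isotropic vector of a member to another. -/
lemma exists_move_iso (hbig : 3 ≤ k ∨ 3 ≤ t) {a b : Fin t} (hab : a ≠ b) {x y : ι → F}
    (hx : x ∈ D a) (hy : y ∈ D a) (hxx : f x x = 0) (hyy : f y y = 0) (hx0 : x ≠ 0)
    (hy0 : y ≠ 0) :
    ∃ g ∈ Cfsg.Geo.decompositionStabilizer D ⊓ sisom hf, ap g x = y ∧
      (∀ v ∈ D b, ap g v = v) ∧ (3 ≤ k → ∀ c ≠ a, ∀ v ∈ D c, ap g v = v) := by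
  classical
  have hcomp : ∀ z ∈ D a, z ≠ 0 → f z z = 0 → ∃ c : Fin t, ∃ h ∈ D c, f h h ≠ 0 ∧ f z h = 0 ∧
      c ≠ b ∧ (3 ≤ k → c = a) := by
    intro z hz hz0 hzz
    by_cases h3 : 3 ≤ k
    · obtain ⟨p, hp, hpp, hzp⟩ := exists_partner_iso hf hD hz hz0 hzz
      obtain ⟨e, he, hee, hze, -⟩ := exists_anisotropic_perp_pair hf (hD.nondegenerate a)
        (by rw [hD.decomp.finrank_eq]; exact h3) hz hp hzz hpp (by rw [hzp]; exact one_ne_zero)
      exact ⟨a, e, he, hee, hze, hab, fun _ => rfl⟩
    · obtain ⟨c, hca, hcb⟩ : ∃ c : Fin t, c ≠ a ∧ c ≠ b := by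
        by_contra hc
        push Not at hc
        have hsub : (Finset.univ : Finset (Fin t)) ⊆ {a, b} := fun c _ => by
          by_cases h : c = a
          · simp [h]
          · simp [hc c h]
        have := (Finset.card_le_card hsub).trans Finset.card_le_two
        rw [Finset.card_univ, Fintype.card_fin] at this
        omega
      obtain ⟨h, hh, hhh⟩ := exists_anisotropic hf (hD.nondegenerate c) (member_ne_bot hf hD c)
      exact ⟨c, h, hh, hhh, hD.orthogonal a c (Ne.symm hca) z hz h hh, hcb,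
        fun h' => absurd h' h3⟩
  have one : ∀ x y, x ∈ D a → y ∈ D a → f x x = 0 → f y y = 0 → y ≠ 0 → f x y ≠ 0 →
      ∃ g ∈ Cfsg.Geo.decompositionStabilizer D ⊓ sisom hf, ap g x = y ∧
        (∀ v ∈ D b, ap g v = v) ∧ (3 ≤ k → ∀ c ≠ a, ∀ v ∈ D c, ap g v = v) := by
    intro x y hx hy hxx hyy hy0 hxy
    obtain ⟨c, h, hh, hhh, hyh, hcb, hca⟩ := hcomp y hy hy0 hyy
    obtain ⟨g, hg, hgx, hfix⟩ := exists_reflect_decomp hf hD hx hy (hxx.trans hyy.symm)
      (by rwa [sub_right hf, hxx, sub_zero]) hh hhh hyh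
    exact ⟨g, hg, hgx, fun v hv => hfix v
        (hD.orthogonal b a (Ne.symm hab) v hv _ ((D a).sub_mem hy hx))
        (hD.orthogonal b c (Ne.symm hcb) v hv h hh),
      fun h3 l hl v hv => hfix v (hD.orthogonal l a hl v hv _ ((D a).sub_mem hy hx))
        (hD.orthogonal l c (by rw [hca h3]; exact hl) v hv h hh)⟩
  by_cases hxy : f x y = 0
  · obtain ⟨p, hp, hpx⟩ := exists_pairing hf hD hx hx0
    obtain ⟨w, hw, hwy⟩ := exists_pairing hf hD hy hy0
    obtain ⟨q, hq, hqx, hqy⟩ : ∃ q ∈ D a, f q x ≠ 0 ∧ f q y ≠ 0 := by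
      by_cases h1 : f p y = 0
      · by_cases h2 : f w x = 0
        · exact ⟨p + w, (D a).add_mem hp hw, by rwa [hf.add_left, h2, add_zero],
            by rwa [hf.add_left, h1, zero_add]⟩
        · exact ⟨w, hw, h2, hwy⟩
      · exact ⟨p, hp, hpx, h1⟩
    obtain ⟨l, hl⟩ := exists_isotropic_shift hf hxx hqx
    set z := q + l • x with hz
    have hzD : z ∈ D a := (D a).add_mem hq ((D a).smul_mem _ hx)
    have hzx : f x z ≠ 0 := by
      rw [hz, add_right hf, smul_right hf, hxx, mul_zero, add_zero]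
      exact hqx ∘ (eq_zero_comm hf).mp
    have hzy : f z y ≠ 0 := by rwa [hz, hf.add_left, hf.smul_left, hxy, mul_zero, add_zero]
    have hz0 : z ≠ 0 := fun h => hzy (by rw [h, zero_left hf])
    obtain ⟨g₁, hg₁, e₁, f₁, F₁⟩ := one x z hx hzD hxx hl hz0 hzx
    obtain ⟨g₂, hg₂, e₂, f₂, F₂⟩ := one z y hzD hy hl hyy hy0 hzy
    exact ⟨g₂ * g₁, mul_mem hg₂ hg₁, by rw [ap_mul, e₁, e₂],
      fun v hv => by rw [ap_mul, f₁ v hv, f₂ v hv],
      fun h3 c hc v hv => by rw [ap_mul, F₁ h3 c hc v hv, F₂ h3 c hc v hv]⟩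
  · exact one x y hx hy hxx hyy hy0 hxy

/-- A companion in a member for killing another component. -/
lemma exists_kill {b : Fin t} {y : ι → F} (hy : y ∈ D b) (hy0 : y ≠ 0) (hk : 2 ≤ k) {n : F}
    (hn : σ n = -n) (h : f y y ≠ 0 ∨ n = 0) :
    ∃ d ∈ D b, f d d = -n ∧ f y d = n + 1 := by
  by_cases hyy : f y y = 0
  · obtain rfl := h.resolve_left (not_not.2 hyy)
    obtain ⟨g, hg, hgg, hyg⟩ := exists_partner_iso hf hD hy hy0 hyy
    exact ⟨g, hg, by rw [hgg, neg_zero], by rw [hyg, zero_add]⟩
  · obtain ⟨hS, hSd, -⟩ := inf_perp_span hf (hD.nondegenerate b) hy hyy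
    obtain ⟨h, hh, hhh⟩ := exists_anisotropic hf hS fun h => by
      rw [h, finrank_bot, hD.decomp.finrank_eq] at hSd
      omega
    have hhy : f h y = 0 := (mem_perp_span hf).1 hh.2
    set α := σ ((n + 1) / f y y) with hα
    have hαα : σ α * f y y = n + 1 := by rw [hα, hf.involutive, div_mul_cancel₀ _ hyy]
    obtain ⟨β, hβ⟩ := exists_norm hf (c := (-n - α * σ α * f y y) / f h h) (by
      rw [map_div₀, map_sub, map_neg, map_mul, map_mul, hn, skew_self hf, skew_self hf,
        hf.involutive]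
      ring)
    refine ⟨α • y + β • h, (D b).add_mem ((D b).smul_mem _ hy) ((D b).smul_mem _ hh.1), ?_, ?_⟩
    · simp only [hf.add_left, add_right hf, hf.smul_left, smul_right hf, hhy,
        (eq_zero_comm hf).mp hhy]
      field_simp at hβ
      linear_combination hβ
    · rw [add_right hf, smul_right hf, smul_right hf, (eq_zero_comm hf).mp hhy, hαα, mul_zero,
        add_zero]

/-- A group properly containing the stabiliser contains all the transvections. -/
theorem inX_of_decomp (hk : 2 ≤ k) (hbig : 3 ≤ k ∨ 3 ≤ t) (hex : k = 2 → 4 < Nat.card F)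
    {M : Subgroup (GL ι F)} (hHM : Cfsg.Geo.decompositionStabilizer D ⊓ sisom hf ≤ M)
    (hMS : M ≤ sisom hf) {g₀ : GL ι F} (hg₀ : g₀ ∈ M)
    (hg₀' : g₀ ∉ Cfsg.Geo.decompositionStabilizer D) : ∀ y, f y y = 0 → InX hf M y := by
  classical
  set c := Decomp.comp hD.decomp with hc
  have hcm : ∀ l x, c l x ∈ D l := fun l x => Decomp.comp_mem hD.decomp l x
  have hmove : ∀ {g : GL ι F}, g ∈ M → ∀ {v}, InX hf M v → InX hf M (ap g v) :=
    fun hg _ h => inX_ap hf hg (hMS hg).1 h
  have hXD : ∀ i, ∀ v ∈ D i, f v v = 0 → InX hf M v := fun i v hv hvv =>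
    ⟨hvv, fun hv' c' hc' => hHM ⟨mem_stab_of_mapsIn hf hD 1
      (mapsIn_of_ap hf hD hv c' fun x => ap_T hf hv' x), T_mem hf hv' hc'⟩⟩
  have hsum2 : ∀ a b, a ≠ b → ∀ u ∈ D a, ∀ v ∈ D b,
      f (u + v) (u + v) = f u u + f v v := fun a b hab u hu v hv => by
    rw [hf.add_left, add_right hf, add_right hf, hD.orthogonal a b hab u hu v hv,
      hD.orthogonal b a (Ne.symm hab) v hv u hu]
    ring
  -- a centre with two non-zero components
  obtain ⟨y₀, hy₀, a₀, b₀, hab₀, ha₀, hb₀⟩ :
      ∃ y, InX hf M y ∧ ∃ a b, a ≠ b ∧ c a y ≠ 0 ∧ c b y ≠ 0 := by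
    by_contra hcon
    push Not at hcon
    have hgI := (hMS hg₀).1
    have hin : ∀ l, ∀ v ∈ D l, f v v = 0 → ∀ s, c s (ap g₀ v) ≠ 0 → ap g₀ v ∈ D s := by
      intro l v hv hvv s hs
      rw [← Decomp.sum_comp hD.decomp (ap g₀ v)]
      refine Submodule.sum_mem _ fun r _ => ?_
      by_cases hrs : s = r
      · subst hrs; exact hcm _ _
      · rw [show Decomp.comp hD.decomp r (ap g₀ v) = 0 from
          hcon _ (hmove hg₀ (hXD l v hv hvv)) s r hrs hs]
        exact zero_mem _
    choose u hu hu0 huu using fun l => exists_isotropic hf (hD.nondegenerate l)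
      (by rw [hD.decomp.finrank_eq]; exact hk)
    have hne : ∀ l v, v ∈ D l → v ≠ 0 → ∃ s, c s (ap g₀ v) ≠ 0 := by
      intro l v _ hv0
      by_contra h
      push Not at h
      exact ap_ne_zero g₀ hv0 (Decomp.ext_comp hD.decomp fun i => by rw [map_zero]; exact h i)
    choose s hs using fun l => hne l (u l) (hu l) (hu0 l)
    have hiso : ∀ l, ∀ v ∈ D l, f v v = 0 → ap g₀ v ∈ D (s l) := by
      have key : ∀ l v w, v ∈ D l → w ∈ D l → f v v = 0 → f w w = 0 → f v w ≠ 0 →
          ∀ r, ap g₀ v ∈ D r → ap g₀ w ∈ D r := by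
        intro l v w hv hw hvv hww hvw r hr
        obtain ⟨r', hr'⟩ := hne l w hw (fun h => hvw (by rw [h, zero_right hf]))
        have hw' := hin l w hw hww r' hr'
        by_cases h : r = r'
        · exact h ▸ hw'
        · exact absurd (by rw [← isom_apply hgI]; exact hD.orthogonal r r' h _ hr _ hw') hvw
      intro l v hv hvv
      by_cases hv0 : v = 0
      · rw [hv0, ap_zero]; exact zero_mem _
      have hul := hin l (u l) (hu l) (huu l) _ (hs l)
      by_cases huv : f (u l) v = 0
      · obtain ⟨p, hp, hpu⟩ := exists_pairing hf hD (hu l) (hu0 l)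
        obtain ⟨w, hw, hwv⟩ := exists_pairing hf hD hv hv0
        obtain ⟨q, hq, hqu, hqv⟩ : ∃ q ∈ D l, f q (u l) ≠ 0 ∧ f q v ≠ 0 := by
          by_cases h1 : f p v = 0
          · by_cases h2 : f w (u l) = 0
            · exact ⟨p + w, (D l).add_mem hp hw, by rwa [hf.add_left, h2, add_zero],
                by rwa [hf.add_left, h1, zero_add]⟩
            · exact ⟨w, hw, h2, hwv⟩
          · exact ⟨p, hp, hpu, h1⟩
        obtain ⟨e, he⟩ := exists_isotropic_shift hf (huu l) hqu
        have hz : q + e • u l ∈ D l := (D l).add_mem hq ((D l).smul_mem _ (hu l))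
        refine key l _ v hz hv he hvv ?_ _ (key l _ _ (hu l) hz (huu l) he ?_ _ hul)
        · rwa [hf.add_left, hf.smul_left, huv, mul_zero, add_zero]
        · rw [add_right hf, smul_right hf, huu l, mul_zero, add_zero]
          exact hqu ∘ (eq_zero_comm hf).mp
      · exact key l _ v (hu l) hv (huu l) hvv huv _ hul
    have hall : ∀ l, MapsIn g₀ (D l) (D (s l)) := by
      intro l x hx
      by_cases hxx : f x x = 0
      · exact hiso l x hx hxx
      obtain ⟨hS, hSd, -⟩ := inf_perp_span hf (hD.nondegenerate l) hx hxx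
      obtain ⟨e, he, hee⟩ := exists_anisotropic hf hS fun h => by
        rw [h, finrank_bot, hD.decomp.finrank_eq] at hSd
        omega
      obtain ⟨v₁, v₂, hv₁, hv₂, hi₁, hi₂, rfl⟩ := exists_isotropic_add hf hx he.1 hee
        ((eq_zero_comm hf).1 ((mem_perp_span hf).1 he.2))
      rw [ap_add]
      exact (D _).add_mem (hiso l v₁ hv₁ hi₁) (hiso l v₂ hv₂ hi₂)
    have hinj : Function.Injective s := by
      intro l l' hll
      by_contra hne'
      have he : (D l).map (Matrix.toLin' (g₀ : Matrix ι ι F)) = D (s l) :=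
        (hall l).map_eq (by rw [hD.decomp.finrank_eq, hD.decomp.finrank_eq])
      have hmem : ap g₀ (u l') ∈ (D l).map (Matrix.toLin' (g₀ : Matrix ι ι F)) := by
        rw [he, hll]; exact hall l' _ (hu l')
      obtain ⟨w, hw, hwu⟩ := hmem
      have hw' : w = u l' := ap_injective g₀ hwu
      subst hw'
      exact hu0 l' (Submodule.disjoint_def.1 (hD.decomp.indep.pairwiseDisjoint hne') _ hw (hu l'))
    exact hg₀' (mem_stab_of_mapsIn hf hD
      (Equiv.ofBijective s (Finite.injective_iff_bijective.mp hinj)) hall)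
  -- two centres differing in two components give their difference
  have hdiff : ∀ z w, InX hf M z → InX hf M w → f (z - w) (z - w) = 0 → f z w ≠ 0 →
      InX hf M (z - w) := by
    intro z w hz hw hzw hne
    have hfix : σ (f z w) = f z w := by
      have h := hzw
      rw [sub_left hf, sub_right hf, sub_right hf, hz.1, hw.1, hf.skew w z] at h
      linear_combination h
    have h' := hmove (hw.2 hw.1 (-(f z w)⁻¹) (by rw [map_neg, map_inv₀, hfix])) hz
    rwa [ap_T hf, neg_mul, inv_mul_cancel₀ hne, neg_smul, one_smul, ← sub_eq_add_neg] at h'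
  -- a centre with isotropic components in two members
  obtain ⟨a, b, hab, e, he, e', he', hee, hee', he0, he'0, hX⟩ : ∃ a b, a ≠ b ∧ ∃ e ∈ D a,
      ∃ e' ∈ D b, f e e = 0 ∧ f e' e' = 0 ∧ e ≠ 0 ∧ e' ≠ 0 ∧ InX hf M (e + e') := by
    set ya := c a₀ y₀ with hya
    set yb := c b₀ y₀ with hyb
    have hya' : ya ∈ D a₀ := hcm _ _
    have hyb' : yb ∈ D b₀ := hcm _ _
    obtain ⟨e', he', hee', hye'⟩ := exists_isotropic_pairing hf hD hk hyb' hb₀
    have he'0 : e' ≠ 0 := fun h => hye' (by rw [h, zero_right hf])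
    set F' := f yb e' with hF'
    have hTb : ∀ s, σ s = s → InX hf M (y₀ + (s * F') • e') := fun s hs => by
      have := hmove ((hXD b₀ e' he' hee').2 hee' s hs) hy₀
      rwa [ap_T hf, f_of_mem hf hD y₀ he'] at this
    have finish : ∀ d ∈ D a₀, d ≠ 0 → f d d = 0 → InX hf M (y₀ + d) → ∀ s, σ s = s → s ≠ 0 →
        f ya d - s * (F' * σ F') ≠ 0 → ∃ a b, a ≠ b ∧ ∃ e ∈ D a, ∃ e' ∈ D b,
          f e e = 0 ∧ f e' e' = 0 ∧ e ≠ 0 ∧ e' ≠ 0 ∧ InX hf M (e + e') := by
      intro d hd hd0 hdd hXd s hs hs0 hne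
      set d' := (s * F') • e' with hd'def
      have hd' : d' ∈ D b₀ := (D b₀).smul_mem _ he'
      have hdd' : f d' d' = 0 := isotropic_smul hf hee' _
      have hd'0 : d' ≠ 0 := smul_ne_zero (mul_ne_zero hs0 hye') he'0
      have hr : f (y₀ + d') (y₀ + d) = f ya d - s * (F' * σ F') := by
        rw [hf.add_left, add_right hf, add_right hf, hy₀.1, f_of_mem hf hD y₀ hd,
          hD.orthogonal b₀ a₀ (Ne.symm hab₀) d' hd' d hd, hd'def, hf.smul_left,
          f_of_mem' hf hD y₀ he', hf.skew e' (c b₀ y₀), ← hyb, ← hF', ← hya]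
        ring
      have hnd : -d ∈ D a₀ := (D a₀).neg_mem hd
      have hiso : f (y₀ + d' - (y₀ + d)) (y₀ + d' - (y₀ + d)) = 0 := by
        rw [show y₀ + d' - (y₀ + d) = -d + d' by abel, hsum2 a₀ b₀ hab₀ _ hnd _ hd',
          neg_left hf, neg_right hf, hdd, hdd']
        ring
      have h := hdiff _ _ (hTb s hs) hXd hiso (by rw [hr]; exact hne)
      rw [show y₀ + d' - (y₀ + d) = -d + d' by abel] at h
      exact ⟨a₀, b₀, hab₀, -d, hnd, d', hd', by rw [neg_left hf, neg_right hf, hdd]; ring, hdd',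
        neg_ne_zero.2 hd0, hd'0, h⟩
    by_cases hfix : ∃ s, σ s = s ∧ s ≠ 0 ∧ s ≠ 1
    · obtain ⟨s₀, hs₀, hs₀0, hs₀1⟩ := hfix
      obtain ⟨e, he, hee, hye⟩ := exists_isotropic_pairing hf hD hk hya' ha₀
      set Fa := f ya e with hFa
      have hd : ∀ s : F, σ s = s → f ya ((s * Fa) • e) = s * (Fa * σ Fa) := fun s hs => by
        rw [smul_right hf, map_mul, hs, ← hFa]; ring
      have he0 : e ≠ 0 := fun h => hye (by rw [hFa, h, zero_right hf])
      have hTa : ∀ s, σ s = s → InX hf M (y₀ + (s * Fa) • e) := fun s hs => by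
        have := hmove ((hXD a₀ e he hee).2 hee s hs) hy₀
        rwa [ap_T hf, f_of_mem hf hD y₀ he] at this
      by_cases hcase : Fa * σ Fa - 1 * (F' * σ F') = 0
      · refine finish _ ((D a₀).smul_mem _ he) (smul_ne_zero (mul_ne_zero one_ne_zero hye) he0)
          (isotropic_smul hf hee _) (hTa 1 (map_one σ)) s₀ hs₀ hs₀0 ?_
        rw [hd 1 (map_one σ)]
        intro h
        have h' : (1 - s₀) * (F' * σ F') = 0 := by linear_combination h - hcase
        exact hs₀1 (sub_eq_zero.1 ((mul_eq_zero.1 h').resolve_right (mul_ne_zero hye'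
          ((EmbeddingLike.map_ne_zero_iff (f := σ)).mpr hye')))).symm
      · refine finish _ ((D a₀).smul_mem _ he) (smul_ne_zero (mul_ne_zero one_ne_zero hye) he0)
          (isotropic_smul hf hee _) (hTa 1 (map_one σ)) 1 (map_one σ) one_ne_zero ?_
        rw [hd 1 (map_one σ), one_mul]
        exact hcase
    · push Not at hfix
      have h01 : ∀ s, σ s = s → s = 0 ∨ s = 1 := fun s hs =>
        or_iff_not_imp_left.2 (hfix s hs)
      have h3 : 3 ≤ k := by
        by_contra h3
        have := hex (by omega)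
        have := card_le_four hf h01
        omega
      obtain ⟨d, hd, hd0, hdd, hdy, hXd⟩ : ∃ d ∈ D a₀, d ≠ 0 ∧ f d d = 0 ∧ f ya d = 0 ∧
          InX hf M (y₀ + d) := by
        by_cases haa : f ya ya = 0
        · obtain ⟨l, hl⟩ : ∃ l : F, σ l ≠ l := by
            by_contra hc'
            push Not at hc'
            exact hf.ne_refl (RingEquiv.ext hc')
          have hl0 : l ≠ 0 := fun h => hl (by rw [h, map_zero])
          have hl1 : l ≠ 1 := fun h => hl (by rw [h, map_one])
          obtain ⟨g, hg, hgy, -, hgf⟩ := exists_move_iso hf hD hbig hab₀ hya'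
            ((D a₀).smul_mem l hya') haa (isotropic_smul hf haa l) ha₀ (smul_ne_zero hl0 ha₀)
          refine ⟨(l - 1) • ya, (D a₀).smul_mem _ hya', smul_ne_zero (sub_ne_zero.2 hl1) ha₀,
            isotropic_smul hf haa _, by rw [smul_right hf, haa, mul_zero], ?_⟩
          have e : ap g y₀ = y₀ + (l - 1) • ya := by
            have h1 : ap g (y₀ - ya) = y₀ - ya := by
              have h2 : y₀ - ya = ∑ r ∈ Finset.univ.erase a₀, c r y₀ := by
                rw [eq_comm, eq_sub_iff_add_eq, hya, Finset.sum_erase_add _ _ (Finset.mem_univ _)]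
                exact Decomp.sum_comp hD.decomp y₀
              rw [h2, show ap g _ = _ from map_sum (apEquiv g) _ _]
              exact Finset.sum_congr rfl fun r hr =>
                hgf h3 r (Finset.ne_of_mem_erase hr) _ (hcm r y₀)
            conv_lhs => rw [← sub_add_cancel y₀ ya, ap_add, h1, hgy]
            module
          rw [← e]
          exact hmove (hHM hg) hy₀
        · obtain ⟨hS, hSd, -⟩ := inf_perp_span hf (hD.nondegenerate a₀) hya' haa
          obtain ⟨u, hu, hu0, huu⟩ := exists_isotropic hf hS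
            (by rw [hD.decomp.finrank_eq] at hSd; omega)
          have huy : f u ya = 0 := (mem_perp_span hf).1 hu.2
          have hyu : f ya u = 0 := (eq_zero_comm hf).1 huy
          obtain ⟨cc, hcc⟩ := exists_sub_eq hf (s := f ya ya) (skew_self hf ya)
          refine ⟨f ya ya • u, (D a₀).smul_mem _ hu.1, smul_ne_zero haa hu0,
            isotropic_smul hf huu _, by rw [smul_right hf, hyu, mul_zero], ?_⟩
          have hE : E hf u ya cc huu hyu ∈ M := by
            refine hHM ⟨mem_stab_of_mapsIn hf hD 1 fun l x hx => ?_, E_mem hf hcc⟩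
            show ap _ x ∈ D l
            rw [ap_E hf]
            by_cases hl : l = a₀
            · subst hl
              exact (D _).add_mem ((D _).add_mem ((D _).add_mem hx ((D _).smul_mem _ hya'))
                ((D _).smul_mem _ hu.1)) ((D _).smul_mem _ hu.1)
            · rw [hD.orthogonal l a₀ hl x hx u hu.1, hD.orthogonal l a₀ hl x hx ya hya']
              simpa using hx
          have := hmove hE hy₀
          rwa [ap_E hf, f_of_mem hf hD y₀ hu.1, f_of_mem hf hD y₀ hya', ← hya, hyu, mul_zero,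
            zero_smul, zero_smul, add_zero, add_zero] at this
      refine finish d hd hd0 hdd hXd 1 (map_one σ) one_ne_zero ?_
      rw [hdy, zero_sub, one_mul]
      exact neg_ne_zero.2 (mul_ne_zero hye' ((EmbeddingLike.map_ne_zero_iff (f := σ)).mpr hye'))
  -- all pairs of isotropic vectors
  let Pr : Fin t → Fin t → Prop := fun a b => ∀ e ∈ D a, ∀ e' ∈ D b, f e e = 0 → f e' e' = 0 →
    e ≠ 0 → e' ≠ 0 → InX hf M (e + e')
  have hPr0 : Pr a b := by
    intro u hu u' hu' huu huu' hu0 hu'0
    obtain ⟨g, hg, hge, hgf, -⟩ := exists_move_iso hf hD hbig hab he hu hee huu he0 hu0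
    obtain ⟨g', hg', hge', hgf', -⟩ :=
      exists_move_iso hf hD hbig (Ne.symm hab) he' hu' hee' huu' he'0 hu'0
    have := hmove (hHM hg') (hmove (hHM hg) hX)
    rwa [ap_add, hge, hgf e' he', ap_add, hgf' u hu, hge'] at this
  have hsym : ∀ p q, Pr p q → Pr q p := fun p q h u hu v hv huu hvv hu0 hv0 => by
    rw [add_comm]; exact h v hv u hu hvv huu hv0 hu0
  have hsw : ∀ p q r, Pr p q → p ≠ q → r ≠ q → Pr r q := by
    intro p q r h hpq hrq
    by_cases hpr : p = r
    · exact hpr ▸ h
    obtain ⟨g, hg, hgm⟩ := exists_swap_decomp hf hD hpr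
    intro u hu v hv huu hvv hu0 hv0
    have hgI : g⁻¹ ∈ isom f := inv_mem hg.2.1
    have hle : ∀ i j, Module.finrank F (D i) ≤ Module.finrank F (D j) := fun i j => by
      rw [hD.decomp.finrank_eq, hD.decomp.finrank_eq]
    have hu' : ap g⁻¹ u ∈ D p := (hgm p).inv (hle _ _) u (by rwa [Equiv.swap_apply_left])
    have hv' : ap g⁻¹ v ∈ D q := (hgm q).inv (hle _ _) v
      (by rwa [Equiv.swap_apply_of_ne_of_ne (Ne.symm hpq) (Ne.symm hrq)])
    have := hmove (hHM hg) (h _ hu' _ hv' (isotropic_ap hf hgI huu) (isotropic_ap hf hgI hvv)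
      (ap_ne_zero _ hu0) (ap_ne_zero _ hv0))
    rwa [ap_add, ap_ap_inv, ap_ap_inv] at this
  have hall : ∀ p q, p ≠ q → Pr p q := by
    intro p q hpq
    by_cases hpb : p = b
    · subst hpb
      exact hsym _ _ (hsw a p q hPr0 hab (Ne.symm hpq))
    · have h1 : Pr p b := hsw a b p hPr0 hab hpb
      exact hsym _ _ (hsw b p q (hsym _ _ h1) (Ne.symm hpb) (Ne.symm hpq))
  -- all isotropic vectors supported by two members
  have hpair : ∀ p q, p ≠ q → ∀ u ∈ D p, ∀ v ∈ D q, f (u + v) (u + v) = 0 →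
      InX hf M (u + v) := by
    intro p q hpq u hu v hv huv
    have hsum : f u u + f v v = 0 := by rwa [hsum2 p q hpq u hu v hv] at huv
    by_cases hu0 : u = 0
    · rw [hu0, zero_add]
      exact hXD q v hv (by rwa [hu0, zero_left hf, zero_add] at hsum)
    by_cases hv0 : v = 0
    · rw [hv0, add_zero]
      exact hXD p u hu (by rwa [hv0, zero_left hf, add_zero] at hsum)
    by_cases huu : f u u = 0
    · exact hall p q hpq u hu v hv huu (by rwa [huu, zero_add] at hsum) hu0 hv0
    have hvv : f v v ≠ 0 := fun h => huu (by rwa [h, add_zero] at hsum)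
    obtain ⟨e, he, hee, hue⟩ := exists_isotropic_pairing hf hD hk hu hu0
    obtain ⟨e', he', hee', hve'⟩ := exists_isotropic_pairing hf hD hk hv hv0
    obtain ⟨l, hl⟩ := exists_isotropic_shift hf hee hue
    obtain ⟨l', hl'⟩ := exists_isotropic_shift hf hee' hve'
    have hcross : ∀ l l' : F, f (u + l • e + (v + l' • e')) (l • e + l' • e') =
        σ l * f u e + σ l' * f v e' := fun l l' => by
      simp only [hf.add_left, add_right hf, hf.smul_left, smul_right hf, hee, hee',
        hD.orthogonal p q hpq u hu e' he', hD.orthogonal p q hpq e he e' he',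
        hD.orthogonal q p (Ne.symm hpq) v hv e he, hD.orthogonal q p (Ne.symm hpq) e' he' e he]
      ring
    obtain ⟨l, hl, hX0⟩ : ∃ l : F, f (u + l • e) (u + l • e) = 0 ∧
        σ l * f u e + σ l' * f v e' ≠ 0 := by
      by_cases h0 : σ l * f u e + σ l' * f v e' = 0
      · refine ⟨l + σ ((f u e)⁻¹), ?_, ?_⟩
        · have heu : f e u = -σ (f u e) := hf.skew e u
          have e1 : σ ((f u e)⁻¹) * σ (f u e) = 1 := by
            rw [← map_mul, inv_mul_cancel₀ hue, map_one]
          have e2 : (f u e)⁻¹ * f u e = 1 := inv_mul_cancel₀ hue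
          simp only [hf.add_left, add_right hf, hf.smul_left, smul_right hf, hee, heu, map_add,
            hf.involutive] at hl ⊢
          linear_combination hl + e2 - e1
        · rw [map_add, hf.involutive, add_mul, inv_mul_cancel₀ hue, add_right_comm, h0,
            zero_add]
          exact one_ne_zero
      · exact ⟨l, hl, h0⟩
    set z := u + l • e + (v + l' • e') with hz
    set X := σ l * f u e + σ l' * f v e' with hXdef
    have hfX : f z (l • e + l' • e') = X := hcross l l'
    have hl0 : l ≠ 0 := fun h => huu (by rwa [h, zero_smul, add_zero] at hl)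
    have hl'0 : l' ≠ 0 := fun h => hvv (by rwa [h, zero_smul, add_zero] at hl')
    have hu₁ : u + l • e ∈ D p := (D p).add_mem hu ((D p).smul_mem _ he)
    have hv₁ : v + l' • e' ∈ D q := (D q).add_mem hv ((D q).smul_mem _ he')
    have he0 : e ≠ 0 := fun h => hue (by rw [h, zero_right hf])
    have he'0 : e' ≠ 0 := fun h => hve' (by rw [h, zero_right hf])
    have hu₁0 : u + l • e ≠ 0 := fun h => huu (by
      rw [eq_neg_of_add_eq_zero_left h, neg_left hf, neg_right hf, isotropic_smul hf hee]; ring)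
    have hv₁0 : v + l' • e' ≠ 0 := fun h => hvv (by
      rw [eq_neg_of_add_eq_zero_left h, neg_left hf, neg_right hf, isotropic_smul hf hee']; ring)
    have hzX : InX hf M z := hall p q hpq _ hu₁ _ hv₁ hl hl' hu₁0 hv₁0
    have hDX : InX hf M (l • e + l' • e') := hall p q hpq _ ((D p).smul_mem _ he) _
      ((D q).smul_mem _ he') (isotropic_smul hf hee _) (isotropic_smul hf hee' _)
      (smul_ne_zero hl0 he0) (smul_ne_zero hl'0 he'0)
    have hiso : f (z - (l • e + l' • e')) (z - (l • e + l' • e')) = 0 := by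
      rw [hz, show u + l • e + (v + l' • e') - (l • e + l' • e') = u + v by abel]; exact huv
    have := hdiff z _ hzX hDX hiso (by rw [hfX]; exact hX0)
    rwa [hz, show u + l • e + (v + l' • e') - (l • e + l' • e') = u + v by abel] at this
  -- reduce the number of components
  suffices H : ∀ (m : ℕ) (y : ι → F), (Finset.univ.filter fun l => c l y ≠ 0).card ≤ m →
      f y y = 0 → InX hf M y from fun y hy => H _ y le_rfl hy
  intro m
  induction m with
  | zero =>
    intro y hy _
    have : y = 0 := Decomp.ext_comp hD.decomp fun i => by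
      rw [map_zero]
      by_contra hne
      have hmem : i ∈ Finset.univ.filter fun l => c l y ≠ 0 := by simp [hc, hne]
      rw [Nat.le_zero, Finset.card_eq_zero] at hy
      simp [hy] at hmem
    rw [this]; exact inX_zero hf
  | succ m ih =>
    intro y hy hyy
    by_cases hle : (Finset.univ.filter fun l => c l y ≠ 0).card ≤ m
    · exact ih y hle hyy
    obtain ⟨a, b, hab, hca, hcb, hgood⟩ | ⟨i, hi⟩ :
        (∃ a b, a ≠ b ∧ c a y ≠ 0 ∧ c b y ≠ 0 ∧ (f (c b y) (c b y) ≠ 0 ∨ f (c a y) (c a y) = 0))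
          ∨ ∃ i, ∀ l, l ≠ i → c l y = 0 := by
      by_cases h1 : ∃ b, f (c b y) (c b y) ≠ 0
      · obtain ⟨b, hb⟩ := h1
        by_cases h2 : ∃ a, a ≠ b ∧ c a y ≠ 0
        · obtain ⟨a, hab, ha⟩ := h2
          exact Or.inl ⟨a, b, hab, ha, fun h => hb (by rw [h, zero_left hf]), Or.inl hb⟩
        · push Not at h2
          exact Or.inr ⟨b, h2⟩
      · push Not at h1
        obtain ⟨b, hb⟩ := Finset.card_pos.1 (show 0 < (Finset.univ.filter fun l => c l y ≠ 0).card
          by omega)
        by_cases h2 : ∃ a, a ≠ b ∧ c a y ≠ 0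
        · obtain ⟨a, hab, ha⟩ := h2
          exact Or.inl ⟨a, b, hab, ha, (Finset.mem_filter.1 hb).2, Or.inr (h1 a)⟩
        · push Not at h2
          exact Or.inr ⟨b, h2⟩
    rotate_left
    · have hy' : y = c i y := Decomp.ext_comp hD.decomp fun l => by
        rw [show c i y = Decomp.comp hD.decomp i y from rfl,
          Decomp.comp_of_mem hD.decomp (Decomp.comp_mem hD.decomp i y)]
        split_ifs with h
        · rw [h]
        · exact hi l h
      exact hXD i y (hy' ▸ hcm i y) hyy
    set ya := c a y with hya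
    set yb := c b y with hyb
    have hya' : ya ∈ D a := hcm a y
    have hyb' : yb ∈ D b := hcm b y
    obtain ⟨d, hd, hdd, hyd⟩ := exists_kill hf hD hyb' hcb hk (skew_self hf ya) hgood
    have hnya : -ya ∈ D a := (D a).neg_mem hya'
    have hDD : f (-ya + d) (-ya + d) = 0 := by
      rw [hsum2 a b hab _ hnya _ hd, neg_left hf, neg_right hf, hdd]; ring
    have hDX : InX hf M (-ya + d) := hpair a b hab _ hnya _ hd hDD
    have hr : f y (-ya + d) = 1 := by
      rw [add_right hf, neg_right hf, f_of_mem hf hD y hya', ← hya, f_of_mem hf hD y hd, ← hyb,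
        hyd]
      ring
    have hTM := hDX.2 hDD 1 (map_one σ)
    have hTy : ap (T hf (-ya + d) 1 hDD) y = y + (-ya + d) := by
      rw [ap_T hf, hr, one_mul, one_smul]
    have hz : InX hf M (y + (-ya + d)) := by
      refine ih _ ?_ (by rw [← hTy]; exact isotropic_ap hf (hMS hTM).1 hyy)
      have hsub : (Finset.univ.filter fun l => c l (y + (-ya + d)) ≠ 0) ⊆
          (Finset.univ.filter fun l => c l y ≠ 0).erase a := by
        intro l hl
        rw [Finset.mem_filter] at hl
        have hcl : c l (y + (-ya + d)) =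
            c l y + ((if l = a then -ya else 0) + (if l = b then d else 0)) := by
          rw [hc, map_add, map_add, Decomp.comp_of_mem hD.decomp hnya,
            Decomp.comp_of_mem hD.decomp hd]
        rw [Finset.mem_erase, Finset.mem_filter]
        refine ⟨fun hla => hl.2 ?_, Finset.mem_univ l, fun hly => hl.2 ?_⟩
        · subst hla
          rw [hcl, if_pos rfl, if_neg hab, ← hya]
          abel
        · rw [hcl, hly, if_neg (fun h => hca (by rw [hya, ← h]; exact hly)),
            if_neg (fun h => hcb (by rw [hyb, ← h]; exact hly))]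
          simp
      have h1 := Finset.card_le_card hsub
      rw [Finset.card_erase_of_mem (by simp [← hya, hca])] at h1
      omega
    have := hmove (inv_mem hTM) (hTy ▸ hz)
    rwa [ap_inv_ap] at this

/-- The stabiliser of an orthogonal decomposition into non-degenerate subspaces of dimension at
least two is maximal in the special unitary group. -/
theorem decomp_isMaximalIn (hn : 4 ≤ Fintype.card ι) (hk : 2 ≤ k) (hbig : 3 ≤ k ∨ 3 ≤ t)
    (hex : k = 2 → 4 < Nat.card F) :
    Cfsg.Geo.IsMaximalIn (sisom hf) (Cfsg.Geo.decompositionStabilizer D ⊓ sisom hf) := by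
  classical
  refine ⟨lt_of_le_of_ne inf_le_right fun he => ?_, fun M hHM hMS => ?_⟩
  · have h2 : 2 ≤ t := hD.decomp.two_le
    let a : Fin t := ⟨0, by omega⟩
    let b : Fin t := ⟨1, by omega⟩
    have hab : a ≠ b := by simp [a, b, Fin.ext_iff]
    obtain ⟨e, he', he0, hee⟩ := exists_isotropic hf (hD.nondegenerate a)
      (by rw [hD.decomp.finrank_eq]; exact hk)
    obtain ⟨e', hb', hb0, hee'⟩ := exists_isotropic hf (hD.nondegenerate b)
      (by rw [hD.decomp.finrank_eq]; exact hk)
    obtain ⟨g, hg, hgg, heg⟩ := exists_partner_iso hf hD he' he0 hee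
    have hww : f (e + e') (e + e') = 0 := by
      rw [hf.add_left, add_right hf, add_right hf, hD.orthogonal a b hab e he' e' hb',
        hD.orthogonal b a (Ne.symm hab) e' hb' e he', hee, hee']
      ring
    have hm : T hf (e + e') 1 hww ∈ Cfsg.Geo.decompositionStabilizer D ⊓ sisom hf := by
      rw [he]; exact T_mem hf hww (map_one σ)
    obtain ⟨π, hπ⟩ := hm.1
    have h1 : ap (T hf (e + e') 1 hww) g ∈ D (π a) := by rw [← hπ a]; exact ⟨g, hg, rfl⟩
    have hge : f g e = -1 := by rw [hf.skew, heg, map_one]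
    rw [ap_T hf, one_mul, add_right hf, hge, hD.orthogonal a b hab g hg e' hb', add_zero,
      neg_smul, one_smul] at h1
    have hca := Decomp.comp_of_mem hD.decomp (i := a) h1
    have hcb := Decomp.comp_of_mem hD.decomp (i := b) h1
    rw [map_add, map_neg, map_add, Decomp.comp_of_mem hD.decomp hg,
      Decomp.comp_of_mem hD.decomp he', Decomp.comp_of_mem hD.decomp hb', if_pos rfl,
      if_neg hab, add_zero, if_pos rfl] at hca
    rw [map_add, map_neg, map_add, Decomp.comp_of_mem hD.decomp hg,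
      Decomp.comp_of_mem hD.decomp he', Decomp.comp_of_mem hD.decomp hb', if_pos rfl,
      if_neg (Ne.symm hab), if_neg (Ne.symm hab), zero_add, zero_add] at hcb
    by_cases hπa : a = π a
    · rw [if_neg (show ¬ b = π a from fun h => hab (hπa.trans h.symm)), neg_eq_zero] at hcb
      exact hb0 hcb
    · rw [if_neg hπa, ← sub_eq_add_neg, sub_eq_zero] at hca
      rw [hca, hee] at hge
      exact one_ne_zero (neg_eq_zero.1 hge.symm)
  by_cases hM : M ≤ Cfsg.Geo.decompositionStabilizer D
  · exact Or.inl (le_antisymm (le_inf hM hMS) hHM)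
  obtain ⟨g, hgM, hg⟩ := SetLike.not_le_iff_exists.mp hM
  exact Or.inr (le_antisymm hMS (le_of_hasT hf hn
    (hasT_of_inX hf (inX_of_decomp hf hD hk hbig hex hHM hMS hgM hg))))

end Unitary

end CfsgLib.Geometric
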