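import Cfsg.Agent.Lib.Geometric.UnitaryStab

/-!
A symplectic group over the fixed field of the involution is maximal in the special unitary group.
-/

namespace CfsgLib.Geometric

open Matrix

variable {ι : Type} [Fintype ι] [DecidableEq ι] {F : Type*} [Field F]

namespace Subfld

variable (F₀ : Subfield F) (P : GL ι F)

/-- `x` lies in the span over the subfield of the columns of `P`. -/
def Rat (x : ι → F) : Prop := ∀ i, ap P⁻¹ x i ∈ F₀

/-- `x` is a multiple of a rational vector. -/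
def LineRat (x : ι → F) : Prop := ∃ (μ : F) (r : ι → F), Rat F₀ P r ∧ x = μ • r

variable {F₀ P}

lemma Rat.add {x y : ι → F} (hx : Rat F₀ P x) (hy : Rat F₀ P y) : Rat F₀ P (x + y) := fun i => by
  rw [ap_add]; exact add_mem (hx i) (hy i)

lemma Rat.sub {x y : ι → F} (hx : Rat F₀ P x) (hy : Rat F₀ P y) : Rat F₀ P (x - y) := fun i => by
  rw [ap_sub]; exact sub_mem (hx i) (hy i)

lemma Rat.smul {x : ι → F} (hx : Rat F₀ P x) {c : F} (hc : c ∈ F₀) : Rat F₀ P (c • x) := fun i => by
  rw [ap_smul]; exact mul_mem hc (hx i)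

lemma rat_zero : Rat F₀ P (0 : ι → F) := fun i => by rw [ap_zero]; exact zero_mem F₀

lemma rat_col (j : ι) : Rat F₀ P (ap P (Pi.single j 1)) := fun i => by
  rw [ap_inv_ap, Pi.single_apply]
  split_ifs
  exacts [one_mem F₀, zero_mem F₀]

lemma rat_iff_exists {x : ι → F} :
    Rat F₀ P x ↔ ∃ u : ι → F, (∀ i, u i ∈ F₀) ∧ x = ap P u :=
  ⟨fun h => ⟨ap P⁻¹ x, h, (ap_ap_inv P x).symm⟩, by
    rintro ⟨u, hu, rfl⟩ i
    rw [ap_inv_ap]
    exact hu i⟩

lemma scalar_mul_mem {c : Fˣ} {g : GL ι F} (hg : ∀ r, Rat F₀ P r → Rat F₀ P ((c⁻¹ : F) • ap g r)) :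
    g ∈ Cfsg.Geo.subfieldSubgroup F₀ P := by
  set s : GL ι F := Units.map (Matrix.scalar ι : F →+* Matrix ι ι F).toMonoidHom c with hs
  have hsap : ∀ x, ap s x = (c : F) • x := fun x => by
    simp [ap_def, hs, ← Matrix.smul_one_eq_diagonal, Matrix.smul_mulVec]
  set A := P⁻¹ * s⁻¹ * g * P with hA
  have hsinv : ∀ x, ap s⁻¹ x = (c⁻¹ : F) • x := fun x => by
    apply ap_injective s
    rw [ap_ap_inv, hsap, smul_smul, mul_inv_cancel₀ c.ne_zero, one_smul]
  have hent : ∀ i j, (A : Matrix ι ι F) i j ∈ F₀ := by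
    intro i j
    have h := hg _ (rat_col j) i
    rw [← hsinv, ← ap_mul, ← ap_mul, ← ap_mul, ← hA] at h
    simpa [ap_def] using h
  let A₀ : Matrix ι ι F₀ := fun i j => ⟨_, hent i j⟩
  have hmap : A₀.map F₀.subtype = (A : Matrix ι ι F) := by ext i j; rfl
  have hdet : A₀.det ≠ 0 := by
    intro h
    have h2 : (A₀.map F₀.subtype).det = 0 := by
      rw [← RingHom.mapMatrix_apply, ← RingHom.map_det, h, map_zero]
    rw [hmap] at h2
    exact Matrix.GeneralLinearGroup.det_ne_zero A h2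
  have hmem : A ∈ (Matrix.GeneralLinearGroup.map (F₀.subtype : F₀ →+* F)).range :=
    ⟨Matrix.GeneralLinearGroup.mkOfDetNeZero A₀ hdet, Units.ext hmap⟩
  have hsmem : P⁻¹ * s * P ∈ Cfsg.Geo.scalars ι F := by
    have hsS : s ∈ Cfsg.Geo.scalars ι F := ⟨c, rfl⟩
    simpa using Cfsg.Geo.scalars_normal.conj_mem s hsS P⁻¹
  refine ⟨P⁻¹ * s * P * A,
    mul_mem (Subgroup.mem_sup_right hsmem) (Subgroup.mem_sup_left hmem), ?_⟩
  change P * (P⁻¹ * s * P * A) * P⁻¹ = g
  rw [hA]
  group

lemma mem_of_rat {g : GL ι F} (hg : ∀ r, Rat F₀ P r → Rat F₀ P (ap g r)) :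
    g ∈ Cfsg.Geo.subfieldSubgroup F₀ P :=
  scalar_mul_mem (c := 1) fun r hr => by simpa using hg r hr

/-- Members of the subfield group map rational vectors to multiples of rational vectors. -/
lemma lineRat_of_mem {g : GL ι F} (hg : g ∈ Cfsg.Geo.subfieldSubgroup F₀ P) {r : ι → F}
    (hr : Rat F₀ P r) : LineRat F₀ P (ap g r) := by
  obtain ⟨a, ha, rfl⟩ := hg
  rw [SetLike.mem_coe, Subgroup.mem_sup_of_normal_right] at ha
  obtain ⟨b, hb, s, hs, rfl⟩ := ha
  obtain ⟨B, rfl⟩ := hb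
  obtain ⟨c, hc⟩ := (Cfsg.Geo.mem_scalars_iff s).mp hs
  refine ⟨c, ap P (ap (Matrix.GeneralLinearGroup.map (F₀.subtype : F₀ →+* F) B) (ap P⁻¹ r)),
    rat_iff_exists.mpr ⟨_, fun i => ?_, rfl⟩, ?_⟩
  · rw [ap_def]
    change (∑ j, F₀.subtype ((B : Matrix ι ι F₀) i j) * ap P⁻¹ r j) ∈ F₀
    exact sum_mem fun j _ => mul_mem ((B : Matrix ι ι F₀) i j).2 (hr j)
  · change ap (P * (_ * s) * P⁻¹) r = _
    rw [ap_mul, ap_mul, ap_mul]
    have hsx : ∀ x, ap s x = (c : F) • x := fun x => by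
      rw [ap_def, hc, Matrix.smul_mulVec, Matrix.one_mulVec]
    rw [hsx, ap_smul, ap_smul]

end Subfld

namespace Unitary

open Subfld

variable [Finite F] {σ : F ≃+* F} {f : (ι → F) → (ι → F) → F} (hf : IsSkewForm σ f)
variable {F₀ : Subfield F} {P : GL ι F}

/-- The symplectic subfield group is maximal in the special isometry group. -/
theorem subfield_isMaximalIn (hn : 4 ≤ Fintype.card ι) (hfix : ∀ x, σ x = x ↔ x ∈ F₀)
    (hrat : ∀ u v, Rat F₀ P u → Rat F₀ P v → f u v ∈ F₀)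
    (halt : ∀ u, Rat F₀ P u → f u u = 0) :
    Cfsg.Geo.IsMaximalIn (sisom hf) (Cfsg.Geo.subfieldSubgroup F₀ P ⊓ sisom hf) := by
  classical
  obtain ⟨ω, hω⟩ : ∃ a, σ a ≠ a := by
    by_contra h
    push Not at h
    exact hf.ne_refl (RingEquiv.ext h)
  have hd : ω - σ ω ≠ 0 := sub_ne_zero.mpr (Ne.symm hω)
  -- decomposition over the subfield
  have hdec : ∀ z : ι → F, ∃ x y, Rat F₀ P x ∧ Rat F₀ P y ∧ z = x + ω • y := by
    intro z
    set u := ap P⁻¹ z with hu
    set y : ι → F := fun i => (u i - σ (u i)) / (ω - σ ω)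
    set x : ι → F := fun i => u i - y i * ω
    have hy : ∀ i, y i ∈ F₀ := fun i => (hfix _).mp (by
      simp only [y, map_div₀, map_sub, hf.involutive]
      rw [← neg_sub (u i), ← neg_sub ω, neg_div_neg_eq])
    have hx : ∀ i, x i ∈ F₀ := fun i => (hfix _).mp (by
      have := (hfix _).mpr (hy i)
      simp only [x, map_sub, map_mul, this]
      have e : y i * (ω - σ ω) = u i - σ (u i) := by simp only [y]; field_simp
      linear_combination e)
    refine ⟨ap P x, ap P y, rat_iff_exists.mpr ⟨x, hx, rfl⟩, rat_iff_exists.mpr ⟨y, hy, rfl⟩, ?_⟩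
    rw [← ap_smul, ← ap_add, show x + ω • y = u from funext fun i => by simp [x, mul_comm],
      hu, ap_ap_inv]
  -- the restricted form
  let em : (ι → F₀) → (ι → F) := fun u => ap P fun i => (u i : F)
  have hem : ∀ u, Rat F₀ P (em u) := fun u => rat_iff_exists.mpr ⟨_, fun i => (u i).2, rfl⟩
  have hemsurj : ∀ x, Rat F₀ P x → ∃ u, em u = x := fun x hx =>
    ⟨fun i => ⟨_, hx i⟩, by simp [em, ap_ap_inv]⟩
  have hemadd : ∀ u v, em (u + v) = em u + em v := fun u v => by
    simp only [em, ← ap_add]; rfl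
  have hemsmul : ∀ (c : F₀) u, em (c • u) = (c : F) • em u := fun c u => by
    simp only [em, ← ap_smul]; rfl
  have hem0 : ∀ u, em u = 0 → u = 0 := fun u h => funext fun i => by
    have := congrFun (ap_injective P (h.trans (ap_zero P).symm)) i
    exact Subtype.ext this
  have heminj : Function.Injective em := fun u v h => sub_eq_zero.mp (hem0 _ (by
    have : em (u - v) + em v = em u := by rw [← hemadd, sub_add_cancel]
    rw [h] at this
    simpa using this))
  let f₀ : (ι → F₀) → (ι → F₀) → F₀ := fun u v => ⟨_, hrat _ _ (hem u) (hem v)⟩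
  have hskew₀ : ∀ u v, Rat F₀ P u → Rat F₀ P v → f u v = -f v u := fun u v hu hv => by
    conv_lhs => rw [hf.skew u v, (hfix _).mpr (hrat _ _ hv hu)]
  have hf₀ : Cfsg.Geo.IsSymplecticForm f₀ := by
    refine ⟨⟨fun x y v => Subtype.ext ?_, fun c x v => Subtype.ext ?_, fun v x y => Subtype.ext ?_,
      fun c v x => Subtype.ext ?_⟩, fun u v => Subtype.ext ?_, fun v => Subtype.ext ?_,
      fun v hv => ?_⟩
    · simp [f₀, hemadd, hf.add_left]
    · simp [f₀, hemsmul, hf.smul_left]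
    · simp [f₀, hemadd, add_right hf]
    · simp [f₀, hemsmul, smul_right hf, (hfix _).mpr c.2]
    · simpa [f₀] using hskew₀ _ _ (hem u) (hem v)
    · simpa [f₀] using halt _ (hem v)
    · obtain ⟨z, hz⟩ := (hf.nondegenerate _ (fun h => hv (hem0 v h))).1
      obtain ⟨x, y, hx, hy, rfl⟩ := hdec z
      obtain ⟨a, rfl⟩ := hemsurj x hx
      obtain ⟨b, rfl⟩ := hemsurj y hy
      have : f₀ a v ≠ 0 ∨ f₀ b v ≠ 0 := by
        by_contra h
        push Not at h
        apply hz
        have h1 : f (em a) (em v) = 0 := congrArg Subtype.val h.1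
        have h2 : f (em b) (em v) = 0 := congrArg Subtype.val h.2
        rw [hf.add_left, hf.smul_left, h1, h2]; ring
      have hsk : ∀ a : ι → F₀, f₀ a v ≠ 0 → f₀ v a ≠ 0 := fun a ha h => ha (Subtype.ext (by
        have h' : f (em v) (em a) = 0 := congrArg Subtype.val h
        simpa [f₀] using (eq_zero_comm hf).mp h'))
      rcases this with h | h
      · exact ⟨⟨a, h⟩, ⟨a, hsk a h⟩⟩
      · exact ⟨⟨b, h⟩, ⟨b, hsk b h⟩⟩
  let φ : GL ι F₀ →* GL ι F :=
    (MulAut.conj P).toMonoidHom.comp (Matrix.GeneralLinearGroup.map (F₀.subtype : F₀ →+* F))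
  have hφ : ∀ g u, ap (φ g) (em u) = em (ap g u) := by
    intro g u
    change ap (P * _ * P⁻¹) (ap P _) = ap P _
    rw [ap_mul, ap_inv_ap, ap_mul]
    congr 1
    funext i
    exact (RingHom.map_mulVec F₀.subtype (g : Matrix ι ι F₀) u i).symm
  have hφT : ∀ v c, φ (Symp.T hf₀ v c) = T hf (em v) (c : F) (halt _ (hem v)) := by
    intro v c
    apply gl_ext
    intro z
    obtain ⟨x, y, hx, hy, rfl⟩ := hdec z
    obtain ⟨a, rfl⟩ := hemsurj x hx
    obtain ⟨b, rfl⟩ := hemsurj y hy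
    simp only [ap_add, ap_smul, hφ, Symp.ap_T hf₀, hemadd, hemsmul, ap_T hf]
    simp only [Subfield.coe_mul, f₀, hf.add_left, hf.smul_left]
    module
  -- multiples of rational vectors
  have hline : ∀ x y, Rat F₀ P x → Rat F₀ P y →
      (x + ω • y) ≠ 0 → ¬ LineRat F₀ P (x + ω • y) → x ≠ 0 ∧ y ∉ Submodule.span F {x} := by
    intro x y hx hy _ hl
    have hx0 : x ≠ 0 := fun h => hl ⟨ω, y, hy, by rw [h, zero_add]⟩
    refine ⟨hx0, fun h => ?_⟩
    obtain ⟨c, rfl⟩ := Submodule.mem_span_singleton.mp h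
    exact hl ⟨1 + ω * c, x, hx, by module⟩
  -- an independent orthogonal pair of rational vectors
  obtain ⟨i⟩ : Nonempty ι := Fintype.card_pos_iff.mp (by omega)
  set e : ι → F₀ := Pi.single i 1
  have he : e ≠ 0 := by simp [e]
  obtain ⟨e', he'⟩ : ∃ e' ∈ Symp.perp hf₀ (Submodule.span F₀ {e}), e' ∉ Submodule.span F₀ {e} := by
    by_contra hc
    push Not at hc
    have h1 := Submodule.finrank_mono (t := Submodule.span F₀ {e}) hc
    rw [finrank_span_singleton he] at h1
    let Φ : (ι → F₀) →ₗ[F₀] F₀ := Symp.fl hf₀ e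
    have h2 := Φ.finrank_range_add_finrank_ker
    have h3 := Submodule.finrank_le (LinearMap.range Φ)
    have h4 : LinearMap.ker Φ ≤ Symp.perp hf₀ (Submodule.span F₀ {e}) := fun z hz =>
      (Symp.mem_perp_span hf₀).mpr (by simpa [Φ] using hz)
    have h5 := Submodule.finrank_mono h4
    rw [Module.finrank_self] at h3
    rw [Module.finrank_fintype_fun_eq_card] at h2
    omega
  have hee' : f₀ e' e = 0 := (Symp.mem_perp_span hf₀).mp he'.1
  -- isotropic vectors in general position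
  have hindep : ∀ a b : ι → F₀, a ≠ 0 → b ∉ Submodule.span F₀ {a} →
      ∀ p q : F, p • em a + q • em b = 0 → p = 0 ∧ q = 0 := by
    intro a b ha hb p q hpq
    by_cases hq : q = 0
    · subst hq
      rw [zero_smul, add_zero, smul_eq_zero] at hpq
      exact ⟨hpq.resolve_right fun h => ha (hem0 a h), rfl⟩
    · exfalso
      have hb' : em b = (-(p / q)) • em a := by
        have e : em b = q⁻¹ • (p • em a + q • em b) - (p / q) • em a := by
          rw [smul_add, smul_smul, smul_smul, inv_mul_cancel₀ hq, one_smul, div_eq_inv_mul]; abel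
        rw [e, hpq, smul_zero, zero_sub, neg_smul]
      obtain ⟨j, hj⟩ := Function.ne_iff.mp ha
      simp only [Pi.zero_apply] at hj
      apply hb
      refine Submodule.mem_span_singleton.mpr ⟨b j / a j, heminj ?_⟩
      have hval : (b j : F) = -(p / q) * a j := by
        have := congrFun (congrArg (ap P⁻¹) hb') j
        simpa [em, ap_smul, ap_inv_ap, -neg_smul] using this
      rw [hemsmul, hb']
      congr 1
      have haj : (a j : F) ≠ 0 := fun h => hj (Subtype.ext h)
      rw [Subfield.coe_div, hval, mul_div_cancel_right₀ _ haj]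
  refine ⟨lt_of_le_of_ne inf_le_right fun heq => ?_, fun M hHM hMS => ?_⟩
  · set p := em e + ω • em e'
    have hpp : f p p = 0 := by
      have h0 : f (em e') (em e) = 0 := congrArg Subtype.val hee'
      simp only [p, hf.add_left, add_right hf, hf.smul_left, smul_right hf, halt _ (hem e),
        halt _ (hem e'), h0, (eq_zero_comm hf).mp h0]
      ring
    obtain ⟨r, hr, hre⟩ := Symp.exists_perp_ne hf₀ (U := Submodule.span F₀ {e'}) (x := e)
      (by
        intro h
        obtain ⟨c, hc⟩ := Submodule.mem_span_singleton.mp h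
        have hc0 : c ≠ 0 := fun h0 => he (by rw [← hc, h0, zero_smul])
        exact he'.2 (Submodule.mem_span_singleton.mpr ⟨c⁻¹, by
          rw [← hc, smul_smul, inv_mul_cancel₀ hc0, one_smul]⟩))
    have hm : T hf p 1 hpp ∈ Cfsg.Geo.subfieldSubgroup F₀ P ⊓ sisom hf := by
      rw [heq]; exact T_mem hf hpp (map_one σ)
    obtain ⟨μ, s, hs, hμ⟩ := lineRat_of_mem hm.1 (hem r)
    obtain ⟨s₀, rfl⟩ := hemsurj s hs
    have hre' : f₀ r e ≠ 0 := fun h => hre ((Symp.eq_zero_comm hf₀).mp h)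
    set a : F₀ := f₀ r e
    have hre0 : f₀ r e' = 0 := (Symp.mem_perp_span hf₀).mp hr
    have hrp : f (em r) p = (a : F) := by
      have h0 : f (em r) (em e') = 0 := congrArg Subtype.val hre0
      simp only [p, add_right hf, smul_right hf, h0, mul_zero, add_zero]
      rfl
    rw [ap_T hf, one_mul, hrp] at hμ
    have hμ' : em (r + a • e) + ω • em (a • e') = μ • em s₀ := by
      rw [← hμ, hemadd, hemsmul, hemsmul]
      module
    have hli : (a • e') ∉ Submodule.span F₀ {r + a • e} := by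
      intro h
      obtain ⟨c, hc⟩ := Submodule.mem_span_singleton.mp h
      apply hre'
      have h2 : f₀ (a • e') e = c * (f₀ r e + a * f₀ e e) := by
        rw [← hc, hf₀.bilinear.smul_left, hf₀.bilinear.add_left, hf₀.bilinear.smul_left]
      rw [hf₀.bilinear.smul_left, hee', hf₀.alternating e] at h2
      simp only [mul_zero, add_zero] at h2
      rcases mul_eq_zero.mp h2.symm with h3 | h3
      · rw [h3, zero_smul] at hc
        have h4 : e' ≠ 0 := fun h => he'.2 (h ▸ Submodule.zero_mem _)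
        exact absurd ((smul_eq_zero.mp hc.symm).resolve_left hre') h4
      · exact h3
    have hne : r + a • e ≠ 0 := fun h => hre' (by
      have := congrArg (fun z => f₀ z e) h
      simpa [hf₀.bilinear.add_left, hf₀.bilinear.smul_left, hf₀.alternating,
        Symp.zero_left hf₀] using this)
    -- rational coordinates are unique
    by_cases hμ0 : μ = 0
    · rw [hμ0, zero_smul] at hμ'
      have := hindep _ _ hne hli 1 ω (by rwa [one_smul])
      exact one_ne_zero this.1
    obtain ⟨μ₁, μ₂, hμ₁, hμ₂, hμeq⟩ : ∃ p q, p ∈ F₀ ∧ q ∈ F₀ ∧ μ = p + ω * q := by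
      refine ⟨μ - (μ - σ μ) / (ω - σ ω) * ω, (μ - σ μ) / (ω - σ ω), (hfix _).mp ?_, (hfix _).mp ?_,
        by ring⟩
      · have e1 : (μ - σ μ) / (ω - σ ω) * (ω - σ ω) = μ - σ μ := by field_simp
        simp only [map_sub, map_mul, map_div₀, hf.involutive]
        rw [← neg_sub μ, ← neg_sub ω, neg_div_neg_eq]
        linear_combination e1
      · simp only [map_div₀, map_sub, hf.involutive]
        rw [← neg_sub μ, ← neg_sub ω, neg_div_neg_eq]
    have key : ∀ A B : ι → F₀, em A + ω • em B = 0 → A = 0 ∧ B = 0 := by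
      intro A B h
      have hj : ∀ j, (A j : F) + ω * (B j : F) = 0 := fun j => by
        have := congrFun (congrArg (ap P⁻¹) h) j
        simpa [em, ap_add, ap_smul, ap_inv_ap, ap_zero] using this
      have hB : ∀ j, (B j : F) = 0 := fun j => by
        have h1 := hj j
        have h2 := congrArg σ h1
        rw [map_add, map_mul, (hfix _).mpr (A j).2, (hfix _).mpr (B j).2, map_zero] at h2
        have h3 : (ω - σ ω) * (B j : F) = 0 := by linear_combination h1 - h2
        exact (mul_eq_zero.mp h3).resolve_left hd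
      refine ⟨funext fun j => Subtype.ext ?_, funext fun j => Subtype.ext (hB j)⟩
      simpa [hB j] using hj j
    have hk := key (r + a • e - (⟨μ₁, hμ₁⟩ : F₀) • s₀) (a • e' - (⟨μ₂, hμ₂⟩ : F₀) • s₀) (by
      have hsub : ∀ u v, em (u - v) = em u - em v := fun u v => by
        rw [eq_sub_iff_add_eq, ← hemadd, sub_add_cancel]
      rw [hsub, hsub, hemsmul ⟨μ₁, hμ₁⟩, hemsmul ⟨μ₂, hμ₂⟩]
      rw [hμeq] at hμ'
      linear_combination (norm := module) hμ')
    rw [sub_eq_zero, sub_eq_zero] at hk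
    by_cases h1 : (⟨μ₁, hμ₁⟩ : F₀) = 0
    · rw [h1, zero_smul] at hk
      exact hne hk.1
    · exact hli (Submodule.mem_span_singleton.mpr ⟨(⟨μ₂, hμ₂⟩ : F₀) / ⟨μ₁, hμ₁⟩, by
        rw [hk.1, hk.2, smul_smul, div_mul_cancel₀ _ h1]⟩)
  by_cases hM : M ≤ Cfsg.Geo.subfieldSubgroup F₀ P
  · exact Or.inl (le_antisymm (le_inf hM hMS) hHM)
  refine Or.inr (le_antisymm hMS (le_of_hasT hf hn (hasT_of_inX hf ?_)))
  obtain ⟨g, hgM, hg⟩ := SetLike.not_le_iff_exists.mp hM
  have hgI := (hMS hgM).1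
  have hTM : ∀ v c, φ (Symp.T hf₀ v c) ∈ M := by
    intro v c
    rw [hφT]
    refine hHM ⟨mem_of_rat fun z hz => ?_, T_mem hf _ ((hfix _).mpr c.2)⟩
    rw [ap_T hf]
    exact hz.add ((hem v).smul (mul_mem c.2 (hrat _ _ hz (hem v))))
  have hφM : ∀ h ∈ isom f₀, φ h ∈ M := fun h hh =>
    (Symp.isom_le_of_T_mem hf₀ (M := M.comap φ) (fun v c => hTM v c) : _) hh
  have hXr : ∀ v, Rat F₀ P v → InX hf M v := by
    intro v hv
    refine ⟨halt v hv, fun hvv c hc => ?_⟩
    obtain ⟨u, rfl⟩ := hemsurj v hv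
    have := hTM u ⟨c, (hfix c).mp hc⟩
    rwa [hφT] at this
  -- a centre off the rational lines
  obtain ⟨w, hw, hwl⟩ : ∃ w, InX hf M w ∧ ¬ LineRat F₀ P w := by
    by_contra hc
    push Not at hc
    have hgr : ∀ r, Rat F₀ P r → LineRat F₀ P (ap g r) := fun r hr =>
      hc _ (inX_ap hf hgM hgI (hXr r hr))
    have hpar : ∀ u v : ι → F, Rat F₀ P u → Rat F₀ P v → v ∉ Submodule.span F {u} → u ≠ 0 →
        ∀ μ ν : F, ∀ s t, Rat F₀ P s → Rat F₀ P t → ap g u = μ • s → ap g v = ν • t →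
        μ / ν ∈ F₀ := by
      intro u v hu hv hvu hu0 μ ν s t hs ht hgu hgv
      obtain ⟨ρ, w, hw, hguv⟩ := hgr _ (hu.add hv)
      have hli : ∀ p q : F, p • s + q • t = 0 → μ ≠ 0 → ν ≠ 0 → p = 0 ∧ q = 0 := by
        intro p q h hμ hν
        have : (p / μ) • u + (q / ν) • v = 0 := by
          apply ap_injective g
          rw [ap_zero, ap_add, ap_smul, ap_smul, hgu, hgv, smul_smul, smul_smul,
            div_mul_cancel₀ _ hμ, div_mul_cancel₀ _ hν]
          exact h
        by_cases hq : q = 0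
        · subst hq
          simp [hu0, hμ] at this
          exact ⟨this, rfl⟩
        · exfalso
          apply hvu
          refine Submodule.mem_span_singleton.mpr ⟨-((p / μ) / (q / ν)), ?_⟩
          have hqn : q / ν ≠ 0 := div_ne_zero hq hν
          have e : v = (q / ν)⁻¹ • ((p / μ) • u + (q / ν) • v) - ((p / μ) / (q / ν)) • u := by
            rw [smul_add, smul_smul, smul_smul, inv_mul_cancel₀ hqn, one_smul,
              div_eq_inv_mul (p / μ)]
            abel
          rw [this, smul_zero, zero_sub] at e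
          rw [neg_smul, ← e]
      have hv0 : v ≠ 0 := fun h => hvu (h ▸ Submodule.zero_mem _)
      have hμ : μ ≠ 0 := fun h => ap_ne_zero g hu0 (by rw [hgu, h, zero_smul])
      have hν : ν ≠ 0 := fun h => ap_ne_zero g hv0 (by rw [hgv, h, zero_smul])
      rw [ap_add, hgu, hgv] at hguv
      have hρ : ρ ≠ 0 := by
        intro h
        rw [h, zero_smul] at hguv
        exact hμ (hli μ ν hguv hμ hν).1
      have hcoord : ∀ j, ρ⁻¹ * μ * ap P⁻¹ s j + ρ⁻¹ * ν * ap P⁻¹ t j = ap P⁻¹ w j := by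
        intro j
        have := congrFun (congrArg (fun z => ρ⁻¹ • ap P⁻¹ z) hguv) j
        simp only [ap_add, ap_smul, smul_add, smul_smul, Pi.add_apply, Pi.smul_apply, smul_eq_mul,
          inv_mul_cancel₀ hρ, one_mul] at this
        linear_combination this + (ap P⁻¹ w j) * inv_mul_cancel₀ hρ
      have hσ : ∀ j, (σ (ρ⁻¹ * μ) - ρ⁻¹ * μ) * ap P⁻¹ s j +
          (σ (ρ⁻¹ * ν) - ρ⁻¹ * ν) * ap P⁻¹ t j = 0 := by
        intro j
        have h1 := congrArg σ (hcoord j)
        simp only [map_add, map_mul, (hfix _).mpr (hs j), (hfix _).mpr (ht j),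
          (hfix _).mpr (hw j)] at h1
        simp only [map_mul]
        linear_combination h1 - hcoord j
      have hzero : (σ (ρ⁻¹ * μ) - ρ⁻¹ * μ) • s + (σ (ρ⁻¹ * ν) - ρ⁻¹ * ν) • t = 0 := by
        apply ap_injective P⁻¹
        rw [ap_zero, ap_add, ap_smul, ap_smul]
        exact funext fun j => by simpa using hσ j
      obtain ⟨h1, h2⟩ := hli _ _ hzero hμ hν
      have h3 := div_mem ((hfix _).mp (sub_eq_zero.mp h1)) ((hfix _).mp (sub_eq_zero.mp h2))
      rwa [mul_div_mul_left _ _ (inv_ne_zero hρ)] at h3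
    obtain ⟨μ, s, hs, hμs⟩ := hgr _ (rat_col (F₀ := F₀) (P := P) i)
    have hi0 : ap P (Pi.single i (1 : F)) ≠ 0 := ap_ne_zero P (by simp)
    have hμ0 : μ ≠ 0 := fun h => ap_ne_zero g hi0 (by rw [hμs, h, zero_smul])
    refine hg (scalar_mul_mem (c := Units.mk0 μ hμ0) fun r hr => ?_)
    have hcol : ∀ j, Rat F₀ P (μ⁻¹ • ap g (ap P (Pi.single j (1 : F)))) := by
      intro j
      by_cases hji : j = i
      · subst hji
        rw [hμs, smul_smul, inv_mul_cancel₀ hμ0, one_smul]
        exact hs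
      obtain ⟨ν, t, ht, hνt⟩ := hgr _ (rat_col (F₀ := F₀) (P := P) j)
      have hr := hpar _ _ (rat_col (F₀ := F₀) (P := P) i) (rat_col j) (by
        intro h
        obtain ⟨c, hc⟩ := Submodule.mem_span_singleton.mp h
        rw [← ap_smul] at hc
        have := congrFun (ap_injective P hc) j
        simp [hji] at this) hi0 μ ν s t hs ht hμs hνt
      rw [hνt, smul_smul]
      refine ht.smul ?_
      have := inv_mem hr
      rwa [inv_div, div_eq_inv_mul] at this
    have hr' : r = ∑ j, ap P⁻¹ r j • ap P (Pi.single j (1 : F)) := by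
      conv_lhs => rw [← ap_ap_inv P r, pi_eq_sum_univ' (ap P⁻¹ r)]
      rw [show ap P (∑ j, ap P⁻¹ r j • Pi.single j (1 : F)) =
        ∑ j, ap P (ap P⁻¹ r j • Pi.single j (1 : F)) from map_sum (apEquiv P) _ _]
      exact Finset.sum_congr rfl fun j _ => ap_smul _ _ _
    have hgr' : ap g r = ∑ j, ap P⁻¹ r j • ap g (ap P (Pi.single j (1 : F))) := by
      conv_lhs => rw [hr']
      rw [show ap g (∑ j, ap P⁻¹ r j • ap P (Pi.single j (1 : F))) =
        ∑ j, ap g (ap P⁻¹ r j • ap P (Pi.single j (1 : F))) from map_sum (apEquiv g) _ _]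
      exact Finset.sum_congr rfl fun j _ => ap_smul _ _ _
    rw [Units.val_mk0, hgr', Finset.smul_sum]
    refine Finset.sum_induction _ (Rat F₀ P) (fun _ _ ha hb => ha.add hb) rat_zero fun j _ => ?_
    rw [smul_comm]
    exact (hcol j).smul (hr j)
  intro z hzz
  by_cases hzl : LineRat F₀ P z
  · obtain ⟨μ, r, hr, rfl⟩ := hzl
    exact inX_smul hf (hXr r hr) μ
  have hpart : ∀ z, f z z = 0 → ¬ LineRat F₀ P z → ∃ a b : ι → F₀, z = em a + ω • em b ∧
      a ≠ 0 ∧ b ∉ Submodule.span F₀ {a} ∧ f₀ a b = 0 := by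
    intro z hzz hzl
    obtain ⟨x, y, hx, hy, rfl⟩ := hdec z
    obtain ⟨a, rfl⟩ := hemsurj x hx
    obtain ⟨b, rfl⟩ := hemsurj y hy
    have hne : em a + ω • em b ≠ 0 := fun h => hzl ⟨1, 0, rat_zero, by rw [h]; simp⟩
    obtain ⟨h1, h2⟩ := hline _ _ hx hy hne hzl
    refine ⟨a, b, rfl, fun h => h1 (by
      rw [h]
      have h00 := hemsmul (0 : F₀) (0 : ι → F₀)
      simpa using h00), fun h => h2 ?_, Subtype.ext ?_⟩
    · obtain ⟨c, rfl⟩ := Submodule.mem_span_singleton.mp h
      exact Submodule.mem_span_singleton.mpr ⟨c, (hemsmul c a).symm⟩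
    · simp only [hf.add_left, add_right hf, hf.smul_left, smul_right hf, halt _ hx, halt _ hy,
        hskew₀ _ _ hy hx] at hzz
      have h3 : (σ ω - ω) * f (em a) (em b) = 0 := by linear_combination hzz
      exact (mul_eq_zero.mp h3).resolve_left (sub_ne_zero.mpr hω)
  obtain ⟨a, b, rfl, ha, hb, hab⟩ := hpart z hzz hzl
  obtain ⟨a', b', rfl, ha', hb', hab'⟩ := hpart w hw.1 hwl
  obtain ⟨h₁, -, hi₁, -, hm₁⟩ := Symp.exists_move hf₀ (M := (⊤ : Subgroup (GL ι F₀))) (U := ⊥)
    (fun _ _ _ => trivial) (Symp.mem_perp_bot hf₀ _)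
    (Symp.exists_perp_ne hf₀ (x := a') (by simpa using ha'))
    (Symp.exists_perp_ne hf₀ (x := a) (by simpa using ha))
  have hb₁ : ap h₁ b' ∉ Submodule.span F₀ {a} := by
    intro h
    obtain ⟨c, hc⟩ := Submodule.mem_span_singleton.mp h
    apply hb'
    rw [← hm₁, ← ap_smul] at hc
    exact Submodule.mem_span_singleton.mpr ⟨c, ap_injective h₁ hc⟩
  obtain ⟨h₂, -, hi₂, hfix₂, hm₂⟩ := Symp.exists_move hf₀ (M := (⊤ : Subgroup (GL ι F₀)))
    (U := Submodule.span F₀ {a}) (fun _ _ _ => trivial) (x := ap h₁ b') (y := b)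
    ((Symp.mem_perp_span hf₀).mpr (by
      rw [Symp.sub_left hf₀, (Symp.eq_zero_comm hf₀).mp hab,
        (Symp.eq_zero_comm hf₀).mp (show f₀ a (ap h₁ b') = 0 by
          rw [← hm₁, (mem_isom_iff.mp hi₁), hab']), sub_zero]))
    (Symp.exists_perp_ne hf₀ hb₁) (Symp.exists_perp_ne hf₀ hb)
  have hh := mul_mem hi₂ hi₁
  have hmem := hφM _ hh
  have := inX_ap hf hmem (hMS hmem).1 hw
  rwa [ap_add, ap_smul, hφ, hφ, ap_mul, ap_mul, hm₁, hm₂,
    hfix₂ a (Submodule.mem_span_singleton_self a)] at this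

end Unitary

end CfsgLib.Geometric
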