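import Cfsg.Agent.Lib.Geometric.UnitaryGen

/-!
Stabilisers of totally singular and of non-degenerate subspaces are maximal in the special unitary
group.
-/

namespace CfsgLib.Geometric

open Matrix

variable {ι : Type} [Fintype ι] [DecidableEq ι] {F : Type*} [Field F]

namespace Unitary

variable {σ : F ≃+* F} {f : (ι → F) → (ι → F) → F} (hf : IsSkewForm σ f)
include hf

omit hf in
/-- The special isometry group. -/
abbrev sisom (_hf : IsSkewForm σ f) : Subgroup (GL ι F) :=
  isom f ⊓ Cfsg.Geo.specialLinear ι F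

omit hf in
/-- `v` is isotropic and all its transvections lie in `M`. -/
def InX (hf : IsSkewForm σ f) (M : Subgroup (GL ι F)) (v : ι → F) : Prop :=
  f v v = 0 ∧ ∀ (hv : f v v = 0) (c : F), σ c = c → T hf v c hv ∈ M

variable {M : Subgroup (GL ι F)}

lemma inX_smul {v : ι → F} (h : InX hf M v) (a : F) : InX hf M (a • v) := by
  refine ⟨isotropic_smul hf h.1 a, fun hv c hc => ?_⟩
  rw [T_smul hf h.1]
  exact h.2 _ _ (by rw [map_mul, map_mul, hf.involutive, hc]; ring)

lemma inX_ap {g : GL ι F} (hgM : g ∈ M) (hgI : g ∈ isom f) {v : ι → F} (h : InX hf M v) :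
    InX hf M (ap g v) := by
  refine ⟨isotropic_ap hf hgI h.1, fun hv c hc => ?_⟩
  have := mul_mem (mul_mem hgM (h.2 h.1 c hc)) (inv_mem hgM)
  rwa [conj_T hf hgI h.1] at this

lemma inX_zero : InX hf M (0 : ι → F) := by
  refine ⟨zero_left hf 0, fun hv c _ => ?_⟩
  have : T hf (0 : ι → F) c hv = 1 := gl_ext fun x => by simp [ap_T hf]
  rw [this]
  exact one_mem M

lemma hasT_of_inX (h : ∀ v, f v v = 0 → InX hf M v) : HasT hf M := fun v hv c hc =>
  (h v hv).2 hv c hc

variable {W : Submodule F (ι → F)}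

lemma T_mem_stab {v : ι → F} {c : F} (hv : f v v = 0) (hc : σ c = c)
    (h : v ∈ W ∨ v ∈ perp hf W) :
    T hf v c hv ∈ Cfsg.Geo.subspaceStabilizer W ⊓ sisom hf := by
  refine ⟨mem_subspaceStabilizer_of_mapsTo _ _ fun x hx => ?_, T_mem hf hv hc⟩
  rcases h with h | h
  · rw [ap_T hf]
    exact W.add_mem hx (W.smul_mem _ h)
  · rw [ap_T_fix hf hv ((eq_zero_comm hf).mp (h x hx))]
    exact hx

lemma inX_of_mem (hHM : Cfsg.Geo.subspaceStabilizer W ⊓ sisom hf ≤ M) {v : ι → F}
    (hv : f v v = 0) (h : v ∈ W ∨ v ∈ perp hf W) : InX hf M v :=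
  ⟨hv, fun hv _ hc => hHM (T_mem_stab hf hv hc h)⟩

lemma stab_lt {w p : ι → F} (hw : w ∈ W) (hpp : f p p = 0) (hne : f w p ≠ 0) (hp : p ∉ W) :
    Cfsg.Geo.subspaceStabilizer W ⊓ sisom hf < sisom hf := by
  refine lt_of_le_of_ne inf_le_right fun he => ?_
  have hm : T hf p 1 hpp ∈ Cfsg.Geo.subspaceStabilizer W ⊓ sisom hf := by
    rw [he]; exact T_mem hf hpp (map_one σ)
  have h2 := ((mem_subspaceStabilizer_iff _ _).mp hm.1 w).mp hw
  rw [ap_T hf, one_mul] at h2
  have h3 : f w p • p ∈ W := by simpa using W.sub_mem h2 hw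
  exact hp (by simpa [smul_smul, inv_mul_cancel₀ hne] using W.smul_mem (f w p)⁻¹ h3)

/-- A stabiliser of `W` among the isometries stabilises `perp W`, and conversely. -/
lemma mem_stab_of_perp [Finite F] {g : GL ι F} (hgI : g ∈ isom f)
    (hc : ∀ y ∈ perp hf W, ap g y ∈ perp hf W) : g ∈ Cfsg.Geo.subspaceStabilizer W := by
  have hgs := mem_subspaceStabilizer_of_mapsTo g (perp hf W) hc
  refine mem_subspaceStabilizer_of_mapsTo g _ fun x hx => mem_of_forall_perp hf fun q hq => ?_
  have hq' : ap g⁻¹ q ∈ perp hf W := by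
    rw [(mem_subspaceStabilizer_iff _ _).mp hgs, ap_ap_inv]
    exact hq
  have := (mem_isom_iff.mp hgI) x (ap g⁻¹ q)
  rw [ap_ap_inv] at this
  rw [this, eq_zero_comm hf]
  exact hq' x hx

/-- The stabiliser of a non-zero totally singular subspace is maximal. -/
theorem stab_isMaximalIn_of_totallySingular [Finite F] (hn : 4 ≤ Fintype.card ι) (h0 : W ≠ ⊥)
    (hW : Cfsg.Geo.IsTotallySingularFor f W) :
    Cfsg.Geo.IsMaximalIn (sisom hf) (Cfsg.Geo.subspaceStabilizer W ⊓ sisom hf) := by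
  obtain ⟨w, hw, hw0⟩ := Submodule.exists_mem_ne_zero_of_ne_bot h0
  have hww : f w w = 0 := hW w hw w hw
  obtain ⟨p₀, hp₀⟩ := (hf.nondegenerate w hw0).1
  obtain ⟨l, hl⟩ := exists_isotropic_shift hf hww hp₀
  have hwp : f w (p₀ + l • w) ≠ 0 := by
    rw [add_right hf, smul_right hf, hww, mul_zero, add_zero]
    exact hp₀ ∘ (eq_zero_comm hf).mp
  refine ⟨stab_lt hf hw hl hwp (fun h => hwp (hW w hw _ h)), fun M hHM hMS => ?_⟩
  by_cases hM : M ≤ Cfsg.Geo.subspaceStabilizer W
  · exact Or.inl (le_antisymm (le_inf hM hMS) hHM)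
  refine Or.inr (le_antisymm hMS (le_of_hasT hf hn (hasT_of_inX hf ?_)))
  obtain ⟨g, hgM, hg⟩ := SetLike.not_le_iff_exists.mp hM
  have hgI := (hMS hgM).1
  have hX : ∀ v ∈ perp hf W, f v v = 0 → InX hf M v := fun v hv hvv =>
    inX_of_mem hf hHM hvv (Or.inr hv)
  have hWle : W ≤ perp hf W := fun x hx u hu => hW x hx u hu
  -- a centre outside the orthogonal of `W`
  obtain ⟨w₀, hw₀, hw₀'⟩ : ∃ w₀, InX hf M w₀ ∧ w₀ ∉ perp hf W := by
    obtain ⟨x, hx, hxW⟩ := exists_ap_notMem hg
    by_cases hgx : ap g x ∈ perp hf W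
    · obtain ⟨y, hy, hgy⟩ : ∃ y ∈ perp hf W, ap g y ∉ perp hf W := by
        by_contra hc
        push Not at hc
        exact hg (mem_stab_of_perp hf hgI hc)
      by_cases hyy : f y y = 0
      · exact ⟨_, inX_ap hf hgM hgI (hX y hy hyy), hgy⟩
      obtain ⟨e, he, hee, hye⟩ : ∃ e ∈ perp hf W, f e e ≠ 0 ∧ f y e = 0 := by
        by_contra hc
        push Not at hc
        set z := ap g x
        have hzz : f z z = 0 := isotropic_ap hf hgI (hW x hx x hx)
        let S : Submodule F (ι → F) := perp hf W ⊓ LinearMap.ker (fl hf y)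
        have hS : ∀ r ∈ S, f r r = 0 := by
          intro r hr
          by_contra hrr
          exact hc r hr.1 hrr ((eq_zero_comm hf).mp hr.2)
        set a := f z y / f y y with ha
        have hmem : ∀ r ∈ perp hf W, r - (f r y / f y y) • y ∈ S := fun r hr =>
          ⟨(perp hf W).sub_mem hr ((perp hf W).smul_mem _ hy), by
            rw [SetLike.mem_coe, LinearMap.mem_ker, fl_apply, sub_left hf, hf.smul_left,
              div_mul_cancel₀ _ hyy, sub_self]⟩
        have hzy : f z y = 0 := by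
          have h1 := hS _ (hmem z hgx)
          simp only [sub_left hf, sub_right hf, hf.smul_left, smul_right hf, hzz] at h1
          have h2 : f y z = -σ (f z y) := hf.skew y z
          rw [h2, map_div₀] at h1
          have hs : σ (f y y) ≠ 0 := (EmbeddingLike.map_ne_zero_iff (f := σ)).mpr hyy
          rw [skew_self hf] at h1
          field_simp at h1
          have h3 : f z y * σ (f z y) = 0 := by linear_combination h1
          rcases mul_eq_zero.mp h3 with h | h
          · exact h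
          · exact (EmbeddingLike.map_eq_zero_iff (f := σ)).mp h
        refine hxW (mem_of_forall_perp hf fun r hr => ?_)
        have hzS : z ∈ S := ⟨hgx, hzy⟩
        have h1 := totallySingular_of_isotropic hf hS hzS (hmem r hr)
        rwa [sub_right hf, smul_right hf, hzy, mul_zero, sub_zero] at h1
      obtain ⟨v₁, v₂, hv₁, hv₂, hi₁, hi₂, rfl⟩ := exists_isotropic_add hf hy he hee hye
      by_cases h₁ : ap g v₁ ∈ perp hf W
      · refine ⟨_, inX_ap hf hgM hgI (hX v₂ hv₂ hi₂), fun h₂ => hgy ?_⟩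
        rw [ap_add]
        exact (perp hf W).add_mem h₁ h₂
      · exact ⟨_, inX_ap hf hgM hgI (hX v₁ hv₁ hi₁), h₁⟩
    · exact ⟨_, inX_ap hf hgM hgI (hX x (hWle hx) (hW x hx x hx)), hgx⟩
  intro y hyy
  by_cases hy : y ∈ perp hf W
  · exact hX y hy hyy
  obtain ⟨u, hu, hu₁, hu₂⟩ : ∃ u ∈ W, f w₀ u ≠ 0 ∧ f y u ≠ 0 := by
    obtain ⟨u₁, hu₁, hne₁⟩ : ∃ u ∈ W, f w₀ u ≠ 0 := by
      by_contra hc
      push Not at hc
      exact hw₀' hc
    obtain ⟨u₂, hu₂, hne₂⟩ : ∃ u ∈ W, f y u ≠ 0 := by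
      by_contra hc
      push Not at hc
      exact hy hc
    by_cases ha : f y u₁ = 0
    · by_cases hb : f w₀ u₂ = 0
      · refine ⟨u₁ + u₂, W.add_mem hu₁ hu₂, ?_, ?_⟩
        · rwa [add_right hf, hb, add_zero]
        · rwa [add_right hf, ha, zero_add]
      · exact ⟨u₂, hu₂, hb, hne₂⟩
    · exact ⟨u₁, hu₁, hne₁, ha⟩
  set u' := σ (f w₀ u)⁻¹ • u with hu'
  have hu'W : u' ∈ W := W.smul_mem _ hu
  have h₁ : f w₀ u' = 1 := by
    rw [hu', smul_right hf, hf.involutive, inv_mul_cancel₀ hu₁]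
  have h₂ : f y u' ≠ 0 := by
    rw [hu', smul_right hf, hf.involutive]
    exact mul_ne_zero (inv_ne_zero hu₁) hu₂
  set y' := (f y u')⁻¹ • y with hy'
  have h₃ : f y' u' = 1 := by rw [hy', hf.smul_left, inv_mul_cancel₀ h₂]
  have huu : f u' u' = 0 := hW u' hu'W u' hu'W
  obtain ⟨hvu, c, hc, hm⟩ := exists_E_move hf huu h₁ h₃
    ((isotropic_smul hf hyy _).trans hw₀.1.symm)
  have hE : E hf u' (y' - w₀) c huu hvu ∈ M := hHM
    ⟨mem_subspaceStabilizer_of_mapsTo _ _ fun x hx => by
      rw [ap_E hf, hW x hx u' hu'W]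
      simpa using W.add_mem hx (W.smul_mem _ hu'W), E_mem hf hc⟩
  have h₄ := inX_ap hf hE (E_mem hf hc).1 hw₀
  rw [hm] at h₄
  have := inX_smul hf h₄ (f y u')
  rwa [hy', smul_smul, mul_inv_cancel₀ h₂, one_smul] at this

/-- An anisotropic vector orthogonal to `x` and `y`, in dimension at least four, unless both are
isotropic and orthogonal to each other. -/
lemma exists_anisotropic_perp_four [Finite F] {S : Submodule F (ι → F)}
    (hS : Cfsg.Geo.IsNondegenerateOn f S) (hdim : 4 ≤ Module.finrank F S) {x y : ι → F}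
    (hx : x ∈ S) (hy : y ∈ S) (hxy : x = y ∨ f x x ≠ 0 ∨ f y y ≠ 0 ∨ f x y ≠ 0) :
    ∃ e ∈ S, f e e ≠ 0 ∧ f x e = 0 ∧ f y e = 0 := by
  classical
  by_contra hc
  push Not at hc
  let U : Submodule F (ι → F) := S ⊓ (LinearMap.ker (fl hf x) ⊓ LinearMap.ker (fl hf y))
  have hU : ∀ r ∈ U, f r r = 0 := by
    intro r hr
    by_contra hrr
    exact hc r hr.1 hrr ((eq_zero_comm hf).mp hr.2.1) ((eq_zero_comm hf).mp hr.2.2)
  have hle : U ≤ Submodule.span F {x, y} := by
    intro z hz
    refine mem_of_forall_perp hf fun p hp => ?_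
    obtain ⟨a, ha, hpa⟩ := exists_sub_mem_perp hf hS p
    have hval : ∀ r ∈ S, f p r = f a r := fun r hr => by
      have := hpa r hr
      rwa [sub_left hf, sub_eq_zero] at this
    have haU : a ∈ U := ⟨ha,
      LinearMap.mem_ker.mpr (by
        rw [fl_apply, ← hval x hx]; exact hp x (Submodule.subset_span (by simp))),
      LinearMap.mem_ker.mpr (by
        rw [fl_apply, ← hval y hy]; exact hp y (Submodule.subset_span (by simp)))⟩
    rw [eq_zero_comm hf, hval z hz.1]
    exact totallySingular_of_isotropic hf hU haU hz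
  have h3 : Module.finrank F S ≤ Module.finrank F U + 2 := by
    let Φ : S →ₗ[F] (Fin 2 → F) := (LinearMap.pi ![fl hf x, fl hf y]).comp S.subtype
    have h4 := Φ.finrank_range_add_finrank_ker
    have h5 : Module.finrank F (LinearMap.range Φ) ≤ 2 :=
      (Submodule.finrank_le _).trans_eq (Module.finrank_fin_fun F)
    have h6 : (LinearMap.ker Φ).map S.subtype ≤ U := by
      rintro _ ⟨r, hr, rfl⟩
      exact ⟨r.2, congrFun (LinearMap.mem_ker.mp hr) 0, congrFun (LinearMap.mem_ker.mp hr) 1⟩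
    have h7 := Submodule.finrank_mono h6
    rw [(Submodule.equivMapOfInjective _ S.injective_subtype _).finrank_eq.symm] at h7
    omega
  rcases hxy with rfl | hxy
  · have h1 := Submodule.finrank_mono hle
    have h2 : Module.finrank F (Submodule.span F ({x, x} : Set (ι → F))) ≤ 1 := by
      rw [Set.insert_eq_of_mem (Set.mem_singleton x)]
      exact (finrank_span_le_card ({x} : Set (ι → F))).trans_eq (by simp)
    omega
  have h2 : Module.finrank F (Submodule.span F {x, y}) ≤ 2 := by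
    have := finrank_span_finset_le_card (R := F) ({x, y} : Finset (ι → F))
    rw [Finset.coe_insert, Finset.coe_singleton] at this
    exact this.trans Finset.card_le_two
  have heq := Submodule.eq_of_le_of_finrank_le hle (by omega)
  have hxU : x ∈ U := heq ▸ Submodule.subset_span (by simp)
  have hyU : y ∈ U := heq ▸ Submodule.subset_span (by simp)
  rcases hxy with h | h | h
  · exact h hxU.2.1
  · exact h hyU.2.2
  · exact h hxU.2.2

/-- An isotropic vector with product one with two independent vectors, in dimension at least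
four. -/
lemma exists_isotropic_common_four [Finite F] {S : Submodule F (ι → F)}
    (hS : Cfsg.Geo.IsNondegenerateOn f S) (hdim : 4 ≤ Module.finrank F S) {x y : ι → F}
    (hx : x ∈ S) (hy : y ∈ S) (hli : y ∉ Submodule.span F {x}) (hx0 : x ≠ 0) :
    ∃ u ∈ S, f u u = 0 ∧ f x u = 1 ∧ f y u = 1 := by
  by_cases hts : f x x = 0 ∧ f x y = 0
  · obtain ⟨p, hp, hp1, hp2⟩ := exists_values hf hS hx hy hli hx0 1 1
    obtain ⟨c, hc⟩ := exists_sub_eq hf (skew_self hf p)
    have hyx : f y x = 0 := (eq_zero_comm hf).mp hts.2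
    have hpx : f p x = -1 := by rw [hf.skew p x, hp1, map_one]
    refine ⟨p + (-c) • x, S.add_mem hp (S.smul_mem _ hx), ?_, ?_, ?_⟩
    · simp only [hf.add_left, add_right hf, hf.smul_left, smul_right hf, hts.1, hp1, hpx, map_neg]
      linear_combination -hc
    · rw [add_right hf, smul_right hf, hp1, hts.1, mul_zero, add_zero]
    · rw [add_right hf, smul_right hf, hp2, hyx, mul_zero, add_zero]
  · obtain ⟨e, he, hee, hxe, hye⟩ := exists_anisotropic_perp_four hf hS hdim hx hy
      (by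
        by_cases h : f x x = 0
        · exact Or.inr (Or.inr (Or.inr fun h' => hts ⟨h, h'⟩))
        · exact Or.inr (Or.inl h))
    exact exists_isotropic_common hf hS hx hy hli hx0 he hee hxe hye

/-- A vector of a large non-degenerate subspace with prescribed norm and prescribed product with
`b`, not a multiple of `b`. -/
lemma exists_vector [Finite F] {S : Submodule F (ι → F)}
    (hS : Cfsg.Geo.IsNondegenerateOn f S) (hdim : 4 ≤ Module.finrank F S) {b : ι → F}
    (hb : b ∈ S) (hb0 : b ≠ 0) (B : F) {D : F} (hD : σ D = -D) :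
    ∃ q ∈ S, q ∉ Submodule.span F {b} ∧ f b q = B ∧ f q q = D := by
  obtain ⟨e, he, hee, hbe, -⟩ := exists_anisotropic_perp_four hf hS hdim hb hb (Or.inl rfl)
  have hnb : e ∉ Submodule.span F {b} := by
    intro h
    obtain ⟨l, rfl⟩ := Submodule.mem_span_singleton.mp h
    exact hee (by rw [hf.smul_left, hbe, mul_zero])
  obtain ⟨p, hp, hp1, hp2⟩ := exists_values hf hS hb he hnb hb0 B 0
  obtain ⟨ν, hν⟩ := exists_norm hf (c := (D - f p p) / f e e) (by
    rw [map_div₀, map_sub, hD, skew_self hf, skew_self hf, show -D - -f p p = -(D - f p p) by ring,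
      neg_div_neg_eq])
  set q₀ := p + ν • e with hq₀
  have h1 : f b q₀ = B := by rw [hq₀, add_right hf, smul_right hf, hp1, hbe]; ring
  have h2 : f q₀ q₀ = D := by
    simp only [hq₀, hf.add_left, add_right hf, hf.smul_left, smul_right hf, hp2,
      (eq_zero_comm hf).mp hp2]
    field_simp at hν
    linear_combination hν
  by_cases hq : q₀ ∈ Submodule.span F {b}
  · obtain ⟨e₂, he₂, he₂0, hbe₂, hee₂⟩ := exists_anisotropic_perp_four hf hS hdim hb he
      (Or.inr (Or.inr (Or.inl hee)))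
    obtain ⟨μ, hμ⟩ := exists_norm hf (c := -f e₂ e₂ / f e e) (by
      rw [map_div₀, map_neg, skew_self hf, skew_self hf]; ring)
    set r := μ • e + e₂ with hr
    have hbr : f b r = 0 := by rw [hr, add_right hf, smul_right hf, hbe, hbe₂]; ring
    have hrr : f r r = 0 := by
      simp only [hr, hf.add_left, add_right hf, hf.smul_left, smul_right hf, hee₂,
        (eq_zero_comm hf).mp hee₂]
      field_simp at hμ
      linear_combination hμ
    have hre : f r e₂ ≠ 0 := by rwa [hr, hf.add_left, hf.smul_left, hee₂, mul_zero, zero_add]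
    obtain ⟨l, hl⟩ := Submodule.mem_span_singleton.mp hq
    have hqr : f q₀ r = 0 := by rw [← hl, hf.smul_left, hbr, mul_zero]
    refine ⟨q₀ + r, S.add_mem (S.add_mem hp (S.smul_mem _ he))
      (S.add_mem (S.smul_mem _ he) he₂), fun h => ?_, ?_, ?_⟩
    · obtain ⟨m, hm⟩ := Submodule.mem_span_singleton.mp h
      apply hre
      have : r = (m - l) • b := by
        rw [sub_smul, hm, hl]; abel
      rw [this, hf.smul_left, hbe₂, mul_zero]
    · rw [add_right hf, h1, hbr, add_zero]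
    · rw [hf.add_left q₀ r, add_right hf q₀ q₀ r, add_right hf r q₀ r, h2, hqr,
        (eq_zero_comm hf).mp hqr, hrr]
      ring
  · exact ⟨q₀, S.add_mem hp (S.smul_mem _ he), hq, h1, h2⟩

/-- The stabiliser of a non-degenerate subspace of dimension less than half is maximal. -/
theorem stab_isMaximalIn_of_nondegenerate [Finite F] (h0 : W ≠ ⊥)
    (hW : Cfsg.Geo.IsNondegenerateOn f W) (hdim : 2 * Module.finrank F W < Fintype.card ι)
    (hn : 6 ≤ Fintype.card ι) :
    Cfsg.Geo.IsMaximalIn (sisom hf) (Cfsg.Geo.subspaceStabilizer W ⊓ sisom hf) := by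
  classical
  have hk := finrank_add_perp hf hW
  have hP : 4 ≤ Module.finrank F (perp hf W) := by omega
  have hPn := perp_nondegenerate hf hW
  have hdis : ∀ z ∈ W, z ∈ perp hf W → z = 0 := fun z h1 h2 => by
    have : z ∈ W ⊓ perp hf W := ⟨h1, h2⟩
    rwa [inf_perp_eq_bot hf hW, Submodule.mem_bot] at this
  obtain ⟨a₀, ha₀, ha₀a⟩ := exists_anisotropic hf hW h0
  obtain ⟨b₁, hb₁, hb₁0⟩ := Submodule.exists_mem_ne_zero_of_ne_bot
    (show perp hf W ≠ ⊥ from fun h => by rw [h, finrank_bot] at hP; omega)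
  obtain ⟨b₀, hb₀, hb₀', -, hb₀n⟩ := exists_vector hf hPn hP hb₁ hb₁0 0
    (D := -f a₀ a₀) (by rw [map_neg, skew_self hf])
  have hab₀ : f a₀ b₀ = 0 := (eq_zero_comm hf).mp (hb₀ a₀ ha₀)
  have hb₀0 : b₀ ≠ 0 := fun h => ha₀a (by
    rw [h, zero_left hf] at hb₀n; linear_combination hb₀n)
  refine ⟨stab_lt hf ha₀ (p := a₀ + b₀) ?_ ?_ ?_, fun M hHM hMS => ?_⟩
  · rw [hf.add_left, add_right hf, add_right hf, hab₀, (eq_zero_comm hf).mp hab₀, hb₀n]; ring
  · rwa [add_right hf, hab₀, add_zero]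
  · intro h
    exact hb₀0 (hdis b₀ (by simpa using W.sub_mem h ha₀) hb₀)
  by_cases hM : M ≤ Cfsg.Geo.subspaceStabilizer W
  · exact Or.inl (le_antisymm (le_inf hM hMS) hHM)
  refine Or.inr (le_antisymm hMS (le_of_hasT hf (by omega) (hasT_of_inX hf ?_)))
  obtain ⟨g, hgM, hg⟩ := SetLike.not_le_iff_exists.mp hM
  have hgI := (hMS hgM).1
  have hXW : ∀ v ∈ W, f v v = 0 → InX hf M v := fun v h hv => inX_of_mem hf hHM hv (Or.inl h)
  have hXP : ∀ v ∈ perp hf W, f v v = 0 → InX hf M v := fun v h hv =>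
    inX_of_mem hf hHM hv (Or.inr h)
  -- isotropic summands in the orthogonal
  have hsplit : ∀ x ∈ perp hf W, ∃ v₁ v₂, v₁ ∈ perp hf W ∧ v₂ ∈ perp hf W ∧ f v₁ v₁ = 0 ∧
      f v₂ v₂ = 0 ∧ x = v₁ + v₂ := by
    intro x hx
    obtain ⟨e, he, hee, hxe, -⟩ := exists_anisotropic_perp_four hf hPn hP hx hx (Or.inl rfl)
    exact exists_isotropic_add hf hx he hee hxe
  -- a centre with two non-zero parts
  obtain ⟨z, hz, hzW, hzP⟩ : ∃ z, InX hf M z ∧ z ∉ W ∧ z ∉ perp hf W := by
    by_contra hcon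
    push Not at hcon
    have hcase : ∀ q ∈ perp hf W, f q q = 0 → ap g q ∈ W ∨ ap g q ∈ perp hf W := by
      intro q hq hqq
      by_cases h : ap g q ∈ W
      · exact Or.inl h
      · exact Or.inr (hcon _ (inX_ap hf hgM hgI (hXP q hq hqq)) h)
    obtain ⟨q₁, hq₁, hq₁q, hgq₁⟩ : ∃ q ∈ perp hf W, f q q = 0 ∧ ap g q ∉ W := by
      by_contra hc
      push Not at hc
      have hle : (perp hf W).map (apEquiv g).toLinearMap ≤ W := by
        rintro _ ⟨x, hx, rfl⟩
        obtain ⟨v₁, v₂, hv₁, hv₂, hi₁, hi₂, rfl⟩ := hsplit x hx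
        change ap g (v₁ + v₂) ∈ W
        rw [ap_add]
        exact W.add_mem (hc v₁ hv₁ hi₁) (hc v₂ hv₂ hi₂)
      have := Submodule.finrank_mono hle
      rw [LinearEquiv.finrank_map_eq] at this
      omega
    have hq₁P := (hcase q₁ hq₁ hq₁q).resolve_left hgq₁
    have hall : ∀ q ∈ perp hf W, f q q = 0 → ap g q ∈ perp hf W := by
      intro q hq hqq
      by_contra hgq
      have hgqW := (hcase q hq hqq).resolve_right hgq
      have h0 : f q₁ q = 0 := by rw [← (mem_isom_iff.mp hgI)]; exact hq₁P _ hgqW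
      have hsum : f (q₁ + q) (q₁ + q) = 0 := by
        rw [hf.add_left, add_right hf, add_right hf, hq₁q, hqq, h0, (eq_zero_comm hf).mp h0]
        ring
      rcases hcase _ ((perp hf W).add_mem hq₁ hq) hsum with h | h <;> rw [ap_add] at h
      · exact hgq₁ (by simpa using W.sub_mem h hgqW)
      · exact hgq (by simpa using (perp hf W).sub_mem h hq₁P)
    refine hg (mem_stab_of_perp hf hgI fun x hx => ?_)
    obtain ⟨v₁, v₂, hv₁, hv₂, hi₁, hi₂, rfl⟩ := hsplit x hx
    rw [ap_add]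
    exact (perp hf W).add_mem (hall v₁ hv₁ hi₁) (hall v₂ hv₂ hi₂)
  -- moving the second part
  have moveB : ∀ a ∈ W, ∀ b ∈ perp hf W, ∀ b' ∈ perp hf W, b ≠ 0 → b' ≠ 0 →
      f b' b' = f b b → InX hf M (a + b) → InX hf M (a + b') := by
    have one : ∀ a ∈ W, ∀ b ∈ perp hf W, ∀ b' ∈ perp hf W, b ≠ 0 →
        b' ∉ Submodule.span F {b} → f b' b' = f b b → InX hf M (a + b) → InX hf M (a + b') := by
      intro a ha b hb b' hb' hb0 hli hn hX
      obtain ⟨u, hu, huu, h₁, h₂⟩ := exists_isotropic_common_four hf hPn hP hb hb' hli hb0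
      obtain ⟨hvu, c, hc, hm⟩ := exists_E_move hf huu h₁ h₂ hn
      have hvP : b' - b ∈ perp hf W := (perp hf W).sub_mem hb' hb
      have hfix : ∀ x ∈ W, ap (E hf u (b' - b) c huu hvu) x = x := fun x hx => by
        rw [ap_E hf, (eq_zero_comm hf).mp (hu x hx), (eq_zero_comm hf).mp (hvP x hx)]
        simp
      have hE : E hf u (b' - b) c huu hvu ∈ M := hHM
        ⟨mem_subspaceStabilizer_of_mapsTo _ _ fun x hx => by rw [hfix x hx]; exact hx,
          E_mem hf hc⟩
      have h := inX_ap hf hE (E_mem hf hc).1 hX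
      rwa [ap_add, hfix a ha, hm] at h
    intro a ha b hb b' hb' hb0 hb'0 hn hX
    by_cases hli : b' ∈ Submodule.span F {b}
    · obtain ⟨q, hq, hqb, -, hqq⟩ := exists_vector hf hPn hP hb hb0 0 (D := f b b) (skew_self hf b)
      have hq0 : q ≠ 0 := fun h => hqb (h ▸ Submodule.zero_mem _)
      refine one a ha q hq b' hb' hq0 (fun h => ?_) (hn.trans hqq.symm)
        (one a ha b hb q hq hb0 hqb hqq hX)
      obtain ⟨l, hl⟩ := Submodule.mem_span_singleton.mp h
      obtain ⟨m, hm⟩ := Submodule.mem_span_singleton.mp hli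
      have hl0 : l ≠ 0 := fun h0 => hb'0 (by rw [← hl, h0, zero_smul])
      refine hqb (Submodule.mem_span_singleton.mpr ⟨l⁻¹ * m, ?_⟩)
      rw [mul_smul, hm, ← hl, smul_smul, inv_mul_cancel₀ hl0, one_smul]
    · exact one a ha b hb b' hb' hb0 hli hn hX
  obtain ⟨a, ha, hzb⟩ := exists_sub_mem_perp hf hW z
  obtain ⟨b, hb, rfl⟩ : ∃ b ∈ perp hf W, z = a + b := ⟨z - a, hzb, (add_sub_cancel a z).symm⟩
  have ha0 : a ≠ 0 := fun h => hzP (by simpa [h] using hb)
  have hb0 : b ≠ 0 := fun h => hzW (by simpa [h] using ha)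
  have hnorm : ∀ a ∈ W, ∀ b ∈ perp hf W, f (a + b) (a + b) = f a a + f b b := by
    intro a ha b hb
    rw [hf.add_left, add_right hf, add_right hf, hb a ha, (eq_zero_comm hf).mp (hb a ha)]
    ring
  have hzz := hz.1
  rw [hnorm a ha b hb] at hzz
  -- the parts of a target
  intro y hyy
  obtain ⟨ay, hay, hby⟩ := exists_sub_mem_perp hf hW y
  by_cases hay0 : ay = 0
  · exact hXP y (by simpa [hay0] using hby) hyy
  by_cases hby0 : y - ay = 0
  · exact hXW y (by rw [sub_eq_zero] at hby0; exact hby0 ▸ hay) hyy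
  by_cases hk1 : Module.finrank F W = 1
  · have hsp : Submodule.span F {a} = W := Submodule.eq_of_le_of_finrank_eq
      ((Submodule.span_singleton_le_iff_mem _ _).mpr ha)
      (by rw [finrank_span_singleton ha0, hk1])
    obtain ⟨l, hl⟩ := Submodule.mem_span_singleton.mp (hsp.symm ▸ hay)
    have hl0 : l ≠ 0 := fun h => hay0 (by rw [← hl, h, zero_smul])
    set b' := l⁻¹ • (y - ay) with hb'def
    have hy : y = l • (a + b') := by
      rw [hb'def, smul_add, hl, smul_smul, mul_inv_cancel₀ hl0, one_smul]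
      abel
    have hyy' : f (a + b') (a + b') = 0 := by
      have := isotropic_smul hf hyy l⁻¹
      rwa [hy, smul_smul, inv_mul_cancel₀ hl0, one_smul] at this
    have hb'P : b' ∈ perp hf W := (perp hf W).smul_mem _ hby
    rw [hnorm a ha b' hb'P] at hyy'
    rw [hy]
    exact inX_smul hf (moveB a ha b hb b' hb'P hb0 (smul_ne_zero (inv_ne_zero hl0) hby0)
      (by linear_combination hyy' - hzz) hz) l
  -- reduce to isotropic parts
  obtain ⟨a₁, ha₁, b₁', hb₁', ha₁0, hb₁'0, hz₁, haa₁⟩ : ∃ a' ∈ W, ∃ b' ∈ perp hf W,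
      a' ≠ 0 ∧ b' ≠ 0 ∧ InX hf M (a' + b') ∧ f a' a' = 0 := by
    by_cases haa : f a a = 0
    · exact ⟨a, ha, b, hb, ha0, hb0, hz, haa⟩
    obtain ⟨e, he, hee, hae⟩ : ∃ e ∈ W, f e e ≠ 0 ∧ f a e = 0 := by
      by_contra hc
      push Not at hc
      obtain ⟨x, hx, hx0, hxa⟩ := exists_ne_zero_map_eq_zero (k := 1) W
        (LinearMap.pi fun _ => fl hf a) (by
          have := Submodule.finrank_eq_zero.not.mpr h0
          omega)
      have hxa' : f x a = 0 := congrFun hxa 0
      let S : Submodule F (ι → F) := W ⊓ LinearMap.ker (fl hf a)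
      have hS : ∀ r ∈ S, f r r = 0 := by
        intro r hr
        by_contra hrr
        exact hc r hr.1 hrr ((eq_zero_comm hf).mp hr.2)
      obtain ⟨w, hw, hxw⟩ := (hW x hx hx0).2
      apply hxw
      have hmem : w - (f w a / f a a) • a ∈ S := ⟨W.sub_mem hw (W.smul_mem _ ha), by
        rw [SetLike.mem_coe, LinearMap.mem_ker, fl_apply, sub_left hf, hf.smul_left,
          div_mul_cancel₀ _ haa, sub_self]⟩
      have h1 := totallySingular_of_isotropic hf hS (x := x) ⟨hx, hxa'⟩ hmem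
      rwa [sub_right hf, smul_right hf, hxa', mul_zero, sub_zero] at h1
    obtain ⟨ν, hν⟩ := exists_norm hf (c := -f a a / f e e) (by
      rw [map_div₀, map_neg, skew_self hf, skew_self hf]; ring)
    set p := a + ν • e with hp
    have hpp : f p p = 0 := by
      simp only [hp, hf.add_left, add_right hf, hf.smul_left, smul_right hf, hae,
        (eq_zero_comm hf).mp hae]
      field_simp at hν
      linear_combination hν
    have hap : f a p = f a a := by rw [hp, add_right hf, smul_right hf, hae]; ring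
    have hpa : f p a = f a a := by
      rw [hp, hf.add_left, hf.smul_left, (eq_zero_comm hf).mp hae]; ring
    have hpW : p ∈ W := W.add_mem ha (W.smul_mem _ he)
    obtain ⟨t, ht⟩ : ∃ t, σ t ≠ t := by
      by_contra h
      push Not at h
      exact hf.ne_refl (RingEquiv.ext h)
    set N := f a a with hN
    have hNs : σ N = -N := skew_self hf a
    have hd : σ t - t ≠ 0 := sub_ne_zero.mpr ht
    have h1t : (1 : F) + t ≠ 0 := fun h => ht (by
      have e : t = -1 := by linear_combination h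
      rw [e, map_neg, map_one])
    set c := -(N * ((1 + t) * σ (1 + t))) / (N * σ N * (σ t - t)) with hc
    have hcfix : σ c = c := by
      rw [hc, map_div₀, map_neg, map_mul, map_mul, map_mul, map_mul, map_sub, hf.involutive,
        hf.involutive, hf.involutive, hNs]
      rw [show -(-N * (σ (1 + t) * (1 + t))) = -(-(N * ((1 + t) * σ (1 + t)))) by ring,
        show -N * N * (t - σ t) = -(N * -N * (σ t - t)) by ring,
        neg_div_neg_eq]
    have hT := hHM (T_mem_stab hf (W := W) hpp hcfix (Or.inl hpW))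
    have hz' := inX_ap hf hT (T_mem hf hpp hcfix).1 hz
    have hfb : f b p = 0 := hb p hpW
    rw [ap_T hf, hf.add_left, hap, hfb, add_zero] at hz'
    set a' := a + (c * N) • p with ha'
    have ha'W : a' ∈ W := W.add_mem ha (W.smul_mem _ hpW)
    rw [show a + b + (c * N) • p = a' + b by rw [ha']; abel] at hz'
    obtain ⟨q, hq, hqb, hbq, hqq⟩ :=
      exists_vector hf hPn hP hb hb0 (t - f a a') (D := f b b) (skew_self hf b)
    have hq0 : q ≠ 0 := fun h => hqb (h ▸ Submodule.zero_mem _)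
    have hz'' := moveB a' ha'W b hb q hq hb0 hq0 hqq hz'
    have h3 := inX_ap hf (hz''.2 hz''.1 1 (map_one σ)) (T_mem hf hz''.1 (map_one σ)).1 hz
    have hfw : f (a + b) (a' + q) = t := by
      rw [hf.add_left a b, add_right hf a a' q, add_right hf b a' q, hb a' ha'W, hbq,
        (eq_zero_comm hf).mp (hq a ha)]
      ring
    rw [ap_T hf, one_mul, hfw] at h3
    clear_value c N
    refine ⟨a + t • a', W.add_mem ha (W.smul_mem _ ha'W), b + t • q,
      (perp hf W).add_mem hb ((perp hf W).smul_mem _ hq), fun h => ?_, fun h => ?_, ?_, ?_⟩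
    · have e : (1 + t) • a = -((t * (c * N)) • p) := by
        rw [ha'] at h; linear_combination (norm := module) h
      have := congrArg (fun x => f x x) e
      simp only [hf.smul_left, smul_right hf, neg_left hf, neg_right hf, hpp] at this
      simp only [mul_zero, neg_zero, mul_eq_zero, haa, or_false] at this
      rcases this with h | h | h
      · exact h1t h
      · exact h1t ((EmbeddingLike.map_eq_zero_iff (f := σ)).mp h)
      · exact haa (hN.trans h)
    · have ht0 : t ≠ 0 := fun h0 => ht (by rw [h0, map_zero])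
      apply hqb
      refine Submodule.mem_span_singleton.mpr ⟨-t⁻¹, ?_⟩
      have e : b = -(t • q) := eq_neg_of_add_eq_zero_left h
      rw [e, smul_neg, neg_smul, neg_neg, smul_smul, inv_mul_cancel₀ ht0, one_smul]
    · convert h3 using 1
      rw [ha']; module
    · rw [ha']
      simp only [hf.add_left, add_right hf, hf.smul_left, smul_right hf, hpp, hap, hpa, map_mul,
        map_one, map_add, hcfix, hNs]
      have hN0 : N ≠ 0 := haa
      have hcd : c * (N * σ N * (σ t - t)) = -(N * ((1 + t) * σ (1 + t))) := by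
        rw [hc, div_mul_cancel₀ _ (mul_ne_zero (mul_ne_zero hN0 (by rw [hNs]; simpa using hN0)) hd)]
      rw [hNs, map_add, map_one] at hcd
      simp only [← hN, hNs] at hcd ⊢
      linear_combination hcd
  have hbb₁ : f b₁' b₁' = 0 := by
    have := hz₁.1
    rw [hnorm a₁ ha₁ b₁' hb₁', haa₁, zero_add] at this
    exact this
  -- the Eichler elements mixing the two parts
  let L : (ι → F) → Prop := fun v => ∀ (u : ι → F) (hu : f u u = 0) (hvu : f v u = 0) (c : F),
    u ∈ perp hf W → c - σ c = f v v → E hf u v c hu hvu ∈ M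
  have hTu : ∀ (u : ι → F) (hu : f u u = 0) (d : F), u ∈ perp hf W → σ d = d →
      T hf u d hu ∈ M := fun u hu d huP hd => hHM (T_mem_stab hf hu hd (Or.inr huP))
  have hLadd : ∀ v₁ ∈ W, ∀ v₂ ∈ W, L v₁ → L v₂ → L (v₁ + v₂) := by
    intro v₁ hv₁ v₂ hv₂ h₁ h₂ u hu hvu c huP hc
    obtain ⟨c₁, hc₁⟩ := exists_sub_eq hf (skew_self hf v₁)
    obtain ⟨c₂, hc₂⟩ := exists_sub_eq hf (skew_self hf v₂)
    have hvu₁ : f v₁ u = 0 := (eq_zero_comm hf).mp (huP v₁ hv₁)
    have hvu₂ : f v₂ u = 0 := (eq_zero_comm hf).mp (huP v₂ hv₂)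
    have h := mul_mem (h₁ u hu hvu₁ c₁ huP hc₁) (h₂ u hu hvu₂ c₂ huP hc₂)
    rw [E_mul_E hf hvu] at h
    have hd : σ (c - (c₁ + c₂ + f v₂ v₁)) = c - (c₁ + c₂ + f v₂ v₁) := by
      simp only [hf.add_left, add_right hf] at hc
      simp only [map_sub, map_add]
      linear_combination -hc + hc₁ + hc₂ - hf.skew v₁ v₂
    have h' := mul_mem h (hTu u hu _ huP hd)
    rwa [E_mul_T hf, add_sub_cancel] at h'
  have hLiso : ∀ a' ∈ W, ∀ b' ∈ perp hf W, b' ≠ 0 → f a' a' = 0 → InX hf M (a' + b') →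
      ∀ μ : F, L (μ • a') := by
    intro a' ha' b' hb' hb'0 haa' hX μ u hu hvu c huP hc
    by_cases hμ : μ = 0
    · rw [hμ, zero_smul, zero_left hf, sub_eq_zero] at hc
      have hE : E hf u (μ • a') c hu hvu = T hf u c hu := gl_ext fun x => by
        simp [ap_E hf, ap_T hf, hμ, zero_right hf]
      rw [hE]; exact hTu u hu c huP hc.symm
    by_cases hu0 : u = 0
    · have hE : E hf u (μ • a') c hu hvu = 1 := gl_ext fun x => by
        simp [ap_E hf, hu0, zero_right hf]
      rw [hE]; exact one_mem M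
    set v := μ • a' with hv
    have hvW : v ∈ W := W.smul_mem μ ha'
    have hvv : f v v = 0 := isotropic_smul hf haa' μ
    have hbb : f b' b' = 0 := by
      have := hX.1
      rwa [hnorm a' ha' b' hb', haa', zero_add] at this
    have hμX := inX_smul hf hX μ
    rw [smul_add] at hμX
    have huv := moveB v hvW (μ • b') ((perp hf W).smul_mem μ hb') u huP
      (smul_ne_zero hμ hb'0) hu0 (by rw [hu, isotropic_smul hf hbb]) hμX
    rw [add_comm] at huv
    have h1 : E hf u v 0 hu hvu ∈ M := by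
      rw [← E_eq_T_mul hf hvv huv.1]
      exact mul_mem (mul_mem (huv.2 _ _ (map_one σ)) (hTu u hu _ huP (by simp)))
        ((hXW v hvW hvv).2 hvv _ (by simp))
    rw [hvv, sub_eq_zero] at hc
    have h2 := mul_mem h1 (hTu u hu c huP hc.symm)
    rwa [E_mul_T hf, zero_add] at h2
  have hLa : ∀ μ : F, L (μ • a₁) := hLiso a₁ ha₁ b₁' hb₁' hb₁'0 haa₁ hz₁
  have hLp : ∀ p ∈ W, f p p = 0 → f a₁ p ≠ 0 → ∀ μ : F, L (μ • p) := by
    intro p hp hpp hne μ
    have hT := hHM (T_mem_stab hf (W := W) hpp (map_one σ) (Or.inl hp))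
    have h := inX_ap hf hT (T_mem hf hpp (map_one σ)).1 hz₁
    rw [ap_T hf, one_mul, hf.add_left, hb₁' p hp, add_zero,
      show a₁ + b₁' + f a₁ p • p = a₁ + f a₁ p • p + b₁' by abel] at h
    set a₂ := a₁ + f a₁ p • p with ha₂
    have ha₂W : a₂ ∈ W := W.add_mem ha₁ (W.smul_mem _ hp)
    have haa₂ : f a₂ a₂ = 0 := by
      have := h.1
      rwa [hnorm a₂ ha₂W b₁' hb₁', hbb₁, add_zero] at this
    have h2 := hLadd _ (W.smul_mem (μ / f a₁ p) ha₂W) _ (W.smul_mem (-(μ / f a₁ p)) ha₁)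
      (hLiso a₂ ha₂W b₁' hb₁' hb₁'0 haa₂ h _) (hLa _)
    convert h2 using 1
    rw [ha₂, smul_add, smul_smul, div_mul_cancel₀ _ hne, neg_smul]
    abel
  have hLall : ∀ v ∈ W, L v := by
    obtain ⟨w₀, hw₀, hw₀a⟩ := (hW a₁ ha₁ ha₁0).1
    obtain ⟨l, hl⟩ := exists_isotropic_shift hf (p := (f w₀ a₁)⁻¹ • w₀) haa₁ (by
      rw [hf.smul_left, inv_mul_cancel₀ hw₀a]; exact one_ne_zero)
    set w := (f w₀ a₁)⁻¹ • w₀ + l • a₁ with hwdef
    have hwW : w ∈ W := W.add_mem (W.smul_mem _ hw₀) (W.smul_mem _ ha₁)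
    have hwa : f w a₁ = 1 := by
      rw [hwdef, hf.add_left, hf.smul_left, hf.smul_left, inv_mul_cancel₀ hw₀a, haa₁, mul_zero,
        add_zero]
    intro v hv
    set v₀ := v - f v a₁ • w + w with hv₀
    have hv₀W : v₀ ∈ W := W.add_mem (W.sub_mem hv (W.smul_mem _ hwW)) hwW
    have hv₀a : f v₀ a₁ = 1 := by
      rw [hv₀, hf.add_left, sub_left hf, hf.smul_left, hwa]; ring
    obtain ⟨m, hm⟩ := exists_isotropic_shift hf (p := v₀) haa₁ (by
      rw [hv₀a]; exact one_ne_zero)
    have hm1 : f a₁ (v₀ + m • a₁) ≠ 0 := by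
      rw [add_right hf, smul_right hf, haa₁, hf.skew a₁ v₀, hv₀a]; simp
    have hpW := W.add_mem hv₀W (W.smul_mem m ha₁)
    have hw1 : f a₁ w ≠ 0 := by rw [hf.skew a₁ w, hwa]; simp
    have h1 := hLp _ hpW hm hm1 1
    rw [one_smul] at h1
    have h2 := hLadd _ hpW _ (W.smul_mem (-m) ha₁) h1 (hLa _)
    have h3 := hLadd _ (W.add_mem hpW (W.smul_mem _ ha₁)) _
      (W.smul_mem (f v a₁ - 1) hwW) h2 (hLp w hwW hl hw1 _)
    convert h3 using 1
    rw [hv₀]
    module
  -- the target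
  obtain ⟨u, hu, huu, hyu⟩ : ∃ u ∈ perp hf W, f u u = 0 ∧ f y u ≠ 0 := by
    obtain ⟨p, hp, hpne⟩ := (hPn _ hby hby0).2
    obtain ⟨v₁, v₂, hv₁, hv₂, hi₁, hi₂, rfl⟩ := hsplit p hp
    have key : ∀ v ∈ perp hf W, f y v = f (y - ay) v := by
      intro v hv
      rw [sub_left hf, (eq_zero_comm hf).mp (hv ay hay), sub_zero]
    rw [← key _ hp, add_right hf] at hpne
    by_cases h : f y v₁ = 0
    · exact ⟨v₂, hv₂, hi₂, by rwa [h, zero_add] at hpne⟩
    · exact ⟨v₁, hv₁, hi₁, h⟩
  have hu0 : u ≠ 0 := fun h => hyu (by rw [h, zero_right hf])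
  obtain ⟨p₀, hp₀, hp₀u⟩ := (hPn u hu hu0).1
  obtain ⟨l, hl⟩ := exists_isotropic_shift hf (p := (f p₀ u)⁻¹ • p₀) huu (by
    rw [hf.smul_left, inv_mul_cancel₀ hp₀u]; exact one_ne_zero)
  set w₀ := (f p₀ u)⁻¹ • p₀ + l • u with hw₀def
  have hw₀P : w₀ ∈ perp hf W :=
    (perp hf W).add_mem ((perp hf W).smul_mem _ hp₀) ((perp hf W).smul_mem _ hu)
  have hw₀u : f w₀ u = 1 := by
    rw [hw₀def, hf.add_left, hf.smul_left, hf.smul_left, inv_mul_cancel₀ hp₀u, huu, mul_zero,
      add_zero]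
  set y' := (f y u)⁻¹ • y with hy'
  have hy'u : f y' u = 1 := by rw [hy', hf.smul_left, inv_mul_cancel₀ hyu]
  obtain ⟨hvu, c, hc, hm⟩ := exists_E_move hf huu hw₀u hy'u
    ((isotropic_smul hf hyy _).trans hl.symm)
  set v := y' - w₀
  obtain ⟨vW, hvW, hvP⟩ := exists_sub_mem_perp hf hW v
  have hEM : E hf u v c huu hvu ∈ M := by
    obtain ⟨c₁, hc₁⟩ := exists_sub_eq hf (skew_self hf vW)
    obtain ⟨c₂, hc₂⟩ := exists_sub_eq hf (skew_self hf (v - vW))
    have hu₁ : f vW u = 0 := (eq_zero_comm hf).mp (hu vW hvW)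
    have hu₂ : f (v - vW) u = 0 := by rw [sub_left hf, hvu, hu₁, sub_zero]
    have hE₂ : E hf u (v - vW) c₂ huu hu₂ ∈ M := hHM
      ⟨mem_subspaceStabilizer_of_mapsTo _ _ fun x hx => by
        rw [ap_E hf, (eq_zero_comm hf).mp (hu x hx), (eq_zero_comm hf).mp (hvP x hx)]
        simpa using hx, E_mem hf hc₂⟩
    have h := mul_mem (hLall vW hvW u huu hu₁ c₁ hu hc₁) hE₂
    rw [E_mul_E hf (by rw [add_sub_cancel]; exact hvu)] at h
    simp only [add_sub_cancel] at h
    have hd : σ (c - (c₁ + c₂ + f (v - vW) vW)) = c - (c₁ + c₂ + f (v - vW) vW) := by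
      have hs : σ (f (v - vW) vW) = -f vW (v - vW) := by rw [hf.skew vW (v - vW)]; ring
      simp only [map_sub, map_add, hs]
      simp only [sub_left hf, sub_right hf] at hc₂ ⊢
      linear_combination -hc + hc₁ + hc₂
    have h' := mul_mem h (hTu u huu _ hu hd)
    rwa [E_mul_T hf, add_sub_cancel] at h'
  have h := inX_ap hf hEM (E_mem hf hc).1 (hXP w₀ hw₀P hl)
  rw [hm] at h
  have := inX_smul hf h (f y u)
  rwa [hy', smul_smul, mul_inv_cancel₀ hyu, one_smul] at this

end Unitary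

end CfsgLib.Geometric
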