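import Cfsg.Agent.Lib.Geometric.SympSubfield
import Cfsg.Agent.Lib.Geometric.UnitaryStab

/-!
Subfield groups of odd prime degree are maximal in the special unitary group.

Multipliers live in the fixed field `K` of the involution; the plane argument of the symplectic
case is run in `SL₂(K)`.
-/

set_option autoImplicit false

namespace CfsgLib.Geometric

open Matrix
open scoped MatrixGroups

variable {ι : Type} [Fintype ι] [DecidableEq ι] {F : Type*} [Field F]

namespace USubfld

open LSubfld (RatV)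
open SSubfld (em)

/-- The fixed field of an automorphism. -/
def fixed (σ : F ≃+* F) : Subfield F where
  carrier := {x | σ x = x}
  zero_mem' := map_zero σ
  one_mem' := map_one σ
  add_mem' {a b} (ha : σ a = a) (hb : σ b = b) := show σ (a + b) = a + b by rw [map_add, ha, hb]
  mul_mem' {a b} (ha : σ a = a) (hb : σ b = b) := show σ (a * b) = a * b by rw [map_mul, ha, hb]
  neg_mem' {a} (ha : σ a = a) := show σ (-a) = -a by rw [map_neg, ha]
  inv_mem' a (ha : σ a = a) := show σ a⁻¹ = a⁻¹ by rw [map_inv₀, ha]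

variable {σ : F ≃+* F} {f : (ι → F) → (ι → F) → F} (hf : IsSkewForm σ f)

open Classical in
/-- The unitary transvection, trivial at anisotropic vectors. -/
noncomputable def tr' (v : ι → F) (c : F) : GL ι F :=
  if h : f v v = 0 then Unitary.T hf v c h else 1

lemma tr'_eq {v : ι → F} (hv : f v v = 0) (c : F) : tr' hf v c = Unitary.T hf v c hv := dif_pos hv

lemma ap_tr' {v : ι → F} (hv : f v v = 0) (c : F) (x : ι → F) :
    ap (tr' hf v c) x = x + (c * f x v) • v := by
  rw [tr'_eq hf hv, Unitary.ap_T hf]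

lemma conj_tr' {g : GL ι F} (hg : g ∈ isom f) {v : ι → F} (hv : f v v = 0) (c : F) :
    g * tr' hf v c * g⁻¹ = tr' hf (ap g v) c := by
  rw [tr'_eq hf hv, tr'_eq hf (Unitary.isotropic_ap hf hg hv), Unitary.conj_T hf hg hv]

lemma tr'_smul {v : ι → F} (hv : f v v = 0) (a c : F) :
    tr' hf (a • v) c = tr' hf v (a * σ a * c) := by
  rw [tr'_eq hf hv, tr'_eq hf (Unitary.isotropic_smul hf hv a), Unitary.T_smul hf hv]

lemma tr'_add {v : ι → F} (hv : f v v = 0) (c d : F) :
    tr' hf v c * tr' hf v d = tr' hf v (c + d) := by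
  apply gl_ext
  intro x
  simp only [ap_mul, ap_tr' hf hv, hf.add_left, hf.smul_left, hv]
  module

lemma tr'_zero {v : ι → F} (hv : f v v = 0) : tr' hf v 0 = 1 := by
  apply gl_ext
  intro x
  simp [ap_tr' hf hv]

/-- The hermitian map `p a ā + z a b̄ + σ z b ā + s b b̄` of a totally isotropic pair. -/
noncomputable def el (p z s : F) (a b : ι → F) : GL ι F :=
  tr' hf a (p - 1) * tr' hf b (s - z * σ z) * tr' hf (a + σ z • b) 1

variable {a b : ι → F} (haa : f a a = 0) (hbb : f b b = 0) (hab : f a b = 0)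
include haa hbb hab

lemma ap_el (p z s : F) (x : ι → F) :
    ap (el hf p z s a b) x
      = x + (p * f x a + z * f x b) • a + (σ z * f x a + s * f x b) • b := by
  have hba : f b a = 0 := (Unitary.eq_zero_comm hf).mp hab
  have h3 : f (a + σ z • b) (a + σ z • b) = 0 := by
    simp [hf.add_left, Unitary.add_right hf, hf.smul_left, Unitary.smul_right hf, haa, hbb, hab,
      hba]
  simp only [el, ap_mul, ap_tr' hf haa, ap_tr' hf hbb, ap_tr' hf h3, hf.add_left,
    Unitary.add_right hf, hf.smul_left, Unitary.smul_right hf, hf.involutive, haa, hbb, hab, hba,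
    mul_zero, add_zero]
  module

lemma el_mul (p z s p' z' s' : F) :
    el hf p z s a b * el hf p' z' s' a b = el hf (p + p') (z + z') (s + s') a b := by
  apply gl_ext
  intro x
  have hba : f b a = 0 := (Unitary.eq_zero_comm hf).mp hab
  simp only [ap_mul, ap_el hf haa hbb hab, hf.add_left, hf.smul_left, haa, hbb, hab, hba,
    mul_zero, add_zero, map_add]
  module

lemma el_inv (p z s : F) : (el hf p z s a b)⁻¹ = el hf (-p) (-z) (-s) a b := by
  refine inv_eq_of_mul_eq_one_right ?_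
  rw [el_mul hf haa hbb hab]
  apply gl_ext
  intro x
  simp [ap_el hf haa hbb hab]

lemma el_left (p : F) : el hf p 0 0 a b = tr' hf a p := by
  apply gl_ext
  intro x
  simp [ap_el hf haa hbb hab, ap_tr' hf haa]

lemma el_right (s : F) : el hf 0 0 s a b = tr' hf b s := by
  apply gl_ext
  intro x
  simp [ap_el hf haa hbb hab, ap_tr' hf hbb]

lemma el_swap (p z s : F) : el hf p z s a b = el hf s (σ z) p b a := by
  apply gl_ext
  intro x
  rw [ap_el hf haa hbb hab, ap_el hf hbb haa ((Unitary.eq_zero_comm hf).mp hab), hf.involutive]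
  module

lemma el_shift (p z s t : F) : el hf p z s (a + t • b) b
    = el hf p (z + p * σ t) (s + t * σ t * p + (t * z + σ (t * z))) a b ∨ σ p ≠ p := by
  by_cases hp : σ p = p
  · left
    have hba : f b a = 0 := (Unitary.eq_zero_comm hf).mp hab
    apply gl_ext
    intro x
    rw [ap_el hf haa hbb hab, ap_el hf (by
        simp [hf.add_left, Unitary.add_right hf, hf.smul_left, Unitary.smul_right hf, haa, hbb,
          hab, hba]) hbb (by simp [hf.add_left, hf.smul_left, hbb, hab]),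
      Unitary.add_right hf, Unitary.smul_right hf]
    simp only [map_add, map_mul, hp, hf.involutive]
    module
  · exact Or.inr hp

lemma conj_el {g : GL ι F} (hg : g ∈ isom f) (p z s : F) :
    g * el hf p z s a b * g⁻¹ = el hf p z s (ap g a) (ap g b) := by
  have h3 : f (a + σ z • b) (a + σ z • b) = 0 := by
    simp [hf.add_left, Unitary.add_right hf, hf.smul_left, Unitary.smul_right hf, haa, hbb, hab,
      (Unitary.eq_zero_comm hf).mp hab]
  simp only [el, ← ap_smul, ← ap_add, ← conj_tr' hf hg haa, ← conj_tr' hf hg hbb,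
    ← conj_tr' hf hg h3]
  group

omit haa hbb hab

variable {F₀ : Subfield F} (hrat : ∀ u v, RatV F₀ u → RatV F₀ v → f u v ∈ F₀)
  (hσ : ∀ x, x ∈ F₀ → σ x ∈ F₀) {ω : F} (hω : ω ∈ F₀) (hω' : σ ω ≠ ω)

/-- The form on vectors over the subfield. -/
def f₀ (u v : ι → F₀) : F₀ := ⟨f (em u) (em v), hrat _ _ (SSubfld.ratV_em u) (SSubfld.ratV_em v)⟩

/-- The involution on the subfield. -/
def σ₀ (hf : IsSkewForm σ f) (hσ : ∀ x, x ∈ F₀ → σ x ∈ F₀) : F₀ ≃+* F₀ where
  toFun x := ⟨σ x, hσ x x.2⟩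
  invFun x := ⟨σ x, hσ x x.2⟩
  left_inv x := Subtype.ext (hf.involutive _)
  right_inv x := Subtype.ext (hf.involutive _)
  map_mul' x y := Subtype.ext (map_mul σ _ _)
  map_add' x y := Subtype.ext (map_add σ _ _)

@[simp] lemma coe_σ₀ (x : F₀) : (σ₀ hf hσ x : F) = σ x := rfl

include hω hω' in
lemma isSkew₀ : IsSkewForm (σ₀ hf hσ) (f₀ hrat) := by
  refine ⟨fun h => hω' ?_, fun x => Subtype.ext (hf.involutive _), fun x y v => Subtype.ext ?_,
    fun c x v => Subtype.ext ?_, fun u v => Subtype.ext ?_, fun v hv => ?_⟩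
  · exact congrArg Subtype.val (RingEquiv.congr_fun h ⟨ω, hω⟩)
  · simp [f₀, SSubfld.em_add, hf.add_left]
  · simp [f₀, SSubfld.em_smul, hf.smul_left]
  · simpa [f₀] using hf.skew (em u) (em v)
  · obtain ⟨z, hz⟩ := (hf.nondegenerate _ (SSubfld.em_ne_zero hv)).1
    obtain ⟨i, hi⟩ := LSubfld.exists_single_ne (φ := Unitary.fl hf (em v)) (fun h => hz (by
      have := LinearMap.congr_fun h z
      rwa [Unitary.fl_apply, LinearMap.zero_apply] at this))
    rw [← SSubfld.em_single (F₀ := F₀) i, Unitary.fl_apply] at hi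
    exact ⟨⟨Pi.single i 1, fun h => hi (congrArg Subtype.val h)⟩,
      ⟨Pi.single i 1, fun h => hi ((Unitary.eq_zero_comm hf).mp (congrArg Subtype.val h))⟩⟩

variable [Finite F]

section Geometry

variable (hn : 4 ≤ Fintype.card ι)
include hf hσ hω hω' hn


lemma exists_iso_ne_zero : ∃ u : ι → F₀, u ≠ 0 ∧ f₀ hrat u u = 0 := by
  obtain ⟨u, -, hu0, huu⟩ := Unitary.exists_isotropic (isSkew₀ hf hrat hσ hω hω') (S := ⊤) (fun x _ hx => by
    obtain ⟨⟨y, hy⟩, ⟨z, hz⟩⟩ := (isSkew₀ hf hrat hσ hω hω').nondegenerate x hx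
    exact ⟨⟨y, trivial, hy⟩, ⟨z, trivial, hz⟩⟩)
    (by rw [finrank_top, Module.finrank_fintype_fun_eq_card]; omega)
  exact ⟨u, hu0, huu⟩

/-- An isotropic partner of `a` orthogonal to `b`. -/
lemma exists_dual {a b : ι → F₀} (ha : a ∉ Submodule.span F₀ {b}) (haa : f₀ hrat a a = 0)
    (hab : f₀ hrat a b = 0) :
    ∃ x : ι → F₀, f₀ hrat x x = 0 ∧ f₀ hrat a x = 1 ∧ f₀ hrat x b = 0 := by
  obtain ⟨p, hp, hap⟩ := Unitary.exists_perp_ne (isSkew₀ hf hrat hσ hω hω') ha
  rw [Unitary.mem_perp_span (isSkew₀ hf hrat hσ hω hω')] at hp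
  have hpa : f₀ hrat p a ≠ 0 := fun h => hap ((Unitary.eq_zero_comm (isSkew₀ hf hrat hσ hω hω')).mp h)
  obtain ⟨l, hl⟩ := Unitary.exists_isotropic_shift (isSkew₀ hf hrat hσ hω hω') haa hpa
  have haz : f₀ hrat a (p + l • a) = f₀ hrat a p := by
    rw [Unitary.add_right (isSkew₀ hf hrat hσ hω hω'), Unitary.smul_right (isSkew₀ hf hrat hσ hω hω'), haa, mul_zero, add_zero]
  refine ⟨σ₀ hf hσ (f₀ hrat a p)⁻¹ • (p + l • a), Unitary.isotropic_smul (isSkew₀ hf hrat hσ hω hω') hl _, ?_, ?_⟩
  · rw [Unitary.smul_right (isSkew₀ hf hrat hσ hω hω'), (isSkew₀ hf hrat hσ hω hω').involutive, haz, inv_mul_cancel₀ hap]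
  · rw [(isSkew₀ hf hrat hσ hω hω').smul_left, (isSkew₀ hf hrat hσ hω hω').add_left, (isSkew₀ hf hrat hσ hω hω').smul_left, hp, hab]
    ring

/-- An isotropic vector orthogonal to a hyperbolic pair. -/
lemma exists_third {x y : ι → F₀} (hxx : f₀ hrat x x = 0) (hyy : f₀ hrat y y = 0)
    (hxy : f₀ hrat x y ≠ 0) :
    ∃ z w : ι → F₀, z ≠ 0 ∧ f₀ hrat z z = 0 ∧ f₀ hrat z x = 0 ∧ f₀ hrat z y = 0 ∧
      f₀ hrat w w = 0 ∧ f₀ hrat w x = 0 ∧ f₀ hrat w y = 0 ∧ f₀ hrat z w = -f₀ hrat x y := by
  set U := Submodule.span F₀ {x, y}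
  have hxU : x ∈ U := Submodule.subset_span (by simp)
  have hyU : y ∈ U := Submodule.subset_span (by simp)
  have hU : Cfsg.Geo.IsNondegenerateOn (f₀ hrat) U := by
    intro a ha ha0
    obtain ⟨s, t, rfl⟩ := Submodule.mem_span_pair.1 ha
    have hyx : f₀ hrat y x ≠ 0 := fun h => hxy ((Unitary.eq_zero_comm (isSkew₀ hf hrat hσ hω hω')).mp h)
    obtain ⟨w, hw, hne⟩ : ∃ w ∈ U, f₀ hrat (s • x + t • y) w ≠ 0 := by
      by_cases ht : t = 0
      · refine ⟨y, hyU, ?_⟩
        have hs : s ≠ 0 := fun h => ha0 (by simp [h, ht])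
        simpa [(isSkew₀ hf hrat hσ hω hω').add_left, (isSkew₀ hf hrat hσ hω hω').smul_left, hyy, ht] using mul_ne_zero hs hxy
      · exact ⟨x, hxU, by simpa [(isSkew₀ hf hrat hσ hω hω').add_left, (isSkew₀ hf hrat hσ hω hω').smul_left, hxx] using mul_ne_zero ht hyx⟩
    exact ⟨⟨w, hw, hne ∘ (Unitary.eq_zero_comm (isSkew₀ hf hrat hσ hω hω')).mp⟩, ⟨w, hw, hne⟩⟩
  have hdim : 2 ≤ Module.finrank F₀ (Unitary.perp (isSkew₀ hf hrat hσ hω hω') U) := by
    have h1 := Unitary.card_le_finrank_add_finrank_perp (isSkew₀ hf hrat hσ hω hω') U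
    have h2 : Module.finrank F₀ U ≤ 2 := by
      classical
      refine (finrank_span_le_card _).trans ?_
      simp [Set.toFinset_insert, Finset.card_le_two]
    omega
  have hP := Unitary.perp_nondegenerate (isSkew₀ hf hrat hσ hω hω') hU
  obtain ⟨z, hz, hz0, hzz⟩ := Unitary.exists_isotropic (isSkew₀ hf hrat hσ hω hω') hP hdim
  obtain ⟨p, hp, hzp⟩ := (hP z hz hz0).2
  have hpz : f₀ hrat p z ≠ 0 := fun h => hzp ((Unitary.eq_zero_comm (isSkew₀ hf hrat hσ hω hω')).mp h)
  obtain ⟨l, hl⟩ := Unitary.exists_isotropic_shift (isSkew₀ hf hrat hσ hω hω') hzz hpz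
  have hw : p + l • z ∈ Unitary.perp (isSkew₀ hf hrat hσ hω hω') U :=
    (Unitary.perp (isSkew₀ hf hrat hσ hω hω') U).add_mem hp ((Unitary.perp (isSkew₀ hf hrat hσ hω hω') U).smul_mem l hz)
  set k := σ₀ hf hσ (-f₀ hrat x y / f₀ hrat z p)
  refine ⟨z, k • (p + l • z), hz0, hzz, hz x hxU, hz y hyU, Unitary.isotropic_smul (isSkew₀ hf hrat hσ hω hω') hl _,
    ?_, ?_, ?_⟩
  · rw [(isSkew₀ hf hrat hσ hω hω').smul_left, hw x hxU, mul_zero]
  · rw [(isSkew₀ hf hrat hσ hω hω').smul_left, hw y hyU, mul_zero]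
  · rw [Unitary.smul_right (isSkew₀ hf hrat hσ hω hω'), (isSkew₀ hf hrat hσ hω hω').involutive, Unitary.add_right (isSkew₀ hf hrat hσ hω hω'), Unitary.smul_right (isSkew₀ hf hrat hσ hω hω'),
      hzz, mul_zero, add_zero, div_mul_cancel₀ _ hzp]

/-- Isotropic vectors over the subfield span. -/
lemma iso_induction {C : (ι → F₀) → Prop} (hiso : ∀ x, f₀ hrat x x = 0 → C x)
    (hadd : ∀ x y, C x → C y → C (x + y)) (x : ι → F₀) : C x := by
  obtain ⟨u, hu0, huu⟩ := exists_iso_ne_zero hf hrat hσ hω hω' hn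
  have one : ∀ x, f₀ hrat x u ≠ 0 → C x := by
    intro x hx
    obtain ⟨l, hl⟩ := Unitary.exists_isotropic_shift (isSkew₀ hf hrat hσ hω hω') huu hx
    have := hadd _ _ (hiso _ hl) (hiso ((-l) • u) (Unitary.isotropic_smul (isSkew₀ hf hrat hσ hω hω') huu _))
    convert this using 1
    module
  by_cases hx : f₀ hrat x u = 0
  · obtain ⟨⟨w, hw⟩, -⟩ := (isSkew₀ hf hrat hσ hω hω').nondegenerate u hu0
    have h1 := one (x + w) (by rwa [(isSkew₀ hf hrat hσ hω hω').add_left, hx, zero_add])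
    have h2 := one (-w) (by rwa [Unitary.neg_left (isSkew₀ hf hrat hσ hω hω'), neg_ne_zero])
    convert hadd _ _ h1 h2 using 1
    abel
  · exact one x hx

/-- Isotropic vectors over the subfield span the orthogonal of an isotropic vector. -/
lemma iso_induction_perp {u : ι → F₀} (hu0 : u ≠ 0) (huu : f₀ hrat u u = 0)
    {C : (ι → F₀) → Prop} (hiso : ∀ x, f₀ hrat x x = 0 → f₀ hrat x u = 0 → C x)
    (hadd : ∀ x y, C x → C y → C (x + y)) (x : ι → F₀) (hxu : f₀ hrat x u = 0) : C x := by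
  obtain ⟨u', hu'1, hu'2, -⟩ := exists_dual hf hrat hσ hω hω' hn (a := u) (b := 0)
    (by simpa using hu0) huu (Unitary.zero_right (isSkew₀ hf hrat hσ hω hω') u)
  obtain ⟨t, w, -, htt, htu, -, hww, hwu, -, htw⟩ := exists_third hf hrat hσ hω hω' hn huu hu'1
    (by rw [hu'2]; exact one_ne_zero)
  have one : ∀ x, f₀ hrat x u = 0 → f₀ hrat x t ≠ 0 → C x := by
    intro x hxu hx
    obtain ⟨l, hl⟩ := Unitary.exists_isotropic_shift (isSkew₀ hf hrat hσ hω hω') htt hx
    have := hadd _ _ (hiso _ hl (by rw [(isSkew₀ hf hrat hσ hω hω').add_left, (isSkew₀ hf hrat hσ hω hω').smul_left, hxu, htu]; ring))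
      (hiso ((-l) • t) (Unitary.isotropic_smul (isSkew₀ hf hrat hσ hω hω') htt _) (by rw [(isSkew₀ hf hrat hσ hω hω').smul_left, htu, mul_zero]))
    convert this using 1
    module
  by_cases hx : f₀ hrat x t = 0
  · have hwt : f₀ hrat w t ≠ 0 := fun h => by
      rw [(Unitary.eq_zero_comm (isSkew₀ hf hrat hσ hω hω')).mp h, hu'2] at htw
      exact neg_ne_zero.2 one_ne_zero htw.symm
    have h1 := one (x + w) (by rw [(isSkew₀ hf hrat hσ hω hω').add_left, hxu, hwu, add_zero])
      (by rwa [(isSkew₀ hf hrat hσ hω hω').add_left, hx, zero_add])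
    have h2 := one (-w) (by rw [Unitary.neg_left (isSkew₀ hf hrat hσ hω hω'), hwu, neg_zero])
      (by rwa [Unitary.neg_left (isSkew₀ hf hrat hσ hω hω'), neg_ne_zero])
    convert hadd _ _ h1 h2 using 1
    abel
  · exact one x hxu hx

end Geometry

variable {M : Subgroup (GL ι F)} (hMI : M ≤ isom f)
  (hM : ∀ (v : ι → F₀), f₀ hrat v v = 0 → ∀ c, c ∈ F₀ → σ c = c → tr' hf (em v) c ∈ M)

include hf hrat hω hω' hσ in
lemma exists_norm₀ {c : F} (hc : c ∈ F₀) (hσc : σ c = c) : ∃ t ∈ F₀, t * σ t = c := by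
  obtain ⟨ν, hν⟩ := Unitary.exists_norm (isSkew₀ hf hrat hσ hω hω') (c := ⟨c, hc⟩) (Subtype.ext hσc)
  exact ⟨ν, ν.2, congrArg Subtype.val hν⟩

/-- The multipliers of transvections at every isotropic vector over the subfield. -/
def lam : Submodule (F₀.comap (fixed σ).subtype) (fixed σ) where
  carrier := {μ | ∀ v : ι → F₀, f₀ hrat v v = 0 → tr' hf (em v) (μ : F) ∈ M}
  zero_mem' := fun v hv => by
    rw [ZeroMemClass.coe_zero]
    rw [tr'_zero hf (congrArg Subtype.val hv)]
    exact one_mem M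
  add_mem' := fun h1 h2 v hv => by
    rw [AddMemClass.coe_add, ← tr'_add hf (congrArg Subtype.val hv)]
    exact mul_mem (h1 v hv) (h2 v hv)
  smul_mem' := fun c μ hμ => by
    obtain ⟨t, ht, hN⟩ := exists_norm₀ hf hrat hσ hω hω' (c := ((c : fixed σ) : F)) c.2 (c : fixed σ).2
    intro v hv
    rw [Subfield.smul_def, smul_eq_mul, Subfield.coe_mul, ← hN,
      ← tr'_smul hf (congrArg Subtype.val hv), show t • em v = em ((⟨t, ht⟩ : F₀) • v) from rfl]
    exact hμ _ (Unitary.isotropic_smul (isSkew₀ hf hrat hσ hω hω') hv _)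


include hf hMI hM hω hω' hσ

lemma tr'_rat_mem {v : ι → F} (v₀ : ι → F₀) (hv : v = em v₀) (h0 : f₀ hrat v₀ v₀ = 0) {c : F}
    (hc : c ∈ F₀) (hσc : σ c = c) : tr' hf v c ∈ M := hv ▸ hM v₀ h0 c hc hσc

lemma el_rat_mem {p z s : F} (hp : p ∈ F₀) (hσp : σ p = p) (hz : z ∈ F₀) (hs : s ∈ F₀)
    (hσs : σ s = s) {a b : ι → F₀} (haa : f₀ hrat a a = 0) (hbb : f₀ hrat b b = 0)
    (hab : f₀ hrat a b = 0) : el hf p z s (em a) (em b) ∈ M := by
  have h3 : f₀ hrat (a + (⟨σ z, hσ z hz⟩ : F₀) • b) (a + (⟨σ z, hσ z hz⟩ : F₀) • b) = 0 := by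
    simp [(isSkew₀ hf hrat hσ hω hω').add_left, Unitary.add_right (isSkew₀ hf hrat hσ hω hω'), (isSkew₀ hf hrat hσ hω hω').smul_left, Unitary.smul_right (isSkew₀ hf hrat hσ hω hω'), haa,
      hbb, hab, (Unitary.eq_zero_comm (isSkew₀ hf hrat hσ hω hω')).mp hab]
  exact mul_mem (mul_mem (hM a haa _ (sub_mem hp (one_mem F₀)) (by rw [map_sub, hσp, map_one]))
    (hM b hbb _ (sub_mem hs (mul_mem hz (hσ z hz)))
      (by rw [map_sub, hσs, map_mul, hf.involutive, mul_comm])))
    (tr'_rat_mem hf hrat hσ hω hω' hMI hM (a + (⟨σ z, hσ z hz⟩ : F₀) • b)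
      (by rw [SSubfld.em_add, SSubfld.em_smul]) h3 (one_mem F₀) (map_one σ))

variable (hn : 4 ≤ Fintype.card ι)
include hn

/-- A commutator of a symmetric map with a shift `a ↦ a + t b`. -/
lemma shift_mem {a b : ι → F₀} (haa : f₀ hrat a a = 0) (hbb : f₀ hrat b b = 0)
    (hab : f₀ hrat a b = 0) (ha : a ∉ Submodule.span F₀ {b}) {p z s : F} (hσp : σ p = p)
    (h : el hf p z s (em a) (em b) ∈ M) {t : F} (ht : t ∈ F₀) :
    el hf 0 (p * σ t) (t * σ t * p + (t * z + σ (t * z))) (em a) (em b) ∈ M := by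
  obtain ⟨x, hxx, hax, hxb⟩ := exists_dual hf hrat hσ hω hω' hn ha haa hab
  set v := σ₀ hf hσ ⟨t, ht⟩ • x with hv
  have hvv : f₀ hrat v v = 0 := Unitary.isotropic_smul (isSkew₀ hf hrat hσ hω hω') hxx _
  have hvb : f₀ hrat v b = 0 := by rw [hv, (isSkew₀ hf hrat hσ hω hω').smul_left, hxb, mul_zero]
  have hav : f₀ hrat a v = ⟨t, ht⟩ := by
    rw [hv, Unitary.smul_right (isSkew₀ hf hrat hσ hω hω'), (isSkew₀ hf hrat hσ hω hω').involutive, hax, mul_one]
  have hbv : f₀ hrat (b + v) (b + v) = 0 := by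
    simp [(isSkew₀ hf hrat hσ hω hω').add_left, Unitary.add_right (isSkew₀ hf hrat hσ hω hω'), hbb, hvv, hvb,
      (Unitary.eq_zero_comm (isSkew₀ hf hrat hσ hω hω')).mp hvb]
  have hbb' : f (em b) (em b) = 0 := congrArg Subtype.val hbb
  have hvv' : f (em v) (em v) = 0 := congrArg Subtype.val hvv
  have haa' : f (em a) (em a) = 0 := congrArg Subtype.val haa
  have hab' : f (em a) (em b) = 0 := congrArg Subtype.val hab
  have hvb' : f (em v) (em b) = 0 := congrArg Subtype.val hvb
  have hbv' : f (em b + em v) (em b + em v) = 0 := congrArg Subtype.val hbv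
  have hav' : f (em a) (em v) = t := congrArg Subtype.val hav
  set g := tr' hf (em (b + v)) 1 * tr' hf (em b) (-1) * tr' hf (em v) (-1)
  have hg : g ∈ M := mul_mem (mul_mem (hM _ hbv 1 (one_mem F₀) (map_one σ))
    (hM b hbb _ (neg_mem (one_mem F₀)) (by simp))) (hM v hvv _ (neg_mem (one_mem F₀)) (by simp))
  have hgE : g = Unitary.E hf (em b) (em v) 0 hbb' hvb' := by
    rw [← Unitary.E_eq_T_mul hf hvv' hbv', ← tr'_eq hf hbv', ← tr'_eq hf hbb', ← tr'_eq hf hvv']
    rfl
  have hga : ap g (em a) = em a + t • em b := by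
    rw [hgE, Unitary.ap_E hf, hab', hav']
    module
  have hgb : ap g (em b) = em b := by
    rw [hgE, Unitary.ap_E hf, hbb', (Unitary.eq_zero_comm hf).mp hvb']
    module
  have h1 := mul_mem (mul_mem (mul_mem hg h) (inv_mem hg)) (inv_mem h)
  rw [conj_el hf haa' hbb' hab' (hMI hg), hga, hgb,
    (el_shift hf haa' hbb' hab' p z s t).resolve_right (not_not_intro hσp),
    el_inv hf haa' hbb' hab', el_mul hf haa' hbb' hab'] at h1
  convert h1 using 2 <;> ring

lemma mem_lam {μ : fixed σ} {v : ι → F₀} (hv : v ≠ 0) (hvv : f₀ hrat v v = 0)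
    (h : tr' hf (em v) (μ : F) ∈ M) : μ ∈ lam hf hrat hσ hω hω' (M := M) := by
  -- one step along a pair with form value in the fixed field
  have one : ∀ {x y : ι → F₀}, f₀ hrat x x = 0 → f₀ hrat y y = 0 → f₀ hrat x y = 1 →
      (tr' hf (em x) (μ : F) ∈ M ↔ tr' hf (em y) (μ : F) ∈ M) := by
    intro x y hxx hyy hxy
    have hyx : f₀ hrat y x = -1 := by rw [(isSkew₀ hf hrat hσ hω hω').skew, hxy, map_one]
    have hw : f₀ hrat (y - x) (y - x) = 0 := by
      simp [Unitary.sub_left (isSkew₀ hf hrat hσ hω hω'), Unitary.sub_right (isSkew₀ hf hrat hσ hω hω'),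
        hxx, hyy, hxy, hyx]
    have hg := hM _ hw 1 (one_mem F₀) (map_one σ)
    have hxx' : f (em x) (em x) = 0 := congrArg Subtype.val hxx
    have hw' : f (em (y - x)) (em (y - x)) = 0 := congrArg Subtype.val hw
    have hgx : ap (tr' hf (em (y - x)) 1) (em x) = em y := by
      rw [ap_tr' hf hw', SSubfld.em_sub, Unitary.sub_right hf,
        show f (em x) (em y) = 1 from congrArg Subtype.val hxy, hxx', sub_zero, one_mul, one_smul,
        add_sub_cancel]
    rw [← hgx, ← conj_tr' hf (hMI hg) hxx']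
    exact ⟨fun h => mul_mem (mul_mem hg h) (inv_mem hg), fun h => by
      have := mul_mem (mul_mem (inv_mem hg) h) hg
      simpa [mul_assoc] using this⟩
  -- orthogonal vectors
  have orth : ∀ {x y : ι → F₀}, f₀ hrat x x = 0 → f₀ hrat y y = 0 → f₀ hrat x y = 0 →
      y ≠ 0 → x ∉ Submodule.span F₀ {y} → tr' hf (em x) (μ : F) ∈ M →
      tr' hf (em y) (μ : F) ∈ M := by
    intro x y hxx hyy hxy hy0 hxs hx
    obtain ⟨x', -, hxx'1, hx'y⟩ := exists_dual hf hrat hσ hω hω' hn hxs hxx hxy
    obtain ⟨y', -, hyy'1, hy'x⟩ := exists_dual hf hrat hσ hω hω' hn (a := y) (b := x) (fun h => by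
      obtain ⟨c, hc⟩ := Submodule.mem_span_singleton.1 h
      have hc0 : c ≠ 0 := fun e => hy0 (by rw [← hc, e, zero_smul])
      exact hxs (Submodule.mem_span_singleton.2 ⟨c⁻¹, by
        rw [← hc, smul_smul, inv_mul_cancel₀ hc0, one_smul]⟩))
      hyy ((Unitary.eq_zero_comm (isSkew₀ hf hrat hσ hω hω')).mp hxy)
    have hyx := (Unitary.eq_zero_comm (isSkew₀ hf hrat hσ hω hω')).mp hxy
    have hxy' : f₀ hrat x y' = 0 := (Unitary.eq_zero_comm (isSkew₀ hf hrat hσ hω hω')).mp hy'x
    have hyx' : f₀ hrat y x' = 0 := (Unitary.eq_zero_comm (isSkew₀ hf hrat hσ hω hω')).mp hx'y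
    have hx'x : f₀ hrat x' x = -1 := by rw [(isSkew₀ hf hrat hσ hω hω').skew, hxx'1, map_one]
    obtain ⟨l, hl⟩ := Unitary.exists_isotropic_shift (isSkew₀ hf hrat hσ hω hω') hxx
      (p := x' - y') (by rw [Unitary.sub_left (isSkew₀ hf hrat hσ hω hω'), hx'x, hy'x]; simp)
    set z := x' - y' + l • x
    have hxz : f₀ hrat x z = 1 := by
      simp [z, Unitary.add_right (isSkew₀ hf hrat hσ hω hω'), Unitary.sub_right (isSkew₀ hf hrat hσ hω hω'),
        Unitary.smul_right (isSkew₀ hf hrat hσ hω hω'), hxx, hxy', hxx'1]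
    have hyz : f₀ hrat y z = -1 := by
      simp [z, Unitary.add_right (isSkew₀ hf hrat hσ hω hω'), Unitary.sub_right (isSkew₀ hf hrat hσ hω hω'),
        Unitary.smul_right (isSkew₀ hf hrat hσ hω hω'), hyx, hyx', hyy'1]
    have hzy : f₀ hrat z y = 1 := by rw [(isSkew₀ hf hrat hσ hω hω').skew, hyz]; simp
    exact (one hl hyy hzy).1 ((one hxx hl hxz).1 hx)
  intro w hww
  by_cases hw : w = 0
  · rw [hw, SSubfld.em_zero, show tr' hf (0 : ι → F) (μ : F) = 1 from gl_ext fun x => by
      rw [ap_tr' hf (Unitary.zero_left hf 0)]; simp]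
    exact one_mem M
  by_cases hvw : f₀ hrat v w = 0
  · by_cases hs : v ∈ Submodule.span F₀ {w}
    · obtain ⟨v', hv'1, hv'2, -⟩ := exists_dual hf hrat hσ hω hω' hn (a := v) (b := 0)
        (by simpa using hv) hvv (Unitary.zero_right (isSkew₀ hf hrat hσ hω hω') v)
      obtain ⟨z, -, hz0, hzz, hzv, hzv', -⟩ := exists_third hf hrat hσ hω hω' hn hvv hv'1
        (by rw [hv'2]; exact one_ne_zero)
      obtain ⟨c, hc⟩ := Submodule.mem_span_singleton.1 hs
      have hc0 : c ≠ 0 := fun e => hv (by rw [← hc, e, zero_smul])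
      have hwv : w = c⁻¹ • v := by rw [← hc, smul_smul, inv_mul_cancel₀ hc0, one_smul]
      have hzw : f₀ hrat z w = 0 := by
        rw [hwv, Unitary.smul_right (isSkew₀ hf hrat hσ hω hω'), hzv, mul_zero]
      have hv'' : f₀ hrat v v' ≠ 0 := by rw [hv'2]; exact one_ne_zero
      refine orth hzz hww hzw hw ?_ (orth hvv hzz
        ((Unitary.eq_zero_comm (isSkew₀ hf hrat hσ hω hω')).mp hzv) hz0 ?_ h)
      · intro e
        obtain ⟨d, hd⟩ := Submodule.mem_span_singleton.1 e
        rw [← hd, hwv, smul_smul, (isSkew₀ hf hrat hσ hω hω').smul_left, mul_eq_zero] at hzv'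
        rcases hzv' with h' | h'
        · exact hz0 (by rw [← hd, hwv, smul_smul, h', zero_smul])
        · exact hv'' h'
      · intro e
        obtain ⟨d, hd⟩ := Submodule.mem_span_singleton.1 e
        rw [← hd, (isSkew₀ hf hrat hσ hω hω').smul_left, hzv', mul_zero] at hv''
        exact hv'' rfl
    · exact orth hvv hww hvw hw hs h
  · obtain ⟨z, -, hz0, hzz, hzv, hzw, -⟩ := exists_third hf hrat hσ hω hω' hn hvv hww hvw
    refine orth hzz hww hzw hw ?_ (orth hvv hzz
      ((Unitary.eq_zero_comm (isSkew₀ hf hrat hσ hω hω')).mp hzv) hz0 ?_ h)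
    · intro e
      obtain ⟨d, hd⟩ := Submodule.mem_span_singleton.1 e
      rw [← hd, (isSkew₀ hf hrat hσ hω hω').smul_left, mul_eq_zero] at hzv
      rcases hzv with h' | h'
      · exact hz0 (by rw [← hd, h', zero_smul])
      · exact hvw ((Unitary.eq_zero_comm (isSkew₀ hf hrat hσ hω hω')).mp h')
    · intro e
      obtain ⟨d, hd⟩ := Submodule.mem_span_singleton.1 e
      apply hvw
      rw [← hd, (isSkew₀ hf hrat hσ hω hω').smul_left, hzw, mul_zero]

variable {r : ℕ} (hr : r.Prime) (hr2 : r ≠ 2)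
  (hcard : Nat.card (fixed σ) = Nat.card (F₀.comap (fixed σ).subtype) ^ r)

include hr hcard in
/-- Either every multiplier occurs or none outside the subfield. -/
lemma lam_cases (hne : lam hf hrat hσ hω hω' (M := M) ≠ ⊤) :
    ∀ μ ∈ lam hf hrat hσ hω hω' (M := M), ((μ : fixed σ) : F) ∈ F₀ := by
  intro μ hμ
  by_contra hμF
  obtain ⟨e, he0, hee₀⟩ := exists_iso_ne_zero hf hrat hσ hω hω' hn
  obtain ⟨u, huu₀, heu₀, -⟩ := exists_dual hf hrat hσ hω hω' hn (a := e) (b := 0)
    (by simpa using he0) hee₀ (Unitary.zero_right (isSkew₀ hf hrat hσ hω hω') e)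
  have hee : f (em e) (em e) = 0 := congrArg Subtype.val hee₀
  have huu : f (em u) (em u) = 0 := congrArg Subtype.val huu₀
  have heu : f (em e) (em u) = 1 := congrArg Subtype.val heu₀
  have hue : f (em u) (em e) = -1 := by rw [hf.skew, heu, map_one]
  set W := Submodule.span F {em e, em u}
  have heW : em e ∈ W := Submodule.subset_span (by simp)
  have huW : em u ∈ W := Submodule.subset_span (by simp)
  let Lift : SL(2, fixed σ) → GL ι F → Prop := fun s h =>
    (∀ z, ap h z - z ∈ W) ∧ ap h (em e) = (s.1 0 0 : F) • em e + (s.1 1 0 : F) • em u ∧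
      ap h (em u) = (s.1 0 1 : F) • em e + (s.1 1 1 : F) • em u
  let S : Submonoid SL(2, fixed σ) :=
    { carrier := {s | ∃ h ∈ M, Lift s h}
      one_mem' := ⟨1, one_mem M, fun x => by simp, by simp, by simp⟩
      mul_mem' := by
        rintro s t ⟨g, hg, g1, g2, g3⟩ ⟨h, hh, h1, h2, h3⟩
        refine ⟨g * h, mul_mem hg hh, fun x => ?_, ?_, ?_⟩
        · rw [ap_mul, ← sub_add_sub_cancel (ap g (ap h x)) (ap h x) x]
          exact W.add_mem (g1 _) (h1 x)
        · rw [ap_mul, h2, ap_add, ap_smul, ap_smul, g2, g3]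
          simp only [Matrix.SpecialLinearGroup.coe_mul, Matrix.mul_apply, Fin.sum_univ_two,
            Subfield.coe_add, Subfield.coe_mul]
          module
        · rw [ap_mul, h3, ap_add, ap_smul, ap_smul, g2, g3]
          simp only [Matrix.SpecialLinearGroup.coe_mul, Matrix.mul_apply, Fin.sum_univ_two,
            Subfield.coe_add, Subfield.coe_mul]
          module }
  let G : Subgroup SL(2, fixed σ) :=
    { S with
      inv_mem' := fun {s} hs => by
        have e : s⁻¹ = s ^ (orderOf s - 1) := by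
          refine inv_eq_of_mul_eq_one_right ?_
          rw [← pow_succ', Nat.sub_add_cancel (orderOf_pos s), pow_orderOf_eq_one]
        show s⁻¹ ∈ S
        rw [e]
        exact S.pow_mem hs _ }
  have h1 : (1 : fixed σ) ∈ lam hf hrat hσ hω hω' (M := M) := fun v hv => by
    rw [OneMemClass.coe_one]; exact hM v hv 1 (one_mem F₀) (map_one σ)
  obtain ⟨y, hy, h, hh, hW, hhe, hhu⟩ := exists_upS_notMem (G := G) hr hcard
    (lam hf hrat hσ hω hω' (M := M)) hne h1 hμ
    (fun p q hpq => by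
      have hpq' : ((p : fixed σ) : F) + ((q : fixed σ) : F) * (μ : F) = 0 := by
        simpa using congrArg Subtype.val hpq
      by_cases hq : q = 0
      · subst hq
        simp at hpq'
        exact ⟨hpq', rfl⟩
      · exfalso
        apply hμF
        have hq' : ((q : fixed σ) : F) ≠ 0 := fun h => hq (Subtype.ext (Subtype.ext h))
        rw [show (μ : F) = -((p : fixed σ) : F) / ((q : fixed σ) : F) by
          field_simp; linear_combination hpq']
        exact div_mem (neg_mem p.2) q.2)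
    (fun c hc => ⟨tr' hf (em e) (-(c : F)), by
        have := neg_mem hc e hee₀
        rwa [NegMemClass.coe_neg] at this, fun z => by
        rw [ap_tr' hf hee]; simp [W.smul_mem _ heW],
      by simp [ap_tr' hf hee, hee, CfsgLib.ClassicalLinear.upS_coe],
      by simp [ap_tr' hf hee, hue, CfsgLib.ClassicalLinear.upS_coe]; module⟩)
    one_ne_zero
    ⟨tr' hf (em u) 1, hM u huu₀ 1 (one_mem F₀) (map_one σ), fun z => by
        rw [ap_tr' hf huu]; simp [W.smul_mem _ huW],
      by simp [ap_tr' hf huu, heu, CfsgLib.SL2.Dickson.lowS_coe],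
      by simp [ap_tr' hf huu, huu, CfsgLib.SL2.Dickson.lowS_coe]⟩
  simp only [CfsgLib.ClassicalLinear.upS_coe, Matrix.of_apply, Matrix.cons_val',
    Matrix.cons_val_zero, Matrix.cons_val_one, Matrix.cons_val_fin_one, OneMemClass.coe_one,
    ZeroMemClass.coe_zero, one_smul, zero_smul, add_zero] at hhe hhu
  -- the lift is a transvection
  have hσy : σ (y : F) = y := y.2
  have hT : h = tr' hf (em e) (-(y : F)) := by
    apply gl_ext
    intro z
    obtain ⟨a, b, hab⟩ := Submodule.mem_span_pair.1 (hW z)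
    have hhz : ap h z = z + a • em e + b • em u := by
      rw [add_assoc, hab, add_sub_cancel]
    have h2 := (mem_isom_iff.1 (hMI hh)) z (em e)
    rw [hhe, hhz] at h2
    simp only [hf.add_left, hf.smul_left, hee, hue] at h2
    have hb : b = 0 := by linear_combination -h2
    have h3 := (mem_isom_iff.1 (hMI hh)) z (em u)
    rw [hhu, hhz, hb, zero_smul, add_zero] at h3
    simp only [hf.add_left, Unitary.add_right hf, hf.smul_left, Unitary.smul_right hf, hee, heu,
      hσy] at h3
    rw [hhz, ap_tr' hf hee, hb, zero_smul, add_zero]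
    congr 2
    linear_combination h3
  apply hy
  have := mem_lam hf hrat hσ hω hω' hMI hM hn (μ := -y) he0 hee₀
    (by rw [NegMemClass.coe_neg]; exact hT ▸ hh)
  simpa using neg_mem this

variable (hΛ : ∀ μ ∈ lam hf hrat hσ hω hω' (M := M), ((μ : fixed σ) : F) ∈ F₀)
include hΛ

omit hMI hM hn hΛ [Finite F] in
/-- Two trace values determine a coefficient. -/
lemma mem_of_traces {X Y : F} (h1 : X + Y ∈ F₀) (h2 : ω * X + σ ω * Y ∈ F₀) : X ∈ F₀ ∧ Y ∈ F₀ := by
  have hne : σ ω - ω ≠ 0 := sub_ne_zero.2 hω'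
  have hY : Y ∈ F₀ := by
    rw [show Y = (ω * X + σ ω * Y - ω * (X + Y)) / (σ ω - ω) by field_simp; ring]
    exact div_mem (sub_mem h2 (mul_mem hω h1)) (sub_mem (hσ _ hω) hω)
  exact ⟨by simpa using sub_mem h1 hY, hY⟩

/-- The coefficients of hermitian maps of orthogonal pairs lie in the subfield. -/
lemma el_coeff {a b : ι → F₀} (haa : f₀ hrat a a = 0) (hbb : f₀ hrat b b = 0)
    (hab : f₀ hrat a b = 0) (ha : a ∉ Submodule.span F₀ {b}) (hb : b ≠ 0) {p z s : F}
    (hσp : σ p = p) (hσs : σ s = s) (h : el hf p z s (em a) (em b) ∈ M) :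
    p ∈ F₀ ∧ z ∈ F₀ ∧ s ∈ F₀ := by
  obtain ⟨θ₀, hθ₀⟩ := Unitary.exists_trace (isSkew₀ hf hrat hσ hω hω')
  have hθ : (θ₀ : F) + σ θ₀ = 1 := congrArg Subtype.val hθ₀
  have first : ∀ {a b : ι → F₀} {p z s : F}, f₀ hrat a a = 0 → f₀ hrat b b = 0 →
      f₀ hrat a b = 0 → a ∉ Submodule.span F₀ {b} → b ≠ 0 → σ p = p →
      el hf p z s (em a) (em b) ∈ M → p ∈ F₀ := by
    intro a b p z s haa hbb hab ha hb hσp h
    have hbb' : f (em b) (em b) = 0 := congrArg Subtype.val hbb
    have haa' : f (em a) (em a) = 0 := congrArg Subtype.val haa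
    have hab' : f (em a) (em b) = 0 := congrArg Subtype.val hab
    have h1 := shift_mem hf hrat hσ hω hω' hMI hM hn haa hbb hab ha hσp h (t := 1) (one_mem F₀)
    have h2 := shift_mem hf hrat hσ hω hω' hMI hM hn haa hbb hab ha hσp h (t := θ₀) θ₀.2
    have h3 := shift_mem hf hrat hσ hω hω' hMI hM hn haa hbb hab ha hσp h (t := 1 + θ₀)
      (add_mem (one_mem F₀) θ₀.2)
    have h4 := mul_mem h3 (inv_mem (mul_mem h1 h2))
    rw [el_mul hf haa' hbb' hab', el_inv hf haa' hbb' hab', el_mul hf haa' hbb' hab'] at h4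
    have h5 : tr' hf (em b) p ∈ M := by
      rw [← el_right hf haa' hbb' hab']
      convert h4 using 2
      · ring
      · simp only [map_add, map_one]; ring
      · simp only [map_add, map_mul, map_one]
        linear_combination (-p) * hθ
    exact hΛ ⟨p, hσp⟩ (mem_lam hf hrat hσ hω hω' hMI hM hn hb hbb h5)
  have haa' : f (em a) (em a) = 0 := congrArg Subtype.val haa
  have hbb' : f (em b) (em b) = 0 := congrArg Subtype.val hbb
  have hab' : f (em a) (em b) = 0 := congrArg Subtype.val hab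
  have hp : p ∈ F₀ := first haa hbb hab ha hb hσp h
  have hs : s ∈ F₀ := by
    refine first hbb haa ((Unitary.eq_zero_comm (isSkew₀ hf hrat hσ hω hω')).mp hab) ?_ ?_ hσs
      (by rw [← el_swap hf haa' hbb' hab']; exact h)
    · intro e
      obtain ⟨t, ht⟩ := Submodule.mem_span_singleton.1 e
      have ht0 : t ≠ 0 := fun e0 => hb (by rw [← ht, e0, zero_smul])
      exact ha (Submodule.mem_span_singleton.2 ⟨t⁻¹, by
        rw [← ht, smul_smul, inv_mul_cancel₀ ht0, one_smul]⟩)
    · exact fun e => ha (e ▸ zero_mem _)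
  refine ⟨hp, ?_, hs⟩
  have h0 : el hf 0 z 0 (em a) (em b) ∈ M := by
    have := mul_mem h (el_rat_mem hf hrat hσ hω hω' hMI hM (p := -p) (z := 0) (s := -s)
      (neg_mem hp) (by rw [map_neg, hσp]) (zero_mem F₀) (neg_mem hs) (by rw [map_neg, hσs])
      haa hbb hab)
    rw [el_mul hf haa' hbb' hab'] at this
    convert this using 2 <;> simp
  have tr : ∀ t ∈ F₀, t * z + σ (t * z) ∈ F₀ := by
    intro t ht
    have h1 := shift_mem hf hrat hσ hω hω' hMI hM hn haa hbb hab ha (map_zero σ) h0 ht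
    have h2 : tr' hf (em b) (t * z + σ (t * z)) ∈ M := by
      rw [← el_right hf haa' hbb' hab']
      convert h1 using 2 <;> ring
    exact hΛ ⟨_, show σ (t * z + σ (t * z)) = _ by rw [map_add, hf.involutive, add_comm]⟩
      (mem_lam hf hrat hσ hω hω' hMI hM hn hb hbb h2)
  have e1 := tr 1 (one_mem F₀)
  have e2 := tr ω hω
  rw [one_mul] at e1
  rw [map_mul] at e2
  exact (mem_of_traces hf hσ hω hω' e1 e2).1

/-- Centres of transvections in an isotropic plane over the subfield are over it. -/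
lemma plane_coeff {a b : ι → F₀} (haa : f₀ hrat a a = 0) (hbb : f₀ hrat b b = 0)
    (hab : f₀ hrat a b = 0) (ha : a ∉ Submodule.span F₀ {b}) (hb : b ≠ 0) {α β : F}
    (h : tr' hf (α • em a + β • em b) 1 ∈ M) :
    α * σ α ∈ F₀ ∧ α * σ β ∈ F₀ ∧ β * σ β ∈ F₀ := by
  have haa' : f (em a) (em a) = 0 := congrArg Subtype.val haa
  have hbb' : f (em b) (em b) = 0 := congrArg Subtype.val hbb
  have hab' : f (em a) (em b) = 0 := congrArg Subtype.val hab
  have hy : f (α • em a + β • em b) (α • em a + β • em b) = 0 := by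
    simp [hf.add_left, Unitary.add_right hf, hf.smul_left, Unitary.smul_right hf, haa', hbb', hab',
      (Unitary.eq_zero_comm hf).mp hab']
  refine el_coeff hf hrat hσ hω hω' hMI hM hn hΛ haa hbb hab ha hb ?_ ?_ ?_
  · rw [map_mul, hf.involutive, mul_comm]
  · rw [map_mul, hf.involutive, mul_comm]
  convert h using 1
  apply gl_ext
  intro z
  rw [ap_el hf haa' hbb' hab', ap_tr' hf hy, Unitary.add_right hf, Unitary.smul_right hf,
    Unitary.smul_right hf, map_mul, hf.involutive]
  module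

include hr hr2 hcard

/-- If no multiplier outside the subfield occurs, transvection centres are over it. -/
lemma centre_lineRat {v : ι → F} (hvv : f v v = 0) (hT : tr' hf v 1 ∈ M) :
    ∃ (c : F) (x : ι → F₀), v = c • em x := by
  classical
  by_contra hline
  push Not at hline
  -- an orthogonal pair with independent values
  obtain ⟨a, b, haa, hbb, hab, hA, hBA⟩ : ∃ a b : ι → F₀, f₀ hrat a a = 0 ∧ f₀ hrat b b = 0 ∧
      f₀ hrat a b = 0 ∧ f v (em a) ≠ 0 ∧ f v (em b) / f v (em a) ∉ F₀ := by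
    by_contra hc
    push Not at hc
    obtain ⟨a, haa, ha⟩ : ∃ a : ι → F₀, f₀ hrat a a = 0 ∧ f v (em a) ≠ 0 := by
      by_contra h
      push Not at h
      have hall : ∀ x : ι → F₀, f v (em x) = 0 :=
        iso_induction hf hrat hσ hω hω' hn (C := fun x => f v (em x) = 0) h
          (fun x y hx hy => by rw [SSubfld.em_add, Unitary.add_right hf, hx, hy, add_zero])
      apply hline 0 0
      rw [zero_smul]
      by_contra hv0
      obtain ⟨z, hz⟩ := (hf.nondegenerate v hv0).1
      obtain ⟨i, hi⟩ := LSubfld.exists_single_ne (φ := Unitary.fl hf v) (fun e => hz (by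
        have := LinearMap.congr_fun e z
        rwa [Unitary.fl_apply, LinearMap.zero_apply] at this))
      rw [Unitary.fl_apply, ← SSubfld.em_single (F₀ := F₀) i] at hi
      exact hi ((Unitary.eq_zero_comm hf).mp (hall _))
    set A := f v (em a)
    have hiso : ∀ b : ι → F₀, f₀ hrat b b = 0 → f v (em b) / A ∈ F₀ := by
      intro b hbb
      by_cases hab : f₀ hrat a b = 0
      · exact hc a b haa hbb hab ha
      obtain ⟨z, w, -, hzz, hza, hzb, hww, hwa, hwb, hzw⟩ :=
        exists_third hf hrat hσ hω hω' hn haa hbb hab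
      have haz := (Unitary.eq_zero_comm (isSkew₀ hf hrat hσ hω hω')).mp hza
      have haw := (Unitary.eq_zero_comm (isSkew₀ hf hrat hσ hω hω')).mp hwa
      have hbw := (Unitary.eq_zero_comm (isSkew₀ hf hrat hσ hω hω')).mp hwb
      by_cases hz : f v (em z) = 0
      · by_cases hw : f v (em w) = 0
        · have h1 := hc (a + z) (b + w)
            (by simp [(isSkew₀ hf hrat hσ hω hω').add_left, Unitary.add_right (isSkew₀ hf hrat hσ hω hω'), haa, hzz, hza, haz])
            (by simp [(isSkew₀ hf hrat hσ hω hω').add_left, Unitary.add_right (isSkew₀ hf hrat hσ hω hω'), hbb, hww, hwb, hbw])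
            (by simp [(isSkew₀ hf hrat hσ hω hω').add_left, Unitary.add_right (isSkew₀ hf hrat hσ hω hω'), haw, hzb, hzw])
            (by rw [SSubfld.em_add, Unitary.add_right hf, hz, add_zero]; exact ha)
          rwa [SSubfld.em_add, SSubfld.em_add, Unitary.add_right hf, Unitary.add_right hf, hz, hw,
            add_zero, add_zero] at h1
        · have := mul_mem (hc w b hww hbb hwb hw) (hc a w haa hww haw ha)
          rwa [div_mul_div_cancel₀ hw] at this
      · have := mul_mem (hc z b hzz hbb hzb hz) (hc a z haa hzz haz ha)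
        rwa [div_mul_div_cancel₀ hz] at this
    have hall : ∀ x : ι → F₀, f v (em x) / A ∈ F₀ :=
      iso_induction hf hrat hσ hω hω' hn (C := fun x => f v (em x) / A ∈ F₀) hiso
        (fun x y hx hy => by
          rw [SSubfld.em_add, Unitary.add_right hf, add_div]; exact add_mem hx hy)
    let ψ : (ι → F₀) →ₗ[F₀] F₀ :=
      { toFun := fun z => σ₀ hf hσ ⟨f v (em z) / A, hall z⟩
        map_add' := fun z w => Subtype.ext (by
          simp [SSubfld.em_add, Unitary.add_right hf, add_div])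
        map_smul' := fun c z => Subtype.ext (by
          simp [SSubfld.em_smul, Unitary.smul_right hf, hf.involutive]; ring) }
    obtain ⟨x, hx⟩ := Unitary.exists_eq_fl (isSkew₀ hf hrat hσ hω hω') ψ
    apply hline (-A) x
    rw [← sub_eq_zero]
    by_contra hne
    obtain ⟨z, hz⟩ := (hf.nondegenerate _ hne).1
    obtain ⟨i, hi⟩ := LSubfld.exists_single_ne (φ := Unitary.fl hf (v - -A • em x)) (fun e => hz (by
      have := LinearMap.congr_fun e z
      rwa [Unitary.fl_apply, LinearMap.zero_apply] at this))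
    rw [Unitary.fl_apply, ← SSubfld.em_single (F₀ := F₀) i] at hi
    apply hi
    have h1 : f (em (Pi.single i (1 : F₀))) (em x) = σ (f v (em (Pi.single i 1)) / A) :=
      congrArg Subtype.val (LinearMap.congr_fun hx (Pi.single i 1))
    have h2 : f (em (Pi.single i (1 : F₀))) v = -σ (f v (em (Pi.single i 1))) := hf.skew _ _
    have hA' : σ A ≠ 0 := by simpa using ha
    rw [Unitary.sub_right hf, Unitary.smul_right hf, h1, h2, map_div₀, map_neg]
    field_simp
    ring
  set A := f v (em a) with hAdef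
  set B := f v (em b) with hBdef
  have haa' : f (em a) (em a) = 0 := congrArg Subtype.val haa
  have hbb' : f (em b) (em b) = 0 := congrArg Subtype.val hbb
  have hab' : f (em a) (em b) = 0 := congrArg Subtype.val hab
  have hba' := (Unitary.eq_zero_comm hf).mp hab'
  have hsA : σ A ≠ 0 := by simpa using hA
  have hb : b ≠ 0 := fun e => hBA (by
    rw [hBdef, e, SSubfld.em_zero, Unitary.zero_right hf, zero_div]; exact zero_mem F₀)
  have ha : a ∉ Submodule.span F₀ {b} := by
    intro e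
    obtain ⟨t, ht⟩ := Submodule.mem_span_singleton.1 e
    have e1 : A = σ t * B := by rw [hAdef, hBdef, ← ht, SSubfld.em_smul, Unitary.smul_right hf]
    have hB0 : B ≠ 0 := fun h => hA (by rw [e1, h, mul_zero])
    apply hBA
    rw [e1, div_mul_cancel_right₀ hB0]
    exact inv_mem (hσ _ t.2)
  set r₀ := σ B • em a - σ A • em b with hr₀
  set R := Submodule.span F {r₀}
  set w := (σ A)⁻¹ • em a with hw
  have hvr : f r₀ v = 0 := by
    rw [hr₀, Unitary.sub_left hf, hf.smul_left, hf.smul_left, hf.skew _ v, hf.skew (em b) v]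
    ring
  have hwv : f w v = -1 := by
    rw [hw, hf.smul_left, hf.skew _ v, mul_neg, inv_mul_cancel₀ hsA]
  let Lift : SL(2, fixed σ) → GL ι F → Prop := fun s h =>
    ap h r₀ = r₀ ∧ ap h w - ((s.1 0 0 : F) • w + (s.1 1 0 : F) • v) ∈ R ∧
      ap h v - ((s.1 0 1 : F) • w + (s.1 1 1 : F) • v) ∈ R
  have hfixR : ∀ (g : GL ι F), ap g r₀ = r₀ → ∀ x ∈ R, ap g x = x := by
    intro g hg x hx
    obtain ⟨c, rfl⟩ := Submodule.mem_span_singleton.1 hx
    rw [ap_smul, hg]
  let S : Submonoid SL(2, fixed σ) :=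
    { carrier := {s | ∃ h ∈ M, Lift s h}
      one_mem' := ⟨1, one_mem M, by simp, by simp, by simp⟩
      mul_mem' := by
        rintro s t ⟨g, hg, g1, g2, g3⟩ ⟨h, hh, h1, h2, h3⟩
        refine ⟨g * h, mul_mem hg hh, by rw [ap_mul, h1, g1], ?_, ?_⟩
        · have e := R.add_mem (R.add_mem ((hfixR g g1 _ h2).symm ▸ h2)
            (R.smul_mem (t.1 0 0 : F) g2)) (R.smul_mem (t.1 1 0 : F) g3)
          convert e using 1
          simp only [ap_mul, ap_sub, ap_add, ap_smul, Matrix.SpecialLinearGroup.coe_mul,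
            Matrix.mul_apply, Fin.sum_univ_two, Subfield.coe_add, Subfield.coe_mul]
          module
        · have e := R.add_mem (R.add_mem ((hfixR g g1 _ h3).symm ▸ h3)
            (R.smul_mem (t.1 0 1 : F) g2)) (R.smul_mem (t.1 1 1 : F) g3)
          convert e using 1
          simp only [ap_mul, ap_sub, ap_add, ap_smul, Matrix.SpecialLinearGroup.coe_mul,
            Matrix.mul_apply, Fin.sum_univ_two, Subfield.coe_add, Subfield.coe_mul]
          module }
  let G : Subgroup SL(2, fixed σ) :=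
    { S with
      inv_mem' := fun {s} hs => by
        have e : s⁻¹ = s ^ (orderOf s - 1) := by
          refine inv_eq_of_mul_eq_one_right ?_
          rw [← pow_succ', Nat.sub_add_cancel (orderOf_pos s), pow_orderOf_eq_one]
        show s⁻¹ ∈ S
        rw [e]
        exact S.pow_mem hs _ }
  -- translations from the hermitian maps
  let V : Submodule (F₀.comap (fixed σ).subtype) (fixed σ) :=
    { carrier := {x | ∃ p z s : F, p ∈ F₀ ∧ σ p = p ∧ z ∈ F₀ ∧ s ∈ F₀ ∧ σ s = s ∧
        (x : F) = p * (A * σ A) + (z * (B * σ A) + σ (z * (B * σ A))) + s * (B * σ B)}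
      zero_mem' := ⟨0, 0, 0, zero_mem F₀, map_zero σ, zero_mem F₀, zero_mem F₀, map_zero σ, by simp⟩
      add_mem' := by
        rintro x y ⟨p, z, s, hp, hp', hz, hs, hs', hx⟩ ⟨p', z', s', gp, gp', gz, gs, gs', hy⟩
        exact ⟨p + p', z + z', s + s', add_mem hp gp, by rw [map_add, hp', gp'], add_mem hz gz,
          add_mem hs gs, by rw [map_add, hs', gs'], by
            rw [Subfield.coe_add, hx, hy]; simp only [add_mul, map_add]; ring⟩
      smul_mem' := by
        rintro c x ⟨p, z, s, hp, hp', hz, hs, hs', hx⟩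
        have hc : ((c : fixed σ) : F) ∈ F₀ := c.2
        have hc' : σ ((c : fixed σ) : F) = ((c : fixed σ) : F) := (c : fixed σ).2
        exact ⟨(c : fixed σ) * p, (c : fixed σ) * z, (c : fixed σ) * s, mul_mem hc hp,
          by rw [map_mul, hc', hp'], mul_mem hc hz, mul_mem hc hs, by rw [map_mul, hc', hs'], by
            rw [Subfield.smul_def, smul_eq_mul, Subfield.coe_mul, hx]
            simp only [map_mul, hc']; ring⟩ }
  have hVG : ∀ x ∈ V, CfsgLib.ClassicalLinear.upS x ∈ G := by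
    rintro x ⟨p, z, s, hp, hp', hz, hs, hs', hx⟩
    refine ⟨el hf p z s (em a) (em b),
      el_rat_mem hf hrat hσ hω hω' hMI hM hp hp' hz hs hs' haa hbb hab, ?_, ?_, ?_⟩
    · rw [ap_el hf haa' hbb' hab', hr₀]
      simp [Unitary.sub_left hf, hf.smul_left, haa', hbb', hab', hba']
    · rw [ap_el hf haa' hbb' hab', hw]
      simp [hf.smul_left, haa', hab', CfsgLib.ClassicalLinear.upS_coe]
    · refine Submodule.mem_span_singleton.2 ⟨-(σ z * A + s * B) / σ A, ?_⟩
      rw [ap_el hf haa' hbb' hab', ← hAdef, ← hBdef, hr₀, hw]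
      simp only [CfsgLib.ClassicalLinear.upS_coe, Matrix.of_apply, Matrix.cons_val',
        Matrix.cons_val_zero, Matrix.cons_val_one, Matrix.cons_val_fin_one, OneMemClass.coe_one,
        hx, map_mul, hf.involutive]
      match_scalars <;> field_simp <;> ring
  have hlG : CfsgLib.SL2.Dickson.lowS (-1 : fixed σ) ∈ G := by
    refine ⟨tr' hf v 1, hT, by rw [ap_tr' hf hvv, hvr]; simp, ?_, ?_⟩
    · simp [ap_tr' hf hvv, hwv, CfsgLib.SL2.Dickson.lowS_coe]
    · simp [ap_tr' hf hvv, hvv, CfsgLib.SL2.Dickson.lowS_coe]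
  obtain ⟨y₀, hy₀⟩ : ∃ y : fixed σ, (y : F) = A * σ A :=
    ⟨⟨A * σ A, show σ (A * σ A) = A * σ A by rw [map_mul, hf.involutive, mul_comm]⟩, rfl⟩
  have hy₀V : y₀ ∈ V := ⟨1, 0, 0, one_mem F₀, map_one σ, zero_mem F₀, zero_mem F₀, map_zero σ,
    by simp [hy₀]⟩
  have hA0 : A * σ A ≠ 0 := mul_ne_zero hA hsA
  obtain ⟨bV, hbV, habV⟩ : ∃ y ∈ V, ∀ p q : F₀.comap (fixed σ).subtype,
      (p : fixed σ) * y₀ + (q : fixed σ) * y = 0 → p = 0 ∧ q = 0 := by
    by_contra hcon
    push Not at hcon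
    apply hBA
    have key : ∀ z ∈ F₀, (z * (B * σ A) + σ (z * (B * σ A))) / (A * σ A) ∈ F₀ := by
      intro z hz
      obtain ⟨p, q, hpq, hne⟩ := hcon
        ⟨z * (B * σ A) + σ (z * (B * σ A)),
          show σ _ = _ by rw [map_add, hf.involutive, add_comm]⟩
        ⟨0, z, 0, zero_mem F₀, map_zero σ, hz, zero_mem F₀, map_zero σ, by simp⟩
      have hpq' : ((p : fixed σ) : F) * (A * σ A) +
          ((q : fixed σ) : F) * (z * (B * σ A) + σ (z * (B * σ A))) = 0 := by
        simpa [hy₀] using congrArg Subtype.val hpq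
      have hq' : ((q : fixed σ) : F) ≠ 0 := fun e => by
        rw [e, zero_mul, add_zero, mul_eq_zero] at hpq'
        exact hne (Subtype.ext (Subtype.ext (hpq'.resolve_right hA0))) (Subtype.ext (Subtype.ext e))
      rw [show (z * (B * σ A) + σ (z * (B * σ A))) / (A * σ A) =
          -((p : fixed σ) : F) / ((q : fixed σ) : F) by
            rw [div_eq_div_iff hA0 hq']; linear_combination hpq']
      exact div_mem (neg_mem p.2) q.2
    have e1 := key 1 (one_mem F₀)
    have e2 := key ω hω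
    refine (mem_of_traces hf hσ hω hω' (X := B / A) (Y := σ B / σ A) ?_ ?_).1
    · convert e1 using 1
      simp only [one_mul, map_mul, hf.involutive]
      field_simp
    · convert e2 using 1
      simp only [map_mul, hf.involutive]
      field_simp
  have hk4 : Nat.card (fixed σ) ≠ 4 := by
    intro e
    rw [hcard] at e
    have h3 : 3 ≤ r := by have := hr.two_le; omega
    have h2 : 2 ≤ Nat.card (F₀.comap (fixed σ).subtype) := Finite.one_lt_card
    have := Nat.pow_le_pow_left h2 r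
    have := Nat.pow_le_pow_right (by omega : 0 < 2) h3
    omega
  obtain ⟨g, ⟨h, hh, h1, h2, h3⟩, hg10, htr⟩ := exists_borel_trace_notMem hr hcard hk4 (G := G) V
    hy₀V hbV habV hVG (neg_ne_zero.2 one_ne_zero) hlG
  apply htr
  show (((g : Matrix (Fin 2) (Fin 2) (fixed σ)) 0 0 + (g : Matrix (Fin 2) (Fin 2) (fixed σ)) 1 1 :
    fixed σ) : F) ∈ F₀
  set G00 := (((g : Matrix (Fin 2) (Fin 2) (fixed σ)) 0 0 : fixed σ) : F) with hG00def
  have hσG : σ G00 = G00 := ((g : Matrix (Fin 2) (Fin 2) (fixed σ)) 0 0).2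
  have hdet : G00 * (((g : Matrix (Fin 2) (Fin 2) (fixed σ)) 1 1 : fixed σ) : F) = 1 := by
    have h := CfsgLib.SL2.det_eq g
    rw [hg10, mul_zero, sub_zero] at h
    simpa using congrArg Subtype.val h
  rw [hg10, ZeroMemClass.coe_zero, zero_smul, add_zero] at h2
  obtain ⟨t, ht⟩ := Submodule.mem_span_singleton.1 h2
  -- the images of the two vectors
  set α₁ := G00 + t * σ A * σ B with hα₁
  set β₁ := -(t * σ A * σ A) with hβ₁
  set α₂ := σ B * (G00 - 1) / σ A + t * σ B * σ B with hα₂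
  set β₂ := 1 - t * σ A * σ B with hβ₂
  have hha : ap h (em a) = α₁ • em a + β₁ • em b := by
    have e : ap h (em a) = σ A • ap h w := by
      rw [hw, ap_smul, smul_smul, mul_inv_cancel₀ hsA, one_smul]
    rw [e, show ap h w = t • r₀ + G00 • w by rw [ht]; abel, hr₀, hw, hα₁, hβ₁]
    match_scalars <;> field_simp <;> ring
  have hhb : ap h (em b) = α₂ • em a + β₂ • em b := by
    have e : em b = (σ A)⁻¹ • (σ B • em a - r₀) := by
      rw [hr₀, sub_sub_cancel, smul_smul, inv_mul_cancel₀ hsA, one_smul]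
    rw [e, ap_smul, ap_sub, ap_smul, h1, hha, ← e, hr₀, hα₁, hβ₁, hα₂, hβ₂]
    match_scalars <;> field_simp <;> ring
  have himg : ∀ z : ι → F₀, f₀ hrat z z = 0 → tr' hf (ap h (em z)) 1 ∈ M := fun z hz => by
    rw [← conj_tr' hf (hMI hh) (congrArg Subtype.val hz)]
    exact mul_mem (mul_mem hh (hM z hz 1 (one_mem F₀) (map_one σ))) (inv_mem hh)
  obtain ⟨a11, a12, a22⟩ :=
    plane_coeff hf hrat hσ hω hω' hMI hM hn hΛ haa hbb hab ha hb (hha ▸ himg a haa)
  obtain ⟨b11, b12, b22⟩ :=
    plane_coeff hf hrat hσ hω hω' hMI hM hn hΛ haa hbb hab ha hb (hhb ▸ himg b hbb)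
  have comb : ∀ c ∈ F₀, (α₁ + c * α₂) * σ (α₁ + c * α₂) ∈ F₀ ∧
      (α₁ + c * α₂) * σ (β₁ + c * β₂) ∈ F₀ ∧ (β₁ + c * β₂) * σ (β₁ + c * β₂) ∈ F₀ := by
    intro c hc
    refine plane_coeff hf hrat hσ hω hω' hMI hM hn hΛ haa hbb hab ha hb ?_
    have := himg (a + (⟨c, hc⟩ : F₀) • b) (by
      simp [(isSkew₀ hf hrat hσ hω hω').add_left, Unitary.add_right (isSkew₀ hf hrat hσ hω hω'), (isSkew₀ hf hrat hσ hω hω').smul_left, Unitary.smul_right (isSkew₀ hf hrat hσ hω hω'), haa,
        hbb, hab, (Unitary.eq_zero_comm (isSkew₀ hf hrat hσ hω hω')).mp hab])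
    rw [SSubfld.em_add, SSubfld.em_smul, ap_add, ap_smul, hha, hhb] at this
    convert this using 2
    module
  -- products of entries of the two columns
  have cross : ∀ X Y X' Y' : F, X * σ Y ∈ F₀ → X' * σ Y' ∈ F₀ →
      (∀ c ∈ F₀, (X + c * X') * σ (Y + c * Y') ∈ F₀) → X' * σ Y ∈ F₀ ∧ X * σ Y' ∈ F₀ := by
    intro X Y X' Y' h1 h2 h3
    have key : ∀ c ∈ F₀, c * (X' * σ Y) + σ c * (X * σ Y') ∈ F₀ := by
      intro c hc
      have := sub_mem (sub_mem (h3 c hc) h1) (mul_mem (mul_mem hc (hσ c hc)) h2)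
      convert this using 1
      simp only [map_add, map_mul]
      ring
    exact mem_of_traces hf hσ hω hω' (by simpa using key 1 (one_mem F₀)) (key ω hω)
  obtain ⟨c21, c12⟩ := cross α₁ α₁ α₂ α₂ a11 b11 fun c hc => (comb c hc).1
  obtain ⟨d21, d12⟩ := cross α₁ β₁ α₂ β₂ a12 b12 fun c hc => (comb c hc).2.1
  obtain ⟨e21, e12⟩ := cross β₁ β₁ β₂ β₂ a22 b22 fun c hc => (comb c hc).2.2
  have hN : (G00 + 1) * (G00 + 1) ∈ F₀ := by
    have hT' : G00 + 1 = α₁ + β₂ := by rw [hα₁, hβ₂]; ring
    rw [show (G00 + 1) * (G00 + 1) = (α₁ + β₂) * σ (α₁ + β₂) by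
      rw [← hT', map_add, map_one, hσG]]
    have := add_mem (add_mem a11 b22) (add_mem d12 (hσ _ d12))
    convert this using 1
    simp only [map_add, map_mul, hf.involutive]
    ring
  have hD : G00 * G00 ∈ F₀ := by
    have hD' : α₁ * β₂ - α₂ * β₁ = G00 := by
      rw [hα₁, hβ₁, hα₂, hβ₂]; field_simp; ring
    rw [show G00 * G00 = (α₁ * β₂ - α₂ * β₁) * σ (α₁ * β₂ - α₂ * β₁) by rw [hD', hσG]]
    have := sub_mem (sub_mem (add_mem (mul_mem a11 b22) (mul_mem b11 a22)) (mul_mem c12 e21))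
      (mul_mem c21 e12)
    convert this using 1
    simp only [map_sub, map_mul]
    ring
  have hG : G00 ∈ F₀ := by
    by_cases h2 : (2 : F) = 0
    · have : Fintype F₀ := Fintype.ofFinite F₀
      have hc : ringChar F₀ = 2 := by
        have h : ((2 : ℕ) : F₀) = 0 := by
          apply Subtype.ext
          simpa [show ((2 : F₀) : F) = 2 from map_ofNat F₀.subtype 2] using h2
        exact CharP.ringChar_of_prime_eq_zero Nat.prime_two h
      obtain ⟨y, hy⟩ := FiniteField.isSquare_of_char_two hc ⟨_, hD⟩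
      have hy' : G00 * G00 = (y : F) * y := congrArg Subtype.val hy
      have : (G00 - y) * (G00 - y) = 0 := by
        linear_combination hy' + ((y : F) * y - G00 * y) * h2
      rw [sub_eq_zero.1 (mul_self_eq_zero.1 this)]
      exact y.2
    · have := div_mem (sub_mem (sub_mem hN hD) (one_mem F₀)) (ofNat_mem F₀ 2)
      convert this using 1
      field_simp
      ring
  rw [Subfield.coe_add, ← hG00def, eq_inv_of_mul_eq_one_right hdet]
  exact add_mem hG (inv_mem hG)

omit hΛ hr hr2 hcard in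
/-- If every multiplier occurs then every transvection does. -/
lemma sisom_le_of_all
    (hall : ∀ μ : fixed σ, μ ∈ lam hf hrat hσ hω hω' (M := M)) : Unitary.sisom hf ≤ M := by
  have hne : σ ω - ω ≠ 0 := sub_ne_zero.2 hω'
  have hK : ∀ v : ι → F₀, f₀ hrat v v = 0 → ∀ c, σ c = c → tr' hf (em v) c ∈ M :=
    fun v hv c hc => hall ⟨c, hc⟩ v hv
  have hX : ∀ v : ι → F₀, f₀ hrat v v = 0 → Unitary.InX hf M (em v) := fun v hv =>
    ⟨congrArg Subtype.val hv, fun h c hc => by rw [← tr'_eq hf h]; exact hK v hv c hc⟩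
  -- vectors in the span of a totally isotropic pair
  have hpair : ∀ {a b : ι → F₀}, f₀ hrat a a = 0 → f₀ hrat b b = 0 → f₀ hrat a b = 0 →
      a ∉ Submodule.span F₀ {b} → ∀ k : F, Unitary.InX hf M (em a + k • em b) := by
    intro a b haa hbb hab ha k
    have haa' : f (em a) (em a) = 0 := congrArg Subtype.val haa
    have hbb' : f (em b) (em b) = 0 := congrArg Subtype.val hbb
    have hab' : f (em a) (em b) = 0 := congrArg Subtype.val hab
    have hy : f (em a + k • em b) (em a + k • em b) = 0 := by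
      simp [hf.add_left, Unitary.add_right hf, hf.smul_left, Unitary.smul_right hf, haa', hbb',
        hab', (Unitary.eq_zero_comm hf).mp hab']
    have short : ∀ t ∈ F₀, ∀ p, σ p = p → el hf 0 (p * σ t) 0 (em a) (em b) ∈ M := by
      intro t ht p hp
      have h1 := shift_mem hf hrat hσ hω hω' hMI hM hn haa hbb hab ha hp
        (z := 0) (s := 0) (by rw [el_left hf haa' hbb' hab']; exact hK a haa p hp) ht
      have h2 := mul_mem h1 (hK b hbb (-(t * σ t * p))
        (by rw [map_neg, map_mul, map_mul, hf.involutive, hp]; ring))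
      rw [← el_right hf haa' hbb' hab', el_mul hf haa' hbb' hab'] at h2
      convert h2 using 2 <;> simp
    have hshort : ∀ z : F, el hf 0 z 0 (em a) (em b) ∈ M := by
      intro z
      set p₂ := (z - σ z) / (σ ω - ω) * -1 with hp₂
      set p₁ := z - p₂ * ω with hp₁
      have hp₂' : σ p₂ = p₂ := by
        simp only [hp₂, map_mul, map_div₀, map_sub, map_neg, map_one, hf.involutive]
        rw [← neg_sub z, ← neg_sub (σ ω) ω, neg_div_neg_eq]
      have hp₁' : σ p₁ = p₁ := by
        have e : p₂ * (σ ω - ω) = σ z - z := by rw [hp₂]; field_simp; ring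
        simp only [hp₁, map_sub, map_mul, hp₂']
        linear_combination -e
      have := mul_mem (short 1 (one_mem F₀) p₁ hp₁') (short (σ ω) (hσ _ hω) p₂ hp₂')
      rw [el_mul hf haa' hbb' hab'] at this
      convert this using 2 <;> simp [hp₁, hf.involutive]
    refine ⟨hy, fun h c hc => ?_⟩
    have hm : el hf c (c * σ k) (c * (k * σ k)) (em a) (em b) ∈ M := by
      have := mul_mem (mul_mem (hshort (c * σ k)) (hK a haa c hc))
        (hK b hbb (c * (k * σ k)) (by rw [map_mul, map_mul, hf.involutive, hc]; ring))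
      rw [← el_left hf haa' hbb' hab', el_mul hf haa' hbb' hab', ← el_right hf haa' hbb' hab',
        el_mul hf haa' hbb' hab'] at this
      convert this using 2 <;> simp
    convert hm using 1
    apply gl_ext
    intro z
    rw [ap_el hf haa' hbb' hab', Unitary.ap_T hf, Unitary.add_right hf, Unitary.smul_right hf,
      map_mul, hf.involutive, hc]
    module
  -- Eichler elements at vectors over the subfield
  have hE : ∀ (u : ι → F₀), u ≠ 0 → ∀ (huu₀ : f₀ hrat u u = 0) (x : ι → F₀),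
      f₀ hrat x u = 0 → ∀ (k : F) (hvu : f (k • em x) (em u) = 0) (c : F),
      c - σ c = f (k • em x) (k • em x) →
      Unitary.E hf (em u) (k • em x) c (congrArg Subtype.val huu₀) hvu ∈ M := by
    intro u hu0 huu₀
    have huu : f (em u) (em u) = 0 := congrArg Subtype.val huu₀
    -- one admissible scalar suffices
    have any : ∀ (y : ι → F) (hyu : f y (em u) = 0) (c₀ c : F),
        c₀ - σ c₀ = f y y → c - σ c = f y y →
        Unitary.E hf (em u) y c₀ huu hyu ∈ M → Unitary.E hf (em u) y c huu hyu ∈ M := by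
      intro y hyu c₀ c h0 h1 hm
      have := mul_mem hm ((hX u huu₀).2 huu (c - c₀) (by
        rw [map_sub]; linear_combination h0 - h1))
      rwa [Unitary.E_mul_T hf, add_sub_cancel] at this
    intro x hx
    revert hx
    suffices H : ∀ x, f₀ hrat x u = 0 → f₀ hrat x u = 0 ∧
        ∀ (k : F) (hvu : f (k • em x) (em u) = 0) (c : F),
          c - σ c = f (k • em x) (k • em x) → Unitary.E hf (em u) (k • em x) c huu hvu ∈ M from
      fun hx => (H x hx).2
    intro x hx
    refine iso_induction_perp hf hrat hσ hω hω' hn hu0 huu₀ (C := fun x => f₀ hrat x u = 0 ∧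
      ∀ (k : F) (hvu : f (k • em x) (em u) = 0) (c : F),
        c - σ c = f (k • em x) (k • em x) → Unitary.E hf (em u) (k • em x) c huu hvu ∈ M)
      (fun x hxx hxu => ⟨hxu, fun k hvu c hc => ?_⟩) ?_ x hx
    · have hxx' : f (em x) (em x) = 0 := congrArg Subtype.val hxx
      by_cases hs : u ∈ Submodule.span F₀ {x}
      · -- a multiple of the centre
        obtain ⟨d, hd⟩ := Submodule.mem_span_singleton.1 hs
        have hd0 : d ≠ 0 := fun e => hu0 (by rw [← hd, e, zero_smul])
        have hxd : em x = (d : F)⁻¹ • em u := by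
          rw [← hd, SSubfld.em_smul, smul_smul, inv_mul_cancel₀ (fun e => hd0 (Subtype.ext e)),
            one_smul]
        have h1 := (hX u huu₀).2 huu (k * (d : F)⁻¹ + σ (k * (d : F)⁻¹) + c) (by
          rw [hf.smul_left, Unitary.smul_right hf, hxx', mul_zero, mul_zero, sub_eq_zero] at hc
          rw [map_add, map_add, hf.involutive, ← hc]; ring)
        rw [← Unitary.E_smul_self hf (hu := huu) (k * (d : F)⁻¹)
          (by rw [hf.smul_left, huu, mul_zero]) c rfl] at h1
        convert h1 using 2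
        rw [hxd, smul_smul]
      · have hkx : f (k • em x) (k • em x) = 0 := Unitary.isotropic_smul hf hxx' k
        have huv : f (em u + k • em x) (em u + k • em x) = 0 :=
          ((hpair huu₀ hxx ((Unitary.eq_zero_comm (isSkew₀ hf hrat hσ hω hω')).mp hxu) hs k)).1
        refine any _ hvu 0 c (by rw [map_zero, sub_zero, hkx]) hc ?_
        rw [← Unitary.E_eq_T_mul hf hkx huv]
        exact mul_mem (mul_mem
          ((hpair huu₀ hxx ((Unitary.eq_zero_comm (isSkew₀ hf hrat hσ hω hω')).mp hxu) hs k).2 _ 1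
            (map_one σ))
          ((hX u huu₀).2 _ _ (by simp))) ((Unitary.inX_smul hf (hX x hxx) k).2 _ _ (by simp))
    · rintro x y ⟨hxu, hx⟩ ⟨hyu, hy⟩
      refine ⟨by rw [(isSkew₀ hf hrat hσ hω hω').add_left, hxu, hyu, add_zero], fun k hvu c hc => ?_⟩
      have hxu' : f (k • em x) (em u) = 0 := by
        rw [hf.smul_left, show f (em x) (em u) = 0 from congrArg Subtype.val hxu, mul_zero]
      have hyu' : f (k • em y) (em u) = 0 := by
        rw [hf.smul_left, show f (em y) (em u) = 0 from congrArg Subtype.val hyu, mul_zero]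
      obtain ⟨c₁, hc₁⟩ := Unitary.exists_sub_eq hf (Unitary.skew_self hf (k • em x))
      obtain ⟨c₂, hc₂⟩ := Unitary.exists_sub_eq hf (Unitary.skew_self hf (k • em y))
      have h3 := mul_mem (hx k hxu' c₁ hc₁) (hy k hyu' c₂ hc₂)
      rw [Unitary.E_mul_E hf (by rw [hf.add_left, hxu', hyu', add_zero])] at h3
      have hsum : k • em x + k • em y = k • em (x + y) := by rw [SSubfld.em_add, smul_add]
      simp only [hsum] at h3
      refine any _ hvu _ c ?_ hc h3
      rw [← hsum]
      simp only [map_add, hf.add_left, Unitary.add_right hf]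
      linear_combination hc₁ + hc₂ + hf.skew (k • em x) (k • em y) * (-1)
  refine Unitary.le_of_hasT hf (by omega) (Unitary.hasT_of_inX hf fun v hvv => ?_)
  by_cases hv0 : v = 0
  · rw [hv0]; exact Unitary.inX_zero hf
  -- an isotropic vector over the subfield not orthogonal to `v`
  obtain ⟨u, huu₀, hvu⟩ : ∃ u : ι → F₀, f₀ hrat u u = 0 ∧ f v (em u) ≠ 0 := by
    by_contra h
    push Not at h
    obtain ⟨z, hz⟩ := (hf.nondegenerate v hv0).1
    obtain ⟨i, hi⟩ := LSubfld.exists_single_ne (φ := Unitary.fl hf v) (fun e => hz (by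
      have := LinearMap.congr_fun e z
      rwa [Unitary.fl_apply, LinearMap.zero_apply] at this))
    rw [Unitary.fl_apply, ← SSubfld.em_single (F₀ := F₀) i] at hi
    exact hi ((Unitary.eq_zero_comm hf).mp
      (iso_induction hf hrat hσ hω hω' hn (C := fun x => f v (em x) = 0) h
        (fun x y hx hy => by rw [SSubfld.em_add, Unitary.add_right hf, hx, hy, add_zero]) _))
  have hu0 : u ≠ 0 := fun e => hvu (by rw [e, SSubfld.em_zero, Unitary.zero_right hf])
  obtain ⟨u', hu'u', hu'1, -⟩ := exists_dual hf hrat hσ hω hω' hn (a := u) (b := 0)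
    (by simpa using hu0) huu₀ (Unitary.zero_right (isSkew₀ hf hrat hσ hω hω') u)
  set w := -u' with hwdef
  have hww₀ : f₀ hrat w w = 0 := by
    rw [hwdef, Unitary.neg_left (isSkew₀ hf hrat hσ hω hω'), Unitary.neg_right (isSkew₀ hf hrat hσ hω hω'), hu'u', neg_zero, neg_zero]
  have hwu₀ : f₀ hrat w u = 1 := by
    rw [hwdef, Unitary.neg_left (isSkew₀ hf hrat hσ hω hω'), (isSkew₀ hf hrat hσ hω hω').skew, hu'1, map_one, neg_neg]
  have huu : f (em u) (em u) = 0 := congrArg Subtype.val huu₀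
  have hwu : f (em w) (em u) = 1 := congrArg Subtype.val hwu₀
  have hww : f (em w) (em w) = 0 := congrArg Subtype.val hww₀
  set v' := (f v (em u))⁻¹ • v with hv'
  have hv'u : f v' (em u) = 1 := by rw [hv', hf.smul_left, inv_mul_cancel₀ hvu]
  have hv'v' : f v' v' = 0 := Unitary.isotropic_smul hf hvv _
  obtain ⟨hyu, c, hc, hm⟩ := Unitary.exists_E_move hf huu hwu hv'u (hv'v'.trans hww.symm)
  set y := v' - em w
  -- split along a basis of the orthogonal over the subfield
  have hEy : ∀ c, c - σ c = f y y → Unitary.E hf (em u) y c huu hyu ∈ M := by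
    let e' : ι → (ι → F₀) := fun i => Pi.single i 1 - f₀ hrat (Pi.single i 1) u • w
    have he' : ∀ i, f₀ hrat (e' i) u = 0 := fun i => by
      rw [Unitary.sub_left (isSkew₀ hf hrat hσ hω hω'), (isSkew₀ hf hrat hσ hω hω').smul_left, hwu₀, mul_one, sub_self]
    have hsum : y = ∑ i, y i • em (e' i) := by
      have e1 : ∀ i, em (e' i) = Pi.single i (1 : F) - f (Pi.single i (1 : F)) (em u) • em w := by
        intro i
        simp only [e', SSubfld.em_sub, SSubfld.em_smul, ← SSubfld.em_single (F₀ := F₀) i]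
        rfl
      simp only [e1, smul_sub, Finset.sum_sub_distrib, smul_smul, ← Finset.sum_smul]
      have e2 : ∑ i, y i * f (Pi.single i (1 : F)) (em u) = f y (em u) := by
        conv_rhs => rw [pi_eq_sum_univ' y]
        rw [← Unitary.fl_apply hf, map_sum]
        simp
      rw [e2, hyu, zero_smul, sub_zero]
      exact pi_eq_sum_univ' y
    have gen : ∀ s : Finset ι, ∃ hz : f (∑ i ∈ s, y i • em (e' i)) (em u) = 0,
        ∀ c, c - σ c = f (∑ i ∈ s, y i • em (e' i)) (∑ i ∈ s, y i • em (e' i)) →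
          Unitary.E hf (em u) (∑ i ∈ s, y i • em (e' i)) c huu hz ∈ M := by
      intro s
      induction s using Finset.induction with
      | empty =>
        refine ⟨by simp [Unitary.zero_left hf], fun c hc => ?_⟩
        have h1 := hE u hu0 huu₀ u huu₀ 0 (by simp [Unitary.zero_left hf]) c (by simpa using hc)
        convert h1 using 2
        simp
      | insert k s hk ih =>
        obtain ⟨hz, ih⟩ := ih
        have hk' : f (y k • em (e' k)) (em u) = 0 := by
          rw [hf.smul_left, show f (em (e' k)) (em u) = 0 from congrArg Subtype.val (he' k), mul_zero]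
        have hz' : f (y k • em (e' k) + ∑ i ∈ s, y i • em (e' i)) (em u) = 0 := by
          rw [hf.add_left, hk', hz, add_zero]
        refine ⟨by rw [Finset.sum_insert hk]; exact hz', fun c hc => ?_⟩
        obtain ⟨c₁, hc₁⟩ := Unitary.exists_sub_eq hf (Unitary.skew_self hf (y k • em (e' k)))
        obtain ⟨c₂, hc₂⟩ :=
          Unitary.exists_sub_eq hf (Unitary.skew_self hf (∑ i ∈ s, y i • em (e' i)))
        have h3 := mul_mem (hE u hu0 huu₀ (e' k) (he' k) (y k) hk' c₁ hc₁) (ih c₂ hc₂)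
        erw [Unitary.E_mul_E hf hz'] at h3
        have hadj : σ (c - (c₁ + c₂ + f (∑ i ∈ s, y i • em (e' i)) (y k • em (e' k)))) =
            c - (c₁ + c₂ + f (∑ i ∈ s, y i • em (e' i)) (y k • em (e' k))) := by
          rw [Finset.sum_insert hk] at hc
          simp only [hf.add_left, Unitary.add_right hf] at hc
          simp only [map_sub, map_add]
          linear_combination hc₁ + hc₂ - hc - hf.skew (y k • em (e' k)) (∑ i ∈ s, y i • em (e' i))
        have h4 := mul_mem h3 ((hX u huu₀).2 huu _ hadj)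
        erw [Unitary.E_mul_T hf] at h4
        convert h4 using 2
        all_goals simp [Finset.sum_insert hk]
    intro c hc
    obtain ⟨hz, h⟩ := gen Finset.univ
    have := h c (by rw [← hsum]; exact hc)
    convert this using 2
  have h5 := Unitary.inX_ap hf (hEy c hc) (hMI (hEy c hc)) (hX w hww₀)
  rw [hm] at h5
  have h6 := Unitary.inX_smul hf h5 (f v (em u))
  rwa [hv', smul_smul, mul_inv_cancel₀ hvu, one_smul] at h6

end USubfld

open SSubfld (em em_add em_smul em_injective em_ne_zero ratV_em) in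
open LSubfld USubfld in
/-- The subfield group of odd prime degree is maximal in the special isometry group of a
skew-hermitian form rational on the standard basis. -/
theorem unitarySubfieldOdd_isMaximalIn [Finite F] (hn : 4 ≤ Fintype.card ι) {σ : F ≃+* F}
    {f : (ι → F) → (ι → F) → F} (hf : IsSkewForm σ f) {F₀ : Subfield F}
    (hrat : ∀ u v, RatV F₀ u → RatV F₀ v → f u v ∈ F₀) (hσ : ∀ x, x ∈ F₀ → σ x ∈ F₀)
    {ω : F} (hω : ω ∈ F₀) (hω' : σ ω ≠ ω) {r : ℕ} (hr : r.Prime) (hr2 : r ≠ 2)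
    (hcard : Nat.card (fixed σ) = Nat.card (F₀.comap (fixed σ).subtype) ^ r) :
    Cfsg.Geo.IsMaximalIn (Unitary.sisom hf)
      (Cfsg.Geo.subfieldSubgroup F₀ (1 : GL ι F) ⊓ Unitary.sisom hf) := by
  classical
  have : Nonempty ι := Fintype.card_pos_iff.1 (by omega)
  have hf₀ := isSkew₀ hf hrat hσ hω hω'
  obtain ⟨e, he0, hee₀⟩ := exists_iso_ne_zero hf hrat hσ hω hω' hn
  obtain ⟨u, huu₀, heu₀, -⟩ := exists_dual hf hrat hσ hω hω' hn (a := e) (b := 0)
    (by simpa using he0) hee₀ (Unitary.zero_right hf₀ e)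
  refine ⟨lt_of_le_of_ne inf_le_right fun heq => ?_, fun M hHM hMS => ?_⟩
  · -- a transvection with a multiplier outside the subfield
    obtain ⟨μ, hμ⟩ : ∃ μ : fixed σ, (μ : F) ∉ F₀ := by
      by_contra h
      push Not at h
      have : Nat.card (F₀.comap (fixed σ).subtype) = Nat.card (fixed σ) :=
        Nat.card_congr (Equiv.subtypeUnivEquiv h)
      rw [this] at hcard
      have h1 : 1 = r := Nat.pow_right_injective Finite.one_lt_card (by simpa using hcard)
      exact hr.one_lt.ne h1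
    have hee : f (em e) (em e) = 0 := congrArg Subtype.val hee₀
    have heu : f (em e) (em u) = 1 := congrArg Subtype.val heu₀
    have hue : f (em u) (em e) = -1 := by rw [hf.skew, heu, map_one]
    have hm : tr' hf (em e) (μ : F) ∈
        Cfsg.Geo.subfieldSubgroup F₀ (1 : GL ι F) ⊓ Unitary.sisom hf := by
      rw [heq, tr'_eq hf hee]; exact Unitary.T_mem hf hee μ.2
    obtain ⟨c, x, hx, hc⟩ := Subfld.lineRat_of_mem hm.1
      (show Subfld.Rat F₀ (1 : GL ι F) (em u) from fun l => by simpa using ratV_em u l)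
    have hx' : RatV F₀ x := fun l => by simpa using hx l
    rw [ap_tr' hf hee] at hc
    have heu' : e ∉ Submodule.span F₀ {u} := fun h => by
      obtain ⟨t, ht⟩ := Submodule.mem_span_singleton.1 h
      rw [← ht, hf₀.smul_left, huu₀, mul_zero] at heu₀
      exact zero_ne_one heu₀
    obtain ⟨χ, hχ, hχe, hχp⟩ := exists_ratF_sep (F₀ := F₀) (ratV_em e) (em_ne_zero he0)
      (v := em u) (fun h => by
        obtain ⟨t, ht⟩ := Submodule.mem_span_singleton.1 h
        rw [← ht, hf.smul_left, hee, mul_zero] at hue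
        simp at hue)
    obtain ⟨ξ, hξ, hξp, hξe⟩ := exists_ratF_sep (F₀ := F₀) (ratV_em u)
      (em_ne_zero (fun h => by
        rw [h, Unitary.zero_right hf₀] at heu₀
        exact zero_ne_one heu₀)) (v := em e) (fun h => by
        obtain ⟨t, ht⟩ := Submodule.mem_span_singleton.1 h
        rw [← ht, hf.smul_left, show f (em u) (em u) = 0 from congrArg Subtype.val huu₀,
          mul_zero] at heu
        simp at heu)
    have e1 := congrArg χ hc
    have e2 := congrArg ξ hc
    simp only [map_add, map_smul, hχe, hξp, hue, smul_eq_mul, mul_zero, add_zero, zero_add] at e1 e2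
    have hχx : χ x ≠ 0 := fun h => hχp (by rw [e1, h, mul_zero])
    apply hμ
    rw [show (μ : F) = -(χ (em u) / χ x * ξ x) / ξ (em e) by
      rw [eq_div_iff hξe, e1, mul_div_cancel_right₀ _ hχx, ← e2]; ring]
    exact div_mem (neg_mem (mul_mem (div_mem (ratF_apply hχ (ratV_em u)) (ratF_apply hχ hx'))
      (ratF_apply hξ hx'))) (ratF_apply hξ (ratV_em e))
  have hMI : M ≤ isom f := hMS.trans inf_le_left
  have hM : ∀ (v : ι → F₀), f₀ hrat v v = 0 → ∀ c, c ∈ F₀ → σ c = c → tr' hf (em v) c ∈ M := by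
    intro v hv c hc hσc
    refine hHM ⟨Subfld.mem_of_rat fun z hz i => ?_, ?_⟩
    · have hz' : RatV F₀ z := fun j => by simpa using hz j
      simpa [ap_tr' hf (congrArg Subtype.val hv)] using
        add_mem (hz' i) (mul_mem (mul_mem hc (hrat _ _ hz' (ratV_em v))) (ratV_em v i))
    · rw [tr'_eq hf (congrArg Subtype.val hv)]
      exact Unitary.T_mem hf _ hσc
  by_cases htop : lam hf hrat hσ hω hω' (M := M) = ⊤
  · exact Or.inr (le_antisymm hMS (sisom_le_of_all hf hrat hσ hω hω' hMI hM hn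
      fun μ => htop ▸ Submodule.mem_top))
  left
  have hΛ := lam_cases hf hrat hσ hω hω' hMI hM hn hr hcard htop
  refine le_antisymm (le_inf (fun g hg => ?_) hMS) hHM
  have hline : ∀ x : ι → F₀, f₀ hrat x x = 0 → ∃ (c : F) (y : ι → F₀), ap g (em x) = c • em y := by
    intro x hx
    have hc := mul_mem (mul_mem hg (hM x hx 1 (one_mem F₀) (map_one σ))) (inv_mem hg)
    rw [conj_tr' hf (hMI hg) (congrArg Subtype.val hx)] at hc
    exact USubfld.centre_lineRat hf hrat hσ hω hω' hMI hM hn hr hr2 hcard hΛ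
      (Unitary.isotropic_ap hf (hMI hg) (congrArg Subtype.val hx)) hc
  -- the scalars of independent isotropic vectors agree
  have hpair : ∀ x y : ι → F₀, f₀ hrat x x = 0 → f₀ hrat y y = 0 → f₀ hrat x y = 0 →
      ∀ (c : F) (s : ι → F₀), ap g (em x) = c • em s → x ≠ 0 →
      RatV F₀ (c⁻¹ • ap g (em y)) := by
    intro x y hxx hyy hxy c s hs hx0
    by_cases hyx : y ∈ Submodule.span F₀ {x}
    · obtain ⟨d, rfl⟩ := Submodule.mem_span_singleton.1 hyx
      have hc0 : c ≠ 0 := fun h => ap_ne_zero g (em_ne_zero hx0) (by rw [hs, h, zero_smul])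
      rw [em_smul, ap_smul, hs, smul_smul, smul_smul,
        show c⁻¹ * (d : F) * c = d by field_simp]
      exact (ratV_em s).smul d.2
    obtain ⟨ν, t, ht⟩ := hline y hyy
    obtain ⟨ρ, w, hw⟩ := hline (x + y) (by
      simp [hf₀.add_left, Unitary.add_right hf₀, hxx, hyy, hxy,
        (Unitary.eq_zero_comm hf₀).mp hxy])
    rw [em_add, ap_add, hs, ht] at hw
    have hy0 : y ≠ 0 := fun h => hyx (h ▸ zero_mem _)
    have hc0 : c ≠ 0 ∧ em s ≠ 0 := by
      have := ap_ne_zero g (em_ne_zero hx0); rw [hs] at this; exact smul_ne_zero_iff.1 this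
    have hν0 : ν ≠ 0 ∧ em t ≠ 0 := by
      have := ap_ne_zero g (em_ne_zero hy0); rw [ht] at this; exact smul_ne_zero_iff.1 this
    have hts : em t ∉ Submodule.span F {em s} := by
      intro h
      obtain ⟨k, hk⟩ := Submodule.mem_span_singleton.1 h
      have hxy' : em y = (ν * k * c⁻¹) • em x := by
        apply ap_injective g
        rw [ap_smul, hs, ht, ← hk, smul_smul, smul_smul, inv_mul_cancel_right₀ hc0.1]
      apply hyx
      obtain ⟨i, hi⟩ := Function.ne_iff.1 hx0
      simp only [Pi.zero_apply] at hi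
      refine Submodule.mem_span_singleton.2 ⟨y i / x i, em_injective ?_⟩
      rw [em_smul, hxy']
      congr 1
      have h2 := congrFun hxy' i
      simp only [SSubfld.em, Pi.smul_apply, smul_eq_mul] at h2
      rw [Subfield.coe_div, h2, mul_div_cancel_right₀ _ (fun e => hi (Subtype.ext e))]
    have hst : em s ∉ Submodule.span F {em t} := by
      intro h
      obtain ⟨k, hk⟩ := Submodule.mem_span_singleton.1 h
      have hk0 : k ≠ 0 := fun e => hc0.2 (by rw [← hk, e, zero_smul])
      exact hts (Submodule.mem_span_singleton.2 ⟨k⁻¹, by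
        rw [← hk, smul_smul, inv_mul_cancel₀ hk0, one_smul]⟩)
    obtain ⟨χ, hχ, h1, h2⟩ := exists_ratF_sep (ratV_em s) hc0.2 hts
    obtain ⟨ξ, hξ, h3, h4⟩ := exists_ratF_sep (ratV_em t) hν0.2 hst
    have e1 := congrArg χ hw
    have e2 := congrArg ξ hw
    simp only [map_add, map_smul, h1, h3, smul_eq_mul, mul_zero, zero_add, add_zero] at e1 e2
    rw [ht, smul_smul]
    have hρ : ρ ≠ 0 := fun h => by
      rw [h, zero_mul] at e1; exact mul_ne_zero hν0.1 h2 e1
    have hwχ : ξ (em w) ≠ 0 := fun h => mul_ne_zero hc0.1 h4 (by rw [e2, h, mul_zero])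
    refine (ratV_em t).smul ?_
    rw [show c⁻¹ * ν = (χ (em w) / χ (em t)) * (ξ (em s) / ξ (em w)) by
      rw [div_mul_div_comm, eq_div_iff (mul_ne_zero h2 hwχ)]
      linear_combination c⁻¹ * (e1 * ξ (em w) - e2 * χ (em w)) +
        (χ (em w) * ξ (em s)) * inv_mul_cancel₀ hc0.1]
    exact mul_mem (div_mem (ratF_apply hχ (ratV_em w)) (ratF_apply hχ (ratV_em t)))
      (div_mem (ratF_apply hξ (ratV_em s)) (ratF_apply hξ (ratV_em w)))
  obtain ⟨c₀, s₀, hs₀⟩ := hline e hee₀
  have hc₀ : c₀ ≠ 0 := fun h => ap_ne_zero g (em_ne_zero he0) (by rw [hs₀, h, zero_smul])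
  have hall : ∀ x : ι → F₀, RatV F₀ (c₀⁻¹ • ap g (em x)) := by
    refine iso_induction hf hrat hσ hω hω' hn (fun y hyy => ?_) (fun x y hx hy => by
      rw [em_add, ap_add, smul_add]; exact hx.add hy)
    by_cases hey : f₀ hrat e y = 0
    · exact hpair e y hee₀ hyy hey c₀ s₀ hs₀ he0
    obtain ⟨z, -, hz0, hzz, hze, hzy, -⟩ := exists_third hf hrat hσ hω hω' hn hee₀ hyy hey
    have h1 := hpair e z hee₀ hzz ((Unitary.eq_zero_comm hf₀).mp hze) c₀ s₀ hs₀ he0
    exact hpair z y hzz hyy hzy c₀ (fun i => ⟨_, h1 i⟩) (funext fun i => by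
      simp only [SSubfld.em, Pi.smul_apply, smul_eq_mul]
      rw [mul_inv_cancel_left₀ hc₀]) hz0
  refine Subfld.scalar_mul_mem (c := Units.mk0 c₀ hc₀) fun x hx k => ?_
  have hx' : RatV F₀ x := fun j => by simpa using hx j
  simpa [show em (fun j => (⟨x j, hx' j⟩ : F₀)) = x from rfl] using
    hall (fun j => ⟨x j, hx' j⟩) k

/-- The subfield group of any rational structure of a unitary form, of odd prime degree, is maximal
in the special isometry group. -/
theorem unitarySubfieldOdd_isMaximalIn' [Finite F] (hn : 4 ≤ Fintype.card ι) {σ : F ≃+* F}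
    {h : (ι → F) → (ι → F) → F} (hh : Cfsg.Geo.IsUnitaryForm σ h) {F₀ : Subfield F} {P : GL ι F}
    (hP : Cfsg.Geo.IsFormRationalStructure h F₀ 1 P) (hσ : ∀ x, x ∈ F₀ → σ x ∈ F₀)
    {ω : F} (hω : ω ∈ F₀) (hω' : σ ω ≠ ω) {r : ℕ} (hr : r.Prime) (hr2 : r ≠ 2)
    (hcard : Nat.card (USubfld.fixed σ) = Nat.card (F₀.comap (USubfld.fixed σ).subtype) ^ r) :
    Cfsg.Geo.IsMaximalIn (isom h ⊓ Cfsg.Geo.specialLinear ι F)
      (Cfsg.Geo.subfieldSubgroup F₀ P ⊓ (isom h ⊓ Cfsg.Geo.specialLinear ι F)) := by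
  set ζ := ω - σ ω
  have hζ : ζ ≠ 0 := sub_ne_zero.2 (Ne.symm hω')
  have hζσ : σ ζ = -ζ := by simp [ζ, hh.involutive]
  set f₁ : (ι → F) → (ι → F) → F := fun u v => ζ * h (ap P u) (ap P v)
  have hf₁ : IsSkewForm σ f₁ := by
    refine ⟨hh.ne_refl, hh.involutive, fun x y v => ?_, fun c x v => ?_, fun v w => ?_,
      fun v hv => ?_⟩
    · simp only [f₁, ap_add, hh.add_left, mul_add]
    · simp only [f₁, ap_smul, hh.smul_left]; ring
    · simp only [f₁]
      rw [map_mul, hζσ, hh.herm (ap P v) (ap P w)]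
      ring
    · obtain ⟨⟨z, hz⟩, ⟨y, hy⟩⟩ := hh.nondegenerate _ (ap_ne_zero P hv)
      exact ⟨⟨ap P⁻¹ z, by simp [f₁, ap_ap_inv, hζ, hz]⟩,
        ⟨ap P⁻¹ y, by simp [f₁, ap_ap_inv, hζ, hy]⟩⟩
  have hSL : (Cfsg.Geo.specialLinear ι F).map (MulAut.conj P).toMonoidHom =
      Cfsg.Geo.specialLinear ι F := by
    have : (Cfsg.Geo.specialLinear ι F).Normal := by
      unfold Cfsg.Geo.specialLinear; infer_instance
    ext g
    rw [Subgroup.mem_map_equiv, MulAut.conj_symm_apply]
    exact ⟨fun h => by simpa [mul_assoc] using this.conj_mem _ h P,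
      fun h => by simpa [mul_assoc] using this.conj_mem _ h P⁻¹⟩
  have := isMaximalIn_map_equiv (unitarySubfieldOdd_isMaximalIn hn hf₁ (F₀ := F₀)
    (fun u v hu hv => mul_mem (sub_mem hω (hσ _ hω))
      (by simpa [ap_def] using hP u v hu hv))
    hσ hω hω' hr hr2 hcard) (MulAut.conj P)
  have hI : (Unitary.sisom hf₁).map (MulAut.conj P).toMonoidHom =
      isom h ⊓ Cfsg.Geo.specialLinear ι F := by
    rw [Subgroup.map_inf _ _ _ (MulAut.conj P).injective, map_conj_isom h hζ P, hSL]
  rw [hI, Subgroup.map_inf _ _ _ (MulAut.conj P).injective, hI] at this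
  convert this using 2
  rw [Cfsg.Geo.subfieldSubgroup, Cfsg.Geo.subfieldSubgroup, map_one (MulAut.conj (G := GL ι F)),
    Subgroup.map_map]
  rfl

/-- A subfield stable under an involution that moves one of its elements is a quadratic extension
of its fixed part. -/
lemma card_eq_sq_comap {σ : F ≃+* F} (hinv : ∀ a, σ (σ a) = a) {L : Subfield F}
    (hσ : ∀ x, x ∈ L → σ x ∈ L) {ω : F} (hω : ω ∈ L) (hω' : σ ω ≠ ω) [Finite F] :
    Nat.card L = Nat.card (L.comap (USubfld.fixed σ).subtype) ^ 2 := by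
  set L₀ := L.comap (USubfld.fixed σ).subtype
  have hd : σ ω - ω ≠ 0 := sub_ne_zero.2 hω'
  have hmem : ∀ p : L₀ × L₀, ((p.1 : USubfld.fixed σ) : F) + ω * ((p.2 : USubfld.fixed σ) : F) ∈ L :=
    fun p => add_mem p.1.2 (mul_mem hω p.2.2)
  rw [sq, ← Nat.card_prod]
  refine (Nat.card_eq_of_bijective (fun p : L₀ × L₀ => (⟨_, hmem p⟩ : L)) ⟨?_, ?_⟩).symm
  · rintro ⟨⟨⟨a, ha⟩, ha'⟩, ⟨⟨b, hb⟩, hb'⟩⟩ ⟨⟨⟨a', ga⟩, ga'⟩, ⟨⟨b', gb⟩, gb'⟩⟩ h
    replace ha : σ a = a := ha
    replace hb : σ b = b := hb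
    replace ga : σ a' = a' := ga
    replace gb : σ b' = b' := gb
    have h1 : a + ω * b = a' + ω * b' := congrArg Subtype.val h
    have h2 := congrArg σ h1
    simp only [map_add, map_mul, ha, hb, ga, gb] at h2
    have hbb : b = b' := by
      have : (σ ω - ω) * (b - b') = 0 := by linear_combination h2 - h1
      exact sub_eq_zero.1 ((mul_eq_zero.1 this).resolve_left hd)
    subst hbb
    have haa : a = a' := add_right_cancel h1
    subst haa
    rfl
  · rintro ⟨x, hx⟩
    set b := (σ x - x) / (σ ω - ω) with hb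
    have hb' : σ b = b := by
      rw [hb, map_div₀, map_sub, map_sub, hinv, hinv, ← neg_sub (σ x) x, ← neg_sub (σ ω) ω,
        neg_div_neg_eq]
    have hbL : b ∈ L := div_mem (sub_mem (hσ x hx) hx) (sub_mem (hσ ω hω) hω)
    have e : b * (σ ω - ω) = σ x - x := by rw [hb]; field_simp
    have ha' : σ (x - ω * b) = x - ω * b := by
      rw [map_sub, map_mul, hb']; linear_combination -e
    exact ⟨⟨⟨⟨x - ω * b, ha'⟩, sub_mem hx (mul_mem hω hbL)⟩, ⟨⟨b, hb'⟩, hbL⟩⟩,
      Subtype.ext (by simp)⟩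

/-- An involution of a finite field moves an element of every subfield of odd index and preserves
it. -/
lemma exists_moved_of_odd_degree [Finite F] {σ : F ≃+* F} (hne : σ ≠ RingEquiv.refl F)
    (hinv : ∀ a, σ (σ a) = a) {F₀ : Subfield F} {r : ℕ} (hro : Odd r)
    (hcard : Nat.card F = Nat.card F₀ ^ r) :
    (∀ x, x ∈ F₀ → σ x ∈ F₀) ∧ ∃ ω ∈ F₀, σ ω ≠ ω := by
  classical
  have : Fintype F := Fintype.ofFinite F
  set q := Nat.card F₀
  have hq1 : 1 < q := Finite.one_lt_card
  have hpow : ∀ x ∈ F₀, x ^ q = x := fun x hx => by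
    have hp := congrArg Subtype.val (FiniteField.pow_card (⟨x, hx⟩ : F₀))
    rw [show q = Fintype.card F₀ from Nat.card_eq_fintype_card]
    simpa using hp
  have hroots : ∀ x : F, x ^ q = x → x ∈ F₀ := by
    have hsub : (Finset.univ.filter fun x => x ∈ F₀) ⊆
        (Finset.univ.filter fun x : F => x ^ q = x) := fun x hx => by
      simp only [Finset.mem_filter, Finset.mem_univ, true_and] at hx ⊢
      exact hpow x hx
    have hcardF₀ : (Finset.univ.filter fun x => x ∈ F₀).card = q := by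
      rw [← Fintype.card_subtype, ← Nat.card_eq_fintype_card]
    have hle : (Finset.univ.filter fun x : F => x ^ q = x).card ≤ q := by
      have h0 : (Polynomial.X ^ q - Polynomial.X : Polynomial F) ≠ 0 :=
        FiniteField.X_pow_card_sub_X_ne_zero F hq1
      have hs : (Finset.univ.filter fun x : F => x ^ q = x) ⊆
          (Polynomial.X ^ q - Polynomial.X : Polynomial F).roots.toFinset := by
        intro x hx
        simp only [Finset.mem_filter, Finset.mem_univ, true_and] at hx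
        simp [Polynomial.mem_roots h0, hx]
      refine (Finset.card_le_card hs).trans ((Multiset.toFinset_card_le _).trans ?_)
      exact (Polynomial.card_roots' _).trans_eq (FiniteField.X_pow_card_sub_X_natDegree_eq F hq1)
    have heq := Finset.eq_of_subset_of_card_le hsub (hle.trans hcardF₀.ge)
    intro x hx
    have := Finset.ext_iff.mp heq x
    simpa [hx] using this
  refine ⟨fun x hx => hroots _ (by rw [← map_pow, hpow x hx]), ?_⟩
  by_contra hc
  push Not at hc
  obtain ⟨ω, hω⟩ : ∃ ω, σ ω ≠ ω := by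
    by_contra h
    push Not at h
    exact hne (RingEquiv.ext h)
  have h1 := card_eq_sq_comap hinv (L := ⊤) (fun _ _ => Subfield.mem_top _) (Subfield.mem_top ω) hω
  have hT : Nat.card (⊤ : Subfield F) = Nat.card F :=
    Nat.card_congr (Equiv.subtypeUnivEquiv fun x => Subfield.mem_top x)
  have hK : Nat.card ((⊤ : Subfield F).comap (USubfld.fixed σ).subtype) =
      Nat.card (USubfld.fixed σ) :=
    Nat.card_congr (Equiv.subtypeUnivEquiv fun x => Subfield.mem_top (x : F))
  rw [hT, hK] at h1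
  let N : Submodule F₀ F :=
    { carrier := (USubfld.fixed σ : Set F)
      zero_mem' := zero_mem (USubfld.fixed σ)
      add_mem' := fun h1 h2 => add_mem h1 h2
      smul_mem' := fun c x hx => mul_mem (show (c : F) ∈ USubfld.fixed σ from hc c c.2) hx }
  have h2 := Module.natCard_eq_pow_finrank (K := F₀) (V := N)
  have h3 : Nat.card N = Nat.card (USubfld.fixed σ) := rfl
  rw [hcard, ← h3, h2, ← pow_mul] at h1
  have h4 := Nat.pow_right_injective hq1 h1
  rw [h4] at hro
  exact (Nat.not_odd_iff_even.2 ⟨Module.finrank F₀ N, by ring⟩) hro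

end CfsgLib.Geometric
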