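import Cfsg.Prelude.Def_LieClassical
import Cfsg.Agent.Lib.Geometric.UnitaryStabForm
import Cfsg.Agent.Lib.Geometric.UnitaryDecomp
import Cfsg.Agent.Lib.Geometric.UnitaryMonomial.Thm
import Cfsg.Agent.Lib.Geometric.SkewPairApply
import Cfsg.Agent.Lib.Geometric.ExtField.UnitMax
import Cfsg.Agent.Lib.Geometric.UnitaryTensorMax.Descent
import Cfsg.Agent.Lib.Geometric.UnitaryTensor
import Cfsg.Agent.Lib.Geometric.UnitarySubfieldOdd
import Cfsg.Agent.Lib.Geometric.UnitarySubfield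
import Cfsg.Agent.Lib.Geometric.UnitaryOrthSubfield

/-!
# Geometric maximal subgroups of `SU n q`, stated for `hermForm n F q`
-/

set_option autoImplicit false

namespace CfsgLib.Geometric.SUTypes

variable {F : Type*} [Field F] [Fintype F] {n q : ℕ}

/-- Stabilisers of totally isotropic subspaces. -/
theorem totallySingular (hF : Fintype.card F = q ^ 2) (hn : 4 ≤ n) {W : Submodule F (Fin n → F)}
    (hW0 : W ≠ ⊥) (hW : Cfsg.Geo.IsTotallySingularFor (Cfsg.hermForm n F q) W) :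
    Cfsg.Geo.IsMaximalIn (Cfsg.GU n F q ⊓ Cfsg.Geo.specialLinear (Fin n) F) (Cfsg.Geo.subspaceStabilizer W ⊓ (Cfsg.GU n F q ⊓ Cfsg.Geo.specialLinear (Fin n) F)) := by
  obtain ⟨σ, -, hh⟩ := CfsgLib.Geometric.isUnitaryForm_hermForm (F := F) n q hF
  exact CfsgLib.Geometric.Unitary.stab_isMaximalIn_of_isTotallySingularFor hh
    (by rw [Fintype.card_fin]; omega) hW0 hW

/-- Stabilisers of non-degenerate subspaces. -/
theorem nondegenerate (hF : Fintype.card F = q ^ 2) (hn : 6 ≤ n) {W : Submodule F (Fin n → F)}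
    (hW0 : W ≠ ⊥) (hW : Cfsg.Geo.IsNondegenerateOn (Cfsg.hermForm n F q) W)
    (hdim : 2 * Module.finrank F W < n) :
    Cfsg.Geo.IsMaximalIn (Cfsg.GU n F q ⊓ Cfsg.Geo.specialLinear (Fin n) F) (Cfsg.Geo.subspaceStabilizer W ⊓ (Cfsg.GU n F q ⊓ Cfsg.Geo.specialLinear (Fin n) F)) := by
  obtain ⟨σ, -, hh⟩ := CfsgLib.Geometric.isUnitaryForm_hermForm (F := F) n q hF
  exact CfsgLib.Geometric.Unitary.stab_isMaximalIn_of_isNondegenerateOn hh
    (by rw [Fintype.card_fin]; omega) hW0 hW (by rw [Fintype.card_fin]; exact hdim)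

/-- Stabilisers of orthogonal frames. -/
theorem frame (hF : Fintype.card F = q ^ 2) (hn : 9 ≤ n) {t : ℕ}
    {D : Fin t → Submodule F (Fin n → F)}
    (hD : Cfsg.Geo.IsNondegenerateMDecomposition (Cfsg.hermForm n F q) 1 D) :
    Cfsg.Geo.IsMaximalIn (Cfsg.GU n F q ⊓ Cfsg.Geo.specialLinear (Fin n) F) (Cfsg.Geo.decompositionStabilizer D ⊓ (Cfsg.GU n F q ⊓ Cfsg.Geo.specialLinear (Fin n) F)) := by
  classical
  obtain ⟨σ, hσ, hh⟩ := CfsgLib.Geometric.isUnitaryForm_hermForm n q hF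
  have hconj : CfsgLib.UMon.IsConj σ q := ⟨hF, hσ⟩
  have hform : Cfsg.hermForm n F q = CfsgLib.UMon.hb σ := by
    funext u v
    simp [Cfsg.hermForm, CfsgLib.UMon.hb, hσ]
  have hI : CfsgLib.Geometric.isom (Cfsg.hermForm n F q) = Cfsg.GU n F q := rfl
  rw [← hI, hform]
  exact CfsgLib.UMon.frame_isMaximalIn hconj (by rw [Fintype.card_fin]; omega) (hform ▸ hD)

/-- Stabilisers of orthogonal decompositions into parts of dimension at least two. -/
theorem decomp (hF : Fintype.card F = q ^ 2) (hn : 5 ≤ n) {t k : ℕ}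
    {D : Fin t → Submodule F (Fin n → F)}
    (hD : Cfsg.Geo.IsNondegenerateMDecomposition (Cfsg.hermForm n F q) k D) (hk : 2 ≤ k) (hex : k = 2 → 3 ≤ q) :
    Cfsg.Geo.IsMaximalIn (Cfsg.GU n F q ⊓ Cfsg.Geo.specialLinear (Fin n) F) (Cfsg.Geo.decompositionStabilizer D ⊓ (Cfsg.GU n F q ⊓ Cfsg.Geo.specialLinear (Fin n) F)) := by
  classical
  obtain ⟨σ, -, hh⟩ := CfsgLib.Geometric.isUnitaryForm_hermForm n q hF
  obtain ⟨ζ, hζ, hf⟩ := CfsgLib.Geometric.exists_skewForm_of_unitary hh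
  have hI : CfsgLib.Geometric.isom (Cfsg.hermForm n F q) = Cfsg.GU n F q := rfl
  have hD' : Cfsg.Geo.IsNondegenerateMDecomposition (fun u v => ζ * Cfsg.hermForm n F q u v) k D := by
    refine ⟨hD.decomp, fun i v hv hv0 => ?_, fun i j hij u hu v hv => ?_⟩
    · obtain ⟨⟨x, hx, hxv⟩, ⟨y, hy, hvy⟩⟩ := hD.nondegenerate i v hv hv0
      exact ⟨⟨x, hx, mul_ne_zero hζ hxv⟩, ⟨y, hy, mul_ne_zero hζ hvy⟩⟩
    · show ζ * _ = 0
      rw [hD.orthogonal i j hij u hu v hv, mul_zero]
  have hbig : 3 ≤ k ∨ 3 ≤ t := by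
    have := CfsgLib.Geometric.Decomp.card_le hD.decomp
    rw [Fintype.card_fin] at this
    by_contra h
    push Not at h
    nlinarith
  have hcard : k = 2 → 4 < Nat.card F := by
    intro h
    rw [Nat.card_eq_fintype_card, hF]
    have := hex h
    nlinarith
  have := CfsgLib.Geometric.Unitary.decomp_isMaximalIn hf hD' (by rw [Fintype.card_fin]; omega)
    hk hbig hcard
  unfold CfsgLib.Geometric.Unitary.sisom at this
  rwa [CfsgLib.Geometric.isom_mul_const hζ, hI] at this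

/-- Stabilisers of pairs of complementary totally isotropic subspaces. -/
theorem pair (hF : Fintype.card F = q ^ 2) (hn : 5 ≤ n) {k : ℕ}
    {D : Fin 2 → Submodule F (Fin n → F)} (hD : Cfsg.Geo.IsMDecomposition k D)
    (hts : ∀ i, Cfsg.Geo.IsTotallySingularFor (Cfsg.hermForm n F q) (D i)) :
    Cfsg.Geo.IsMaximalIn (Cfsg.GU n F q ⊓ Cfsg.Geo.specialLinear (Fin n) F) (Cfsg.Geo.decompositionStabilizer D ⊓ (Cfsg.GU n F q ⊓ Cfsg.Geo.specialLinear (Fin n) F)) := by
  obtain ⟨σ, -, hh⟩ := CfsgLib.Geometric.isUnitaryForm_hermForm n q hF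
  exact CfsgLib.Geometric.Unitary.pair_isMaximalIn hh (by rw [Fintype.card_fin]; omega) hD hts

/-- Normalisers of extension fields of odd prime degree. -/
theorem extField (hF : Fintype.card F = q ^ 2) {r : ℕ} (hr : r.Prime) (hodd : Odd r)
    (hn : 2 * r ≤ n) (hk : 3 * r ≤ n ∨ r * (q ^ 2 - 1) < q ^ r + 1)
    {K : Subalgebra F (Matrix (Fin n) (Fin n) F)} (hK : Cfsg.Geo.IsFieldSubalgebra r K)
    (hac : Cfsg.Geo.IsAdjointClosedFor (Cfsg.hermForm n F q) K) :
    Cfsg.Geo.IsMaximalIn (Cfsg.GU n F q ⊓ Cfsg.Geo.specialLinear (Fin n) F) (Cfsg.Geo.subalgebraNormalizer K ⊓ (Cfsg.GU n F q ⊓ Cfsg.Geo.specialLinear (Fin n) F)) := by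
  obtain ⟨σ, -, hh⟩ := CfsgLib.Geometric.isUnitaryForm_hermForm n q hF
  exact CfsgLib.Geometric.ExtF.unitary_maximal hh hr hodd (by rwa [Fintype.card_fin])
    (by
      rw [Fintype.card_fin]
      refine hk.imp_right fun h q' hq' => ?_
      rwa [Nat.pow_left_injective two_ne_zero (hq'.symm.trans hF)]) K hK hac

/-- Subfield subgroups for subfields of odd prime index. -/
theorem subfieldOdd (hF : Fintype.card F = q ^ 2) (hn : 5 ≤ n) {F₀ : Subfield F} {r : ℕ}
    (hr : r.Prime) (hro : Odd r) (hcard : Fintype.card F = Nat.card F₀ ^ r)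
    {P : Matrix.GeneralLinearGroup (Fin n) F}
    (hP : Cfsg.Geo.IsFormRationalStructure (Cfsg.hermForm n F q) F₀ 1 P) :
    Cfsg.Geo.IsMaximalIn (Cfsg.GU n F q ⊓ Cfsg.Geo.specialLinear (Fin n) F) (Cfsg.Geo.subfieldSubgroup F₀ P ⊓ (Cfsg.GU n F q ⊓ Cfsg.Geo.specialLinear (Fin n) F)) := by
  classical
  obtain ⟨σ, -, hh⟩ := CfsgLib.Geometric.isUnitaryForm_hermForm (F := F) n q hF
  rw [← Nat.card_eq_fintype_card] at hcard
  obtain ⟨hσ, ω, hω, hω'⟩ :=
    CfsgLib.Geometric.exists_moved_of_odd_degree hh.ne_refl hh.involutive hro hcard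
  have h1 := CfsgLib.Geometric.card_eq_sq_comap hh.involutive hσ hω hω'
  have h2 := CfsgLib.Geometric.card_eq_sq_comap hh.involutive (L := ⊤)
    (fun _ _ => Subfield.mem_top _) (Subfield.mem_top ω) hω'
  have hT : Nat.card (⊤ : Subfield F) = Nat.card F :=
    Nat.card_congr (Equiv.subtypeUnivEquiv fun x => Subfield.mem_top x)
  have hK : Nat.card ((⊤ : Subfield F).comap (CfsgLib.Geometric.USubfld.fixed σ).subtype) =
      Nat.card (CfsgLib.Geometric.USubfld.fixed σ) :=
    Nat.card_congr (Equiv.subtypeUnivEquiv fun x => Subfield.mem_top (x : F))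
  rw [hT, hK, hcard, h1, ← pow_mul, mul_comm, pow_mul] at h2
  have h3 := Nat.pow_left_injective (n := 2) (by norm_num) h2
  exact CfsgLib.Geometric.unitarySubfieldOdd_isMaximalIn' (by simp; omega) hh hP hσ hω hω' hr
    (fun h => by rw [h] at hro; exact absurd hro (by decide)) h3.symm

/-- Orthogonal subfield subgroups. -/
theorem subfieldOrth (hF : Fintype.card F = q ^ 2) (hn : 9 ≤ n) (hodd : Odd q) {F₀ : Subfield F}
    (hcard : Fintype.card F = Nat.card F₀ ^ 2) {P : Matrix.GeneralLinearGroup (Fin n) F}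
    (hP : Cfsg.Geo.IsFormRationalStructure (Cfsg.hermForm n F q) F₀ 1 P) :
    Cfsg.Geo.IsMaximalIn (Cfsg.GU n F q ⊓ Cfsg.Geo.specialLinear (Fin n) F) (Cfsg.Geo.subfieldSubgroup F₀ P ⊓ (Cfsg.GU n F q ⊓ Cfsg.Geo.specialLinear (Fin n) F)) := by
  classical
  obtain ⟨σ, hσ, hh⟩ := CfsgLib.Geometric.isUnitaryForm_hermForm (F := F) n q hF
  have hq : Nat.card F₀ = q :=
    (Nat.pow_left_injective two_ne_zero (hF ▸ hcard : q ^ 2 = Nat.card F₀ ^ 2)).symm
  have hq1 : 1 < q := hq ▸ Finite.one_lt_card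
  have hsub : ∀ x ∈ F₀, x ^ q = x := fun x hx => by
    have : Fintype F₀ := Fintype.ofFinite F₀
    have hp := congrArg Subtype.val (FiniteField.pow_card (⟨x, hx⟩ : F₀))
    rw [← hq, Nat.card_eq_fintype_card]
    simpa using hp
  have h0 : (Polynomial.X ^ q - Polynomial.X : Polynomial F) ≠ 0 :=
    FiniteField.X_pow_card_sub_X_ne_zero F hq1
  have hroots : (Finset.univ.filter fun x : F => x ^ q = x).card ≤ q := by
    calc _ ≤ (Polynomial.X ^ q - Polynomial.X : Polynomial F).roots.toFinset.card :=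
          Finset.card_le_card fun x hx => by
            simp only [Finset.mem_filter, Finset.mem_univ, true_and] at hx
            rw [Multiset.mem_toFinset, Polynomial.mem_roots h0]
            simp [hx]
      _ ≤ _ := le_trans (Multiset.toFinset_card_le _) (le_trans (Polynomial.card_roots' _)
          (le_of_eq (FiniteField.X_pow_card_sub_X_natDegree_eq F hq1)))
  have heq : (Finset.univ.filter fun x => x ∈ F₀) = (Finset.univ.filter fun x : F => x ^ q = x) :=
    Finset.eq_of_subset_of_card_le (fun x hx => by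
      simp only [Finset.mem_filter, Finset.mem_univ, true_and] at hx ⊢
      exact hsub x hx) (le_trans hroots (le_of_eq (by
        rw [← hq, Nat.card_eq_fintype_card, Fintype.card_subtype])))
  have h2 : (2 : F) ≠ 0 := by
    intro h
    have h' : ringChar F = 2 := CharP.ringChar_of_prime_eq_zero Nat.prime_two (by exact_mod_cast h)
    have := FiniteField.even_card_of_char_two h'
    rw [hF] at this
    exact Nat.not_even_iff_odd.2 (hodd.pow (n := 2)) (Nat.even_iff.2 this)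
  refine CfsgLib.Geometric.UOSubfld.isMaximalIn' (σ := σ) (by simp; omega) hh h2 (fun x => ?_) hP
  rw [hσ]
  have := Finset.ext_iff.1 heq x
  simp only [Finset.mem_filter, Finset.mem_univ, true_and] at this
  exact this.symm

/-- Symplectic subfield subgroups. -/
theorem subfieldSymp (hF : Fintype.card F = q ^ 2) (hn : 4 ≤ n) {F₀ : Subfield F}
    (hcard : Fintype.card F = Nat.card F₀ ^ 2) {ζ : F} (hζ0 : ζ ≠ 0) (hζ : ζ + ζ ^ q = 0)
    {P : Matrix.GeneralLinearGroup (Fin n) F}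
    (hP : Cfsg.Geo.IsFormRationalStructure (Cfsg.hermForm n F q) F₀ ζ P)
    (halt : ∀ u : Fin n → F, (∀ i, u i ∈ F₀) → Cfsg.hermForm n F q (Matrix.mulVec (P : Matrix (Fin n) (Fin n) F) u)
      (Matrix.mulVec (P : Matrix (Fin n) (Fin n) F) u) = 0) :
    Cfsg.Geo.IsMaximalIn (Cfsg.GU n F q ⊓ Cfsg.Geo.specialLinear (Fin n) F) (Cfsg.Geo.subfieldSubgroup F₀ P ⊓ (Cfsg.GU n F q ⊓ Cfsg.Geo.specialLinear (Fin n) F)) := by
  classical
  obtain ⟨σ, hσ, hh⟩ := CfsgLib.Geometric.isUnitaryForm_hermForm (F := F) n q hF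
  have hζσ : σ ζ = -ζ := by rw [hσ]; linear_combination hζ
  have hf : CfsgLib.Geometric.IsSkewForm σ (fun u v => ζ * Cfsg.hermForm n F q u v) := by
    refine ⟨hh.ne_refl, hh.involutive, fun x y v => ?_, fun c x v => ?_, fun v w => ?_,
      fun v hv => ?_⟩
    · rw [hh.add_left]; ring
    · rw [hh.smul_left]; ring
    · rw [map_mul, hζσ, hh.herm v w]; ring
    · obtain ⟨⟨x, hx⟩, ⟨y, hy⟩⟩ := hh.nondegenerate v hv
      exact ⟨⟨x, mul_ne_zero hζ0 hx⟩, ⟨y, mul_ne_zero hζ0 hy⟩⟩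
  have hq : Nat.card F₀ = q := by
    rw [hF] at hcard
    exact (Nat.pow_left_injective (n := 2) (by norm_num) hcard).symm
  have hfix : ∀ x, σ x = x ↔ x ∈ F₀ := by
    have hq1 : 1 < q := by
      have := Fintype.one_lt_card (α := F)
      rw [hF] at this
      by_contra h
      interval_cases q <;> simp at this
    have hsub : (Finset.univ.filter fun x => x ∈ F₀) ⊆
        (Finset.univ.filter fun x : F => x ^ q = x) := by
      intro x hx
      simp only [Finset.mem_filter, Finset.mem_univ, true_and] at hx ⊢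
      have hp := congrArg Subtype.val (FiniteField.pow_card (⟨x, hx⟩ : F₀))
      rw [← Nat.card_eq_fintype_card, hq] at hp
      simpa using hp
    have hcardF₀ : (Finset.univ.filter fun x => x ∈ F₀).card = q := by
      rw [← Fintype.card_subtype, ← Nat.card_eq_fintype_card]; exact hq
    have hle : (Finset.univ.filter fun x : F => x ^ q = x).card ≤ q := by
      have h0 : (Polynomial.X ^ q - Polynomial.X : Polynomial F) ≠ 0 :=
        FiniteField.X_pow_card_sub_X_ne_zero F hq1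
      have hs : (Finset.univ.filter fun x : F => x ^ q = x) ⊆
          (Polynomial.X ^ q - Polynomial.X : Polynomial F).roots.toFinset := by
        intro x hx
        simp only [Finset.mem_filter, Finset.mem_univ, true_and] at hx
        simp [Polynomial.mem_roots h0, hx]
      refine (Finset.card_le_card hs).trans ((Multiset.toFinset_card_le _).trans ?_)
      exact (Polynomial.card_roots' _).trans_eq (FiniteField.X_pow_card_sub_X_natDegree_eq F hq1)
    have heq := Finset.eq_of_subset_of_card_le hsub (hle.trans hcardF₀.ge)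
    intro x
    rw [hσ]
    have := Finset.ext_iff.mp heq x
    simpa using this.symm
  have hmax := CfsgLib.Geometric.Unitary.subfield_isMaximalIn hf (P := P)
    (by rw [Fintype.card_fin]; omega) hfix ?_ ?_
  · rwa [CfsgLib.Geometric.Unitary.sisom, CfsgLib.Geometric.isom_mul_const hζ0] at hmax
  · intro u v hu hv
    obtain ⟨u, hu', rfl⟩ := CfsgLib.Geometric.Subfld.rat_iff_exists.mp hu
    obtain ⟨v, hv', rfl⟩ := CfsgLib.Geometric.Subfld.rat_iff_exists.mp hv
    exact hP u v hu' hv'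
  · intro u hu
    obtain ⟨u, hu', rfl⟩ := CfsgLib.Geometric.Subfld.rat_iff_exists.mp hu
    simp [CfsgLib.Geometric.ap_def, halt u hu']

/-- Stabilisers of tensor decompositions. -/
theorem tensor (hF : Fintype.card F = q ^ 2) {n₁ n₂ : ℕ} (h1 : 2 ≤ n₁) (h12 : n₁ < n₂)
    (hn₂ : 4 ≤ n₂) (hex : ¬ (n₁ = 2 ∧ q = 2)) (hn : 0 < n) (e : Fin n ≃ Fin n₁ × Fin n₂)
    (P : Matrix.GeneralLinearGroup (Fin n) F) {f₁ : (Fin n₁ → F) → (Fin n₁ → F) → F}
    {f₂ : (Fin n₂ → F) → (Fin n₂ → F) → F} (hf₁ : Cfsg.Geo.IsUnitaryFormPow q f₁)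
    (hf₂ : Cfsg.Geo.IsUnitaryFormPow q f₂)
    (hT : Cfsg.Geo.IsTensorFormStructure (fun x : F => x ^ q) (Cfsg.hermForm n F q) f₁ f₂ e P) :
    Cfsg.Geo.IsMaximalIn (Cfsg.GU n F q ⊓ Cfsg.Geo.specialLinear (Fin n) F) (Cfsg.Geo.tensorProductSubgroup n₁ n₂ e P ⊓ (Cfsg.GU n F q ⊓ Cfsg.Geo.specialLinear (Fin n) F)) := by
  classical
  obtain ⟨σ, hσ, hh⟩ := CfsgLib.Geometric.isUnitaryForm_hermForm (F := F) n q hF
  obtain ⟨ζ, hζ, hf⟩ := CfsgLib.Geometric.exists_skewForm_of_unitary hh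
  have hζσ : σ ζ = -ζ := by
    obtain ⟨⟨x, hx⟩, -⟩ := hh.nondegenerate (fun _ => 1) (fun h0 => by
      simpa using congrFun h0 ⟨0, by omega⟩)
    have h := hf.skew x (fun _ => 1)
    rw [map_mul, hh.herm x (fun _ => 1)] at h
    have hne : σ (Cfsg.hermForm n F q (fun _ => 1) x) ≠ 0 := by
      rw [← hh.herm]; exact hx
    exact mul_right_cancel₀ hne (by linear_combination h)
  have conv : ∀ {k : ℕ} {h : (Fin k → F) → (Fin k → F) → F}, Cfsg.Geo.IsUnitaryFormPow q h →
      Cfsg.Geo.IsUnitaryForm σ h ∧ CfsgLib.Geometric.IsSkewForm σ (fun u v => ζ * h u v) := by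
    intro k h hk
    refine ⟨⟨hh.ne_refl, hh.involutive, hk.add_left, hk.smul_left,
      fun v w => by rw [hσ]; exact hk.herm v w, hk.nondegenerate⟩, hh.ne_refl, hh.involutive,
      fun x y v => by rw [hk.add_left]; ring, fun c x v => by rw [hk.smul_left]; ring,
      fun v w => ?_, fun v hv => ?_⟩
    · rw [map_mul, hζσ, hσ (h w v), ← hk.herm v w]; ring
    · obtain ⟨⟨x, hx⟩, ⟨y, hy⟩⟩ := hk.nondegenerate v hv
      exact ⟨⟨x, mul_ne_zero hζ hx⟩, ⟨y, mul_ne_zero hζ hy⟩⟩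
  have gram : ∀ {k : ℕ} {h : (Fin k → F) → (Fin k → F) → F}, Cfsg.Geo.IsUnitaryForm σ h →
      ∀ x y, h x y = Cfsg.Geo.formOfGram (σ : F →+* F) (Cfsg.Geo.gramMatrix h) x y := fun hu =>
    CfsgLib.Geometric.eq_formOfGram hu.add_left hu.smul_left
      (fun x y v => by rw [hu.herm, hu.add_left, map_add, ← hu.herm, ← hu.herm])
      (fun c v x => by rw [hu.herm, hu.smul_left, map_mul, ← hu.herm]; rfl)
  rw [show (fun x : F => x ^ q) = ⇑(σ : F →+* F) from funext fun x => (hσ x).symm] at hT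
  obtain ⟨c, hc, hform⟩ := CfsgLib.Geometric.Tensor.form_pt e P (gram (conv hf₁).1)
    (gram (conv hf₂).1) hT
  have hU : CfsgLib.Geometric.Unitary.HTensor σ (fun u v => ζ * Cfsg.hermForm n F q u v) e P
      (fun u v => ζ * f₁ u v) (fun u v => ζ * f₂ u v) (c / ζ) :=
    ⟨hf, (conv hf₁).2, (conv hf₂).2, div_ne_zero hc hζ, h1, hn₂, fun x x' y y' => by
      rw [hform]; field_simp⟩
  have hcard : n = n₁ * n₂ := by simpa using Fintype.card_congr e
  have hq : (∃ k : F, σ k = k ∧ k ≠ 0 ∧ k ≠ 1) ∨ 3 ≤ n₁ := by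
    refine or_iff_not_imp_right.mpr fun h3 => ?_
    by_contra hc'
    push Not at hc'
    have hall : ∀ x : Fˣ, x ^ (q + 1) = 1 := fun x => Units.ext (by
      have h0 : (x : F) * σ x ≠ 0 := mul_ne_zero x.ne_zero (by simp)
      have := hc' ((x : F) * σ x) (by rw [map_mul, hh.involutive, mul_comm]) h0
      rw [hσ] at this
      rw [Units.val_pow_eq_pow_val, Units.val_one, pow_succ']
      exact this)
    have hdvd := (FiniteField.forall_pow_eq_one_iff F (q + 1)).mp hall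
    rw [hF] at hdvd
    have hle := Nat.le_of_dvd (Nat.succ_pos q) hdvd
    have hq2 : 2 ≤ q := by
      have := Fintype.one_lt_card (α := F)
      rw [hF] at this
      by_contra h
      interval_cases q <;> simp at this
    have hq2' : q ≠ 2 := fun h => hex ⟨by omega, h⟩
    have : 3 * q ≤ q ^ 2 := by rw [sq]; exact Nat.mul_le_mul_right q (by omega)
    omega
  have hiso : CfsgLib.Geometric.isom (fun u v => ζ * Cfsg.hermForm n F q u v) = Cfsg.GU n F q :=
    CfsgLib.Geometric.isom_mul_const hζ _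
  have := hU.isMaximalIn h12 hq.symm
  simp only [hiso] at this
  exact this

end CfsgLib.Geometric.SUTypes
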