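import Cfsg.Agent.Lib.Geometric.Symp

/-!
In characteristic two the isometry group of a quadratic form is maximal in the isometry group of
its polar form.
-/

namespace CfsgLib.Geometric

open Matrix

variable {ι : Type} [Fintype ι] [DecidableEq ι] {F : Type*} [Field F]
variable {f : (ι → F) → (ι → F) → F} (hf : Cfsg.Geo.IsSymplecticForm f)
include hf

namespace Symp

lemma card_le_finrank_add_finrank_perp (U : Submodule F (ι → F)) :
    Fintype.card ι ≤ Module.finrank F (perp hf U) + Module.finrank F U := by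
  let Φ : (ι → F) →ₗ[F] Module.Dual F U := (U.subtype.dualMap).comp (fl hf)
  have hker : LinearMap.ker Φ ≤ perp hf U := fun x hx u hu => by
    have := congrArg (fun φ : Module.Dual F U => φ ⟨u, hu⟩) (LinearMap.mem_ker.mp hx)
    simp [Φ] at this
    exact (eq_zero_comm hf).mp this
  have h1 := Φ.finrank_range_add_finrank_ker
  have h2 : Module.finrank F (LinearMap.range Φ) ≤ Module.finrank F U :=
    (Submodule.finrank_le _).trans_eq Subspace.dual_finrank_eq
  have h3 := Submodule.finrank_mono hker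
  rw [Module.finrank_fintype_fun_eq_card] at h1
  omega

variable [Fintype F] (heven : ringChar F = 2) {Q : (ι → F) → F}
  (hQs : ∀ (c : F) (v : ι → F), Q (c • v) = c ^ 2 * Q v)
  (hpol : ∀ u v, QuadraticMap.polar Q u v = f u v)
include heven hQs hpol

omit [Fintype F] heven in
lemma quad_add (u v : ι → F) : Q (u + v) = Q u + Q v + f u v := by
  rw [← hpol u v, QuadraticMap.polar]
  abel

omit hQs hpol in
lemma exists_mul_self_eq (s : F) : ∃ r, r * r = s := by
  obtain ⟨r, hr⟩ := FiniteField.isSquare_of_char_two heven s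
  exact ⟨r, hr.symm⟩

/-- Vectors with prescribed products with two vectors and prescribed value of the form. -/
lemma exists_value (hdim : 7 ≤ Fintype.card ι) {a b : ι → F} (ha : a ≠ 0)
    (hb : b ∉ Submodule.span F {a}) (s t r : F) : ∃ z, f z a = s ∧ f z b = t ∧ Q z = r := by
  have ha' : a ∉ Submodule.span F {b} := by
    intro h
    obtain ⟨c, hc⟩ := Submodule.mem_span_singleton.mp h
    have hc0 : c ≠ 0 := fun h0 => ha (by rw [← hc, h0, zero_smul])
    exact hb (Submodule.mem_span_singleton.mpr ⟨c⁻¹, by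
      rw [← hc, smul_smul, inv_mul_cancel₀ hc0, one_smul]⟩)
  obtain ⟨p, hp, hpb⟩ := exists_perp_ne hf hb
  obtain ⟨q, hq, hqa⟩ := exists_perp_ne hf ha'
  rw [mem_perp_span hf] at hp hq
  have hpb' : f p b ≠ 0 := hpb ∘ (eq_zero_comm hf).mp
  have hqa' : f q a ≠ 0 := hqa ∘ (eq_zero_comm hf).mp
  set z₀ := (s / f q a) • q + (t / f p b) • p with hz₀
  have h0a : f z₀ a = s := by
    rw [hz₀, hf.bilinear.add_left, hf.bilinear.smul_left, hf.bilinear.smul_left, hp]
    field_simp
    ring
  have h0b : f z₀ b = t := by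
    rw [hz₀, hf.bilinear.add_left, hf.bilinear.smul_left, hf.bilinear.smul_left, hq]
    field_simp
    ring
  obtain ⟨e, he, hQe⟩ : ∃ e ∈ perp hf (Submodule.span F {a, b, z₀}), Q e ≠ 0 := by
    by_contra hc
    push Not at hc
    set U := Submodule.span F {a, b, z₀}
    have hle : perp hf U ≤ U := fun x hx => mem_of_forall_perp hf fun y hy => by
      have := quad_add hf hQs hpol x y
      rw [hc x hx, hc y hy, hc _ ((perp hf U).add_mem hx hy)] at this
      simpa using this.symm
    have hU : Module.finrank F U ≤ 3 := by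
      classical
      have := finrank_span_finset_le_card (R := F) ({a, b, z₀} : Finset (ι → F))
      rw [Finset.coe_insert, Finset.coe_insert, Finset.coe_singleton] at this
      exact this.trans Finset.card_le_three
    have := card_le_finrank_add_finrank_perp hf U
    have := Submodule.finrank_mono hle
    omega
  obtain ⟨l, hl⟩ := exists_mul_self_eq hf heven ((r - Q z₀) / Q e)
  refine ⟨z₀ + l • e, ?_, ?_, ?_⟩
  · rw [hf.bilinear.add_left, hf.bilinear.smul_left, he a (Submodule.subset_span (by simp)),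
      mul_zero, add_zero, h0a]
  · rw [hf.bilinear.add_left, hf.bilinear.smul_left, he b (Submodule.subset_span (by simp)),
      mul_zero, add_zero, h0b]
  · rw [quad_add hf hQs hpol, hQs, hf.bilinear.smul_right,
      (eq_zero_comm hf).mp (he z₀ (Submodule.subset_span (by simp))), pow_two, hl]
    field_simp
    ring

omit [Fintype F] in
lemma T_mem_quadSimilarity {v : ι → F} (hv : Q v ≠ 0) :
    T hf v (Q v)⁻¹ ∈ Cfsg.Geo.quadSimilarityGroup Q ⊓ isom f := by
  haveI : CharP F 2 := heven ▸ ringChar.charP F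
  refine ⟨⟨1, fun x => ?_⟩, T_mem_isom hf _ _⟩
  rw [Units.val_one, one_mul, ← ap_def, ap_T hf, quad_add hf hQs hpol, hQs, hf.bilinear.smul_right]
  field_simp
  linear_combination (f x v ^ 2) * CharTwo.two_eq_zero (R := F)

omit [Fintype F] hQs heven in
lemma eq_of_mem_quadSimilarity (hV : ∃ u v, f u v ≠ 0) {g : GL ι F}
    (hg : g ∈ Cfsg.Geo.quadSimilarityGroup Q ⊓ isom f) (x : ι → F) : Q (ap g x) = Q x := by
  obtain ⟨⟨c, hc⟩, hgI⟩ := hg
  obtain ⟨u, v, huv⟩ := hV
  have h1 := hpol (ap g u) (ap g v)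
  rw [(mem_isom_iff.mp hgI), ← hpol u v, QuadraticMap.polar, QuadraticMap.polar, ← ap_add,
    ap_def, ap_def, ap_def, hc, hc, hc] at h1
  have hne : QuadraticMap.polar Q u v ≠ 0 := by rwa [hpol]
  have h2 : ((c : F) - 1) * QuadraticMap.polar Q u v = 0 := by
    rw [QuadraticMap.polar]
    linear_combination h1
  rw [ap_def, hc, sub_eq_zero.mp ((mul_eq_zero.mp h2).resolve_right hne), one_mul]

/-- The isometries of a quadratic form are maximal among the isometries of its polar form. -/
theorem quad_isMaximalIn (hdim : 7 ≤ Fintype.card ι) :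
    Cfsg.Geo.IsMaximalIn (isom f) (Cfsg.Geo.quadSimilarityGroup Q ⊓ isom f) := by
  haveI : CharP F 2 := heven ▸ ringChar.charP F
  have hQ0 : Q 0 = 0 := by simpa using hQs 0 0
  obtain ⟨i, j, hij⟩ : ∃ i j : ι, i ≠ j :=
    Fintype.exists_pair_of_one_lt_card (by omega)
  have hsingle : ∀ k : ι, (Pi.single k 1 : ι → F) ≠ 0 := fun k => by simp
  -- an auxiliary vector outside a line
  have haux : ∀ a : ι → F, ∃ b, b ∉ Submodule.span F {a} := by
    intro a
    by_contra hc
    push Not at hc
    obtain ⟨c, hc1⟩ := Submodule.mem_span_singleton.mp (hc (Pi.single i 1))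
    obtain ⟨d, hd⟩ := Submodule.mem_span_singleton.mp (hc (Pi.single j 1))
    have h1 : c * a i = 1 := by simpa using congrFun hc1 i
    have h2 : c * a j = 0 := by simpa [hij.symm] using congrFun hc1 j
    have h3 : d * a j = 1 := by simpa using congrFun hd j
    rcases mul_eq_zero.mp h2 with h | h
    · simp [h] at h1
    · simp [h] at h3
  obtain ⟨u₀, hu₀⟩ := (hf.nondegenerate _ (hsingle i)).1
  have hV : ∃ u v, f u v ≠ 0 := ⟨_, _, hu₀⟩
  refine ⟨lt_of_le_of_ne inf_le_right fun he => ?_, fun M hHM hMS => ?_⟩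
  · obtain ⟨b, hb⟩ := haux (Pi.single i 1)
    obtain ⟨w, hw₁, -, hw₂⟩ := exists_value hf heven hQs hpol hdim (hsingle i) hb 1 0 0
    have hm : T hf w 1 ∈ Cfsg.Geo.quadSimilarityGroup Q ⊓ isom f := by
      rw [he]; exact T_mem_isom hf _ _
    have := eq_of_mem_quadSimilarity hf hpol hV hm (Pi.single i 1)
    rw [ap_T hf, quad_add hf hQs hpol, hQs, hw₂, hf.bilinear.smul_right,
      hf.skew (Pi.single i 1) w, hw₁] at this
    simp at this
  by_cases hM : M ≤ Cfsg.Geo.quadSimilarityGroup Q
  · exact Or.inl (le_antisymm (le_inf hM hMS) hHM)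
  refine Or.inr (le_antisymm hMS (isom_le_of_T_mem hf fun v c => ?_))
  obtain ⟨g, hgM, hg⟩ := SetLike.not_le_iff_exists.mp hM
  have hgI := hMS hgM
  -- the difference of the two forms is the square of a functional
  set d : (ι → F) → F := fun x => Q (ap g⁻¹ x) - Q x with hd
  have hdadd : ∀ x y, d (x + y) = d x + d y := by
    intro x y
    have h1 := (mem_isom_iff.mp (inv_mem hgI)) x y
    simp only [hd, ap_add, quad_add hf hQs hpol, h1]
    ring
  have hdsmul : ∀ (c : F) x, d (c • x) = c * c * d x := by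
    intro c x
    simp only [hd, ap_smul, hQs]
    ring
  choose sq hsq using exists_mul_self_eq hf heven
  have hinj : ∀ {p q : F}, p * p = q * q → p = q := fun {p q} h => by
    rw [← sub_eq_zero, ← mul_self_eq_zero]
    linear_combination h + (q * q - p * q) * CharTwo.two_eq_zero (R := F)
  let L : (ι → F) →ₗ[F] F :=
    { toFun := fun x => sq (d x)
      map_add' := fun x y => hinj (by
        rw [hsq, hdadd]
        linear_combination -(hsq (d x)) - hsq (d y) -
          (sq (d x) * sq (d y)) * CharTwo.two_eq_zero (R := F))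
      map_smul' := fun c x => hinj (by
        simp only [RingHom.id_apply, smul_eq_mul, hsq, hdsmul]
        linear_combination -(c * c) * hsq (d x)) }
  obtain ⟨a, ha⟩ := exists_eq_fl hf L
  have hQ' : ∀ x, Q (ap g⁻¹ x) = Q x + f x a * f x a := by
    intro x
    have : f x a = sq (d x) := by rw [← fl_apply hf, ha]; rfl
    rw [this, hsq, hd]
    ring
  have ha0 : a ≠ 0 := by
    intro h
    apply hg
    refine ⟨1, fun x => ?_⟩
    have := hQ' (ap g x)
    rw [ap_inv_ap, h, zero_right hf, mul_zero, add_zero] at this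
    rw [← ap_def, ← this, Units.val_one, one_mul]
  have hO : ∀ v, Q v ≠ 0 → T hf v (Q v)⁻¹ ∈ M := fun v hv =>
    hHM (T_mem_quadSimilarity hf heven hQs hpol hv)
  have hO' : ∀ v, Q v + f v a * f v a ≠ 0 → T hf v (Q v + f v a * f v a)⁻¹ ∈ M := by
    intro v hv
    rw [← hQ'] at hv ⊢
    have := mul_mem (mul_mem hgM (hO _ hv)) (inv_mem hgM)
    rwa [conj_T hf hgI, ap_ap_inv] at this
  -- transitivity of `M` on non-zero vectors with a given value
  have one : ∀ w v, f w v ≠ 0 → Q w = Q v → ∀ c, T hf w c ∈ M → T hf v c ∈ M := by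
    intro w v hne hwv c hc
    have hQs' : Q (w + v) = f w v := by
      rw [quad_add hf hQs hpol, hwv]
      linear_combination Q v * CharTwo.two_eq_zero (R := F)
    have hr := hO (w + v) (by rwa [hQs'])
    have h2 := mul_mem (mul_mem hr hc) (inv_mem hr)
    rw [conj_T hf (T_mem_isom hf _ _)] at h2
    convert h2 using 2
    rw [ap_T hf, hQs', hf.bilinear.add_right, hf.alternating w, zero_add, inv_mul_cancel₀ hne,
      one_smul, ← add_assoc, ← two_smul F w, CharTwo.two_eq_zero, zero_smul, zero_add]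
  have move : ∀ w v, w ≠ 0 → v ≠ 0 → Q w = Q v → ∀ c, T hf w c ∈ M → T hf v c ∈ M := by
    intro w v hw hv hwv c hc
    by_cases hne : f w v ≠ 0
    · exact one w v hne hwv c hc
    obtain ⟨z, hz₁, hz₂, hz₃⟩ : ∃ z, f w z ≠ 0 ∧ f z v ≠ 0 ∧ Q z = Q w := by
      by_cases hdep : v ∈ Submodule.span F {w}
      · obtain ⟨l, rfl⟩ := Submodule.mem_span_singleton.mp hdep
        obtain ⟨b, hb⟩ := haux w
        obtain ⟨z, hz₁, -, hz₃⟩ := exists_value hf heven hQs hpol hdim hw hb 1 0 (Q w)
        refine ⟨z, ?_, ?_, hz₃⟩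
        · rw [hf.skew, hz₁]; simp
        · rw [hf.bilinear.smul_right, hz₁, mul_one]
          exact fun h => hv (by rw [h, zero_smul])
      · obtain ⟨z, hz₁, hz₂, hz₃⟩ := exists_value hf heven hQs hpol hdim hw hdep 1 1 (Q w)
        refine ⟨z, ?_, ?_, hz₃⟩
        · rw [hf.skew, hz₁]; simp
        · rw [hz₂]; simp
    exact one z v hz₂ (hz₃.trans hwv) c (one w z hz₁ hz₃.symm c hc)
  by_cases hv : v = 0
  · have : T hf v c = 1 := gl_ext fun x => by simp [ap_T hf, hv]
    rw [this]; exact one_mem M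
  by_cases hc : c = 0
  · rw [hc, T_zero_right hf]; exact one_mem M
  obtain ⟨t, ht⟩ := exists_mul_self_eq hf heven (c⁻¹ - Q v)
  obtain ⟨b, hb⟩ := haux a
  obtain ⟨w, hw₁, -, hw₂⟩ := exists_value hf heven hQs hpol hdim ha0 hb t 0 (Q v)
  have hsum : Q w + f w a * f w a = c⁻¹ := by rw [hw₁, hw₂, ht]; ring
  have hw : w ≠ 0 := by
    rintro rfl
    rw [zero_left hf, hQ0, mul_zero, add_zero] at hsum
    exact inv_ne_zero hc hsum.symm
  have := hO' w (by rw [hsum]; exact inv_ne_zero hc)
  rw [hsum, inv_inv] at this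
  exact move w v hw hv hw₂ c this

end Symp

end CfsgLib.Geometric
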