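import Cfsg.Agent.Lib.Geometric.Symp

/-!
Stabilisers of totally singular and of non-degenerate subspaces are maximal in the isometry group
of a symplectic form.
-/

namespace CfsgLib.Geometric

open Matrix

variable {ι : Type} [Fintype ι] [DecidableEq ι] {F : Type*} [Field F]
variable {f : (ι → F) → (ι → F) → F} (hf : Cfsg.Geo.IsSymplecticForm f)
include hf

namespace Symp

omit hf in
/-- The centres of the symplectic transvection groups contained in `M`. -/
def centres (hf : Cfsg.Geo.IsSymplecticForm f) (M : Subgroup (GL ι F)) : Set (ι → F) :=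
  {v | ∀ c, T hf v c ∈ M}

lemma smul_mem_centres {M : Subgroup (GL ι F)} {v : ι → F} (h : v ∈ centres hf M) (a : F) :
    a • v ∈ centres hf M := fun c => by rw [T_smul hf]; exact h _

lemma zero_mem_centres (M : Subgroup (GL ι F)) : (0 : ι → F) ∈ centres hf M := fun c => by
  have : T hf (0 : ι → F) c = 1 := gl_ext fun x => by simp [ap_T hf]
  rw [this]
  exact one_mem M

lemma ap_mem_centres {M : Subgroup (GL ι F)} {g : GL ι F} (hgM : g ∈ M) (hgI : g ∈ isom f)
    {v : ι → F} (h : v ∈ centres hf M) : ap g v ∈ centres hf M := fun c => by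
  rw [← conj_T hf hgI]
  exact mul_mem (mul_mem hgM (h c)) (inv_mem hgM)

lemma le_of_centres_eq_univ {M : Subgroup (GL ι F)} (h : ∀ v, v ∈ centres hf M) :
    isom f ≤ M :=
  isom_le_of_T_mem hf fun v c => h v c

lemma T_mem_stab {W : Submodule F (ι → F)} (v : ι → F) (c : F)
    (h : v ∈ W ∨ v ∈ perp hf W) : T hf v c ∈ Cfsg.Geo.subspaceStabilizer W ⊓ isom f := by
  refine ⟨mem_subspaceStabilizer_of_mapsTo _ _ fun x hx => ?_, T_mem_isom hf v c⟩
  rcases h with hv | hv
  · rw [ap_T hf]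
    exact W.add_mem hx (W.smul_mem _ hv)
  · rw [ap_T_fix hf c ((eq_zero_comm hf).mp (hv x hx))]
    exact hx

lemma stab_lt_isom {W : Submodule F (ι → F)} {w p : ι → F} (hw : w ∈ W) (hne : f w p ≠ 0)
    (hp : p ∉ W) : Cfsg.Geo.subspaceStabilizer W ⊓ isom f < isom f := by
  refine lt_of_le_of_ne inf_le_right fun he => ?_
  have hm : T hf p 1 ∈ Cfsg.Geo.subspaceStabilizer W ⊓ isom f := by
    rw [he]; exact T_mem_isom hf _ _
  have h2 := ((mem_subspaceStabilizer_iff _ _).mp hm.1 w).mp hw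
  rw [ap_T hf, one_mul] at h2
  have h3 : f w p • p ∈ W := by simpa using W.sub_mem h2 hw
  exact hp (by simpa [smul_smul, inv_mul_cancel₀ hne] using W.smul_mem (f w p)⁻¹ h3)

/-- The stabiliser of a non-zero totally singular subspace is maximal in the isometry group. -/
theorem stab_isMaximalIn_of_totallySingular {W : Submodule F (ι → F)} (h0 : W ≠ ⊥)
    (hW : Cfsg.Geo.IsTotallySingularFor f W) :
    Cfsg.Geo.IsMaximalIn (isom f) (Cfsg.Geo.subspaceStabilizer W ⊓ isom f) := by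
  obtain ⟨w, hw, hw0⟩ := Submodule.exists_mem_ne_zero_of_ne_bot h0
  obtain ⟨p, hp⟩ := (hf.nondegenerate w hw0).2
  refine ⟨stab_lt_isom hf hw hp (fun h => hp (hW w hw p h)), fun M hHM hMS => ?_⟩
  by_cases hM : M ≤ Cfsg.Geo.subspaceStabilizer W
  · exact Or.inl (le_antisymm (le_inf hM hMS) hHM)
  refine Or.inr (le_antisymm hMS (le_of_centres_eq_univ hf ?_))
  obtain ⟨g, hgM, hg⟩ := SetLike.not_le_iff_exists.mp hM
  have hgI := hMS hgM
  have hX : ∀ v ∈ perp hf W, v ∈ centres hf M := fun v hv c =>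
    hHM (T_mem_stab hf v c (Or.inr hv))
  -- a centre outside the orthogonal of `W`
  obtain ⟨z, hz, hgz⟩ : ∃ z ∈ perp hf W, ap g z ∉ perp hf W := by
    by_contra hc
    push Not at hc
    have hgs : g ∈ Cfsg.Geo.subspaceStabilizer (perp hf W) :=
      mem_subspaceStabilizer_of_mapsTo g _ hc
    refine hg (mem_subspaceStabilizer_of_mapsTo g _ fun x hx => mem_of_forall_perp hf fun q hq => ?_)
    have hq' : ap g⁻¹ q ∈ perp hf W := by
      rw [(mem_subspaceStabilizer_iff _ _).mp hgs, ap_ap_inv]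
      exact hq
    have := (mem_isom_iff.mp hgI) x (ap g⁻¹ q)
    rw [ap_ap_inv] at this
    rw [this, eq_zero_comm hf]
    exact hq' x hx
  set w₀ := ap g z
  have hw₀ : w₀ ∈ centres hf M := ap_mem_centres hf hgM hgI (hX z hz)
  intro y
  by_cases hy : y ∈ perp hf W
  · exact hX y hy
  have hA : ∀ a : ι → F, a ∉ perp hf W → ¬ W ≤ LinearMap.ker ((fl hf).flip a) := by
    intro a ha hle
    exact ha fun u hu => by simpa using hle hu
  obtain ⟨u, hu, hu₁, hu₂⟩ := exists_mem_notMem_notMem (hA w₀ hgz) (hA y hy)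
  simp only [LinearMap.mem_ker, LinearMap.flip_apply, fl_apply] at hu₁ hu₂
  -- normalise `f · u`
  set u' := (f w₀ u)⁻¹ • u with hu'
  have hu'W : u' ∈ W := W.smul_mem _ hu
  have h₁ : f w₀ u' = 1 := by rw [hu', hf.bilinear.smul_right, inv_mul_cancel₀ hu₁]
  have h₂ : f y u' ≠ 0 := by
    rw [hu', hf.bilinear.smul_right]
    exact mul_ne_zero (inv_ne_zero hu₁) hu₂
  set y' := (f y u')⁻¹ • y with hy'
  have h₃ : f y' u' = 1 := by rw [hy', hf.bilinear.smul_left, inv_mul_cancel₀ h₂]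
  set v := y' - w₀ with hv
  have hvu : f v u' = 0 := by rw [hv, sub_left hf, h₃, h₁, sub_self]
  -- the element `x ↦ x + f(x,u')v + f(x,v)u'` stabilises `W`
  set E := T hf (u' + v) 1 * T hf u' (-1) * T hf v (-1) with hE
  have hEap : ∀ x, ap E x = x + f x u' • v + f x v • u' := by
    intro x
    simp only [hE, ap_mul, ap_T hf, hf.bilinear.add_left, hf.bilinear.smul_left,
      hf.bilinear.add_right, hf.alternating, hvu, (eq_zero_comm hf).mp hvu]
    module
  have hEI : E ∈ isom f :=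
    mul_mem (mul_mem (T_mem_isom hf _ _) (T_mem_isom hf _ _)) (T_mem_isom hf _ _)
  have hEM : E ∈ M := hHM ⟨mem_subspaceStabilizer_of_mapsTo _ _ fun x hx => by
    rw [hEap, hW x hx u' hu'W, zero_smul, add_zero]
    exact W.add_mem hx (W.smul_mem _ hu'W), hEI⟩
  have hK : T hf u' (-f w₀ v) ∈ M := hHM (T_mem_stab hf _ _ (Or.inl hu'W))
  have h₄ := ap_mem_centres hf (mul_mem hK hEM) (mul_mem (T_mem_isom hf _ _) hEI) hw₀
  have h₅ : ap (T hf u' (-f w₀ v) * E) w₀ = y' := by
    rw [ap_mul, hEap, h₁, one_smul, ap_T hf]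
    simp only [hf.bilinear.add_left, hf.bilinear.smul_left, h₁, hvu, hf.alternating u']
    rw [hv]
    module
  rw [h₅] at h₄
  have := smul_mem_centres hf h₄ (f y u')
  rwa [hy', smul_smul, mul_inv_cancel₀ h₂, one_smul] at this

/-- Decomposition along a non-degenerate subspace. -/
lemma exists_sub_mem_perp {W : Submodule F (ι → F)} (hW : Cfsg.Geo.IsNondegenerateOn f W)
    (z : ι → F) : ∃ a ∈ W, z - a ∈ perp hf W := by
  let Φ : W →ₗ[F] Module.Dual F W := (W.subtype.dualMap).comp ((fl hf).comp W.subtype)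
  have hinj : Function.Injective Φ := by
    rw [injective_iff_map_eq_zero]
    intro a ha
    by_contra hne
    obtain ⟨x, hx, hfx⟩ := (hW a a.2 (by simpa using hne)).1
    exact hfx (by simpa [Φ] using congrArg (fun φ : Module.Dual F W => φ ⟨x, hx⟩) ha)
  obtain ⟨a, ha⟩ := (LinearMap.injective_iff_surjective_of_finrank_eq_finrank
    Subspace.dual_finrank_eq.symm).mp hinj (W.subtype.dualMap (fl hf z))
  refine ⟨a, a.2, fun u hu => ?_⟩
  have := congrArg (fun φ : Module.Dual F W => φ ⟨u, hu⟩) ha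
  simp [Φ] at this
  rw [eq_zero_comm hf, sub_right hf, this, sub_self]

lemma inf_perp_eq_bot {W : Submodule F (ι → F)} (hW : Cfsg.Geo.IsNondegenerateOn f W) :
    W ⊓ perp hf W = ⊥ := by
  rw [eq_bot_iff]
  rintro a ⟨ha, ha'⟩
  by_contra hne
  obtain ⟨x, hx, hfx⟩ := (hW a ha (by simpa using hne)).2
  exact hfx (ha' x hx)

lemma finrank_add_perp {W : Submodule F (ι → F)} (hW : Cfsg.Geo.IsNondegenerateOn f W) :
    Module.finrank F W + Module.finrank F (perp hf W) = Fintype.card ι := by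
  have htop : W ⊔ perp hf W = ⊤ := eq_top_iff.mpr fun z _ => by
    obtain ⟨a, ha, hz⟩ := exists_sub_mem_perp hf hW z
    exact Submodule.mem_sup.mpr ⟨a, ha, z - a, hz, add_sub_cancel a z⟩
  rw [← Submodule.finrank_sup_add_finrank_inf_eq, htop, inf_perp_eq_bot hf hW, finrank_bot,
    finrank_top, Module.finrank_fintype_fun_eq_card, add_zero]

/-- The stabiliser of a non-degenerate subspace of dimension less than half is maximal in the
isometry group. -/
theorem stab_isMaximalIn_of_nondegenerate {W : Submodule F (ι → F)} (h0 : W ≠ ⊥)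
    (hW : Cfsg.Geo.IsNondegenerateOn f W) (hdim : 2 * Module.finrank F W < Fintype.card ι) :
    Cfsg.Geo.IsMaximalIn (isom f) (Cfsg.Geo.subspaceStabilizer W ⊓ isom f) := by
  have hk := finrank_add_perp hf hW
  have hperp : perp hf W ≠ ⊥ := fun h => by rw [h, finrank_bot] at hk; omega
  obtain ⟨w, hw, hw0⟩ := Submodule.exists_mem_ne_zero_of_ne_bot h0
  obtain ⟨b, hb, hb0⟩ := Submodule.exists_mem_ne_zero_of_ne_bot hperp
  obtain ⟨x, hx, hfx⟩ := (hW w hw hw0).1
  have hdis : ∀ z ∈ W, z ∈ perp hf W → z = 0 := fun z h1 h2 => by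
    have : z ∈ W ⊓ perp hf W := ⟨h1, h2⟩
    rwa [inf_perp_eq_bot hf hW, Submodule.mem_bot] at this
  refine ⟨stab_lt_isom hf hx (p := w + b) ?_ ?_, fun M hHM hMS => ?_⟩
  · rwa [hf.bilinear.add_right, (eq_zero_comm hf).mp (hb x hx), add_zero]
  · intro h
    exact hb0 (hdis b (by simpa using W.sub_mem h hw) hb)
  by_cases hM : M ≤ Cfsg.Geo.subspaceStabilizer W
  · exact Or.inl (le_antisymm (le_inf hM hMS) hHM)
  refine Or.inr (le_antisymm hMS (le_of_centres_eq_univ hf ?_))
  obtain ⟨g, hgM, hg⟩ := SetLike.not_le_iff_exists.mp hM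
  have hgI := hMS hgM
  have hWM : ∀ v ∈ W, v ∈ centres hf M := fun v hv c => hHM (T_mem_stab hf v c (Or.inl hv))
  have hPM : ∀ v ∈ perp hf W, v ∈ centres hf M := fun v hv c =>
    hHM (T_mem_stab hf v c (Or.inr hv))
  -- a centre outside both subspaces
  obtain ⟨z, hzX, hz₁, hz₂⟩ : ∃ z ∈ centres hf M, z ∉ W ∧ z ∉ perp hf W := by
    obtain ⟨w₁, hw₁, hw₁'⟩ := exists_ap_notMem hg
    by_cases h : ¬ W.map (apEquiv g).toLinearMap ≤ perp hf W
    · obtain ⟨z, hz, hzW, hzP⟩ := exists_mem_notMem_notMem (U := W.map (apEquiv g).toLinearMap)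
        (fun h' => hw₁' (h' ⟨w₁, hw₁, rfl⟩)) h
      obtain ⟨z', hz', rfl⟩ := hz
      exact ⟨_, ap_mem_centres hf hgM hgI (hWM z' hz'), hzW, hzP⟩
    rw [not_not] at h
    have h' : ¬ (perp hf W).map (apEquiv g).toLinearMap ≤ W := fun h' => by
      have := Submodule.finrank_mono h'
      rw [LinearEquiv.finrank_map_eq] at this
      omega
    have h'' : ¬ (perp hf W).map (apEquiv g).toLinearMap ≤ perp hf W := fun h'' => by
      have : ap g w = 0 := by
        by_contra hne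
        obtain ⟨p, hp⟩ := (hf.nondegenerate _ hne).2
        obtain ⟨a, ha, hpa⟩ := exists_sub_mem_perp hf hW (ap g⁻¹ p)
        apply hp
        have h1 : ap g w ∈ perp hf W := h ⟨w, hw, rfl⟩
        have hsurj : ∀ q ∈ perp hf W, ∃ q' ∈ perp hf W, ap g q' = q := by
          intro q hq
          have he := Submodule.eq_of_le_of_finrank_eq h'' (LinearEquiv.finrank_map_eq _ _)
          rw [← he] at hq
          obtain ⟨q', hq', hqq⟩ := hq
          exact ⟨q', hq', hqq⟩
        obtain ⟨q', hq', hqq⟩ := hsurj (ap g a) (h ⟨a, ha, rfl⟩)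
        have hq'' : a = 0 := hdis a ha (ap_injective g hqq ▸ hq')
        rw [hq'', sub_zero] at hpa
        rw [← ap_ap_inv g p, (mem_isom_iff.mp hgI), eq_zero_comm hf]
        exact hpa w hw
      exact ap_ne_zero g hw0 this
    obtain ⟨z, hz, hzW, hzP⟩ := exists_mem_notMem_notMem h' h''
    obtain ⟨z', hz', rfl⟩ := hz
    exact ⟨_, ap_mem_centres hf hgM hgI (hPM z' hz'), hzW, hzP⟩
  obtain ⟨a, ha, hb₀⟩ := exists_sub_mem_perp hf hW z
  set b₀ := z - a with hb₀def
  have ha0 : a ≠ 0 := fun h => hz₂ (by simpa [hb₀def, h] using hb₀)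
  have hb00 : b₀ ≠ 0 := fun h => hz₁ (by rw [sub_eq_zero] at h; exact h ▸ ha)
  intro y
  obtain ⟨a', ha', hb'⟩ := exists_sub_mem_perp hf hW y
  by_cases hA : a' = 0
  · exact hPM y (by simpa [hA] using hb')
  by_cases hB : y - a' = 0
  · exact hWM y (by rw [sub_eq_zero] at hB; exact hB ▸ ha')
  set b' := y - a'
  have hpW : ∀ v ∈ perp hf (perp hf W), v ∈ W := fun v hv =>
    mem_of_forall_perp hf fun p hp => hv p hp
  have hWp : ∀ v ∈ W, v ∈ perp hf (perp hf W) := fun v hv p hp =>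
    (eq_zero_comm hf).mp (hp v hv)
  obtain ⟨h₁, hh₁, hi₁, hfix₁, hm₁⟩ := exists_move hf (M := M) (U := perp hf W)
    (fun v hv c => hWM v (hpW v hv) c) (hWp _ (W.sub_mem ha' ha))
    (exists_perp_ne hf fun h => ha0 (hdis a ha h)) (exists_perp_ne hf fun h => hA (hdis a' ha' h))
  obtain ⟨h₂, hh₂, hi₂, hfix₂, hm₂⟩ := exists_move hf (M := M) (U := W)
    (fun v hv c => hPM v hv c) (x := b₀) (y := b') ((perp hf W).sub_mem hb' hb₀)
    (exists_perp_ne hf fun h => hb00 (hdis _ h hb₀)) (exists_perp_ne hf fun h => hB (hdis _ h hb'))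
  have := ap_mem_centres hf (mul_mem hh₂ hh₁) (mul_mem hi₂ hi₁) hzX
  rwa [← add_sub_cancel a z, ← hb₀def, ap_mul, ap_add, hm₁, hfix₁ b₀ hb₀, ap_add, hm₂,
    hfix₂ a' ha', add_sub_cancel] at this

end Symp

end CfsgLib.Geometric
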