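import Cfsg.Agent.Lib.Geometric.LinearSubfield
import Cfsg.Agent.Lib.Geometric.SympStab
import Cfsg.Agent.Lib.Geometric.SympQuad

/-!
Subfield groups are maximal in the symplectic group.

When no multiplier outside `F₀` occurs, the group generated on a hyperbolic plane modulo a radical
line by a transvection and the symmetric maps of a totally isotropic plane over `F₀` would hold
upper triangular elements of trace outside `F₀`.
-/

set_option autoImplicit false

namespace CfsgLib.Geometric

open Matrix
open scoped MatrixGroups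

variable {ι : Type} [Fintype ι] [DecidableEq ι] {F : Type*} [Field F]

namespace SSubfld

open LSubfld (RatV)

variable {f : (ι → F) → (ι → F) → F} (hf : Cfsg.Geo.IsSymplecticForm f)
variable {F₀ : Subfield F} (hrat : ∀ u v, RatV F₀ u → RatV F₀ v → f u v ∈ F₀)

/-- A vector over the subfield as a vector over the field. -/
def em (u : ι → F₀) : ι → F := fun i => (u i : F)

omit [Fintype ι] [DecidableEq ι] in
lemma ratV_em (u : ι → F₀) : RatV F₀ (em u) := fun i => (u i).2

omit [Fintype ι] [DecidableEq ι] in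
lemma em_add (u v : ι → F₀) : em (u + v) = em u + em v := rfl

omit [Fintype ι] [DecidableEq ι] in
lemma em_sub (u v : ι → F₀) : em (u - v) = em u - em v := rfl

omit [Fintype ι] [DecidableEq ι] in
lemma em_smul (c : F₀) (u : ι → F₀) : em (c • u) = (c : F) • em u := rfl

omit [Fintype ι] [DecidableEq ι] in
lemma em_zero : em (0 : ι → F₀) = 0 := rfl

omit [Fintype ι] [DecidableEq ι] in
lemma em_injective : Function.Injective (em : (ι → F₀) → ι → F) := fun u v h =>
  funext fun i => Subtype.ext (congrFun h i)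

omit [Fintype ι] [DecidableEq ι] in
lemma em_ne_zero {u : ι → F₀} (h : u ≠ 0) : em u ≠ 0 := fun e =>
  h (em_injective (e.trans em_zero.symm))

omit [Fintype ι] in
lemma em_single (i : ι) : em (Pi.single i (1 : F₀)) = Pi.single i (1 : F) := by
  funext j
  simp only [em, Pi.single_apply]
  split_ifs <;> rfl

/-- The form on vectors over the subfield. -/
def f₀ (u v : ι → F₀) : F₀ := ⟨f (em u) (em v), hrat _ _ (ratV_em u) (ratV_em v)⟩

lemma coe_f₀ (u v : ι → F₀) : (f₀ hrat u v : F) = f (em u) (em v) := rfl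

include hf in
lemma isSymp₀ : Cfsg.Geo.IsSymplecticForm (f₀ hrat) := by
  refine ⟨⟨fun x y v => Subtype.ext ?_, fun c x v => Subtype.ext ?_, fun v x y => Subtype.ext ?_,
    fun c v x => Subtype.ext ?_⟩, fun u v => Subtype.ext ?_, fun v => Subtype.ext ?_,
    fun v hv => ?_⟩
  · simp [f₀, em_add, hf.bilinear.add_left]
  · simp [f₀, em_smul, hf.bilinear.smul_left]
  · simp [f₀, em_add, hf.bilinear.add_right]
  · simp [f₀, em_smul, hf.bilinear.smul_right]
  · simpa [f₀] using hf.skew (em u) (em v)
  · simpa [f₀] using hf.alternating (em v)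
  · obtain ⟨z, hz⟩ := (hf.nondegenerate _ (em_ne_zero hv)).1
    obtain ⟨i, hi⟩ := LSubfld.exists_single_ne (φ := Symp.fl hf (em v))
      (fun h => hz (by
        have := LinearMap.congr_fun h z
        rw [Symp.fl_apply, LinearMap.zero_apply] at this
        first | exact this | exact (Symp.eq_zero_comm hf).mp this))
    rw [← em_single (F₀ := F₀) i, Symp.fl_apply] at hi
    refine ⟨⟨Pi.single i 1, fun h => hi ?_⟩, ⟨Pi.single i 1, fun h => hi ?_⟩⟩
    · first
        | exact congrArg Subtype.val h
        | exact (Symp.eq_zero_comm hf).mp (congrArg Subtype.val h)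
    · first
        | exact congrArg Subtype.val h
        | exact (Symp.eq_zero_comm hf).mp (congrArg Subtype.val h)

/-- Matrices over the subfield as matrices over the field. -/
abbrev emb : GL ι F₀ →* GL ι F := Matrix.GeneralLinearGroup.map (F₀.subtype : F₀ →+* F)

lemma ap_emb (g : GL ι F₀) (u : ι → F₀) : ap (emb g) (em u) = em (ap g u) := by
  funext i
  exact (RingHom.map_mulVec F₀.subtype (g : Matrix ι ι F₀) u i).symm

lemma gl_ext_single {g h : GL ι F} (he : ∀ i, ap g (Pi.single i 1) = ap h (Pi.single i 1)) :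
    g = h :=
  Units.ext (Matrix.ext_of_mulVec_single he)

lemma emb_T (v : ι → F₀) (c : F₀) :
    emb (Symp.T (isSymp₀ hf hrat) v c) = Symp.T hf (em v) (c : F) := by
  refine gl_ext_single fun i => ?_
  rw [← em_single (F₀ := F₀) i, ap_emb, Symp.ap_T, Symp.ap_T, em_add, em_smul]
  rfl

/-- The symmetric map `p a² + 2 q a b + s b²` on two orthogonal vectors. -/
def el (p q s : F) (a b : ι → F) : GL ι F :=
  Symp.T hf a (p - q) * Symp.T hf b (s - q) * Symp.T hf (a + b) q

lemma ap_el {a b : ι → F} (h : f a b = 0) (p q s : F) (z : ι → F) :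
    ap (el hf p q s a b) z
      = z + (p * f z a + q * f z b) • a + (q * f z a + s * f z b) • b := by
  have h' : f b a = 0 := (Symp.eq_zero_comm hf).mp h
  simp only [el, ap_mul, Symp.ap_T hf, hf.bilinear.add_left, hf.bilinear.smul_left,
    hf.bilinear.add_right, hf.alternating, h, h', mul_zero, add_zero, zero_add]
  module

lemma el_eq_single (p : F) {a b : ι → F} (h : f a b = 0) : el hf 0 0 p a b = Symp.T hf b p := by
  apply gl_ext
  intro z
  rw [ap_el hf h, Symp.ap_T hf]
  module

lemma el_mul {a b : ι → F} (h : f a b = 0) (p q s p' q' s' : F) :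
    el hf p q s a b * el hf p' q' s' a b = el hf (p + p') (q + q') (s + s') a b := by
  apply gl_ext
  intro z
  have h' : f b a = 0 := (Symp.eq_zero_comm hf).mp h
  simp only [ap_mul, ap_el hf h, hf.bilinear.add_left, hf.bilinear.smul_left, hf.alternating, h, h',
    mul_zero, add_zero]
  module

lemma el_inv {a b : ι → F} (h : f a b = 0) (p q s : F) :
    (el hf p q s a b)⁻¹ = el hf (-p) (-q) (-s) a b := by
  refine inv_eq_of_mul_eq_one_right ?_
  rw [el_mul hf h]
  apply gl_ext
  intro z
  rw [ap_el hf h, ap_one]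
  module

lemma el_swap {a b : ι → F} (h : f a b = 0) (p q s : F) :
    el hf p q s a b = el hf s q p b a := by
  apply gl_ext
  intro z
  rw [ap_el hf h, ap_el hf ((Symp.eq_zero_comm hf).mp h)]
  module

lemma el_shift {a b : ι → F} (h : f a b = 0) (p q s : F) :
    el hf p q s (a + b) b = el hf p (q + p) (s + 2 * q + p) a b := by
  apply gl_ext
  intro z
  rw [ap_el hf (by rw [hf.bilinear.add_left, h, hf.alternating, add_zero]), ap_el hf h,
    hf.bilinear.add_right]
  module

lemma conj_el {g : GL ι F} (hg : g ∈ isom f) (p q s : F) (a b : ι → F) :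
    g * el hf p q s a b * g⁻¹ = el hf p q s (ap g a) (ap g b) := by
  simp only [el, ← Symp.conj_T hf hg, ← ap_add]
  group

variable {M : Subgroup (GL ι F)} (hMI : M ≤ isom f)
  (hM : ∀ (v : ι → F₀) (c : F₀), Symp.T hf (em v) (c : F) ∈ M)
include hMI hM

omit hMI in
lemma el_rat_mem (p q s : F₀) (a b : ι → F₀) : el hf (p : F) q s (em a) (em b) ∈ M :=
  mul_mem (mul_mem (hM a (p - q)) (hM b (s - q))) (by rw [← em_add]; exact hM _ q)

omit hMI in
lemma emb_mem (g : GL ι F₀) (hg : g ∈ isom (f₀ hrat)) : emb g ∈ M :=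
  (Symp.isom_le_of_T_mem (isSymp₀ hf hrat) (M := M.comap emb) (fun v c => by
    rw [Subgroup.mem_comap, emb_T hf hrat]; exact hM v c) : _) hg

/-- An element of the subfield group of isometries fixing `U` and moving `x` to `y`. -/
lemma exists_rat_move {U : Submodule F₀ (ι → F₀)} {x y : ι → F₀}
    (hxy : y - x ∈ Symp.perp (isSymp₀ hf hrat) U) (hx : x ∉ U) (hy : y ∉ U) :
    ∃ g ∈ M, g ∈ isom f ∧ (∀ u ∈ U, ap g (em u) = em u) ∧ ap g (em x) = em y := by
  obtain ⟨h, -, hh, hfix, hm⟩ := Symp.exists_move (isSymp₀ hf hrat)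
    (M := (⊤ : Subgroup (GL ι F₀))) (fun _ _ _ => trivial) hxy
    (Symp.exists_perp_ne (isSymp₀ hf hrat) hx) (Symp.exists_perp_ne (isSymp₀ hf hrat) hy)
  exact ⟨emb h, emb_mem hf hrat hM h hh, hMI (emb_mem hf hrat hM h hh),
    fun u hu => by rw [ap_emb, hfix u hu], by rw [ap_emb, hm]⟩

/-- The multipliers of transvections at every vector over the subfield. -/
def lam [Finite F] : Submodule F₀ F where
  carrier := {μ | ∀ v : ι → F₀, Symp.T hf (em v) μ ∈ M}
  zero_mem' := fun v => by simpa using hM v 0
  add_mem' := fun h1 h2 v => by rw [← Symp.T_mul hf]; exact mul_mem (h1 v) (h2 v)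
  smul_mem' := fun c μ hμ => by
    -- scaling the centre multiplies by squares
    have hsq : ∀ s : F₀, ∀ v : ι → F₀, Symp.T hf (em v) ((s : F) * s * μ) ∈ M := fun s v => by
      rw [← Symp.T_smul hf, ← em_smul]
      exact hμ _
    obtain ⟨s, t, hst⟩ : ∃ s t : F₀, s * s + t * t = c := by
      have : Fintype F₀ := Fintype.ofFinite F₀
      by_cases h2 : ringChar F₀ = 2
      · obtain ⟨s, hs⟩ := FiniteField.isSquare_of_char_two h2 c
        exact ⟨s, 0, by rw [hs]; ring⟩
      · obtain ⟨s, t, h⟩ := FiniteField.exists_root_sum_quadratic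
          (f := (Polynomial.X : Polynomial F₀) ^ 2) (g := Polynomial.X ^ 2 - Polynomial.C c)
          (Polynomial.degree_X_pow 2) (Polynomial.degree_X_pow_sub_C two_pos c)
          (FiniteField.odd_card_of_char_ne_two h2)
        simp only [Polynomial.eval_pow, Polynomial.eval_X, Polynomial.eval_sub,
          Polynomial.eval_C] at h
        exact ⟨s, t, by linear_combination h⟩
    intro v
    rw [Subfield.smul_def, smul_eq_mul, ← hst, Subfield.coe_add, Subfield.coe_mul, Subfield.coe_mul,
      add_mul, ← Symp.T_mul hf]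
    exact mul_mem (hsq s v) (hsq t v)

variable [Finite F]

include hrat in
lemma mem_lam {μ : F} {v : ι → F₀} (hv : v ≠ 0) (h : Symp.T hf (em v) μ ∈ M) :
    μ ∈ lam hf hM := by
  intro w
  by_cases hw : w = 0
  · have e : Symp.T hf (em w) μ = Symp.T hf (em w) 0 := gl_ext fun z => by
      simp [Symp.ap_T hf, hw, em_zero]
    rw [e]
    simpa using hM w 0
  obtain ⟨g, hgM, hgI, -, hg⟩ := exists_rat_move hf hrat hMI hM (U := (⊥ : Submodule F₀ (ι → F₀)))
    (x := v) (y := w) (Symp.mem_perp_bot (isSymp₀ hf hrat) _) (by simpa using hv) (by simpa using hw)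
  rw [← hg, ← Symp.conj_T hf hgI]
  exact mul_mem (mul_mem hgM h) (inv_mem hgM)

include hrat in
/-- Either every multiplier occurs or none outside the subfield. -/
lemma lam_cases [Nonempty ι] {r : ℕ} (hr : r.Prime) (hcard : Nat.card F = Nat.card F₀ ^ r)
    (hne : lam hf hM ≠ ⊤) : ∀ μ ∈ lam hf hM, μ ∈ F₀ := by
  intro μ hμ
  by_contra hμF
  set hf₀ := isSymp₀ hf hrat
  obtain ⟨i⟩ := ‹Nonempty ι›
  set e : ι → F₀ := Pi.single i 1 with hedef
  have he : e ≠ 0 := by simp [hedef]
  obtain ⟨x, -, hx⟩ := Symp.exists_perp_ne hf₀ (U := ⊥) (x := e) (by simpa using he)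
  set u : ι → F₀ := (f₀ hrat e x)⁻¹ • x
  have heu : f (em e) (em u) = 1 := by
    rw [← coe_f₀ hrat, show f₀ hrat e u = 1 by
      rw [hf₀.bilinear.smul_right, inv_mul_cancel₀ hx]]
    rfl
  have hue : f (em u) (em e) = -1 := by rw [hf.skew, heu]
  set W := Submodule.span F {em e, em u}
  have heW : em e ∈ W := Submodule.subset_span (by simp)
  have huW : em u ∈ W := Submodule.subset_span (by simp)
  let Lift : SL(2, F) → GL ι F → Prop := fun s h =>
    (∀ z, ap h z - z ∈ W) ∧ ap h (em e) = s.1 0 0 • em e + s.1 1 0 • em u ∧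
      ap h (em u) = s.1 0 1 • em e + s.1 1 1 • em u
  let S : Submonoid SL(2, F) :=
    { carrier := {s | ∃ h ∈ M, Lift s h}
      one_mem' := ⟨1, one_mem M, fun x => by simp, by simp, by simp⟩
      mul_mem' := by
        rintro s t ⟨g, hg, g1, g2, g3⟩ ⟨h, hh, h1, h2, h3⟩
        refine ⟨g * h, mul_mem hg hh, fun x => ?_, ?_, ?_⟩
        · rw [ap_mul, ← sub_add_sub_cancel (ap g (ap h x)) (ap h x) x]
          exact W.add_mem (g1 _) (h1 x)
        · rw [ap_mul, h2, ap_add, ap_smul, ap_smul, g2, g3]
          simp only [Matrix.SpecialLinearGroup.coe_mul, Matrix.mul_apply, Fin.sum_univ_two]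
          module
        · rw [ap_mul, h3, ap_add, ap_smul, ap_smul, g2, g3]
          simp only [Matrix.SpecialLinearGroup.coe_mul, Matrix.mul_apply, Fin.sum_univ_two]
          module }
  let G : Subgroup SL(2, F) :=
    { S with
      inv_mem' := fun {s} hs => by
        have e : s⁻¹ = s ^ (orderOf s - 1) := by
          refine inv_eq_of_mul_eq_one_right ?_
          rw [← pow_succ', Nat.sub_add_cancel (orderOf_pos s), pow_orderOf_eq_one]
        show s⁻¹ ∈ S
        rw [e]
        exact S.pow_mem hs _ }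
  have h1 : (1 : F) ∈ lam hf hM := fun v => by simpa using hM v 1
  obtain ⟨y, hy, h, hh, hW, hhe, hhu⟩ := exists_upS_notMem (G := G) hr hcard (lam hf hM) hne
    h1 hμ (fun p q hpq => by
      by_cases hq : q = 0
      · subst hq; simpa using hpq
      · exfalso
        apply hμF
        have hq' : (q : F) ≠ 0 := fun h => hq (Subtype.ext h)
        rw [show μ = -(p : F) / q by field_simp; linear_combination hpq]
        exact div_mem (neg_mem p.2) q.2)
    (fun c hc => ⟨Symp.T hf (em e) (-c), neg_mem hc e, fun z => by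
        rw [Symp.ap_T hf]; simp [W.smul_mem _ heW],
      by simp [Symp.ap_T hf, hf.alternating, CfsgLib.ClassicalLinear.upS_coe],
      by simp [Symp.ap_T hf, hue, CfsgLib.ClassicalLinear.upS_coe]; module⟩)
    one_ne_zero
    ⟨Symp.T hf (em u) 1, by simpa using hM u 1, fun z => by
        rw [Symp.ap_T hf]; simp [W.smul_mem _ huW],
      by simp [Symp.ap_T hf, heu, CfsgLib.SL2.Dickson.lowS_coe],
      by simp [Symp.ap_T hf, hf.alternating, CfsgLib.SL2.Dickson.lowS_coe]⟩
  simp only [CfsgLib.ClassicalLinear.upS_coe, Matrix.of_apply, Matrix.cons_val',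
    Matrix.cons_val_zero, Matrix.cons_val_one, Matrix.cons_val_fin_one, one_smul, zero_smul,
    add_zero] at hhe hhu
  -- the lift is a transvection
  have hT : h = Symp.T hf (em e) (-y) := by
    apply gl_ext
    intro z
    obtain ⟨a, b, hab⟩ := Submodule.mem_span_pair.1 (hW z)
    have hhz : ap h z = z + a • em e + b • em u := by
      rw [add_assoc, hab, add_sub_cancel]
    have h2 := (mem_isom_iff.1 (hMI hh)) z (em e)
    rw [hhe, hhz] at h2
    simp only [hf.bilinear.add_left, hf.bilinear.smul_left, hf.alternating, hue] at h2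
    have hb : b = 0 := by linear_combination -h2
    have h3 := (mem_isom_iff.1 (hMI hh)) z (em u)
    rw [hhu, hhz, hb, zero_smul, add_zero] at h3
    simp only [hf.bilinear.add_left, hf.bilinear.add_right, hf.bilinear.smul_left,
      hf.bilinear.smul_right, hf.alternating, heu] at h3
    rw [hhz, Symp.ap_T hf, hb, zero_smul, add_zero]
    congr 2
    linear_combination h3
  apply hy
  have := mem_lam hf hrat hMI hM he (hT ▸ hh)
  simpa using neg_mem this

omit hMI hM [Finite F] in
/-- If every transvection at a vector over the subfield occurs, so does every transvection. -/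
lemma isom_le_of_rat_centres [Nonempty ι] (h3 : ∃ t : F, t ≠ 0 ∧ t ≠ 1) (hrat : ∀ u v, RatV F₀ u →
    RatV F₀ v → f u v ∈ F₀) (hall : ∀ v : ι → F₀, em v ∈ Symp.centres hf M)
    (hMI : M ≤ isom f) : isom f ≤ M := by
  classical
  set hf₀ := isSymp₀ hf hrat
  have hmove : ∀ z r : ι → F, r ∈ Symp.centres hf M → f z r ≠ 0 → z ∈ Symp.centres hf M →
      ∀ c : F, z + c • r ∈ Symp.centres hf M := by
    intro z r hr hzr hz c
    have := Symp.ap_mem_centres hf (hr (c / f z r)) (Symp.T_mem_isom hf _ _) hz
    rwa [Symp.ap_T hf, div_mul_cancel₀ _ hzr] at this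
  have hstep : ∀ (z : ι → F) (r : ι → F₀), r ≠ 0 → z ∈ Symp.centres hf M → ∀ c : F,
      z + c • em r ∈ Symp.centres hf M := by
    intro z r hr hz c
    by_cases hzl : z ∈ Submodule.span F {em r}
    · obtain ⟨d, rfl⟩ := Submodule.mem_span_singleton.1 hzl
      rw [← add_smul]
      exact Symp.smul_mem_centres hf (hall r) _
    by_cases hzr : f z (em r) = 0
    swap
    · exact hmove z _ (hall r) hzr hz c
    obtain ⟨p₀, -, hp₀⟩ := Symp.exists_perp_ne hf₀ (U := ⊥) (x := r) (by simpa using hr)
    have hb₀ : f (em r) (em p₀) ≠ 0 := fun h => hp₀ (Subtype.ext h)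
    -- moving through an auxiliary vector
    have via : ∀ (z : ι → F) (p : ι → F₀) (c : F), f z (em r) = 0 → z ∈ Symp.centres hf M →
        f (em r) (em p) ≠ 0 → f z (em p) ≠ 0 → f z (em p) + c * f (em r) (em p) ≠ 0 →
        z + c • em r ∈ Symp.centres hf M := by
      intro z p c hzr hz hrp hzp hzc
      have h1 := hmove z _ (hall p) hzp hz 1
      have h2 := hmove _ _ (hall r) (by
        rw [one_smul, hf.bilinear.add_left, hzr, zero_add]
        exact fun h => hrp ((Symp.eq_zero_comm hf).mp h)) h1 c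
      have h3 := hmove _ _ (hall p) (by
        simp only [one_smul, hf.bilinear.add_left, hf.bilinear.smul_left, hf.alternating, add_zero]
        exact hzc) h2 (-1)
      convert h3 using 1
      module
    obtain ⟨χ, hχ, hχr, hχp, hχz⟩ : ∃ q : ι → F₀, True ∧ f₀ hrat r q = 0 ∧ q ≠ 0 ∧
        f z (em q) ≠ 0 := by
      by_contra hc
      push Not at hc
      apply hzl
      -- every functional value at `z` is proportional to that at `r`
      have hall' : ∀ q : ι → F₀, f z (em q) * f (em r) (em p₀) =
          f (em r) (em q) * f z (em p₀) := by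
        intro q
        set t : F₀ := f₀ hrat r q / f₀ hrat r p₀
        have h0 : f₀ hrat r (q - t • p₀) = 0 := by
          rw [Symp.sub_right hf₀, hf₀.bilinear.smul_right, div_mul_cancel₀ _ hp₀, sub_self]
        have h1 : f z (em (q - t • p₀)) = 0 := by
          by_cases hq : q - t • p₀ = 0
          · rw [hq, em_zero, Symp.zero_right hf]
          · exact hc _ trivial h0 hq
        have ht : (t : F) * f (em r) (em p₀) = f (em r) (em q) := by
          rw [← coe_f₀ hrat, ← coe_f₀ hrat, ← Subfield.coe_mul, div_mul_cancel₀ _ hp₀]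
        rw [em_sub, em_smul, Symp.sub_right hf, hf.bilinear.smul_right, sub_eq_zero] at h1
        rw [h1, mul_comm (t : F), mul_assoc, ht]
        ring
      refine Submodule.mem_span_singleton.2 ⟨f z (em p₀) / f (em r) (em p₀), ?_⟩
      rw [eq_comm, ← sub_eq_zero]
      by_contra hne
      obtain ⟨w, hw⟩ := (hf.nondegenerate _ hne).1
      obtain ⟨i, hi⟩ := LSubfld.exists_single_ne
        (φ := Symp.fl hf (z - (f z (em p₀) / f (em r) (em p₀)) • em r)) (fun h => hw (by
          have := LinearMap.congr_fun h w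
          rw [Symp.fl_apply, LinearMap.zero_apply] at this
          first | exact this | exact (Symp.eq_zero_comm hf).mp this))
      rw [Symp.fl_apply] at hi
      apply hi
      rw [(Symp.eq_zero_comm hf), Symp.sub_left hf, hf.bilinear.smul_left, ← em_single (F₀ := F₀) i,
        sub_eq_zero, div_mul_eq_mul_div, eq_div_iff hb₀, hall']
      ring
    have hrχ : f (em r) (em χ) = 0 := congrArg Subtype.val hχr
    have hb₁ : f (em r) (em (p₀ + χ)) ≠ 0 := by
      rwa [em_add, hf.bilinear.add_right, hrχ, add_zero]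
    by_cases hA : f z (em p₀) ≠ 0 ∧ f z (em p₀) + c * f (em r) (em p₀) ≠ 0
    · exact via z p₀ c hzr hz hb₀ hA.1 hA.2
    by_cases hB : f z (em (p₀ + χ)) ≠ 0 ∧ f z (em (p₀ + χ)) + c * f (em r) (em (p₀ + χ)) ≠ 0
    · exact via z (p₀ + χ) c hzr hz hb₁ hB.1 hB.2
    simp only [em_add, hf.bilinear.add_right, hrχ, add_zero] at hB hb₁
    by_cases hc0 : c = 0
    · simpa [hc0] using hz
    set β := f (em r) (em p₀)
    have hcβ : c * β ≠ 0 := mul_ne_zero hc0 hb₀
    -- splitting the multiple
    obtain ⟨t, ht0, ht1⟩ := h3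
    have e : z + c • em r = (z + (t * c) • em r) + (c - t * c) • em r := by module
    rw [e]
    have hzr' : f (z + (t * c) • em r) (em r) = 0 := by
      rw [hf.bilinear.add_left, hf.bilinear.smul_left, hf.alternating, hzr]; ring
    have hct : t * c * β ≠ 0 := mul_ne_zero (mul_ne_zero ht0 hc0) hb₀
    have hct' : t * c * β - c * β ≠ 0 := by
      rw [show t * c * β - c * β = (t - 1) * (c * β) by ring]
      exact mul_ne_zero (sub_ne_zero.2 ht1) hcβ
    set A := f z (em p₀)
    set E := f z (em χ)
    have hstep2 : ∀ p : ι → F₀, f (em r) (em p) = β → f z (em p) = 0 →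
        (z + (t * c) • em r) ∈ Symp.centres hf M →
        (z + (t * c) • em r) + (c - t * c) • em r ∈ Symp.centres hf M := by
      intro p hp hzp h1
      refine via _ p _ hzr' h1 (hp ▸ hb₀) ?_ ?_ <;>
        rw [hf.bilinear.add_left, hf.bilinear.smul_left, hp, hzp, zero_add]
      · exact hct
      · rw [← add_mul, add_sub_cancel]; exact hcβ
    have hp1 : f (em r) (em (p₀ + χ)) = β := by
      rw [em_add, hf.bilinear.add_right, hrχ, add_zero]
    have hz1 : f z (em (p₀ + χ)) = A + E := by rw [em_add, hf.bilinear.add_right]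
    by_cases hA0 : A = 0
    · refine hstep2 p₀ rfl hA0 (via z (p₀ + χ) _ hzr hz (hp1 ▸ hb₀) ?_ ?_)
      · rw [hz1, hA0, zero_add]; exact hχz
      · rw [hz1, hA0, zero_add, hp1]
        intro h
        have hE : E + c * β = 0 := by
          by_contra h'
          exact hB ⟨by rw [hA0, zero_add]; exact hχz, by rw [hA0, zero_add]; exact h'⟩
        exact hct' (by linear_combination h - hE)
    · have hA1 : A + c * β = 0 := by
        by_contra h
        exact hA ⟨hA0, h⟩
      have hE : A + E = 0 := by
        by_contra h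
        exact hB ⟨h, fun h' => hχz (by linear_combination h' - hA1)⟩
      refine hstep2 (p₀ + χ) hp1 (by rw [hz1, hE]) (via z p₀ _ hzr hz hb₀ hA0 fun h => ?_)
      exact hct' (by linear_combination h - hA1)
  refine Symp.le_of_centres_eq_univ hf fun v => ?_
  suffices ∀ s : Finset ι, ∑ j ∈ s, v j • (Pi.single j 1 : ι → F) ∈ Symp.centres hf M by
    convert this Finset.univ using 1
    exact pi_eq_sum_univ' v
  intro s
  induction s using Finset.induction with
  | empty => simpa using Symp.zero_mem_centres hf M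
  | insert k s hk ih =>
    rw [Finset.sum_insert hk, add_comm, ← em_single (F₀ := F₀) k]
    exact hstep _ _ (by simp) (by simpa [em_single] using ih) _

variable (hΛ : ∀ μ ∈ lam hf hM, μ ∈ F₀)
include hΛ hrat

omit hrat in
lemma mem_of_sq_char_two (h2 : (2 : F) = 0) {x : F} (hx : x * x ∈ F₀) : x ∈ F₀ := by
  have : Fintype F₀ := Fintype.ofFinite F₀
  have hc : ringChar F₀ = 2 := by
    have h : ((2 : ℕ) : F₀) = 0 := by
      apply Subtype.ext
      simpa [show ((2 : F₀) : F) = 2 from map_ofNat F₀.subtype 2] using h2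
    exact CharP.ringChar_of_prime_eq_zero Nat.prime_two h
  obtain ⟨y, hy⟩ := FiniteField.isSquare_of_char_two hc ⟨x * x, hx⟩
  have hy' : x * x = (y : F) * y := congrArg Subtype.val hy
  have : (x - y) * (x - y) = 0 := by linear_combination hy' + ((y : F) * y - x * y) * h2
  rw [sub_eq_zero.1 (mul_self_eq_zero.1 this)]
  exact y.2

/-- Short symmetric maps occur only over the subfield, in characteristic two. -/
lemma short_mem (h2 : (2 : F) = 0) {a b : ι → F₀} (hab : f₀ hrat a b = 0) (hb : b ≠ 0)
    (ha : a ∉ Submodule.span F₀ {b}) {q : F} (h : el hf 0 q 0 (em a) (em b) ∈ M) : q ∈ F₀ := by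
  set hf₀ := isSymp₀ hf hrat
  obtain ⟨x, hx, hax⟩ := Symp.exists_perp_ne hf₀ ha
  rw [Symp.mem_perp_span] at hx
  set u : ι → F₀ := (f₀ hrat x a)⁻¹ • x with hu
  have hxa : f₀ hrat x a ≠ 0 := fun e => hax ((Symp.eq_zero_comm hf₀).mp e)
  have hua : f₀ hrat u a = 1 := by rw [hu, hf₀.bilinear.smul_left, inv_mul_cancel₀ hxa]
  have hub : f₀ hrat u b = 0 := by rw [hu, hf₀.bilinear.smul_left, hx, mul_zero]
  have hub' : f (em u) (em b) = 0 := congrArg Subtype.val hub
  have hua' : f (em u) (em a) = 1 := congrArg Subtype.val hua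
  have hab' : f (em a) (em b) = 0 := congrArg Subtype.val hab
  -- the image of the transvection at `u`
  have h1 : Symp.T hf (em u + q • em b) 1 ∈ M := by
    have := mul_mem (mul_mem h (by simpa using hM u 1)) (inv_mem h)
    rw [Symp.conj_T hf (hMI h), ap_el hf hab', hua', hub'] at this
    convert this using 2
    module
  have hu_notMem : u ∉ Submodule.span F₀ {b} := fun e => by
    obtain ⟨c, hc⟩ := Submodule.mem_span_singleton.1 e
    rw [← hc, hf₀.bilinear.smul_left, (Symp.eq_zero_comm hf₀).mp hab, mul_zero] at hua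
    exact zero_ne_one hua
  obtain ⟨g, hgM, hgI, hfix, hg⟩ := exists_rat_move hf hrat hMI hM
    (U := Submodule.span F₀ {b}) (x := a) (y := u)
    ((Symp.mem_perp_span hf₀).2 (by rw [Symp.sub_left hf₀, hub, hab, sub_self])) ha hu_notMem
  have h3 : el hf 0 q 0 (em u) (em b) ∈ M := by
    have := mul_mem (mul_mem hgM h) (inv_mem hgM)
    rwa [conj_el hf hgI, hg, hfix b (Submodule.mem_span_singleton_self b)] at this
  have h4 : Symp.T hf (em b) (q * q) ∈ M := by
    have := mul_mem (mul_mem (inv_mem h3) (inv_mem (show Symp.T hf (em u) 1 ∈ M by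
      simpa using hM u 1))) h1
    convert this using 1
    rw [el_inv hf hub', show (Symp.T hf (em u) (1 : F))⁻¹ = Symp.T hf (em u) (-1) from
      inv_eq_of_mul_eq_one_right (by rw [Symp.T_mul hf, add_neg_cancel, Symp.T_zero_right hf])]
    apply gl_ext
    intro z
    have hbu : f (em b) (em u) = 0 := (Symp.eq_zero_comm hf).mp hub'
    simp only [ap_mul, ap_el hf hub', Symp.ap_T hf, hf.bilinear.add_left, hf.bilinear.add_right,
      hf.bilinear.smul_left, hf.bilinear.smul_right, hf.alternating, hub', hbu, mul_zero, add_zero]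
    match_scalars <;> ring
  exact mem_of_sq_char_two hf hMI hM hΛ h2 (hΛ _ (mem_lam hf hrat hMI hM hb h4))

/-- Two commuting transvections with a common multiplier over a subfield with two elements. -/
lemma two_mem {r : ℕ} (hr : r.Prime) (hcard : Nat.card F = Nat.card F₀ ^ r) (h2 : (2 : F) = 0)
    (hF0 : ∀ t : F₀, t = 0 ∨ t = 1) {a b : ι → F₀} (hab : f₀ hrat a b = 0)
    (ha : a ∉ Submodule.span F₀ {b}) {p : F} (h : el hf p 0 p (em a) (em b) ∈ M) : p ∈ F₀ := by
  classical
  by_contra hp
  set hf₀ := isSymp₀ hf hrat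
  have ha0 : a ≠ 0 := fun e => ha (e ▸ zero_mem _)
  obtain ⟨x, hx, hax⟩ := Symp.exists_perp_ne hf₀ ha
  rw [Symp.mem_perp_span] at hx
  set c : ι → F₀ := (f₀ hrat a x)⁻¹ • x with hc
  have hac : f₀ hrat a c = 1 := by rw [hc, hf₀.bilinear.smul_right, inv_mul_cancel₀ hax]
  have hcb : f₀ hrat c b = 0 := by rw [hc, hf₀.bilinear.smul_left, hx, mul_zero]
  have hab' : f (em a) (em b) = 0 := congrArg Subtype.val hab
  have hac' : f (em a) (em c) = 1 := congrArg Subtype.val hac
  have hcb' : f (em c) (em b) = 0 := congrArg Subtype.val hcb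
  have hca' : f (em c) (em a) = -1 := by rw [hf.skew, hac']
  have hm1 : (-1 : F) = 1 := by linear_combination -h2
  -- lifts of elements of the hyperbolic plane
  let Lift : SL(2, F) → GL ι F → Prop := fun s k =>
    ap k (em a) = s.1 0 0 • em a + s.1 1 0 • em c ∧ ap k (em c) = s.1 0 1 • em a + s.1 1 1 • em c
  let S : Submonoid SL(2, F) :=
    { carrier := {s | ∃ k ∈ M, Lift s k}
      one_mem' := ⟨1, one_mem M, by simp, by simp⟩
      mul_mem' := by
        rintro s t ⟨g, hg, g1, g2⟩ ⟨k, hk, k1, k2⟩
        refine ⟨g * k, mul_mem hg hk, ?_, ?_⟩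
        · rw [ap_mul, k1, ap_add, ap_smul, ap_smul, g1, g2]
          simp only [Matrix.SpecialLinearGroup.coe_mul, Matrix.mul_apply, Fin.sum_univ_two]
          module
        · rw [ap_mul, k2, ap_add, ap_smul, ap_smul, g1, g2]
          simp only [Matrix.SpecialLinearGroup.coe_mul, Matrix.mul_apply, Fin.sum_univ_two]
          module }
  let G : Subgroup SL(2, F) :=
    { S with
      inv_mem' := fun {s} hs => by
        have e : s⁻¹ = s ^ (orderOf s - 1) := by
          refine inv_eq_of_mul_eq_one_right ?_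
          rw [← pow_succ', Nat.sub_add_cancel (orderOf_pos s), pow_orderOf_eq_one]
        show s⁻¹ ∈ S
        rw [e]
        exact S.pow_mem hs _ }
  have hTa : Symp.T hf (em a) 1 ∈ M := by simpa using hM a 1
  have hTc : Symp.T hf (em c) 1 ∈ M := by simpa using hM c 1
  have hwa : ap (el hf p 0 p (em a) (em b)) (em a) = em a := by
    rw [ap_el hf hab', hf.alternating, hab']; simp
  have hwc : ap (el hf p 0 p (em a) (em b)) (em c) = p • em a + em c := by
    rw [ap_el hf hab', hca', hcb', hm1]; simp; abel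
  by_cases hF4 : Nat.card F = 4
  · -- the word moving `a` to a multiple of itself
    have hpp : p * p + p + 1 = 0 := by
      have : Fintype F := Fintype.ofFinite F
      have hp0 : p ≠ 0 := fun e => hp (e ▸ zero_mem F₀)
      have h3 := FiniteField.pow_card_sub_one_eq_one p hp0
      rw [← Nat.card_eq_fintype_card, hF4] at h3
      have : (p - 1) * (p * p + p + 1) = 0 := by linear_combination h3
      exact (mul_eq_zero.1 this).resolve_left fun e => hp (sub_eq_zero.1 e ▸ one_mem F₀)
    set L := Symp.T hf (em c) 1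
    set U := Symp.T hf (em a) 1
    set W := el hf p 0 p (em a) (em b)
    have hLc : ap L (em c) = em c := by simp [L, Symp.ap_T hf, hf.alternating]
    have hLa : ap L (em a) = em a + em c := by simp [L, Symp.ap_T hf, hac']
    have hUa : ap U (em a) = em a := by simp [U, Symp.ap_T hf, hf.alternating]
    have hUc : ap U (em c) = em a + em c := by simp [U, Symp.ap_T hf, hca', hm1]; abel
    have hmem : L * U * W * L * W * L ∈ M :=
      mul_mem (mul_mem (mul_mem (mul_mem (mul_mem hTc hTa) h) hTc) h) hTc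
    have himg : ap (L * U * W * L * W * L) (em a) = p • em a := by
      simp only [ap_mul, ap_add, ap_smul, hLc, hLa, hUa, hUc, hwa, hwc, smul_add, smul_smul]
      match_scalars
      · linear_combination hpp + (p + 1) * h2
      · linear_combination hpp + (2 * p + 2) * h2
    have hc1 := mul_mem (mul_mem hmem hTa) (inv_mem hmem)
    rw [Symp.conj_T hf (hMI hmem), himg, Symp.T_smul hf, mul_one] at hc1
    have := hΛ _ (mem_lam hf hrat hMI hM ha0 hc1)
    apply hp
    have h' := sub_mem (neg_mem this) (one_mem F₀)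
    convert h' using 1
    linear_combination hpp
  let V : Submodule F₀ F := Submodule.span F₀ {1, p}
  have hTaG : CfsgLib.ClassicalLinear.upS (1 : F) ∈ G :=
    ⟨_, hTa, by simp [Symp.ap_T hf, hf.alternating, CfsgLib.ClassicalLinear.upS_coe],
      by simp [Symp.ap_T hf, hca', hm1, CfsgLib.ClassicalLinear.upS_coe]; abel⟩
  have hVG : ∀ x ∈ V, CfsgLib.ClassicalLinear.upS x ∈ G := by
    intro x hx
    obtain ⟨s, t, rfl⟩ := Submodule.mem_span_pair.1 hx
    refine ⟨Symp.T hf (em a) (s : F) * (if t = 0 then 1 else el hf p 0 p (em a) (em b)),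
      mul_mem (hM a s) (by split_ifs <;> first | exact one_mem M | exact h), ?_, ?_⟩
    · split_ifs <;> simp [ap_mul, hwa, Symp.ap_T hf, hf.alternating, CfsgLib.ClassicalLinear.upS_coe]
    · rcases hF0 t with rfl | rfl
      · simp [Symp.ap_T hf, hca', hm1, CfsgLib.ClassicalLinear.upS_coe, Subfield.smul_def]; abel
      · simp [ap_mul, hwc, ap_add, ap_smul, Symp.ap_T hf, hca', hm1, hf.alternating,
          CfsgLib.ClassicalLinear.upS_coe, Subfield.smul_def]
        match_scalars <;> simp [hf.bilinear.add_left, hf.bilinear.smul_left, hf.alternating, hca', hm1] <;> ring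
  have hlG : CfsgLib.SL2.Dickson.lowS (1 : F) ∈ G :=
    ⟨_, hTc, by simp [Symp.ap_T hf, hac', CfsgLib.SL2.Dickson.lowS_coe],
      by simp [Symp.ap_T hf, hf.alternating, CfsgLib.SL2.Dickson.lowS_coe]⟩
  obtain ⟨g, ⟨k, hk, k1, -⟩, hg10, htr⟩ := exists_borel_trace_notMem hr hcard hF4 (G := G) V
    (Submodule.subset_span (Set.mem_insert _ _)) (Submodule.subset_span (Set.mem_insert_of_mem _ rfl))
    (fun u v e => by
      by_cases hv : v = 0
      · subst hv
        simpa using e
      · exfalso
        have hv' : (v : F) ≠ 0 := fun e0 => hv (Subtype.ext e0)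
        apply hp
        rw [show p = -(u : F) / v by field_simp; linear_combination e]
        exact div_mem (neg_mem u.2) v.2) hVG one_ne_zero hlG
  apply htr
  rw [hg10, zero_smul, add_zero] at k1
  set t := (g : Matrix (Fin 2) (Fin 2) F) 0 0
  have hdet : t * (g : Matrix (Fin 2) (Fin 2) F) 1 1 = 1 := by
    have := CfsgLib.SL2.det_eq g
    rw [hg10] at this
    linear_combination this
  have hc1 := mul_mem (mul_mem hk hTa) (inv_mem hk)
  rw [Symp.conj_T hf (hMI hk), k1, Symp.T_smul hf, mul_one] at hc1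
  have ht : t ∈ F₀ := mem_of_sq_char_two hf hMI hM hΛ h2 (hΛ _ (mem_lam hf hrat hMI hM ha0 hc1))
  rw [eq_inv_of_mul_eq_one_right hdet]
  exact add_mem ht (inv_mem ht)

variable (hdim : 4 ≤ Fintype.card ι) {r : ℕ} (hr : r.Prime) (hcard : Nat.card F = Nat.card F₀ ^ r)
include hr hcard

/-- The coefficients of symmetric maps of orthogonal pairs lie in the subfield. -/
lemma el_coeff {a b : ι → F₀} (hab : f₀ hrat a b = 0) (hb : b ≠ 0)
    (ha : a ∉ Submodule.span F₀ {b}) {p q s : F} (h : el hf p q s (em a) (em b) ∈ M) :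
    p ∈ F₀ ∧ q ∈ F₀ ∧ s ∈ F₀ := by
  classical
  set hf₀ := isSymp₀ hf hrat
  -- replacing `a` by `a + z`
  have shift : ∀ {a b z : ι → F₀} {p q s : F}, a ∉ Submodule.span F₀ {b} →
      a + z ∉ Submodule.span F₀ {b} → f₀ hrat z b = 0 →
      el hf p q s (em a) (em b) ∈ M →
      el hf p q s (em a + em z) (em b) * (el hf p q s (em a) (em b))⁻¹ ∈ M := by
    intro a b z p q s ha haz hzb h
    obtain ⟨g, hgM, hgI, hfix, hg⟩ := exists_rat_move hf hrat hMI hM
      (U := Submodule.span F₀ {b}) (x := a) (y := a + z)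
      ((Symp.mem_perp_span hf₀).2 (by rwa [add_sub_cancel_left])) ha haz
    have := mul_mem (mul_mem hgM h) (inv_mem hgM)
    rw [conj_el hf hgI, hg, em_add, hfix b (Submodule.mem_span_singleton_self b)] at this
    exact mul_mem this (inv_mem h)
  have hfirst : ∀ {a b : ι → F₀} {p q s : F}, f₀ hrat a b = 0 → b ≠ 0 →
      a ∉ Submodule.span F₀ {b} → el hf p q s (em a) (em b) ∈ M → p ∈ F₀ := by
    intro a b p q s hab hb ha h
    have hab' : f (em a) (em b) = 0 := congrArg Subtype.val hab
    have hab1 : a + b ∉ Submodule.span F₀ {b} := fun e => ha (by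
      simpa using Submodule.sub_mem _ e (Submodule.mem_span_singleton_self b))
    have hd : el hf 0 p (2 * q + p) (em a) (em b) ∈ M := by
      have := shift ha hab1 (hf₀.alternating b) h
      rw [el_shift hf hab', el_inv hf hab', el_mul hf hab'] at this
      convert this using 2 <;> ring
    by_cases h2 : (2 : F) = 0
    · by_cases hF0 : ∀ t : F₀, t = 0 ∨ t = 1
      · -- the swapped shift
        have h1 : el hf p p 0 (em b) (em a) ∈ M := by
          rw [← show el hf 0 p p (em a) (em b) = el hf p p 0 (em b) (em a) from el_swap hf hab' 0 p p]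
          convert hd using 2
          linear_combination -q * h2
        have hba : b ∉ Submodule.span F₀ {a} := by
          intro e
          obtain ⟨t, ht⟩ := Submodule.mem_span_singleton.1 e
          have ht0 : t ≠ 0 := fun e0 => hb (by rw [← ht, e0, zero_smul])
          exact ha (Submodule.mem_span_singleton.2 ⟨t⁻¹, by
            rw [← ht, smul_smul, inv_mul_cancel₀ ht0, one_smul]⟩)
        have hba1 : b + a ∉ Submodule.span F₀ {a} := fun e => hba (by
          simpa using Submodule.sub_mem _ e (Submodule.mem_span_singleton_self a))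
        obtain ⟨g, hgM, hgI, hfix, hg⟩ := exists_rat_move hf hrat hMI hM
          (U := Submodule.span F₀ {a}) (x := b) (y := b + a)
          ((Symp.mem_perp_span hf₀).2 (by rw [add_sub_cancel_left]; exact hf₀.alternating a)) hba hba1
        have h3 := mul_mem (mul_mem hgM h1) (inv_mem hgM)
        rw [conj_el hf hgI, hg, em_add, hfix a (Submodule.mem_span_singleton_self a),
          el_shift hf ((Symp.eq_zero_comm hf).mp hab'), ← el_swap hf hab'] at h3
        refine two_mem hf hrat hMI hM hΛ hr hcard h2 hF0 hab ha ?_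
        convert h3 using 2 <;> linear_combination -p * h2
      · push Not at hF0
        obtain ⟨t, ht0, ht1⟩ := hF0
        have hta : a + (t - 1) • a = t • a := by rw [sub_smul, one_smul]; abel
        have htn : a + (t - 1) • a ∉ Submodule.span F₀ {b} := by
          rw [hta]
          exact fun e => ha (by simpa [smul_smul, inv_mul_cancel₀ ht0] using Submodule.smul_mem _ t⁻¹ e)
        have h1 := shift ha htn (by rw [hf₀.bilinear.smul_left, hab, mul_zero]) hd
        have hm : el hf 0 (((t - 1 : F₀) : F) * p) 0 (em a) (em b) ∈ M := by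
          convert h1 using 1
          rw [em_smul, el_inv hf hab']
          have e1 : f (em a + ((t - 1 : F₀) : F) • em a) (em b) = 0 := by
            rw [hf.bilinear.add_left, hf.bilinear.smul_left, hab']; simp
          apply gl_ext
          intro z
          simp only [ap_mul, ap_el hf e1, ap_el hf hab', hf.bilinear.add_left, hf.bilinear.add_right,
            hf.bilinear.smul_left, hf.bilinear.smul_right, hf.alternating, hab',
            (Symp.eq_zero_comm hf).mp hab', mul_zero, add_zero]
          match_scalars <;> ring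
        have h4 := short_mem hf hrat hMI hM hΛ h2 hab hb ha hm
        have hne : ((t - 1 : F₀) : F) ≠ 0 := fun e => ht1 (sub_eq_zero.1 (Subtype.ext e))
        have := div_mem h4 (t - 1 : F₀).2
        rwa [mul_div_cancel_left₀ _ hne] at this
    · have h5 := shift ha hab1 (hf₀.alternating b) hd
      rw [el_shift hf hab', el_inv hf hab', el_mul hf hab'] at h5
      have h6 : Symp.T hf (em b) (2 * p) ∈ M := by
        rw [← el_eq_single hf _ hab']
        convert h5 using 2 <;> ring
      have := div_mem (hΛ _ (mem_lam hf hrat hMI hM hb h6)) (show (2 : F) ∈ F₀ from ofNat_mem F₀ 2)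
      rwa [mul_div_cancel_left₀ _ h2] at this
  have hp : p ∈ F₀ := hfirst hab hb ha h
  have hab' : f (em a) (em b) = 0 := congrArg Subtype.val hab
  have hs : s ∈ F₀ := by
    refine hfirst (a := b) (b := a) ((Symp.eq_zero_comm hf₀).mp hab) (fun e => ha (e ▸ zero_mem _)) ?_
      (by rw [← el_swap hf hab']; exact h)
    intro e
    obtain ⟨t, ht⟩ := Submodule.mem_span_singleton.1 e
    have ht0 : t ≠ 0 := fun e0 => hb (by rw [← ht, e0, zero_smul])
    exact ha (Submodule.mem_span_singleton.2 ⟨t⁻¹, by
      rw [← ht, smul_smul, inv_mul_cancel₀ ht0, one_smul]⟩)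
  refine ⟨hp, ?_, hs⟩
  have h0 : el hf 0 q 0 (em a) (em b) ∈ M := by
    have := mul_mem h (el_rat_mem hf hM (-⟨p, hp⟩) 0 (-⟨s, hs⟩) a b)
    rw [el_mul hf hab'] at this
    convert this using 2 <;> simp
  by_cases h2 : (2 : F) = 0
  · exact short_mem hf hrat hMI hM hΛ h2 hab hb ha h0
  · have hab1 : a + b ∉ Submodule.span F₀ {b} := fun e => ha (by
      simpa using Submodule.sub_mem _ e (Submodule.mem_span_singleton_self b))
    have h5 := shift ha hab1 (hf₀.alternating b) h0
    rw [el_shift hf hab', el_inv hf hab', el_mul hf hab'] at h5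
    have h6 : Symp.T hf (em b) (2 * q) ∈ M := by
      rw [← el_eq_single hf _ hab']
      convert h5 using 2 <;> ring
    have := div_mem (hΛ _ (mem_lam hf hrat hMI hM hb h6)) (show (2 : F) ∈ F₀ from ofNat_mem F₀ 2)
    rwa [mul_div_cancel_left₀ _ h2] at this

/-- Centres of transvections in an isotropic plane over the subfield are over it. -/
lemma plane_coeff {a b : ι → F₀} (hab : f₀ hrat a b = 0) (hb : b ≠ 0)
    (ha : a ∉ Submodule.span F₀ {b}) {α β : F} (h : Symp.T hf (α • em a + β • em b) 1 ∈ M) :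
    α * α ∈ F₀ ∧ α * β ∈ F₀ ∧ β * β ∈ F₀ := by
  refine el_coeff hf hrat hMI hM hΛ hr hcard hab hb ha ?_
  convert h using 1
  apply gl_ext
  intro z
  rw [ap_el hf (show f (em a) (em b) = 0 from congrArg Subtype.val hab), Symp.ap_T hf,
    hf.bilinear.add_right, hf.bilinear.smul_right, hf.bilinear.smul_right]
  module

include hdim in
/-- If no multiplier outside the subfield occurs, transvection centres are over it. -/
lemma centre_lineRat {v : ι → F}
    (hT : Symp.T hf v 1 ∈ M) : ∃ (c : F) (x : ι → F₀), v = c • em x := by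
  classical
  by_contra hline
  push Not at hline
  set hf₀ := isSymp₀ hf hrat
  by_cases hF4 : Nat.card F = 4
  · -- the field with four elements
    have hq : 2 ≤ Nat.card F₀ := Finite.one_lt_card
    have hr2 : r = 2 ∧ Nat.card F₀ = 2 := by
      rw [hF4] at hcard
      have h1 : Nat.card F₀ ^ 2 ≤ Nat.card F₀ ^ r :=
        Nat.pow_le_pow_right (by omega) hr.two_le
      have h2 : Nat.card F₀ = 2 := by nlinarith
      rw [h2] at hcard
      exact ⟨(Nat.pow_right_injective le_rfl (show 2 ^ 2 = 2 ^ r from hcard)).symm, h2⟩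
    obtain ⟨ω, hω⟩ : ∃ ω, ω ∉ F₀ := by
      by_contra h
      push Not at h
      have : Nat.card F₀ = Nat.card F := Nat.card_congr (Equiv.subtypeUnivEquiv h)
      omega
    have hsurj : Function.Surjective (fun p : F₀ × F₀ => (p.1 : F) + ω * p.2) := by
      refine ((Nat.bijective_iff_injective_and_card _).2 ⟨?_, by simp [hr2.2, hF4]⟩).2
      rintro ⟨a, b⟩ ⟨a', b'⟩ h
      have h' : (a : F) + ω * b = a' + ω * b' := h
      by_cases hbb : b = b'
      · subst hbb
        exact Prod.ext (Subtype.ext (add_right_cancel h')) rfl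
      · exfalso
        apply hω
        have hne : (b : F) - b' ≠ 0 := fun e => hbb (Subtype.ext (sub_eq_zero.1 e))
        rw [show ω = ((a' : F) - a) / (b - b') by field_simp; linear_combination h']
        exact div_mem (sub_mem a'.2 a.2) (sub_mem b.2 b'.2)
    choose k hk using fun i => hsurj (v i)
    set x : ι → F₀ := fun i => (k i).1
    set y : ι → F₀ := fun i => (k i).2
    have hv : v = em x + ω • em y := funext fun i => (hk i).symm
    have hy0 : y ≠ 0 := fun e => hline 1 x (by rw [hv, e, em_zero, smul_zero, add_zero, one_smul])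
    have hxy : x ∉ Submodule.span F₀ {y} := fun e => by
      obtain ⟨t, ht⟩ := Submodule.mem_span_singleton.1 e
      exact hline (t + ω) y (by rw [hv, ← ht, em_smul, add_smul])
    by_cases h0 : f₀ hrat x y = 0
    · have := (plane_coeff hf hrat hMI hM hΛ hr hcard h0 hy0 hxy (α := 1) (β := ω)
        (by rw [one_smul, ← hv]; exact hT)).2.1
      rw [one_mul] at this
      exact hω this
    have h1 : f₀ hrat x y = 1 := by
      have : Fintype F₀ := Fintype.ofFinite F₀
      have := FiniteField.pow_card_sub_one_eq_one _ h0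
      rwa [← Nat.card_eq_fintype_card, hr2.2, pow_one] at this
    have h1' : f (em x) (em y) = 1 := congrArg Subtype.val h1
    have h2 : (2 : F) = 0 := by
      have : Fintype F₀ := Fintype.ofFinite F₀
      have h0 : ((Nat.card F₀ : ℕ) : F₀) = 0 := by simp [Nat.card_eq_fintype_card]
      rw [hr2.2] at h0
      rw [← map_ofNat F₀.subtype 2, show (2 : F₀) = 0 by exact_mod_cast h0, map_zero]
    have hω2 : ω * ω + ω + 1 = 0 := by
      have : Fintype F := Fintype.ofFinite F
      have h3 := FiniteField.pow_card_sub_one_eq_one ω (fun e => hω (e ▸ zero_mem F₀))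
      rw [← Nat.card_eq_fintype_card, hF4] at h3
      have : (ω - 1) * (ω * ω + ω + 1) = 0 := by linear_combination h3
      exact (mul_eq_zero.1 this).resolve_left fun e => hω (sub_eq_zero.1 e ▸ one_mem F₀)
    -- the conjugate of the transvection at `x`
    have h5 := mul_mem (mul_mem hT (by simpa using hM x 1)) (inv_mem hT)
    rw [Symp.conj_T hf (hMI hT), Symp.ap_T hf] at h5
    have e : em x + (1 * f (em x) v) • v = (ω * ω) • em (x + y) := by
      rw [hv, em_add, hf.bilinear.add_right, hf.bilinear.smul_right, hf.alternating, h1']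
      match_scalars <;> first | ring1 | linear_combination hω2 - ω * ω * h2 | linear_combination -hω2 + ω * ω * h2
    rw [e, Symp.T_smul hf] at h5
    apply hω
    have h6 : ω * ω * (ω * ω) * 1 = ω := by linear_combination (ω * ω - ω) * hω2
    rw [h6] at h5
    refine hΛ _ (mem_lam hf hrat hMI hM (fun e => hxy ?_) h5)
    exact Submodule.mem_span_singleton.2 ⟨-1, by rw [neg_one_smul, eq_neg_of_add_eq_zero_left e]⟩
  -- an orthogonal pair with independent values
  obtain ⟨a, b, hab, hA, hBA⟩ : ∃ a b : ι → F₀, f₀ hrat a b = 0 ∧ f v (em a) ≠ 0 ∧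
      f v (em b) / f v (em a) ∉ F₀ := by
    by_contra hc
    push Not at hc
    obtain ⟨a, ha⟩ : ∃ a : ι → F₀, f v (em a) ≠ 0 := by
      by_contra h
      push Not at h
      apply hline 0 0
      rw [zero_smul]
      by_contra hv0
      obtain ⟨z, hz⟩ := (hf.nondegenerate v hv0).1
      obtain ⟨i, hi⟩ := LSubfld.exists_single_ne (φ := Symp.fl hf v) (fun e => hz (by
        have := LinearMap.congr_fun e z
        first
          | simpa using this
          | exact (Symp.eq_zero_comm hf).mp (by simpa using this)))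
      rw [Symp.fl_apply, ← em_single (F₀ := F₀) i] at hi
      exact hi ((Symp.eq_zero_comm hf).mp (h _))
    set A := f v (em a)
    have hall : ∀ b : ι → F₀, f v (em b) / A ∈ F₀ := by
      intro b
      by_cases hab : f₀ hrat a b = 0
      · exact hc a b hab ha
      set b₀ := (f₀ hrat a b)⁻¹ • b with hb₀
      have hab₀ : f₀ hrat a b₀ = 1 := by
        rw [hb₀, hf₀.bilinear.smul_right, inv_mul_cancel₀ hab]
      suffices hs : f v (em b₀) / A ∈ F₀ by
        have := mul_mem (f₀ hrat a b).2 hs
        convert this using 1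
        rw [hb₀, em_smul, hf.bilinear.smul_right, Subfield.coe_inv, ← mul_div_assoc,
          mul_inv_cancel_left₀ (fun e => hab (Subtype.ext e))]
      set U := Submodule.span F₀ {a, b₀}
      have hUd : Module.finrank F₀ U ≤ 2 := by
        refine (finrank_span_le_card _).trans ?_
        simp [Set.toFinset_insert, Finset.card_le_two]
      have hP : 2 ≤ Module.finrank F₀ (Symp.perp hf₀ U) := by
        have := Symp.card_le_finrank_add_finrank_perp hf₀ U
        omega
      obtain ⟨c, hc0, hcA⟩ : ∃ c ∈ Symp.perp hf₀ U, c ≠ 0 ∧ A + f v (em c) ≠ 0 := by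
        by_contra hcon
        push Not at hcon
        obtain ⟨x, hx, hx0⟩ := Submodule.exists_mem_ne_zero_of_ne_bot
          (p := Symp.perp hf₀ U) (fun e => by rw [e, finrank_bot] at hP; omega)
        obtain ⟨y, hy, hyx⟩ : ∃ y ∈ Symp.perp hf₀ U, y ∉ Submodule.span F₀ {x} := by
          by_contra h
          push Not at h
          have := Submodule.finrank_mono (t := Submodule.span F₀ {x}) h
          rw [finrank_span_singleton hx0] at this
          omega
        have hy0 : y ≠ 0 := fun e => hyx (e ▸ zero_mem _)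
        have hxy0 : x + y ≠ 0 := fun e => hyx (by
          rw [eq_neg_of_add_eq_zero_right e]
          exact neg_mem (Submodule.mem_span_singleton_self x))
        have e1 := hcon x hx hx0
        have e2 := hcon y hy hy0
        have e3 := hcon (x + y) ((Symp.perp hf₀ U).add_mem hx hy) hxy0
        rw [em_add, hf.bilinear.add_right] at e3
        exact ha (by linear_combination e1 + e2 - e3)
      have hcU : c ∉ U := by
        intro hcu
        obtain ⟨s, t, hst⟩ := Submodule.mem_span_pair.1 hcu
        have h1 := hc0 a (Submodule.subset_span (by simp))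
        have h2 := hc0 b₀ (Submodule.subset_span (by simp))
        rw [← hst, hf₀.bilinear.add_left, hf₀.bilinear.smul_left, hf₀.bilinear.smul_left,
          hf₀.alternating, hf₀.skew b₀ a, hab₀] at h1
        rw [← hst, hf₀.bilinear.add_left, hf₀.bilinear.smul_left, hf₀.bilinear.smul_left,
          hf₀.alternating, hab₀] at h2
        exact hcA.1 (by
          rw [← hst, show t = 0 by linear_combination -h1, show s = 0 by linear_combination h2]
          simp)
      obtain ⟨x, hx, hcx⟩ := Symp.exists_perp_ne hf₀ hcU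
      set d := (f₀ hrat c x)⁻¹ • x with hd
      have hcd : f₀ hrat c d = 1 := by
        rw [hd, hf₀.bilinear.smul_right, inv_mul_cancel₀ hcx]
      have hda : f₀ hrat a d = 0 := by
        rw [hd, hf₀.bilinear.smul_right, (Symp.eq_zero_comm hf₀).mp
          (hx a (Submodule.subset_span (by simp))), mul_zero]
      have hdb : f₀ hrat d b₀ = 0 := by
        rw [hd, hf₀.bilinear.smul_left, hx b₀ (Submodule.subset_span (by simp)), mul_zero]
      have hcb : f₀ hrat c b₀ = 0 := hc0 b₀ (Submodule.subset_span (by simp))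
      have h1 := hc (a + c) (b₀ - d) (by
        rw [Symp.sub_right hf₀, hf₀.bilinear.add_left, hf₀.bilinear.add_left, hab₀, hcb, hcd, hda]
        ring) (by rw [em_add, hf.bilinear.add_right]; exact hcA.2)
      have h2 := hc a d hda ha
      have h3 := hc a c ((Symp.eq_zero_comm hf₀).mp (hc0 a (Submodule.subset_span (by simp)))) ha
      rw [em_add, em_sub, Symp.sub_right hf, hf.bilinear.add_right] at h1
      have alg : ∀ X Y C D : F, D ≠ 0 → D + C ≠ 0 →
          X / D = (X - Y) / (D + C) * (1 + C / D) + Y / D := by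
        intro X Y C D hD hDC
        field_simp
        ring
      rw [alg _ (f v (em d)) _ A ha hcA.2]
      exact add_mem (mul_mem h1 (add_mem (one_mem F₀) h3)) h2
    suffices hex : ∃ x : ι → F₀, v = A • em x by
      obtain ⟨x, hx⟩ := hex
      exact hline A x hx
    let ψ : (ι → F₀) →ₗ[F₀] F₀ :=
      { toFun := fun z => ⟨f v (em z) / A, hall z⟩
        map_add' := fun z w => Subtype.ext (by simp [em_add, hf.bilinear.add_right, add_div])
        map_smul' := fun c z => Subtype.ext (by
          simp [em_smul, hf.bilinear.smul_right, mul_div_assoc]) }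
    obtain ⟨x, hx⟩ := Symp.exists_eq_fl hf₀ ψ
    refine ⟨-x, ?_⟩
    rw [← sub_eq_zero]
    by_contra hne
    obtain ⟨z, hz⟩ := (hf.nondegenerate _ hne).1
    obtain ⟨i, hi⟩ := LSubfld.exists_single_ne (φ := Symp.fl hf (v - A • em (-x))) (fun e => hz (by
      have := LinearMap.congr_fun e z
      rw [Symp.fl_apply, LinearMap.zero_apply] at this
      first | exact this | exact (Symp.eq_zero_comm hf).mp this))
    rw [Symp.fl_apply, ← em_single (F₀ := F₀) i] at hi
    apply hi
    have h1 : f (em (Pi.single i (1 : F₀))) (em x) = f v (em (Pi.single i 1)) / A :=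
      congrArg Subtype.val (LinearMap.congr_fun hx (Pi.single i 1))
    have h2 : f (em (Pi.single i (1 : F₀))) v = -f v (em (Pi.single i 1)) := hf.skew _ _
    have h4 : em (-x) = -em x := by funext j; simp [em]
    rw [Symp.sub_right hf, hf.bilinear.smul_right, h4, Symp.neg_right hf, h1, h2]
    field_simp
    ring
  set A := f v (em a) with hAdef
  set B := f v (em b) with hBdef
  have hab' : f (em a) (em b) = 0 := congrArg Subtype.val hab
  have hba' := (Symp.eq_zero_comm hf).mp hab'
  have hb : b ≠ 0 := fun e => hBA (by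
    rw [hBdef, e, em_zero, Symp.zero_right hf, zero_div]; exact zero_mem F₀)
  have ha : a ∉ Submodule.span F₀ {b} := by
    intro e
    obtain ⟨t, ht⟩ := Submodule.mem_span_singleton.1 e
    have e1 : A = t * B := by rw [hAdef, hBdef, ← ht, em_smul, hf.bilinear.smul_right]
    have hB0 : B ≠ 0 := fun h => hA (by rw [e1, h, mul_zero])
    apply hBA
    rw [e1, div_mul_cancel_right₀ hB0]
    exact inv_mem t.2
  set r₀ := B • em a - A • em b with hr₀
  set R := Submodule.span F {r₀}
  set w := A⁻¹ • em a with hw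
  have hvr : f r₀ v = 0 := by
    rw [hr₀, Symp.sub_left hf, hf.bilinear.smul_left, hf.bilinear.smul_left, hf.skew _ v,
      hf.skew (em b) v]
    ring
  have hwv : f w v = -1 := by
    rw [hw, hf.bilinear.smul_left, hf.skew _ v, mul_neg, inv_mul_cancel₀ hA]
  let Lift : SL(2, F) → GL ι F → Prop := fun s h =>
    ap h r₀ = r₀ ∧ ap h w - (s.1 0 0 • w + s.1 1 0 • v) ∈ R ∧
      ap h v - (s.1 0 1 • w + s.1 1 1 • v) ∈ R
  have hfixR : ∀ (g : GL ι F), ap g r₀ = r₀ → ∀ x ∈ R, ap g x = x := by
    intro g hg x hx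
    obtain ⟨c, rfl⟩ := Submodule.mem_span_singleton.1 hx
    rw [ap_smul, hg]
  let S : Submonoid SL(2, F) :=
    { carrier := {s | ∃ h ∈ M, Lift s h}
      one_mem' := ⟨1, one_mem M, by simp, by simp, by simp⟩
      mul_mem' := by
        rintro s t ⟨g, hg, g1, g2, g3⟩ ⟨h, hh, h1, h2, h3⟩
        refine ⟨g * h, mul_mem hg hh, by rw [ap_mul, h1, g1], ?_, ?_⟩
        · have e := R.add_mem (R.add_mem ((hfixR g g1 _ h2).symm ▸ h2) (R.smul_mem (t.1 0 0) g2))
            (R.smul_mem (t.1 1 0) g3)
          convert e using 1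
          simp only [ap_mul, ap_sub, ap_add, ap_smul, Matrix.SpecialLinearGroup.coe_mul,
            Matrix.mul_apply, Fin.sum_univ_two]
          module
        · have e := R.add_mem (R.add_mem ((hfixR g g1 _ h3).symm ▸ h3) (R.smul_mem (t.1 0 1) g2))
            (R.smul_mem (t.1 1 1) g3)
          convert e using 1
          simp only [ap_mul, ap_sub, ap_add, ap_smul, Matrix.SpecialLinearGroup.coe_mul,
            Matrix.mul_apply, Fin.sum_univ_two]
          module }
  let G : Subgroup SL(2, F) :=
    { S with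
      inv_mem' := fun {s} hs => by
        have e : s⁻¹ = s ^ (orderOf s - 1) := by
          refine inv_eq_of_mul_eq_one_right ?_
          rw [← pow_succ', Nat.sub_add_cancel (orderOf_pos s), pow_orderOf_eq_one]
        show s⁻¹ ∈ S
        rw [e]
        exact S.pow_mem hs _ }
  let V : Submodule F₀ F :=
    { carrier := {x | ∃ p q s : F₀, x = p * A * A + 2 * q * A * B + s * B * B}
      zero_mem' := ⟨0, 0, 0, by simp⟩
      add_mem' := by
        rintro _ _ ⟨p, q, s, rfl⟩ ⟨p', q', s', rfl⟩
        exact ⟨p + p', q + q', s + s', by push_cast; ring⟩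
      smul_mem' := by
        rintro c _ ⟨p, q, s, rfl⟩
        exact ⟨c * p, c * q, c * s, by rw [Subfield.smul_def, smul_eq_mul]; push_cast; ring⟩ }
  have hVG : ∀ x ∈ V, CfsgLib.ClassicalLinear.upS x ∈ G := by
    rintro _ ⟨p, q, s, rfl⟩
    refine ⟨el hf p q s (em a) (em b), el_rat_mem hf hM p q s a b, ?_, ?_, ?_⟩
    · rw [ap_el hf hab', hr₀]
      simp [Symp.sub_left hf, hf.bilinear.smul_left, hf.alternating, hab', hba']
    · rw [ap_el hf hab', hw]
      simp [hf.bilinear.smul_left, hf.alternating, hab', CfsgLib.ClassicalLinear.upS_coe]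
    · refine Submodule.mem_span_singleton.2 ⟨-(q * A + s * B) / A, ?_⟩
      rw [ap_el hf hab', ← hAdef, ← hBdef, hr₀, hw]
      simp only [CfsgLib.ClassicalLinear.upS_coe, Matrix.of_apply, Matrix.cons_val',
        Matrix.cons_val_zero, Matrix.cons_val_one, Matrix.cons_val_fin_one]
      match_scalars <;> field_simp <;> ring
  have hlG : CfsgLib.SL2.Dickson.lowS (-1 : F) ∈ G := by
    refine ⟨Symp.T hf v 1, hT, Symp.ap_T_fix hf _ hvr, ?_, ?_⟩
    · simp [Symp.ap_T hf, hwv, CfsgLib.SL2.Dickson.lowS_coe]
    · simp [Symp.ap_T hf, hf.alternating, CfsgLib.SL2.Dickson.lowS_coe]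
  obtain ⟨bV, hbV, habV⟩ : ∃ y ∈ V, ∀ p q : F₀, (p : F) * (A * A) + (q : F) * y = 0 →
      p = 0 ∧ q = 0 := by
    by_cases h2 : (2 : F) = 0
    · refine ⟨B * B, ⟨0, 0, 1, by simp⟩, fun p q h => ?_⟩
      by_cases hq : q = 0
      · subst hq
        simpa [hA] using h
      · exfalso
        have hq' : (q : F) ≠ 0 := fun e => hq (Subtype.ext e)
        apply hBA
        refine mem_of_sq_char_two hf hMI hM hΛ h2 ?_
        rw [show B / A * (B / A) = -(p : F) / q by field_simp; linear_combination h]
        exact div_mem (neg_mem p.2) q.2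
    · refine ⟨2 * A * B, ⟨0, 1, 0, by simp⟩, fun p q h => ?_⟩
      by_cases hq : q = 0
      · subst hq
        simpa [hA] using h
      · exfalso
        have hq' : (q : F) ≠ 0 := fun e => hq (Subtype.ext e)
        apply hBA
        rw [show B / A = -(p : F) / (2 * q) by
          field_simp; apply mul_left_cancel₀ hA; linear_combination h]
        exact div_mem (neg_mem p.2) (mul_mem (ofNat_mem F₀ 2) q.2)
  obtain ⟨g, ⟨h, hh, h1, h2, h3⟩, hg10, htr⟩ := exists_borel_trace_notMem hr hcard hF4 (G := G) V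
    (a := A * A) ⟨1, 0, 0, by simp⟩ hbV habV hVG (neg_ne_zero.2 one_ne_zero) hlG
  apply htr
  set G00 := (g : Matrix (Fin 2) (Fin 2) F) 0 0
  have hdet : G00 * (g : Matrix (Fin 2) (Fin 2) F) 1 1 = 1 := by
    have := CfsgLib.SL2.det_eq g
    rw [hg10] at this
    linear_combination this
  rw [hg10, zero_smul, add_zero] at h2
  obtain ⟨t, ht⟩ := Submodule.mem_span_singleton.1 h2
  -- the images of the two vectors
  set α₁ := G00 + t * A * B with hα₁
  set β₁ := -(t * A * A) with hβ₁
  set α₂ := B * (G00 - 1) / A + t * B * B with hα₂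
  set β₂ := 1 - t * A * B with hβ₂
  have hha : ap h (em a) = α₁ • em a + β₁ • em b := by
    have e : ap h (em a) = A • ap h w := by rw [hw, ap_smul, smul_smul, mul_inv_cancel₀ hA, one_smul]
    rw [e, show ap h w = t • r₀ + G00 • w by rw [ht]; abel, hr₀, hw, hα₁, hβ₁]
    match_scalars <;> field_simp <;> ring
  have hhb : ap h (em b) = α₂ • em a + β₂ • em b := by
    have e : em b = A⁻¹ • (B • em a - r₀) := by
      rw [hr₀, sub_sub_cancel, smul_smul, inv_mul_cancel₀ hA, one_smul]
    rw [e, ap_smul, ap_sub, ap_smul, h1, hha, ← e, hr₀, hα₁, hβ₁, hα₂, hβ₂]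
    match_scalars <;> field_simp <;> ring
  have himg : ∀ z : ι → F₀, Symp.T hf (ap h (em z)) 1 ∈ M := fun z => by
    rw [← Symp.conj_T hf (hMI hh)]
    exact mul_mem (mul_mem hh (by simpa using hM z 1)) (inv_mem hh)
  obtain ⟨a11, a12, a22⟩ := plane_coeff hf hrat hMI hM hΛ hr hcard hab hb ha (hha ▸ himg a)
  obtain ⟨b11, b12, b22⟩ := plane_coeff hf hrat hMI hM hΛ hr hcard hab hb ha (hhb ▸ himg b)
  obtain ⟨c11, c12, c22⟩ := plane_coeff hf hrat hMI hM hΛ hr hcard hab hb ha (α := α₁ + α₂)
    (β := β₁ + β₂) (by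
      have := himg (a + b)
      rw [em_add, ap_add, hha, hhb] at this
      convert this using 2
      module)
  have hS : α₁ * β₂ + α₂ * β₁ ∈ F₀ := by
    have := sub_mem (sub_mem c12 a12) b12
    convert this using 1
    ring
  have hP : α₁ * β₂ ∈ F₀ := by
    by_cases h0 : α₁ = 0
    · rw [h0, zero_mul]; exact zero_mem F₀
    by_cases hch : (2 : F) = 0
    · exact mul_mem (mem_of_sq_char_two hf hMI hM hΛ hch a11)
        (mem_of_sq_char_two hf hMI hM hΛ hch b22)
    · have e2 := sub_mem (sub_mem c11 a11) b11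
      have e12 : α₁ * α₂ ∈ F₀ := by
        have := div_mem e2 (show (2 : F) ∈ F₀ from ofNat_mem F₀ 2)
        convert this using 1
        field_simp
        ring
      have := sub_mem hS (div_mem (mul_mem e12 a12) a11)
      convert this using 1
      field_simp
      ring
  have hD : α₁ * β₂ - α₂ * β₁ = G00 := by
    rw [hα₁, hβ₁, hα₂, hβ₂]; field_simp; ring
  have htrace : (G00 + 1) * (G00 + 1) ∈ F₀ := by
    have := add_mem (add_mem a11 b22) (add_mem hP hP)
    convert this using 1
    rw [show G00 + 1 = α₁ + β₂ by rw [hα₁, hβ₂]; ring]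
    ring
  have hG00 : G00 ∈ F₀ := by
    rw [← hD]
    have := sub_mem (add_mem hP hP) hS
    convert this using 1
    ring
  have h11 : (g : Matrix (Fin 2) (Fin 2) F) 1 1 = G00⁻¹ := eq_inv_of_mul_eq_one_right hdet
  rw [h11]
  exact add_mem hG00 (inv_mem hG00)

end SSubfld

open SSubfld LSubfld in
/-- The subfield group of prime degree is maximal in the isometry group of a symplectic form
rational on the standard basis. -/
theorem sympSubfield_isMaximalIn [Finite F] (hn : 4 ≤ Fintype.card ι)
    {f : (ι → F) → (ι → F) → F} (hf : Cfsg.Geo.IsSymplecticForm f) {F₀ : Subfield F}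
    (hrat : ∀ u v, RatV F₀ u → RatV F₀ v → f u v ∈ F₀) {r : ℕ} (hr : r.Prime)
    (hcard : Nat.card F = Nat.card F₀ ^ r) :
    Cfsg.Geo.IsMaximalIn (isom f) (Cfsg.Geo.subfieldSubgroup F₀ (1 : GL ι F) ⊓ isom f) := by
  classical
  have : Nonempty ι := Fintype.card_pos_iff.1 (by omega)
  set hf₀ := isSymp₀ hf hrat
  obtain ⟨μ, hμ⟩ : ∃ μ, μ ∉ F₀ := by
    by_contra h
    push Not at h
    have : Nat.card F₀ = Nat.card F := Nat.card_congr (Equiv.subtypeUnivEquiv h)
    rw [this] at hcard
    have h1 : 1 = r := Nat.pow_right_injective Finite.one_lt_card (by simpa using hcard)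
    exact hr.one_lt.ne h1
  have hμ0 : μ ≠ 0 := fun h => hμ (h ▸ zero_mem F₀)
  have hμ1 : μ ≠ 1 := fun h => hμ (h ▸ one_mem F₀)
  refine ⟨lt_of_le_of_ne inf_le_right fun heq => ?_, fun M hHM hMS => ?_⟩
  · obtain ⟨i⟩ := ‹Nonempty ι›
    set e : ι → F₀ := Pi.single i 1
    have he : e ≠ 0 := by simp [e]
    obtain ⟨p, -, hp⟩ := Symp.exists_perp_ne hf₀ (U := ⊥) (x := e) (by simpa using he)
    obtain ⟨q, hq, hqe⟩ : ∃ q : ι → F₀, f₀ hrat e q = 0 ∧ q ∉ Submodule.span F₀ {e} := by
      by_contra hc
      push Not at hc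
      have h1 : Symp.perp hf₀ (Submodule.span F₀ {e}) ≤ Submodule.span F₀ {e} := fun z hz =>
        hc z ((Symp.eq_zero_comm hf₀).mp ((Symp.mem_perp_span hf₀).1 hz))
      have h2 := Submodule.finrank_mono h1
      have h3 := Symp.card_le_finrank_add_finrank_perp hf₀ (Submodule.span F₀ {e})
      rw [finrank_span_singleton he] at h2 h3
      omega
    have hp' : f₀ hrat p e ≠ 0 := fun h => hp ((Symp.eq_zero_comm hf₀).mp h)
    have hpe : f (em p) (em e) ≠ 0 := fun h => hp' (Subtype.ext h)
    have hm : Symp.T hf (em e) μ ∈ Cfsg.Geo.subfieldSubgroup F₀ (1 : GL ι F) ⊓ isom f := by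
      rw [heq]; exact Symp.T_mem_isom hf _ _
    -- the image of `p` is not on a line over the subfield
    obtain ⟨c, x, hx, hc⟩ := Subfld.lineRat_of_mem hm.1
      (show Subfld.Rat F₀ (1 : GL ι F) (em p) from fun l => by simpa using ratV_em p l)
    have hx' : RatV F₀ x := fun l => by simpa using hx l
    rw [Symp.ap_T hf] at hc
    have hpne : p ∉ Submodule.span F₀ {e} := fun h => by
      obtain ⟨t, rfl⟩ := Submodule.mem_span_singleton.1 h
      rw [hf₀.bilinear.smul_left, hf₀.alternating, mul_zero] at hp'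
      exact hp' rfl
    obtain ⟨χ, hχ, hχe, hχp⟩ := exists_ratF_sep (F₀ := F₀) (ratV_em e) (em_ne_zero he)
      (v := em p) (fun h => by
        obtain ⟨t, ht⟩ := Submodule.mem_span_singleton.1 h
        rw [← ht, hf.bilinear.smul_left, hf.alternating, mul_zero] at hpe
        exact hpe rfl)
    obtain ⟨ξ, hξ, hξp, hξe⟩ := exists_ratF_sep (F₀ := F₀) (ratV_em p)
      (em_ne_zero (fun h => hpne (h ▸ zero_mem _))) (v := em e) (fun h => by
        obtain ⟨t, ht⟩ := Submodule.mem_span_singleton.1 h
        rw [← ht, hf.bilinear.smul_right, hf.alternating, mul_zero] at hpe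
        exact hpe rfl)
    have e1 := congrArg χ hc
    have e2 := congrArg ξ hc
    simp only [map_add, map_smul, hχe, hξp, smul_eq_mul, mul_zero, add_zero, zero_add] at e1 e2
    have hχx : χ x ≠ 0 := fun h => hχp (by rw [e1, h, mul_zero])
    apply hμ
    rw [show μ = χ (em p) / χ x * ξ x / (f (em p) (em e) * ξ (em e)) by
      rw [eq_div_iff (mul_ne_zero hpe hξe), e1, mul_div_cancel_right₀ _ hχx, ← e2]; ring]
    exact div_mem (mul_mem (div_mem (ratF_apply hχ (ratV_em p)) (ratF_apply hχ hx'))
      (ratF_apply hξ hx')) (mul_mem (hrat _ _ (ratV_em p) (ratV_em e)) (ratF_apply hξ (ratV_em e)))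
  have hM : ∀ (v : ι → F₀) (c : F₀), Symp.T hf (em v) (c : F) ∈ M := fun v c => by
    refine hHM ⟨Subfld.mem_of_rat fun z hz i => ?_, Symp.T_mem_isom hf _ _⟩
    have hz' : RatV F₀ z := fun j => by simpa using hz j
    simpa [Symp.ap_T hf] using
      add_mem (hz' i) (mul_mem (mul_mem c.2 (hrat _ _ hz' (ratV_em v))) (ratV_em v i))
  by_cases htop : lam hf hM = ⊤
  · exact Or.inr (le_antisymm hMS (isom_le_of_rat_centres hf ⟨μ, hμ0, hμ1⟩ hrat
      (fun v c => (htop ▸ Submodule.mem_top : c ∈ lam hf hM) v) hMS))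
  left
  have hΛ := lam_cases hf hrat hMS hM hr hcard htop
  refine le_antisymm (le_inf (fun g hg => mem_of_lineRat fun x hx => ?_) hMS) hHM
  set x₀ : ι → F₀ := fun i => ⟨x i, hx i⟩
  have hx₀ : em x₀ = x := rfl
  have hc := mul_mem (mul_mem hg (show Symp.T hf x 1 ∈ M by simpa [hx₀] using hM x₀ 1)) (inv_mem hg)
  rw [Symp.conj_T hf (hMS hg)] at hc
  obtain ⟨c, y, hy⟩ := SSubfld.centre_lineRat hf hrat hMS hM hΛ hn hr hcard hc
  exact ⟨c, em y, ratV_em y, hy⟩

/-- Pulling a form back along an invertible matrix conjugates its isometry group. -/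
lemma map_conj_isom (f : (ι → F) → (ι → F) → F) {ζ : F} (hζ : ζ ≠ 0) (P : GL ι F) :
    (isom (fun u v => ζ * f (ap P u) (ap P v))).map (MulAut.conj P).toMonoidHom = isom f := by
  ext g
  rw [Subgroup.mem_map_equiv, MulAut.conj_symm_apply, mem_isom_iff, mem_isom_iff]
  constructor
  · intro h u v
    have := mul_left_cancel₀ hζ (h (ap P⁻¹ u) (ap P⁻¹ v))
    simpa [ap_mul, ap_ap_inv] using this
  · intro h u v
    simp [ap_mul, ap_ap_inv, h]

/-- The subfield group of any rational structure of a symplectic form is maximal. -/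
theorem sympSubfield_isMaximalIn' [Finite F] (hn : 4 ≤ Fintype.card ι)
    {f : (ι → F) → (ι → F) → F} (hf : Cfsg.Geo.IsSymplecticForm f) {F₀ : Subfield F} {P : GL ι F}
    {ζ : F} (hζ : ζ ≠ 0) (hP : Cfsg.Geo.IsFormRationalStructure f F₀ ζ P) {r : ℕ} (hr : r.Prime)
    (hcard : Nat.card F = Nat.card F₀ ^ r) :
    Cfsg.Geo.IsMaximalIn (isom f) (Cfsg.Geo.subfieldSubgroup F₀ P ⊓ isom f) := by
  set f₁ : (ι → F) → (ι → F) → F := fun u v => ζ * f (ap P u) (ap P v)
  have hf₁ : Cfsg.Geo.IsSymplecticForm f₁ := by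
    refine ⟨⟨fun x y v => ?_, fun c x v => ?_, fun v x y => ?_, fun c v x => ?_⟩,
      fun u v => ?_, fun v => ?_, fun v hv => ?_⟩
    · simp only [f₁, ap_add, hf.bilinear.add_left, mul_add]
    · simp only [f₁, ap_smul, hf.bilinear.smul_left]; ring
    · simp only [f₁, ap_add, hf.bilinear.add_right, mul_add]
    · simp only [f₁, ap_smul, hf.bilinear.smul_right]; ring
    · simp only [f₁]; rw [hf.skew]; ring
    · simp [f₁, hf.alternating]
    · obtain ⟨⟨z, hz⟩, ⟨y, hy⟩⟩ := hf.nondegenerate _ (ap_ne_zero P hv)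
      exact ⟨⟨ap P⁻¹ z, by simp [f₁, ap_ap_inv, hζ, hz]⟩, ⟨ap P⁻¹ y, by simp [f₁, ap_ap_inv, hζ, hy]⟩⟩
  have := isMaximalIn_map_equiv (sympSubfield_isMaximalIn hn hf₁ (F₀ := F₀)
    (fun u v hu hv => hP u v hu hv) hr hcard) (MulAut.conj P)
  rw [Subgroup.map_inf _ _ _ (MulAut.conj P).injective, map_conj_isom f hζ P] at this
  convert this using 2
  rw [Cfsg.Geo.subfieldSubgroup, Cfsg.Geo.subfieldSubgroup, map_one (MulAut.conj (G := GL ι F)),
    Subgroup.map_map]
  rfl

end CfsgLib.Geometric
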