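import Cfsg.Agent.Lib.Geometric.SingularPair

/-!
Symplectic and unitary spaces: a subgroup properly containing the stabiliser of a pair of
complementary totally singular subspaces contains every transvection.
-/

namespace CfsgLib.Geometric

open Matrix

variable {ι : Type} [Fintype ι] [DecidableEq ι] {F : Type*} [Field F]

/-- A skew-hermitian (possibly alternating) pairing with two complementary totally singular
subspaces. -/
structure SkewPair (τ : F ≃+* F) (B : (ι → F) → (ι → F) → F)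
    (U U' : Submodule F (ι → F)) : Prop extends PairSpace τ B U U' where
  invol : ∀ a, τ (τ a) = a
  skew : ∀ v w, B v w = -τ (B w v)
  trace : ∀ t, τ t = t → ∃ c, c + τ c = t

namespace SkewPair

variable {τ : F ≃+* F} {B : (ι → F) → (ι → F) → F} {U U' : Submodule F (ι → F)}

/-- The functional `B(·, v)`. -/
def fl (hP : PairSpace τ B U U') (v : ι → F) : (ι → F) →ₗ[F] F where
  toFun x := B x v
  map_add' x y := hP.add_left x y v
  map_smul' c x := hP.smul_left c x v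

/-- The transvection `x ↦ x + c B(x,v) v`. -/
def tr (hP : PairSpace τ B U U') (v : ι → F) (c : F) (hv : B v v = 0) : GL ι F :=
  tv v (c • fl hP v) (by simp [fl, hv])

lemma ap_tr (hP : PairSpace τ B U U') {v : ι → F} {c : F} (hv : B v v = 0) (x : ι → F) :
    ap (tr hP v c hv) x = x + (c * B x v) • v := by
  rw [tr, ap_tv]
  rfl

variable (hS : SkewPair τ B U U') {G : Subgroup (GL ι F)}
  (hGB : ∀ g ∈ G, ∀ x y, B (ap g x) (ap g y) = B x y)
  (hT : ∀ v c (hv : B v v = 0), τ c = c → tr hS.toPairSpace v c hv ∈ G)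

omit [Fintype ι] [DecidableEq ι] in
include hS in
lemma skew_one {x y : ι → F} (h : B x y = 1) : B y x = -1 := by
  rw [hS.skew, h, map_one]

include hS hGB hT

omit hGB in
/-- The root element of two orthogonal isotropic vectors. -/
lemma exists_root {a b : ι → F} (ha : B a a = 0) (hb : B b b = 0) (hab : B a b = 0) :
    ∃ h ∈ G, ∀ x, ap h x = x + B x a • b + B x b • a := by
  have hP := hS.toPairSpace
  have hba : B b a = 0 := (hP.eq_zero_comm _ _).1 hab
  have hsum : B (a + b) (a + b) = 0 := by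
    rw [hP.add_left, hP.add_right, hP.add_right, ha, hb, hab, hba]; simp
  refine ⟨tr hP (a + b) 1 hsum * tr hP a (-1) ha * tr hP b (-1) hb,
    mul_mem (mul_mem (hT _ _ _ (map_one τ)) (hT _ _ _ (by rw [map_neg, map_one])))
      (hT _ _ _ (by rw [map_neg, map_one])), fun x => ?_⟩
  simp only [ap_mul, ap_tr, hP.add_left, hP.smul_left, hP.add_right, ha, hb, hab, hba]
  module

omit hGB in
/-- An element of `G` exchanging `U` and `U'`. -/
lemma exists_swap : ∃ sw ∈ G, MapsIn sw U U' ∧ MapsIn sw U' U := by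
  classical
  have hP := hS.toPairSpace
  set b := Module.finBasis F U
  have hdual : ∀ i, ∃ f ∈ U', B (b i : ι → F) f = 1 ∧
      ∀ j, j ≠ i → B (b j : ι → F) f = 0 := by
    intro i
    obtain ⟨f, hf, hf0, hf1⟩ := hP.sep' (S := (Submodule.span F (b '' {j | j ≠ i})).map U.subtype)
      (fun x hx => by obtain ⟨y, -, rfl⟩ := hx; exact y.2) (b i).2 (by
        rintro ⟨y, hy, hyx⟩
        obtain rfl : y = b i := Subtype.ext hyx
        exact b.linearIndependent.notMem_span_image (by simp) hy)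
    exact ⟨f, hf, hf1, fun j hj => hf0 _ ⟨b j, Submodule.subset_span ⟨j, hj, rfl⟩, rfl⟩⟩
  choose f hfU hf1 hf0 using hdual
  set e : Fin (Module.finrank F U) → ι → F := fun i => (b i : ι → F) with he
  have hee : ∀ i j, B (e i) (e j) = 0 := fun i j => hP.sing _ (b i).2 _ (b j).2
  have hff : ∀ i j, B (f i) (f j) = 0 := fun i j => hP.sing' _ (hfU i) _ (hfU j)
  have hef : ∀ i j, i ≠ j → B (e i) (f j) = 0 := fun i j h => hf0 j i h
  have hfe : ∀ i j, i ≠ j → B (f i) (e j) = 0 := fun i j h =>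
    (hP.eq_zero_comm _ _).1 (hf0 i j (Ne.symm h))
  have hfe1 : ∀ i, B (f i) (e i) = -1 := fun i => skew_one hS (hf1 i)
  have hef1 : ∀ i, B (e i) (f i) = 1 := hf1
  have hw : ∀ i, ∃ w ∈ G, ap w (e i) = f i ∧ ap w (f i) = -e i ∧
      ∀ j, j ≠ i → ap w (e j) = e j ∧ ap w (f j) = f j := by
    intro i
    refine ⟨tr hP (e i) 1 (hee i i) * tr hP (f i) 1 (hff i i) * tr hP (e i) 1 (hee i i),
      mul_mem (mul_mem (hT _ _ _ (map_one τ)) (hT _ _ _ (map_one τ))) (hT _ _ _ (map_one τ)),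
      ?_, ?_, fun j hj => ⟨?_, ?_⟩⟩
    · simp only [ap_mul, ap_tr, hP.add_left, hP.smul_left, hee, hef1, hfe1]; module
    · simp only [ap_mul, ap_tr, hP.add_left, hP.smul_left, hee, hff, hef1, hfe1]; module
    · simp only [ap_mul, ap_tr, hP.add_left, hP.smul_left, hee, hef j i hj]; module
    · simp only [ap_mul, ap_tr, hP.add_left, hP.smul_left, hff, hfe j i hj]; module
  have hall : ∀ s : Finset (Fin (Module.finrank F U)), ∃ w ∈ G,
      (∀ i ∈ s, ap w (e i) = f i ∧ ap w (f i) = -e i) ∧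
        ∀ i ∉ s, ap w (e i) = e i ∧ ap w (f i) = f i := by
    intro s
    induction s using Finset.induction with
    | empty => exact ⟨1, one_mem _, by simp, fun i _ => ⟨ap_one _, ap_one _⟩⟩
    | insert i s his ih =>
      obtain ⟨w, hwG, h1, h2⟩ := ih
      obtain ⟨v, hvG, hve, hvf, hv⟩ := hw i
      refine ⟨v * w, mul_mem hvG hwG, fun j hj => ?_, fun j hj => ?_⟩
      · rcases Finset.mem_insert.1 hj with rfl | hj
        · simp only [ap_mul, (h2 _ his).1, (h2 _ his).2, hve, hvf]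
          trivial
        · have hji : j ≠ i := fun h => his (h ▸ hj)
          simp only [ap_mul, (h1 j hj).1, (h1 j hj).2, (hv j hji).2, true_and]
          rw [← neg_one_smul F (e j), ap_smul, (hv j hji).1]
      · simp only [Finset.mem_insert, not_or] at hj
        simp only [ap_mul, (h2 j hj.2).1, (h2 j hj.2).2, (hv j hj.1).1, (hv j hj.1).2]
        trivial
  obtain ⟨w, hwG, hw1, -⟩ := hall Finset.univ
  have hmap : ∀ (x : ι → F) (V : Submodule F (ι → F)) (s : Set (ι → F)),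
      x ∈ Submodule.span F s → (∀ y ∈ s, ap w y ∈ V) → ap w x ∈ V := fun x V s hx h =>
    (Submodule.span_le (p := V.comap (apEquiv w).toLinearMap)).2 h hx
  refine ⟨w, hwG, fun x hx => ?_, fun x hx => ?_⟩
  · refine hmap x U' (Set.range e) ?_ ?_
    · have h := b.mem_span ⟨x, hx⟩
      have h' := Submodule.mem_map_of_mem (f := U.subtype) h
      rw [Submodule.map_span, ← Set.range_comp] at h'
      exact h'
    · rintro _ ⟨i, rfl⟩
      rw [(hw1 i (Finset.mem_univ i)).1]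
      exact hfU i
  · refine hmap x U (Set.range f) ?_ ?_
    · have hli : LinearIndependent F f := by
        rw [Fintype.linearIndependent_iff]
        intro c hc i
        have h : fl hP (e i) (∑ j, c j • f j) = 0 := by rw [hc, map_zero]
        rw [map_sum, Finset.sum_eq_single i (fun j _ hj => ?_) (by simp)] at h
        · simpa [fl, hP.smul_left, hfe1] using h
        · simp [fl, hP.smul_left, hfe j i hj]
      have hle : Submodule.span F (Set.range f) ≤ U' :=
        Submodule.span_le.2 (by rintro _ ⟨i, rfl⟩; exact hfU i)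
      have := Submodule.eq_of_le_of_finrank_le hle (by
        rw [finrank_span_eq_card hli, Fintype.card_fin, hP.finrank_eq])
      rwa [this]
    · rintro _ ⟨i, rfl⟩
      rw [(hw1 i (Finset.mem_univ i)).2]
      exact U.neg_mem (b i).2

omit [DecidableEq ι] hGB hT in
include hS in
/-- Two independent functionals on `U'` given by vectors of `U` have kernels spanning `U'`. -/
lemma exists_split {x₁ x₂ : ι → F} (h₁ : x₁ ∈ U) (h₂ : x₂ ∈ U)
    (hind : x₂ ∉ Submodule.span F {x₁}) {a : ι → F} (ha : a ∈ U') :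
    ∃ p ∈ U', ∃ q ∈ U', B p x₁ = 0 ∧ B q x₂ = 0 ∧ a = p + q := by
  have hP := hS.toPairSpace
  obtain ⟨a₁, ha₁, h1, h2⟩ := hP.sep_one h₂ h₁ hind
  have h3 : B a₁ x₂ = -1 := skew_one hS h2
  refine ⟨(-B a x₂) • a₁, U'.smul_mem _ ha₁, a - (-B a x₂) • a₁,
    U'.sub_mem ha (U'.smul_mem _ ha₁), ?_, ?_, by abel⟩
  · rw [hP.smul_left, (hP.eq_zero_comm _ _).1 h1, mul_zero]
  · rw [hP.sub_left, hP.smul_left, h3]; ring

omit hGB hT in
/-- Some element of `M` fixes exactly one of `U` and `U'`, for a non-trivial involution. -/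
theorem exists_fix_one_conj (ht : ∃ t, τ t ≠ t)
    (hnorm : ∀ c, τ c = c → ∃ n, n * τ n = c) {M : Subgroup (GL ι F)}
    (hMB : ∀ g ∈ M, ∀ x y, B (ap g x) (ap g y) = B x y)
    (hs : ∀ a ∈ U', ∀ b ∈ U, B a b = 0 →
      ∃ h ∈ M, ∀ x, ap h x = x + B x a • b + B x b • a)
    {sw : GL ι F} (hsw : sw ∈ M) (hsw₁ : MapsIn sw U U') (hsw₂ : MapsIn sw U' U)
    {g : GL ι F} (hg : g ∈ M) (hg₁ : ¬ (MapsIn g U U ∧ MapsIn g U' U'))
    (hg₂ : ¬ (MapsIn g U U' ∧ MapsIn g U' U)) :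
    ∃ k ∈ M, MapsIn k U U ∧ ∃ x ∈ U', ap k x ∉ U' := by
  by_contra hcon
  push Not at hcon
  have hP := hS.toPairSpace
  obtain ⟨t, ht⟩ := ht
  have htt : τ t - t ≠ 0 := sub_ne_zero.mpr ht
  have hd := hP.finrank_eq
  have hdis : ∀ x ∈ U, x ∈ U' → x = 0 := Submodule.disjoint_def.mp hP.compl.disjoint
  have hno : ∀ k ∈ M, MapsIn k U U → MapsIn k U' U' := hcon
  have hno' : ∀ k ∈ M, MapsIn k U' U' → MapsIn k U U := by
    intro k hk h
    have h1 := hno _ (mul_mem (mul_mem hsw hk) (inv_mem hsw))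
      ((hsw₂.mul h).mul (hsw₂.inv hd.ge))
    have h2 := ((hsw₁.inv hd.le).mul h1).mul hsw₁
    intro x hx
    have := h2 x hx
    simpa [mul_assoc, ap_mul, ap_inv_ap] using this
  have hconj : ∀ k ∈ M, ∀ a ∈ U', ∀ b ∈ U, B a b = 0 → ∃ h ∈ M, ∀ x,
      ap h x = x + B x (ap k a) • ap k b + B x (ap k b) • ap k a := by
    intro k hk a ha b hb hab
    obtain ⟨h, hh, hap⟩ := hs a ha b hb hab
    refine ⟨k * h * k⁻¹, mul_mem (mul_mem hk hh) (inv_mem hk), fun x => ?_⟩
    obtain ⟨y, rfl⟩ : ∃ y, x = ap k y := ⟨ap k⁻¹ x, (ap_ap_inv k x).symm⟩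
    rw [ap_mul, ap_mul, ap_inv_ap, hap, hMB k hk, hMB k hk, ap_add, ap_add, ap_smul, ap_smul]
  have hgU : ¬ MapsIn g U U := fun h => hg₁ ⟨h, hno g hg h⟩
  have hgU' : ¬ MapsIn g U U' := fun h => by
    refine hg₂ ⟨h, ?_⟩
    have h1 := hno _ (mul_mem hsw hg) (hsw₂.mul h)
    intro x hx
    have := (hsw₁.inv hd.le).mul h1 x hx
    simpa [mul_assoc, ap_mul, ap_inv_ap] using this
  have hperpU' : ∀ p ∈ U, (∀ z ∈ U', B p z = 0) → p = 0 := by
    intro p hp h
    by_contra hp0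
    obtain ⟨z, hz, -, h1⟩ := hP.sep' (S := ⊥) bot_le hp (by simpa using hp0)
    exact one_ne_zero (h1.symm.trans (h z hz))
  -- `m x ∈ U` restricts `m` on the vectors of `U'` orthogonal to `x`
  have c1 : ∀ m ∈ M, ∀ x ∈ U, x ≠ 0 → ap m x ∈ U → ∀ a ∈ U', B a x = 0 → ap m a ∈ U' := by
    intro m hm x hx hx0 hmx a ha hax
    obtain ⟨p, hp, p', hp', hpe⟩ := hP.decomp (ap m a)
    set c := ap m x with hc
    have key : ∀ (s : F) (y : ι → F), y ∈ U' →
        B y (s • ap m a) • c + B y c • (s • p) = 0 := by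
      intro s y hy
      obtain ⟨h, hh, hap⟩ := hconj m hm (s • a) (U'.smul_mem s ha) x hx
        (by rw [hP.smul_left, hax, mul_zero])
      simp only [ap_smul, ← hc] at hap
      have hU : MapsIn h U U := fun z hz => by
        rw [hap, hP.sing z hz c hmx, zero_smul, add_zero]
        exact U.add_mem hz (U.smul_mem _ hmx)
      have h1 := hno h hh hU y hy
      rw [hap] at h1
      refine hdis _ (U.add_mem (U.smul_mem _ hmx) (U.smul_mem _ (U.smul_mem _ hp))) ?_
      have h2 := U'.sub_mem (U'.sub_mem h1 hy) (U'.smul_mem (B y c * s) hp')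
      convert h2 using 1
      rw [hpe]; module
    have hc0 : c ≠ 0 := fun h => hx0 (by
      rw [← ap_inv_ap m x, ← hc, h, ap_zero])
    have hy : ∀ y ∈ U', B y (ap m a) = 0 := by
      intro y hy
      have h1 := key 1 y hy
      have h2 := key t y hy
      rw [one_smul, one_smul] at h1
      rw [hP.smul_right] at h2
      have h3 : ((τ t - t) * B y (ap m a)) • c = 0 := by
        linear_combination (norm := module) h2 - t • h1
      exact (mul_eq_zero.1 ((smul_eq_zero.1 h3).resolve_right hc0)).resolve_left htt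
    obtain ⟨y, hy', -, hcy⟩ := hP.sep' (S := ⊥) bot_le hmx (by simpa using hc0)
    have h1 := key 1 y hy'
    rw [one_smul, one_smul, hy y hy', zero_smul, zero_add] at h1
    have hp0 : p = 0 := (smul_eq_zero.1 h1).resolve_left fun h =>
      one_ne_zero (hcy.symm.trans ((hP.eq_zero_comm _ _).1 h))
    rw [hpe, hp0, zero_add]; exact hp'
  have c2 : ∀ x ∈ U, x ≠ 0 → ap g x ∈ U' → ∀ a ∈ U', B a x = 0 → ap g a ∈ U := by
    intro x hx hx0 hgx a ha hax
    have h1 := c1 _ (mul_mem hsw hg) x hx hx0 (by rw [ap_mul]; exact hsw₂ _ hgx) a ha hax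
    have h2 := (hsw₁.inv hd.le) _ h1
    rwa [ap_mul, ap_inv_ap] at h2
  have only₁ : ∀ x₁ ∈ U, ∀ x₂ ∈ U, ap g x₁ ∈ U → ap g x₂ ∈ U → x₁ ≠ 0 →
      x₂ ∈ Submodule.span F {x₁} := by
    intro x₁ h₁ x₂ h₂ hg₁' hg₂' h0
    by_contra hind
    refine hgU (hno' g hg fun a ha => ?_)
    obtain ⟨p, hp, q, hq, e₁, e₂, rfl⟩ := exists_split hS h₁ h₂ hind ha
    rw [ap_add]
    exact U'.add_mem (c1 g hg x₁ h₁ h0 hg₁' p hp e₁)
      (c1 g hg x₂ h₂ (fun h => hind (h ▸ zero_mem _)) hg₂' q hq e₂)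
  have only₂ : ∀ x₁ ∈ U, ∀ x₂ ∈ U, ap g x₁ ∈ U' → ap g x₂ ∈ U' → x₁ ≠ 0 →
      x₂ ∈ Submodule.span F {x₁} := by
    intro x₁ h₁ x₂ h₂ hg₁' hg₂' h0
    by_contra hind
    have hmap : MapsIn g U' U := fun a ha => by
      obtain ⟨p, hp, q, hq, e₁, e₂, rfl⟩ := exists_split hS h₁ h₂ hind ha
      rw [ap_add]
      exact U.add_mem (c2 x₁ h₁ h0 hg₁' p hp e₁)
        (c2 x₂ h₂ (fun h => hind (h ▸ zero_mem _)) hg₂' q hq e₂)
    have h1 := hno' _ (mul_mem hsw hg) (hsw₁.mul hmap)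
    refine hgU' fun x hx => ?_
    have := (hsw₂.inv hd.ge) _ (h1 x hx)
    rwa [ap_mul, ap_inv_ap] at this
  have notboth : ∀ x₁ ∈ U, ∀ x₂ ∈ U, x₁ ≠ 0 → x₂ ≠ 0 → ap g x₁ ∈ U → ap g x₂ ∈ U' → False := by
    intro x₁ h₁ x₂ h₂ h10 h20 hg₁' hg₂'
    obtain ⟨b₁, hb₁, e₁, n₁⟩ := hP.symm'.exists_perp x₁ 0
    obtain ⟨b₂, hb₂, e₂, n₂⟩ := hP.symm'.exists_perp x₁ b₁
    obtain ⟨a, ha, ha0, hax₁, hax₂⟩ : ∃ a ∈ U', a ≠ 0 ∧ B a x₁ = 0 ∧ B a x₂ = 0 := by
      by_cases hz : B b₁ x₂ = 0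
      · exact ⟨b₁, hb₁, fun h => n₁ (by rw [h]; exact zero_mem _), e₁, hz⟩
      refine ⟨b₂ - (B b₂ x₂ / B b₁ x₂) • b₁, U'.sub_mem hb₂ (U'.smul_mem _ hb₁), fun h => ?_,
        ?_, ?_⟩
      · exact n₂ (by rw [sub_eq_zero.1 h]; exact Submodule.smul_mem _ _ (Submodule.mem_span_singleton_self _))
      · rw [hP.sub_left, hP.smul_left, e₁, e₂]; ring
      · rw [hP.sub_left, hP.smul_left, div_mul_cancel₀ _ hz, sub_self]
    have h := hdis _ (c2 x₂ h₂ h20 hg₂' a ha hax₂) (c1 g hg x₁ h₁ h10 hg₁' a ha hax₁)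
    exact ha0 (by rw [← ap_inv_ap g a, h, ap_zero])
  -- the exceptional vectors lie on a line
  obtain ⟨r, hr⟩ : ∃ r : ι → F, ∀ x ∈ U, ap g x ∈ U ∨ ap g x ∈ U' →
      x ∈ Submodule.span F {r} := by
    by_cases hex : ∃ x ∈ U, x ≠ 0 ∧ (ap g x ∈ U ∨ ap g x ∈ U')
    · obtain ⟨r, hrU, hr0, hrg⟩ := hex
      refine ⟨r, fun x hx hxg => ?_⟩
      by_cases hx0 : x = 0
      · rw [hx0]; exact zero_mem _
      rcases hrg with h1 | h1 <;> rcases hxg with h2 | h2
      · exact only₁ r hrU x hx h1 h2 hr0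
      · exact (notboth r hrU x hx hr0 hx0 h1 h2).elim
      · exact (notboth x hx r hrU hx0 hr0 h2 h1).elim
      · exact only₂ r hrU x hx h1 h2 hr0
    · refine ⟨0, fun x hx hxg => ?_⟩
      push Not at hex
      by_cases hx0 : x = 0
      · rw [hx0]; exact zero_mem _
      · exact absurd hxg (by simpa using hex x hx hx0)
  choose π hπ π' hπ' hdec using fun x => hP.decomp (ap g x)
  have hadd : ∀ x y, π (x + y) = π x + π y ∧ π' (x + y) = π' x + π' y := fun x y =>
    hP.unique (hπ _) (hπ' _) (U.add_mem (hπ x) (hπ y)) (U'.add_mem (hπ' x) (hπ' y))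
      (by rw [← hdec, ap_add, hdec x, hdec y]; abel)
  have hsmul : ∀ (c : F) x, π (c • x) = c • π x ∧ π' (c • x) = c • π' x := fun c x =>
    hP.unique (hπ _) (hπ' _) (U.smul_mem c (hπ x)) (U'.smul_mem c (hπ' x))
      (by rw [← hdec, ap_smul, hdec x, smul_add])
  let S : (ι → F) → (ι → F) → F := fun x y => B (π' x) (π y)
  have hherm : ∀ x ∈ U, ∀ y ∈ U, τ (S y x) = S x y := by
    intro x hx y hy
    have h := hMB g hg x y
    rw [hdec, hdec, hP.sing x hx y hy, hP.add_left, hP.add_right, hP.add_right,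
      hP.sing _ (hπ x) _ (hπ y), hP.sing' _ (hπ' x) _ (hπ' y)] at h
    linear_combination hS.skew (π x) (π' y) - h
  have hSl : ∀ (c : F) x y z, S (c • x + y) z = c * S x z + S y z := fun c x y z => by
    simp only [S]; rw [(hadd _ _).2, (hsmul _ _).2, hP.add_left, hP.smul_left]
  have hSr : ∀ (c : F) x y z, S z (c • x + y) = τ c * S z x + S z y := fun c x y z => by
    simp only [S]; rw [(hadd _ _).1, (hsmul _ _).1, hP.add_right, hP.smul_right]
  -- a vector with orthogonal non-zero parts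
  obtain ⟨x, hx, hxr, hxx⟩ : ∃ x ∈ U, x ∉ Submodule.span F {r} ∧ S x x = 0 := by
    obtain ⟨x₁, hx₁, -, hx₁r⟩ := hP.exists_perp 0 r
    by_cases h11 : S x₁ x₁ = 0
    · exact ⟨x₁, hx₁, hx₁r, h11⟩
    obtain ⟨x₂, hx₂, h21, hx₂r⟩ : ∃ x ∈ U, S x x₁ = 0 ∧ x ∉ Submodule.span F {r} := by
      obtain ⟨b, hb, hbz, hbr⟩ := hP.exists_perp (ap g⁻¹ (π x₁)) r
      refine ⟨b, hb, ?_, hbr⟩
      rw [← hMB g hg, ap_ap_inv, hdec, hP.add_left, hP.sing _ (hπ b) _ (hπ x₁), zero_add] at hbz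
      exact hbz
    by_cases h22 : S x₂ x₂ = 0
    · exact ⟨x₂, hx₂, hx₂r, h22⟩
    have h12 : S x₁ x₂ = 0 := by rw [← hherm x₁ hx₁ x₂ hx₂, h21, map_zero]
    obtain ⟨ν, hν⟩ := hnorm (-S x₂ x₂ / S x₁ x₁) (by
      rw [map_div₀, map_neg, hherm x₁ hx₁ x₁ hx₁, hherm x₂ hx₂ x₂ hx₂])
    have hν' : ν * τ ν * S x₁ x₁ = -S x₂ x₂ := by rw [hν, div_mul_cancel₀ _ h11]
    have hiso : ∀ ω, ω * τ ω = 1 → S ((ω * ν) • x₁ + x₂) ((ω * ν) • x₁ + x₂) = 0 := by
      intro ω hω
      rw [hSl, hSr, hSr, h12, h21, map_mul]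
      linear_combination hν' + (ν * τ ν * S x₁ x₁) * hω
    have hν0 : ν ≠ 0 := fun h => h22 (by rw [h, zero_mul, zero_mul] at hν'; linear_combination hν')
    have ht0 : t ≠ 0 := fun h => ht (by rw [h, map_zero])
    have hτt0 : τ t ≠ 0 := by simpa using ht0
    set ω := t / τ t with hωdef
    have hω : ω * τ ω = 1 := by rw [hωdef, map_div₀, hS.invol]; field_simp
    have hω1 : ω ≠ 1 := fun h => ht (div_eq_one_iff_eq hτt0 |>.1 h).symm
    by_contra hc
    push Not at hc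
    have e₁ : (1 * ν) • x₁ + x₂ ∈ Submodule.span F {r} := by
      by_contra he
      exact hc _ (U.add_mem (U.smul_mem _ hx₁) hx₂) he (hiso 1 (by simp))
    have e₂ : (ω * ν) • x₁ + x₂ ∈ Submodule.span F {r} := by
      by_contra he
      exact hc _ (U.add_mem (U.smul_mem _ hx₁) hx₂) he (hiso ω hω)
    have e₃ := Submodule.smul_mem _ ((ω - 1) * ν)⁻¹ (sub_mem e₂ e₁)
    rw [add_sub_add_right_eq_sub, ← sub_smul, ← sub_mul, smul_smul,
      inv_mul_cancel₀ (mul_ne_zero (sub_ne_zero.2 hω1) hν0), one_smul] at e₃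
    exact hx₁r e₃
  have hx0 : x ≠ 0 := fun h => hxr (h ▸ zero_mem _)
  set b := π x
  set a := π' x
  have hab : B a b = 0 := hxx
  have ha : a ∈ U' := hπ' x
  have hb : b ∈ U := hπ x
  have hgx : ap g x = b + a := hdec x
  have ha0 : a ≠ 0 := fun h => hxr (hr x hx (Or.inl (by rw [hgx, h, add_zero]; exact hb)))
  have hb0 : b ≠ 0 := fun h => hxr (hr x hx (Or.inr (by rw [hgx, h, zero_add]; exact ha)))
  -- an element fixing a hyperplane of `U` pointwise fixes `U`
  have main : ∀ k ∈ M, ∀ z, (∀ y ∈ U, B y z = 0 → ap k y = y) → MapsIn k U U := by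
    intro k hk z hfix
    refine hno' k hk fun a' ha' => ?_
    choose κ hκ A hA hkA using fun y => hP.decomp (ap k y)
    have hline : ∀ a' ∈ U', B (κ a') a' = 0 := by
      intro a' ha'
      obtain ⟨b₁, hb₁, e₁, n₁⟩ := hP.exists_perp z 0
      obtain ⟨b₂, hb₂, e₂, n₂⟩ := hP.exists_perp z b₁
      obtain ⟨b', hb', hb'0, hbz, hba'⟩ : ∃ b ∈ U, b ≠ 0 ∧ B b z = 0 ∧ B b a' = 0 := by
        by_cases hz : B b₁ a' = 0
        · exact ⟨b₁, hb₁, fun h => n₁ (by rw [h]; exact zero_mem _), e₁, hz⟩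
        refine ⟨b₂ - (B b₂ a' / B b₁ a') • b₁, U.sub_mem hb₂ (U.smul_mem _ hb₁), fun h => ?_,
          ?_, ?_⟩
        · exact n₂ (by rw [sub_eq_zero.1 h]; exact Submodule.smul_mem _ _ (Submodule.mem_span_singleton_self _))
        · rw [hP.sub_left, hP.smul_left, e₁, e₂]; ring
        · rw [hP.sub_left, hP.smul_left, div_mul_cancel₀ _ hz, sub_self]
      obtain ⟨h, hh, hap⟩ := hconj k hk a' ha' b' hb' ((hP.eq_zero_comm _ _).1 hba')
      rw [hfix b' hb' hbz] at hap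
      have hU : MapsIn h U U := fun y hy => by
        rw [hap, hP.sing y hy b' hb', zero_smul, add_zero]
        exact U.add_mem hy (U.smul_mem _ hb')
      obtain ⟨w, hw, -, hbw⟩ := hP.sep' (S := ⊥) bot_le hb' (by simpa using hb'0)
      have h1 := hno h hh hU w hw
      rw [hap] at h1
      nth_rw 2 [hkA a'] at h1
      have e0 := hdis _ (U.add_mem (U.smul_mem (B w (ap k a')) hb') (U.smul_mem (B w b') (hκ a')))
        (by
          have h2 := U'.sub_mem (U'.sub_mem h1 hw) (U'.smul_mem (B w b') (hA a'))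
          convert h2 using 1
          module)
      have h3 := congrArg (fun v => B v a') e0
      simp only [hP.add_left, hP.smul_left, hP.zero_left, hba', mul_zero, zero_add] at h3
      rw [skew_one hS hbw] at h3
      linear_combination -h3
    have hκadd : ∀ p q, κ (p + q) = κ p + κ q := fun p q =>
      (hP.unique (hκ _) (hA _) (U.add_mem (hκ p) (hκ q)) (U'.add_mem (hA p) (hA q))
        (by rw [← hkA, ap_add, hkA p, hkA q]; abel)).1
    have hκsmul : ∀ (c : F) p, κ (c • p) = c • κ p := fun c p =>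
      (hP.unique (hκ _) (hA _) (U.smul_mem c (hκ p)) (U'.smul_mem c (hA p))
        (by rw [← hkA, ap_smul, hkA p, smul_add])).1
    have h0 : κ a' = 0 := by
      refine hperpU' _ (hκ a') fun w hw => ?_
      have h1 := hline _ (U'.add_mem ha' hw)
      have h2 := hline _ (U'.add_mem (U'.smul_mem t ha') hw)
      simp only [hκadd, hκsmul, hP.add_left, hP.add_right, hP.smul_left, hP.smul_right,
        hline a' ha', hline w hw, mul_zero, zero_add, add_zero] at h1 h2
      have h3 : (τ t - t) * B (κ a') w = 0 := by linear_combination τ t * h1 - h2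
      exact (mul_eq_zero.1 h3).resolve_left htt
    rw [hkA a', h0, zero_add]
    exact hA a'
  have himg : ∀ s : F, ∀ y ∈ U, ∃ y' ∈ U,
      ap g y' = B (ap g y) (s • a) • b + B (ap g y) b • (s • a) := by
    intro s y hy
    obtain ⟨h, hh, hap⟩ := hs (s • a) (U'.smul_mem s ha) b hb (by rw [hP.smul_left, hab, mul_zero])
    have hsum : ∀ z ∈ U, B (ap g z) b + B (ap g z) a = 0 := fun z hz => by
      rw [← hP.add_right, ← hgx, hMB g hg]; exact hP.sing z hz x hx
    have hm := main _ (mul_mem (mul_mem (inv_mem hg) hh) hg) (ap g⁻¹ a) fun z hz hza => by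
      rw [← hMB g hg, ap_ap_inv] at hza
      have hzb : B (ap g z) b = 0 := by linear_combination hsum z hz - hza
      rw [ap_mul, ap_mul, hap, hP.smul_right, hza, hzb]
      simp [ap_inv_ap]
    refine ⟨ap (g⁻¹ * h * g) y - y, U.sub_mem (hm y hy) hy, ?_⟩
    rw [ap_sub, ap_mul, ap_mul, ap_ap_inv, hap]
    abel
  -- the witness
  by_cases hall : ∀ y ∈ U, B (ap g y) a = 0
  · obtain ⟨p, hp, p', hp', hpe⟩ := hP.decomp (ap g⁻¹ a)
    have hp'0 : p' = 0 := by
      by_contra hne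
      obtain ⟨z, hz, -, h1⟩ := hP.symm'.sep' (S := ⊥) bot_le hp' (by simpa using hne)
      have h2 := hall z hz
      rw [← ap_ap_inv g a, hMB g hg, hpe, hP.add_right, hP.sing z hz p hp, zero_add] at h2
      exact one_ne_zero (h1.symm.trans ((hP.eq_zero_comm _ _).1 h2))
    have hgp : ap g p = a := by rw [← ap_ap_inv g a, hpe, hp'0, add_zero]
    have hp0 : p ≠ 0 := fun h => ha0 (by rw [← hgp, h, ap_zero])
    exact notboth (x - p) (U.sub_mem hx hp) p hp
      (fun h => hb0 (by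
        rw [sub_eq_zero] at h
        rw [h, hgp] at hgx
        simpa using hgx))
      hp0 (by rw [ap_sub, hgx, hgp, add_sub_cancel_right]; exact hb) (by rw [hgp]; exact ha)
  push Not at hall
  obtain ⟨y, hy, hβ⟩ := hall
  obtain ⟨y₁, hy₁, e₁⟩ := himg 1 y hy
  obtain ⟨y₂, hy₂, e₂⟩ := himg t y hy
  have hyb : B (ap g y) b = -B (ap g y) a := by
    rw [eq_neg_iff_add_eq_zero, ← hP.add_right, ← hgx, hMB g hg]; exact hP.sing y hy x hx
  rw [one_smul, hyb] at e₁
  rw [hP.smul_right, hyb] at e₂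
  have eb : ap g (y₂ - t • y₁) = ((τ t - t) * B (ap g y) a) • b := by
    rw [ap_sub, ap_smul, e₁, e₂]; module
  have ea : ap g (y₂ - τ t • y₁) = ((τ t - t) * B (ap g y) a) • a := by
    rw [ap_sub, ap_smul, e₁, e₂]; module
  have hne : (τ t - t) * B (ap g y) a ≠ 0 := mul_ne_zero htt hβ
  exact notboth _ (U.sub_mem hy₂ (U.smul_mem _ hy₁)) _ (U.sub_mem hy₂ (U.smul_mem _ hy₁))
    (fun h => smul_ne_zero hne hb0 (by rw [← eb, h, ap_zero]))
    (fun h => smul_ne_zero hne ha0 (by rw [← ea, h, ap_zero]))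
    (by rw [eb]; exact U.smul_mem _ hb) (by rw [ea]; exact U'.smul_mem _ ha)

/-- A group properly containing the stabiliser of the pair contains all transvections. -/
theorem tr_mem
    (hcase : 5 ≤ Module.finrank F U ∨
      (∃ t, τ t ≠ t) ∧ ∀ c, τ c = c → ∃ n, n * τ n = c)
    {M : Subgroup (GL ι F)} (hMG : M ≤ G)
    (hH : ∀ g ∈ G, (MapsIn g U U ∧ MapsIn g U' U') ∨ (MapsIn g U U' ∧ MapsIn g U' U) → g ∈ M)
    {g₀ : GL ι F} (hg₀ : g₀ ∈ M) (hg₁ : ¬ (MapsIn g₀ U U ∧ MapsIn g₀ U' U'))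
    (hg₂ : ¬ (MapsIn g₀ U U' ∧ MapsIn g₀ U' U)) (v : ι → F) (c : F) (hv : B v v = 0)
    (hc : τ c = c) : tr hS.toPairSpace v c hv ∈ M := by
  have hP := hS.toPairSpace
  have hMB : ∀ g ∈ M, ∀ x y, B (ap g x) (ap g y) = B x y := fun g hg => hGB g (hMG hg)
  have hroot : ∀ a ∈ U', ∀ b ∈ U, B a b = 0 →
      ∃ h ∈ M, ∀ x, ap h x = x + B x a • b + B x b • a := by
    intro a ha b hb hab
    obtain ⟨h, hh, hap⟩ := exists_root hS hT (hP.sing' a ha a ha) (hP.sing b hb b hb) hab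
    refine ⟨h, hH h hh (Or.inl ⟨fun x hx => ?_, fun x hx => ?_⟩), hap⟩
    · rw [hap, hP.sing x hx b hb, zero_smul, add_zero]
      exact U.add_mem hx (U.smul_mem _ hb)
    · rw [hap, hP.sing' x hx a ha, zero_smul, add_zero]
      exact U'.add_mem hx (U'.smul_mem _ ha)
  obtain ⟨sw, hswG, hsw₁, hsw₂⟩ := exists_swap hS hT
  have hswM : sw ∈ M := hH sw hswG (Or.inr ⟨hsw₁, hsw₂⟩)
  obtain ⟨k, hk, hkU, a, ha, hka⟩ : ∃ k ∈ M, MapsIn k U U ∧ ∃ x ∈ U', ap k x ∉ U' :=
    hcase.elim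
      (fun h5 => hP.exists_fix_one h5 one_ne_zero hMB
        (fun a ha b hb hab => by simpa using hroot a ha b hb hab) hswM hsw₁ hsw₂ hg₀ hg₁ hg₂)
      (fun h => exists_fix_one_conj hS h.1 h.2 hMB hroot hswM hsw₁ hsw₂ hg₀ hg₁ hg₂)
  obtain ⟨κ, hκ, A, hA, hkA⟩ := hP.decomp (ap k a)
  have hκ0 : κ ≠ 0 := fun h => hka (by rw [hkA, h, zero_add]; exact hA)
  set μ := B A κ with hμdef
  have hμ' : B κ A = -μ := by
    have h := hMB k hk a a
    rw [hkA, hP.sing' a ha a ha, hP.add_left, hP.add_right, hP.add_right, hP.sing _ hκ _ hκ,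
      hP.sing' _ hA _ hA] at h
    linear_combination h
  have hμ : τ μ = μ := by
    have h := hS.skew κ A
    rw [hμ'] at h
    exact (neg_inj.1 h).symm
  have hΨ : ∀ b ∈ U, B b A = 0 → ∃ h ∈ M, ∀ x,
      ap h x = x + B x κ • b + B x b • κ - (μ * B x b) • b := by
    intro b hb hbA
    set b₀ := ap k⁻¹ b with hb₀def
    have hb₀ : b₀ ∈ U := hkU.inv le_rfl b hb
    have hkb₀ : ap k b₀ = b := ap_ap_inv k b
    have hab₀ : B a b₀ = 0 := by
      rw [← hMB k hk, hkb₀, hkA, hP.add_left, hP.sing κ hκ b hb, zero_add]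
      exact (hP.eq_zero_comm _ _).1 hbA
    obtain ⟨h, hh, hap⟩ := hroot a ha b₀ hb₀ hab₀
    obtain ⟨q, hq, hqap⟩ := hroot A hA (-b) (U.neg_mem hb) (by
      rw [← neg_one_smul F b, hP.smul_right, (hP.eq_zero_comm _ _).1 hbA, mul_zero])
    refine ⟨k * h * k⁻¹ * q, mul_mem (mul_mem (mul_mem hk hh) (inv_mem hk)) hq, fun x => ?_⟩
    have e : ∀ y, ap (k * h * k⁻¹) y = y + B y (κ + A) • b + B y b • (κ + A) := by
      intro y
      obtain ⟨z, rfl⟩ : ∃ z, y = ap k z := ⟨ap k⁻¹ y, (ap_ap_inv k y).symm⟩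
      rw [ap_mul, ap_mul, ap_inv_ap, hap, ap_add, ap_add, ap_smul, ap_smul, hkb₀, hkA,
        ← hMB k hk z a, ← hMB k hk z b₀, hkb₀, hkA]
    rw [ap_mul, e, hqap]
    have hneg : ∀ y, B y (-b) = -B y b := fun y => by
      rw [← neg_one_smul F b, hP.smul_right, map_neg, map_one, neg_one_mul]
    have hnegl : ∀ y, B (-b) y = -B b y := fun y => by
      rw [← neg_one_smul F b, hP.smul_left, neg_one_mul]
    simp only [hneg, hP.add_left, hP.smul_left, hP.add_right, hnegl, hP.sing b hb κ hκ, hbA,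
      hP.sing' A hA A hA, hP.sing b hb b hb, (hP.eq_zero_comm _ _).1 hbA, ← hμdef]
    module
  let C : (ι → F) → Prop := fun w => ∀ c (hw : B w w = 0), τ c = c → tr hP w c hw ∈ M
  have hCmem : ∀ g ∈ M, ∀ w, B w w = 0 → C w → C (ap g w) := by
    intro g hg w hw hC c hgw hc
    have h := mul_mem (mul_mem hg (hC c hw hc)) (inv_mem hg)
    convert h using 1
    refine gl_ext fun x => ?_
    obtain ⟨y, rfl⟩ : ∃ y, x = ap g y := ⟨ap g⁻¹ x, (ap_ap_inv g x).symm⟩
    rw [ap_mul, ap_mul, ap_inv_ap, ap_tr, ap_tr, hMB g hg, ap_add, ap_smul]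
  have hCsmul : ∀ (d : F) w, B w w = 0 → C w → C (d • w) := by
    intro d w hw hC c hdw hc
    have h := hC (d * τ d * c) hw (by rw [map_mul, map_mul, hS.invol, hc]; ring)
    convert h using 1
    refine gl_ext fun x => ?_
    rw [ap_tr, ap_tr, hP.smul_right, smul_smul]
    congr 2
    ring
  -- one centre in `U`
  obtain ⟨p, hp, hp0, hCp⟩ : ∃ p ∈ U, p ≠ 0 ∧ C p := by
    by_cases hμ0 : μ = 0
    · refine ⟨κ, hκ, hκ0, fun c hκκ hc => ?_⟩
      obtain ⟨d, hd⟩ := hS.trace c hc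
      obtain ⟨h, hh, hap⟩ := hΨ (d • κ) (U.smul_mem d hκ)
        (by rw [hP.smul_left, hμ', hμ0, neg_zero, mul_zero])
      convert hh using 1
      refine gl_ext fun x => ?_
      rw [ap_tr, hap, hμ0, hP.smul_right, ← hd]
      module
    · obtain ⟨b, hb, hbA, hb0⟩ := hP.exists_perp A 0
      refine ⟨b, hb, fun h => hb0 (by rw [h]; exact zero_mem _), fun c hbb hc => ?_⟩
      obtain ⟨d, hd⟩ := hS.trace (c * μ⁻¹) (by rw [map_mul, map_inv₀, hc, hμ])
      obtain ⟨h₁, hh₁, hap₁⟩ := hΨ (d • b) (U.smul_mem d hb)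
        (by rw [hP.smul_left, hbA, mul_zero])
      obtain ⟨h₂, hh₂, hap₂⟩ := hΨ b hb hbA
      obtain ⟨h₃, hh₃, hap₃⟩ := hΨ ((d + 1) • b) (U.smul_mem _ hb)
        (by rw [hP.smul_left, hbA, mul_zero])
      have hmem := mul_mem (inv_mem hh₃) (mul_mem hh₁ hh₂)
      convert hmem using 1
      refine (eq_inv_mul_iff_mul_eq).2 (gl_ext fun x => ?_)
      have hc' : c = (d + τ d) * μ := by rw [hd, inv_mul_cancel_right₀ hμ0]
      simp only [ap_mul, ap_tr, hap₁, hap₂, hap₃, hP.smul_right, hP.add_left, hP.smul_left,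
        sub_eq_add_neg, hP.sing b hb κ hκ, hP.sing b hb b hb, hP.sing κ hκ κ hκ,
        hP.sing κ hκ b hb, map_add, map_one, ← neg_smul, hc']
      module
  -- all of `U`
  have hU : ∀ w ∈ U, C w := by
    intro w hw
    by_cases hwp : w ∈ Submodule.span F {p}
    · obtain ⟨d, rfl⟩ := Submodule.mem_span_singleton.1 hwp
      exact hCsmul d p (hP.sing p hp p hp) hCp
    obtain ⟨a, ha, hca, hpa⟩ := hP.sep_one hp (U.sub_mem hw hp) fun h => hwp (by
      obtain ⟨d, hd⟩ := Submodule.mem_span_singleton.1 h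
      by_cases hd0 : d = 0
      · exact absurd (by rw [← hd, hd0, zero_smul]) hp0
      · refine Submodule.mem_span_singleton.2 ⟨1 + d⁻¹, ?_⟩
        rw [add_smul, one_smul]
        conv_lhs => arg 2; rw [← hd, smul_smul, inv_mul_cancel₀ hd0, one_smul]
        abel)
    obtain ⟨h, hh, hap⟩ := hroot a ha (w - p) (U.sub_mem hw hp) ((hP.eq_zero_comm _ _).1 hca)
    have := hCmem h hh p (hP.sing p hp p hp) hCp
    rwa [hap, hpa, hP.sing p hp _ (U.sub_mem hw hp), one_smul, zero_smul, add_zero,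
      add_sub_cancel] at this
  have hU' : ∀ w ∈ U', C w := by
    intro w hw
    have h1 := hCmem sw hswM _ (hP.sing _ (hsw₁.inv hP.finrank_eq.le w hw) _
      (hsw₁.inv hP.finrank_eq.le w hw)) (hU _ (hsw₁.inv hP.finrank_eq.le w hw))
    rwa [ap_ap_inv] at h1
  -- all isotropic vectors
  obtain ⟨u, hu, w, hw, rfl⟩ := hP.decomp v
  have huu := hP.sing u hu u hu
  have hww := hP.sing' w hw w hw
  by_cases hu0 : u = 0
  · subst hu0
    exact hCsmul 1 w hww (hU' w hw) c (by rwa [one_smul, ← zero_add w]) hc |> fun h => by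
      convert h using 1
      exact gl_ext fun x => by simp [ap_tr]
  by_cases hw0 : w = 0
  · subst hw0
    exact hCsmul 1 u huu (hU u hu) c (by rwa [one_smul, ← add_zero u]) hc |> fun h => by
      convert h using 1
      exact gl_ext fun x => by simp [ap_tr]
  suffices h : C (u + w) from h c hv hc
  by_cases huw : B u w = 0
  · obtain ⟨u₁', hu₁', -, h1⟩ := hP.symm'.sep' (S := ⊥) bot_le hw (by simpa using hw0)
    set u₁ := -u₁' with hu₁def
    have hu₁ : u₁ ∈ U := U.neg_mem hu₁'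
    have h₁ : B u₁ w = 1 := by
      rw [hu₁def, ← neg_one_smul F u₁', hP.smul_left, skew_one hS h1]; ring
    have hC₁ : C (u₁ + w) := by
      have := hCmem _ (hU' w hw 1 hww (map_one τ)) u₁ (hP.sing _ hu₁ _ hu₁) (hU u₁ hu₁)
      rwa [ap_tr, h₁, one_mul, one_smul] at this
    have hiso : B (u₁ + w) (u₁ + w) = 0 := by
      rw [hP.add_left, hP.add_right, hP.add_right, hP.sing _ hu₁ _ hu₁, hww, h₁,
        skew_one hS h₁]
      ring
    set u₂ := u - u₁ with hu₂def
    have hu₂ : u₂ ∈ U := U.sub_mem hu hu₁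
    have h₂ : B w u₂ = 1 := by
      have e : B u₂ w = -1 := by rw [hu₂def, hP.sub_left, huw, h₁, zero_sub]
      rw [hS.skew, e, map_neg, map_one, neg_neg]
    have := hCmem _ (hU u₂ hu₂ 1 (hP.sing _ hu₂ _ hu₂) (map_one τ)) _ hiso hC₁
    rwa [ap_tr, hP.add_left, hP.sing _ hu₁ _ hu₂, h₂, zero_add, one_mul, one_smul, hu₂def,
      show u₁ + w + (u - u₁) = u + w by abel] at this
  · have hfix : τ (B u w)⁻¹ = (B u w)⁻¹ := by
      rw [map_inv₀]
      congr 1
      have h := hv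
      rw [hP.add_left, hP.add_right, hP.add_right, huu, hww, hS.skew w u] at h
      linear_combination -h
    have := hCmem _ (hU' w hw _ hww hfix) u huu (hU u hu)
    rwa [ap_tr, inv_mul_cancel₀ huw, one_smul] at this

omit hS hGB hT

/-- The stabiliser of the pair is maximal. -/
theorem isMaximalIn {k : ℕ} {D : Fin 2 → Submodule F (ι → F)}
    (hD : Cfsg.Geo.IsMDecomposition k D) (hS : SkewPair τ B (D 0) (D 1))
    (hcase : 5 ≤ Module.finrank F (D 0) ∨
      (∃ t, τ t ≠ t) ∧ ∀ c, τ c = c → ∃ n, n * τ n = c)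
    (hGB : ∀ g ∈ G, ∀ x y, B (ap g x) (ap g y) = B x y)
    (hT : ∀ v c (hv : B v v = 0), τ c = c → tr hS.toPairSpace v c hv ∈ G)
    (hgen : ∀ M : Subgroup (GL ι F),
      (∀ v c (hv : B v v = 0), τ c = c → tr hS.toPairSpace v c hv ∈ M) → G ≤ M) :
    Cfsg.Geo.IsMaximalIn G (Cfsg.Geo.decompositionStabilizer D ⊓ G) := by
  have hP := hS.toPairSpace
  refine ⟨lt_of_le_of_ne inf_le_right fun he => ?_, fun M hHM hMG => ?_⟩
  · obtain ⟨b, hb, hb0⟩ := Submodule.exists_mem_ne_zero_of_ne_bot (p := D 0) fun h => by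
      have := hP.three_le
      rw [h, finrank_bot] at this
      omega
    obtain ⟨a, ha, -, hba⟩ := hP.sep' (S := ⊥) bot_le hb (by simpa using hb0)
    have hbb := hP.sing b hb b hb
    have hm : tr hP b 1 hbb ∈ Cfsg.Geo.decompositionStabilizer D ⊓ G := by
      rw [he]; exact hT _ _ _ (map_one τ)
    have hab : B a b ≠ 0 := fun h => one_ne_zero (hba.symm.trans ((hP.eq_zero_comm _ _).1 h))
    rcases (mem_pairStab hD).1 hm.1 with ⟨-, h⟩ | ⟨h, -⟩
    · have h' := (D 1).sub_mem (h a ha) ha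
      rw [ap_tr, add_sub_cancel_left, one_mul] at h'
      have h'' := Submodule.disjoint_def.1 hP.compl.disjoint _ ((D 0).smul_mem _ hb) h'
      exact hb0 ((smul_eq_zero.1 h'').resolve_left hab)
    · have h' := h b hb
      rw [ap_tr, hbb, mul_zero, zero_smul, add_zero] at h'
      exact hb0 (Submodule.disjoint_def.1 hP.compl.disjoint _ hb h')
  by_cases hM : M ≤ Cfsg.Geo.decompositionStabilizer D
  · exact Or.inl (le_antisymm (le_inf hM hMG) hHM)
  refine Or.inr (le_antisymm hMG (hgen M ?_))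
  obtain ⟨g, hgM, hg⟩ := SetLike.not_le_iff_exists.mp hM
  rw [mem_pairStab hD, not_or] at hg
  exact tr_mem hS hGB hT hcase hMG
    (fun h hh hc => hHM ⟨(mem_pairStab hD).2 hc, hh⟩) hgM hg.1 hg.2

end SkewPair

end CfsgLib.Geometric
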