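import Cfsg.Agent.Lib.Geometric.SympStab

/-!
Orthogonal decompositions for a symplectic form: components, isometries between non-degenerate
subspaces, and swaps of two members.
-/

namespace CfsgLib.Geometric

open Matrix

variable {ι : Type} [Fintype ι] [DecidableEq ι] {F : Type*} [Field F]
variable {f : (ι → F) → (ι → F) → F} (hf : Cfsg.Geo.IsSymplecticForm f)
include hf

namespace Symp

lemma eq_of_sub_mem_perp {W : Submodule F (ι → F)} (hW : Cfsg.Geo.IsNondegenerateOn f W)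
    {z a b : ι → F} (ha : a ∈ W) (ha' : z - a ∈ perp hf W) (hb : b ∈ W)
    (hb' : z - b ∈ perp hf W) : a = b := by
  have h : a - b ∈ W ⊓ perp hf W := by
    refine ⟨W.sub_mem ha hb, ?_⟩
    have := (perp hf W).sub_mem hb' ha'
    simpa using this
  rwa [inf_perp_eq_bot hf hW, Submodule.mem_bot, sub_eq_zero] at h

omit hf in
/-- The orthogonal projection on a non-degenerate subspace. -/
noncomputable def pr (hf : Cfsg.Geo.IsSymplecticForm f) {W : Submodule F (ι → F)}
    (hW : Cfsg.Geo.IsNondegenerateOn f W) : (ι → F) →ₗ[F] (ι → F) where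
  toFun z := (exists_sub_mem_perp hf hW z).choose
  map_add' x y := eq_of_sub_mem_perp hf hW (z := x + y)
    (exists_sub_mem_perp hf hW _).choose_spec.1 (exists_sub_mem_perp hf hW _).choose_spec.2
    (W.add_mem (exists_sub_mem_perp hf hW x).choose_spec.1
      (exists_sub_mem_perp hf hW y).choose_spec.1)
    (by rw [add_sub_add_comm]
        exact (perp hf W).add_mem (exists_sub_mem_perp hf hW x).choose_spec.2
          (exists_sub_mem_perp hf hW y).choose_spec.2)
  map_smul' c x := eq_of_sub_mem_perp hf hW (z := c • x)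
    (exists_sub_mem_perp hf hW _).choose_spec.1 (exists_sub_mem_perp hf hW _).choose_spec.2
    (W.smul_mem c (exists_sub_mem_perp hf hW x).choose_spec.1)
    (by rw [RingHom.id_apply, ← smul_sub]
        exact (perp hf W).smul_mem c (exists_sub_mem_perp hf hW x).choose_spec.2)

variable {W : Submodule F (ι → F)} (hW : Cfsg.Geo.IsNondegenerateOn f W)
include hW

lemma pr_mem (z : ι → F) : pr hf hW z ∈ W := (exists_sub_mem_perp hf hW z).choose_spec.1

lemma sub_pr_mem_perp (z : ι → F) : z - pr hf hW z ∈ perp hf W :=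
  (exists_sub_mem_perp hf hW z).choose_spec.2

lemma pr_eq {z a : ι → F} (ha : a ∈ W) (ha' : z - a ∈ perp hf W) : pr hf hW z = a :=
  eq_of_sub_mem_perp hf hW (pr_mem hf hW z) (sub_pr_mem_perp hf hW z) ha ha'

lemma pr_of_mem {z : ι → F} (hz : z ∈ W) : pr hf hW z = z :=
  pr_eq hf hW hz (by rw [sub_self]; exact (perp hf W).zero_mem)

lemma pr_of_mem_perp {z : ι → F} (hz : z ∈ perp hf W) : pr hf hW z = 0 :=
  pr_eq hf hW W.zero_mem (by rwa [sub_zero])

lemma f_pr {u : ι → F} (hu : u ∈ W) (z : ι → F) : f u (pr hf hW z) = f u z := by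
  have := (eq_zero_comm hf).mp (sub_pr_mem_perp hf hW z u hu)
  rw [sub_right hf, sub_eq_zero] at this
  exact this.symm

omit hW

lemma exists_hyperbolic_in {U W : Submodule F (ι → F)} (hUn : Cfsg.Geo.IsNondegenerateOn f U)
    (hWn : Cfsg.Geo.IsNondegenerateOn f W) (hUW : U < W) :
    ∃ u v, u ∈ W ∧ v ∈ W ∧ u ∈ perp hf U ∧ v ∈ perp hf U ∧ f u v = 1 := by
  obtain ⟨w, hw, hwU⟩ := SetLike.exists_of_lt hUW
  set u := w - pr hf hUn w with hu
  have huU : u ∈ perp hf U := sub_pr_mem_perp hf hUn w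
  have huW : u ∈ W := W.sub_mem hw (hUW.le (pr_mem hf hUn w))
  have hu0 : u ≠ 0 := by
    intro h
    rw [hu, sub_eq_zero] at h
    exact hwU (h ▸ pr_mem hf hUn w)
  obtain ⟨v₀, hv₀, hne⟩ := (hWn u huW hu0).2
  refine ⟨u, (f u v₀)⁻¹ • (v₀ - pr hf hUn v₀), huW,
    W.smul_mem _ (W.sub_mem hv₀ (hUW.le (pr_mem hf hUn v₀))), huU,
    (perp hf U).smul_mem _ (sub_pr_mem_perp hf hUn v₀), ?_⟩
  rw [hf.bilinear.smul_right, sub_right hf, huU _ (pr_mem hf hUn v₀), sub_zero,
    inv_mul_cancel₀ hne]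

lemma nondegenerateOn_map {g : GL ι F} (hg : g ∈ isom f) {W : Submodule F (ι → F)}
    (hW : Cfsg.Geo.IsNondegenerateOn f W) :
    Cfsg.Geo.IsNondegenerateOn f (W.map (apEquiv g).toLinearMap) := by
  rintro _ ⟨w, hw, rfl⟩ hne
  have hw0 : w ≠ 0 := fun h => hne (by simp [h, ap_zero])
  obtain ⟨⟨x, hx, h1⟩, ⟨y, hy, h2⟩⟩ := hW w hw hw0
  exact ⟨⟨_, ⟨x, hx, rfl⟩, by simpa [(mem_isom_iff.mp hg)] using h1⟩,
    ⟨_, ⟨y, hy, rfl⟩, by simpa [(mem_isom_iff.mp hg)] using h2⟩⟩

/-- Non-degenerate subspaces of equal dimension are carried to one another by isometries. -/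
theorem exists_isom_mapsTo {W W' : Submodule F (ι → F)} (hW : Cfsg.Geo.IsNondegenerateOn f W)
    (hW' : Cfsg.Geo.IsNondegenerateOn f W')
    (hdim : Module.finrank F W = Module.finrank F W') :
    ∃ h ∈ isom f, ∀ x ∈ W, ap h x ∈ W' := by
  suffices H : ∀ n : ℕ, ∀ U W : Submodule F (ι → F), U ≤ W → U ≤ W' →
      Cfsg.Geo.IsNondegenerateOn f U → Cfsg.Geo.IsNondegenerateOn f W →
      Module.finrank F W = Module.finrank F W' → Module.finrank F W ≤ Module.finrank F U + n →
      ∃ h ∈ isom f, ∀ x ∈ W, ap h x ∈ W' from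
    H _ ⊥ W bot_le bot_le (fun x hx hne => absurd ((Submodule.mem_bot F).mp hx) hne) hW hdim
      (Nat.le_add_left _ _)
  intro n
  induction n with
  | zero =>
    intro U W hUW hUW' _ _ _ hle
    have := Submodule.eq_of_le_of_finrank_le hUW (by omega)
    exact ⟨1, one_mem _, fun x hx => by rw [ap_one]; exact hUW' (this ▸ hx)⟩
  | succ n ih =>
    intro U W hUW hUW' hU hW hdim hle
    rcases hUW.eq_or_lt with rfl | hlt
    · exact ⟨1, one_mem _, fun x hx => by rw [ap_one]; exact hUW' hx⟩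
    have hlt' : U < W' := by
      refine lt_of_le_of_ne hUW' fun h => ?_
      have := Submodule.finrank_lt_finrank_of_lt hlt
      rw [← h] at hdim
      omega
    obtain ⟨u, v, hu, hv, huU, hvU, huv⟩ := exists_hyperbolic_in hf hU hW hlt
    obtain ⟨u', v', hu', hv', hu'U, hv'U, huv'⟩ := exists_hyperbolic_in hf hU hW' hlt'
    obtain ⟨h₁, -, hi₁, hf₁, hm₁⟩ := exists_move hf (M := (⊤ : Subgroup (GL ι F))) (U := U)
      (fun _ _ _ => trivial) (x := u) (y := u') ((perp hf U).sub_mem hu'U huU)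
      ⟨v, hvU, by rw [huv]; exact one_ne_zero⟩ ⟨v', hv'U, by rw [huv']; exact one_ne_zero⟩
    have hv₁U : ap h₁ v ∈ perp hf U := fun s hs => by
      rw [← hf₁ s hs, (mem_isom_iff.mp hi₁)]
      exact hvU s hs
    have huv₁ : f u' (ap h₁ v) = 1 := by rw [← hm₁, (mem_isom_iff.mp hi₁), huv]
    have hout : ∀ z, f u' z = 1 → z ∉ U ⊔ Submodule.span F {u'} := by
      intro z hz h
      obtain ⟨a, ha, b, hb, rfl⟩ := Submodule.mem_sup.mp h
      obtain ⟨c, rfl⟩ := Submodule.mem_span_singleton.mp hb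
      rw [hf.bilinear.add_right, hf.bilinear.smul_right, hf.alternating u', hu'U a ha] at hz
      simp at hz
    obtain ⟨h₂, -, hi₂, hf₂, hm₂⟩ := exists_move hf (M := (⊤ : Subgroup (GL ι F)))
      (U := U ⊔ Submodule.span F {u'}) (fun _ _ _ => trivial) (x := ap h₁ v) (y := v')
      (mem_perp_sup hf ((perp hf U).sub_mem hv'U hv₁U) ((mem_perp_span hf).mpr (by
        rw [sub_left hf, hf.skew v', hf.skew (ap h₁ v), huv', huv₁, sub_self])))
      (exists_perp_ne hf (hout _ huv₁)) (exists_perp_ne hf (hout _ huv'))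
    set h := h₂ * h₁
    have hhU : ∀ s ∈ U, ap h s = s := fun s hs => by
      rw [ap_mul, hf₁ s hs, hf₂ s (Submodule.mem_sup_left hs)]
    have hhu : ap h u = u' := by
      rw [ap_mul, hm₁, hf₂ u' (Submodule.mem_sup_right (Submodule.mem_span_singleton_self u'))]
    have hhv : ap h v = v' := by rw [ap_mul, hm₂]
    set U₃ := U ⊔ Submodule.span F {u', v'} with hU₃
    have hU₃n : Cfsg.Geo.IsNondegenerateOn f U₃ := by
      intro x hx hne
      suffices hs : ∃ y ∈ U₃, f y x ≠ 0 by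
        obtain ⟨y, hy, hyx⟩ := hs
        exact ⟨⟨y, hy, hyx⟩, ⟨y, hy, hyx ∘ (eq_zero_comm hf).mp⟩⟩
      obtain ⟨s, hs, t, ht, rfl⟩ := Submodule.mem_sup.mp hx
      obtain ⟨a, b, rfl⟩ := Submodule.mem_span_pair.mp ht
      by_contra hc
      push Not at hc
      have h1 := hc u' (Submodule.mem_sup_right (Submodule.subset_span (by simp)))
      have h2 := hc v' (Submodule.mem_sup_right (Submodule.subset_span (by simp)))
      simp only [hf.bilinear.add_right, hf.bilinear.smul_right, hf.alternating, hu'U s hs,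
        hv'U s hs, huv', hf.skew v' u', mul_zero, mul_one, zero_add, add_zero] at h1 h2
      have ha : a = 0 := by linear_combination -h2
      subst h1 ha
      by_cases hs0 : s = 0
      · simp [hs0] at hne
      · obtain ⟨y, hy, hys⟩ := (hU s hs hs0).1
        have := hc y (Submodule.mem_sup_left hy)
        simp at this
        exact hys this
    have hle₁ : U₃ ≤ W.map (apEquiv h).toLinearMap := by
      rw [hU₃, sup_le_iff, Submodule.span_le]
      refine ⟨fun s hs => ⟨s, hUW hs, hhU s hs⟩, ?_⟩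
      rintro x (rfl | rfl)
      exacts [⟨u, hu, hhu⟩, ⟨v, hv, hhv⟩]
    have hle₂ : U₃ ≤ W' := by
      rw [hU₃, sup_le_iff, Submodule.span_le]
      refine ⟨hUW', ?_⟩
      rintro x (rfl | rfl)
      exacts [hu', hv']
    have hlt₃ : U < U₃ := by
      refine lt_of_le_of_ne le_sup_left fun he => ?_
      have hm : v' ∈ U := he ▸ Submodule.mem_sup_right (Submodule.subset_span (by simp))
      rw [hu'U v' hm] at huv'
      exact zero_ne_one huv'
    have := Submodule.finrank_lt_finrank_of_lt hlt₃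
    obtain ⟨h₃, hi₃, hm₃⟩ := ih U₃ _ hle₁ hle₂ hU₃n (nondegenerateOn_map hf (mul_mem hi₂ hi₁) hW)
      (by rw [LinearEquiv.finrank_map_eq]; exact hdim) (by rw [LinearEquiv.finrank_map_eq]; omega)
    exact ⟨h₃ * h, mul_mem hi₃ (mul_mem hi₂ hi₁),
      fun x hx => by rw [ap_mul]; exact hm₃ _ ⟨x, hx, rfl⟩⟩

/-- Exchanging two orthogonal non-degenerate subspaces of equal dimension. -/
theorem exists_swap {A B : Submodule F (ι → F)} (hA : Cfsg.Geo.IsNondegenerateOn f A)
    (hB : Cfsg.Geo.IsNondegenerateOn f B) (hAB : A ≤ perp hf B)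
    (hdim : Module.finrank F A = Module.finrank F B) :
    ∃ σ ∈ isom f, (∀ x ∈ A, ap σ x ∈ B) ∧ (∀ x ∈ B, ap σ x ∈ A) ∧
      ∀ x ∈ perp hf A ⊓ perp hf B, ap σ x = x := by
  obtain ⟨h, hh, hmap⟩ := exists_isom_mapsTo hf hA hB hdim
  have hBA : B ≤ perp hf A := fun b hb a ha => (eq_zero_comm hf).mp (hAB ha b hb)
  have hinv : ∀ x ∈ B, ap h⁻¹ x ∈ A := by
    intro x hx
    have he : A.map (apEquiv h).toLinearMap = B :=
      Submodule.eq_of_le_of_finrank_eq (by rintro _ ⟨a, ha, rfl⟩; exact hmap a ha)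
        (by rw [LinearEquiv.finrank_map_eq, hdim])
    rw [← he] at hx
    obtain ⟨a, ha, rfl⟩ := hx
    simpa [ap_inv_ap] using ha
  set p := pr hf hA with hp
  set q := pr hf hB with hq
  let L : (ι → F) →ₗ[F] (ι → F) :=
    LinearMap.id - p - q + (apEquiv h).toLinearMap.comp p + (apEquiv h⁻¹).toLinearMap.comp q
  have hL : ∀ x, L x = x - p x - q x + ap h (p x) + ap h⁻¹ (q x) := fun x => rfl
  have hr : ∀ x, x - p x - q x ∈ perp hf A ⊓ perp hf B := by
    intro x
    refine ⟨(perp hf A).sub_mem (sub_pr_mem_perp hf hA x) (hBA (pr_mem hf hB x)), ?_⟩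
    rw [sub_right_comm]
    exact (perp hf B).sub_mem (sub_pr_mem_perp hf hB x) (hAB (pr_mem hf hA x))
  have hpL : ∀ x, p (L x) = ap h⁻¹ (q x) := fun x => pr_eq hf hA (hinv _ (pr_mem hf hB x)) (by
    rw [hL, add_sub_cancel_right]
    exact (perp hf A).add_mem (hr x).1 (hBA (hmap _ (pr_mem hf hA x))))
  have hqL : ∀ x, q (L x) = ap h (p x) := fun x => pr_eq hf hB (hmap _ (pr_mem hf hA x)) (by
    rw [hL, add_sub_right_comm, add_sub_cancel_right]
    exact (perp hf B).add_mem (hr x).2 (hAB (hinv _ (pr_mem hf hB x))))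
  have hinv2 : Function.Involutive L := by
    intro x
    rw [hL (L x), hpL, hqL, ap_ap_inv, ap_inv_ap, hL x]
    abel
  refine ⟨ofEquiv (LinearEquiv.ofInvolutive L hinv2), fun u v => ?_, fun x hx => ?_,
    fun x hx => ?_, fun x hx => ?_⟩
  · have key : ∀ r r' a a' b b', r ∈ perp hf A ⊓ perp hf B → r' ∈ perp hf A ⊓ perp hf B →
        a ∈ A → a' ∈ A → b ∈ B → b' ∈ B →
        f (r + a + b) (r' + a' + b') = f r r' + f a a' + f b b' := by
      intro r r' a a' b b' hr hr' ha ha' hb hb'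
      simp only [hf.bilinear.add_left, hf.bilinear.add_right, hr.1 a' ha', hr.2 b' hb',
        (eq_zero_comm hf).mp (hr'.1 a ha), (eq_zero_comm hf).mp (hr'.2 b hb), hAB ha b' hb',
        hBA hb a' ha']
      ring
    change f (ap (ofEquiv (LinearEquiv.ofInvolutive L hinv2)) u)
      (ap (ofEquiv (LinearEquiv.ofInvolutive L hinv2)) v) = f u v
    simp only [ap_ofEquiv, LinearEquiv.coe_ofInvolutive]
    have e : ∀ x, L x = x - p x - q x + ap h⁻¹ (q x) + ap h (p x) := fun x => by rw [hL]; abel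
    rw [e u, e v, key _ _ _ _ _ _ (hr u) (hr v) (hinv _ (pr_mem hf hB u)) (hinv _ (pr_mem hf hB v))
      (hmap _ (pr_mem hf hA u)) (hmap _ (pr_mem hf hA v)), (mem_isom_iff.mp hh),
      (mem_isom_iff.mp (inv_mem hh))]
    have hsplit : ∀ x, x = x - p x - q x + p x + q x := fun x => by abel
    conv_rhs => rw [hsplit u, hsplit v, key _ _ _ _ _ _ (hr u) (hr v) (pr_mem hf hA u)
      (pr_mem hf hA v) (pr_mem hf hB u) (pr_mem hf hB v)]
    abel
  · rw [ap_ofEquiv, LinearEquiv.coe_ofInvolutive, hL, hp, hq, pr_of_mem hf hA hx,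
      pr_of_mem_perp hf hB (hAB hx), ap_zero]
    simpa using hmap x hx
  · rw [ap_ofEquiv, LinearEquiv.coe_ofInvolutive, hL, hp, hq, pr_of_mem hf hB hx,
      pr_of_mem_perp hf hA (hBA hx), ap_zero]
    simpa using hinv x hx
  · rw [ap_ofEquiv, LinearEquiv.coe_ofInvolutive, hL, hp, hq, pr_of_mem_perp hf hA hx.1,
      pr_of_mem_perp hf hB hx.2, ap_zero, ap_zero]
    abel

end Symp

end CfsgLib.Geometric
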