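import Cfsg.Agent.Lib.Geometric.SkewPairApply

/-!
The stabiliser of a pair of complementary Lagrangian subspaces is maximal in the symplectic group
in odd characteristic, from dimension six on.
-/

namespace CfsgLib.Geometric

open Matrix

variable {ι : Type} [Fintype ι] [DecidableEq ι] {F : Type*} [Field F]

/-- An alternating pairing with two complementary Lagrangian subspaces of dimension at least 2. -/
structure SymPair (B : (ι → F) → (ι → F) → F) (U U' : Submodule F (ι → F)) : Prop where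
  add_left : ∀ x y z, B (x + y) z = B x z + B y z
  smul_left : ∀ (c : F) x y, B (c • x) y = c * B x y
  skew : ∀ x y, B x y = -B y x
  two_ne : (2 : F) ≠ 0
  sep : ∀ (S : Submodule F (ι → F)) (x : ι → F), x ∉ S →
    ∃ y, (∀ s ∈ S, B s y = 0) ∧ B x y = 1
  compl : IsCompl U U'
  sing : ∀ a ∈ U, ∀ b ∈ U, B a b = 0
  sing' : ∀ a ∈ U', ∀ b ∈ U', B a b = 0
  finrank_eq : Module.finrank F U' = Module.finrank F U
  two_le : 2 ≤ Module.finrank F U

variable {B : (ι → F) → (ι → F) → F} {U U' : Submodule F (ι → F)}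

namespace SymPair

variable (hP : SymPair B U U')
include hP

omit [DecidableEq ι] [Fintype ι] in
lemma add_right (x y z : ι → F) : B x (y + z) = B x y + B x z := by
  rw [hP.skew, hP.add_left, hP.skew y x, hP.skew z x]; ring

omit [DecidableEq ι] [Fintype ι] in
lemma smul_right (c : F) (x y : ι → F) : B x (c • y) = c * B x y := by
  rw [hP.skew, hP.smul_left, hP.skew y x]; ring

omit [DecidableEq ι] [Fintype ι] in
lemma eq_zero_comm {x y : ι → F} (h : B x y = 0) : B y x = 0 := by rw [hP.skew, h, neg_zero]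

omit [DecidableEq ι] [Fintype ι] in
lemma self (x : ι → F) : B x x = 0 := by
  have h : (2 : F) * B x x = 0 := by linear_combination hP.skew x x
  exact (mul_eq_zero.1 h).resolve_left hP.two_ne

omit [DecidableEq ι] [Fintype ι] in
lemma symm' : SymPair B U' U :=
  { hP with
    compl := hP.compl.symm
    sing := hP.sing'
    sing' := hP.sing
    finrank_eq := hP.finrank_eq.symm
    two_le := hP.finrank_eq.symm ▸ hP.two_le }

omit [DecidableEq ι] [Fintype ι] in
lemma decomp (x : ι → F) : ∃ u ∈ U, ∃ u' ∈ U', x = u + u' := by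
  obtain ⟨a, ha, b, hb, h⟩ := Submodule.mem_sup.mp
    (hP.compl.sup_eq_top.symm ▸ Submodule.mem_top : x ∈ U ⊔ U')
  exact ⟨a, ha, b, hb, h.symm⟩

omit [DecidableEq ι] [Fintype ι] in
/-- Separation of `x ∈ U` from a subspace of `U` by an element of `U'`. -/
lemma sep' {S : Submodule F (ι → F)} (hS : S ≤ U) {x : ι → F} (hx : x ∈ U) (hxS : x ∉ S) :
    ∃ y ∈ U', (∀ s ∈ S, B s y = 0) ∧ B x y = 1 := by
  obtain ⟨y, hy, hxy⟩ := hP.sep S x hxS
  obtain ⟨a, ha, a', ha', rfl⟩ := hP.decomp y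
  refine ⟨a', ha', fun s hs => ?_, ?_⟩
  · have := hy s hs
    rwa [hP.add_right, hP.sing s (hS hs) a ha, zero_add] at this
  · rwa [hP.add_right, hP.sing x hx a ha, zero_add] at hxy

omit [DecidableEq ι] [Fintype ι] in
lemma sep_one {x y : ι → F} (hx : x ∈ U) (hy : y ∈ U) (h : x ∉ Submodule.span F {y}) :
    ∃ a ∈ U', B y a = 0 ∧ B x a = 1 := by
  obtain ⟨a, ha, h1, h2⟩ := hP.sep' ((Submodule.span_singleton_le_iff_mem _ _).2 hy) hx h
  exact ⟨a, ha, h1 y (Submodule.mem_span_singleton_self y), h2⟩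

omit [DecidableEq ι] in
/-- A non-zero vector of `U` orthogonal to `z`. -/
lemma exists_perp_zero (z : ι → F) : ∃ b ∈ U, B b z = 0 ∧ b ≠ 0 := by
  let φ : (ι → F) →ₗ[F] F :=
    { toFun := fun x => B x z
      map_add' := fun x y => hP.add_left x y z
      map_smul' := fun c x => hP.smul_left c x z }
  have h3 := Submodule.finrank_sup_add_finrank_inf_eq U (LinearMap.ker φ)
  have h4 := Submodule.finrank_le (U ⊔ LinearMap.ker φ)
  have h5 := φ.finrank_range_add_finrank_ker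
  have h6 : Module.finrank F (LinearMap.range φ) ≤ 1 :=
    (Submodule.finrank_le _).trans_eq (Module.finrank_self F)
  have := hP.two_le
  obtain ⟨b, hb, hb0⟩ := Submodule.exists_mem_ne_zero_of_ne_bot
    (p := U ⊓ LinearMap.ker φ) fun h => by
      rw [h, finrank_bot] at h3
      omega
  exact ⟨b, hb.1, hb.2, hb0⟩

omit [DecidableEq ι] in
/-- A vector of `U` orthogonal to `z` outside a line. -/
lemma exists_perp (hbig : 3 ≤ Module.finrank F U) (z v : ι → F) :
    ∃ b ∈ U, B b z = 0 ∧ b ∉ Submodule.span F {v} := by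
  let φ : (ι → F) →ₗ[F] F :=
    { toFun := fun x => B x z
      map_add' := fun x y => hP.add_left x y z
      map_smul' := fun c x => hP.smul_left c x z }
  by_contra hc
  push Not at hc
  have hle : U ⊓ LinearMap.ker φ ≤ Submodule.span F {v} := fun b hb => hc b hb.1 hb.2
  have h1 := Submodule.finrank_mono hle
  have h2 : Module.finrank F (Submodule.span F {v}) ≤ 1 := by
    by_cases hv : v = 0
    · rw [hv, Submodule.span_zero_singleton, finrank_bot]; omega
    · rw [finrank_span_singleton hv]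
  have h3 := Submodule.finrank_sup_add_finrank_inf_eq U (LinearMap.ker φ)
  have h4 := Submodule.finrank_le (U ⊔ LinearMap.ker φ)
  have h5 := φ.finrank_range_add_finrank_ker
  have h6 : Module.finrank F (LinearMap.range φ) ≤ 1 :=
    (Submodule.finrank_le _).trans_eq (Module.finrank_self F)
  omega

omit [DecidableEq ι] in
/-- A vector of `U` killed by two pairings. -/
lemma exists_killed (hbig : 3 ≤ Module.finrank F U) (z₁ z₂ : ι → F) : ∃ b ∈ U, b ≠ 0 ∧ B b z₁ = 0 ∧ B b z₂ = 0 := by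
  let φ : (ι → F) →ₗ[F] (F × F) :=
    { toFun := fun x => (B x z₁, B x z₂)
      map_add' := fun x y => by simp [hP.add_left]
      map_smul' := fun c x => by simp [hP.smul_left] }
  set K := U ⊓ LinearMap.ker φ with hK
  have h3 := Submodule.finrank_sup_add_finrank_inf_eq U (LinearMap.ker φ)
  have h4 := Submodule.finrank_le (U ⊔ LinearMap.ker φ)
  have h5 := φ.finrank_range_add_finrank_ker
  have h6 : Module.finrank F (LinearMap.range φ) ≤ 2 :=
    (Submodule.finrank_le _).trans_eq (by simp)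
  rw [← hK] at h3
  obtain ⟨b, hb, hb0⟩ := Submodule.exists_mem_ne_zero_of_ne_bot (p := K) fun h => by
    rw [h, finrank_bot] at h3
    omega
  have e : φ b = 0 := hb.2
  simp [φ] at e
  exact ⟨b, hb.1, hb0, e.1, e.2⟩

omit [DecidableEq ι] in
/-- Two vectors of `U` orthogonal to `z`, one outside the line of the other. -/
lemma exists_two_perp (hbig : 3 ≤ Module.finrank F U) (z : ι → F) : ∃ b₁ b₂, b₁ ∈ U ∧ b₂ ∈ U ∧ b₁ ≠ 0 ∧
    b₂ ∉ Submodule.span F {b₁} ∧ B b₁ z = 0 ∧ B b₂ z = 0 := by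
  obtain ⟨b₁, hb₁, h₁, h₁'⟩ := hP.exists_perp hbig z 0
  obtain ⟨b₂, hb₂, h₂, h₂'⟩ := hP.exists_perp hbig z b₁
  exact ⟨b₁, b₂, hb₁, hb₂, fun h => h₁' (by rw [h]; exact zero_mem _), h₂', h₁, h₂⟩

/-- Some element of `M` fixes exactly one of `U` and `U'`. -/
theorem exists_fix_one (hbig : 3 ≤ Module.finrank F U) {M : Subgroup (GL ι F)}
    (hMB : ∀ g ∈ M, ∀ x y, B (ap g x) (ap g y) = B x y)
    (hs : ∀ a ∈ U', ∀ b ∈ U, B a b = 0 →
      ∃ h ∈ M, ∀ x, ap h x = x + B x a • b + B x b • a)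
    {sw : GL ι F} (hsw : sw ∈ M) (hsw₁ : MapsIn sw U U') (hsw₂ : MapsIn sw U' U)
    {g : GL ι F} (hg : g ∈ M) (hg₁ : ¬ (MapsIn g U U ∧ MapsIn g U' U'))
    (hg₂ : ¬ (MapsIn g U U' ∧ MapsIn g U' U)) :
    ∃ k ∈ M, MapsIn k U U ∧ ∃ x ∈ U', ap k x ∉ U' := by
  by_contra hcon
  push Not at hcon
  have hd := hP.finrank_eq
  have hno : ∀ k ∈ M, MapsIn k U U → MapsIn k U' U' := hcon
  have hno' : ∀ k ∈ M, MapsIn k U' U' → MapsIn k U U := by
    intro k hk h
    have h1 := hno _ (mul_mem (mul_mem hsw hk) (inv_mem hsw))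
      ((hsw₂.mul h).mul (hsw₂.inv hd.ge))
    have h2 := ((hsw₁.inv hd.le).mul h1).mul hsw₁
    intro x hx
    have := h2 x hx
    simpa [mul_assoc, ap_mul, ap_inv_ap] using this
  have hconj : ∀ k ∈ M, ∀ a ∈ U', ∀ b ∈ U, B a b = 0 → ∃ h ∈ M, ∀ x,
      ap h x = x + B x (ap k a) • ap k b + B x (ap k b) • ap k a := by
    intro k hk a ha b hb hab
    obtain ⟨h, hh, hap⟩ := hs a ha b hb hab
    refine ⟨k * h * k⁻¹, mul_mem (mul_mem hk hh) (inv_mem hk), fun x => ?_⟩
    obtain ⟨y, rfl⟩ : ∃ y, x = ap k y := ⟨ap k⁻¹ x, (ap_ap_inv k x).symm⟩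
    rw [ap_mul, ap_mul, ap_inv_ap, hap, hMB k hk, hMB k hk, ap_add, ap_add, ap_smul, ap_smul]
  -- `g U` lies in neither subspace
  have hgU : ¬ MapsIn g U U := fun h => hg₁ ⟨h, hno g hg h⟩
  have hgU' : ¬ MapsIn g U U' := fun h => by
    refine hg₂ ⟨h, ?_⟩
    have h1 := hno _ (mul_mem hsw hg) (hsw₂.mul h)
    intro x hx
    have := (hsw₁.inv hd.le).mul h1 x hx
    simpa [mul_assoc, ap_mul, ap_inv_ap] using this
  obtain ⟨x, hx, u, hu, u', hu', hy, hu0, hu'0⟩ : ∃ x ∈ U, ∃ u ∈ U, ∃ u' ∈ U',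
      ap g x = u + u' ∧ u ≠ 0 ∧ u' ≠ 0 := by
    obtain ⟨x₁, hx₁, h₁⟩ : ∃ x ∈ U, ap g x ∉ U := by simpa [MapsIn] using hgU
    obtain ⟨x₂, hx₂, h₂⟩ : ∃ x ∈ U, ap g x ∉ U' := by simpa [MapsIn] using hgU'
    obtain ⟨a₁, ha₁, a₁', ha₁', e₁⟩ := hP.decomp (ap g x₁)
    obtain ⟨a₂, ha₂, a₂', ha₂', e₂⟩ := hP.decomp (ap g x₂)
    have n₁ : a₁' ≠ 0 := fun h => h₁ (by rw [e₁, h, add_zero]; exact ha₁)
    have n₂ : a₂ ≠ 0 := fun h => h₂ (by rw [e₂, h, zero_add]; exact ha₂')
    by_cases c₁ : a₁ = 0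
    swap; · exact ⟨x₁, hx₁, a₁, ha₁, a₁', ha₁', e₁, c₁, n₁⟩
    by_cases c₂ : a₂' = 0
    swap; · exact ⟨x₂, hx₂, a₂, ha₂, a₂', ha₂', e₂, n₂, c₂⟩
    exact ⟨x₁ + x₂, U.add_mem hx₁ hx₂, a₂, ha₂, a₁', ha₁',
      by rw [ap_add, e₁, e₂, c₁, c₂]; abel, n₂, n₁⟩
  -- a conjugate of a root element moving `U`
  obtain ⟨k, hk, hkU, z₁, z₂, hkfix⟩ : ∃ k ∈ M, ¬ MapsIn k U U ∧ ∃ z₁ z₂,
      ∀ b, B b z₁ = 0 → B b z₂ = 0 → ap k b = b := by
    by_contra hc
    push Not at hc
    have key : ∀ a ∈ U', ∀ b ∈ U, B a b = 0 →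
        ∃ y ∈ U, ap g y = B (ap g x) a • b + B (ap g x) b • a := by
      intro a ha b hb hab
      obtain ⟨h, hh, hap⟩ := hs a ha b hb hab
      have hkM := mul_mem (mul_mem (inv_mem hg) hh) hg
      by_cases hm : MapsIn (g⁻¹ * h * g) U U
      · refine ⟨ap (g⁻¹ * h * g) x - x, U.sub_mem (hm x hx) hx, ?_⟩
        rw [ap_sub, ap_mul, ap_mul, ap_ap_inv, hap]
        abel
      · obtain ⟨b', hb₁, hb₂, hb'⟩ := hc _ hkM hm (ap g⁻¹ a) (ap g⁻¹ b)
        exfalso
        refine hb' ?_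
        rw [← hMB g hg, ap_ap_inv] at hb₁ hb₂
        rw [ap_mul, ap_mul, hap, hb₁, hb₂]
        simp [ap_inv_ap]
    obtain ⟨b, hb, hbu', hbu⟩ := hP.exists_perp hbig u' u
    obtain ⟨a, ha, hba, hua⟩ := hP.sep_one hu hb fun h => hbu (by
      obtain ⟨c, hc⟩ := Submodule.mem_span_singleton.1 h
      have hc0 : c ≠ 0 := fun h0 => hu0 (by rw [← hc, h0, zero_smul])
      exact Submodule.mem_span_singleton.2 ⟨c⁻¹, by
        rw [← hc, smul_smul, inv_mul_cancel₀ hc0, one_smul]⟩)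
    obtain ⟨y₁, hy₁, e₁⟩ := key a ha b hb (hP.eq_zero_comm hba)
    rw [hy, hP.add_left, hP.add_left, hua, hP.sing' _ hu' _ ha, hP.sing _ hu _ hb,
      hP.eq_zero_comm hbu'] at e₁
    simp at e₁
    obtain ⟨a₀, ha₀, hua₀, hba₀⟩ := hP.sep_one hb hu hbu
    have ha₀u' : u' ∉ Submodule.span F {a₀} := fun h => by
      obtain ⟨c, hc⟩ := Submodule.mem_span_singleton.1 h
      have hc0 : c ≠ 0 := fun h0 => hu'0 (by rw [← hc, h0, zero_smul])
      rw [← hc, hP.smul_right, hba₀, mul_one] at hbu'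
      exact hc0 hbu'
    obtain ⟨b₀, hb₀, hab₀, hub₀⟩ := hP.symm'.sep_one hu' ha₀ ha₀u'
    obtain ⟨y₀, hy₀, e₀⟩ := key a₀ ha₀ b₀ hb₀ hab₀
    rw [hy, hP.add_left, hP.add_left, hua₀, hP.sing' _ hu' _ ha₀, hP.sing _ hu _ hb₀, hub₀] at e₀
    simp at e₀
    have h1 : B (ap g y₁) (ap g y₀) = 0 := by rw [hMB g hg]; exact hP.sing _ hy₁ _ hy₀
    rw [e₁, e₀, hba₀] at h1
    exact one_ne_zero h1
  -- a vector of `U` mapped into `U` makes `k` respect its orthogonal in `U'`
  have main : ∀ b ∈ U, b ≠ 0 → ap k b ∈ U → ∀ a' ∈ U', B b a' = 0 → ap k a' ∈ U' := by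
    intro b hb hb0 hkb a' ha' hba'
    obtain ⟨κ, hκ, A', hA', hA⟩ := hP.decomp (ap k a')
    obtain ⟨h, hh, hap⟩ := hconj k hk a' ha' b hb (hP.eq_zero_comm hba')
    set c := ap k b with hc
    have hc0 : c ≠ 0 := fun h0 => hb0 (by
      rw [← ap_inv_ap k b, ← hc, h0, ap_zero])
    have hU : MapsIn h U U := fun y hy => by
      rw [hap, hP.sing y hy c hkb, zero_smul, add_zero]
      exact U.add_mem hy (U.smul_mem _ hkb)
    have hz : ∀ z ∈ U', B z (κ + A') • c + B z c • κ = 0 := by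
      intro z hz
      have h1 := hno h hh hU z hz
      rw [hap, hA] at h1
      have e : B z (κ + A') • c + B z c • κ ∈ U' := by
        have h2 := U'.sub_mem (U'.sub_mem h1 hz) (U'.smul_mem (B z c) hA')
        convert h2 using 1
        rw [smul_add]
        abel
      exact Submodule.disjoint_def.mp hP.compl.disjoint _
        (U.add_mem (U.smul_mem _ hkb) (U.smul_mem _ hκ)) e
    obtain ⟨z, hz1, -, hcz⟩ := hP.sep' (S := ⊥) bot_le hkb (by simpa using hc0)
    have hzc : B z c = -1 := by rw [hP.skew, hcz]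
    have h3 := hz z hz1
    rw [hzc, neg_one_smul, add_neg_eq_zero] at h3
    rw [hA]
    suffices hs0 : B z (κ + A') = 0 by
      rw [hs0, zero_smul] at h3
      rw [← h3, zero_add]; exact hA'
    set s := B z (κ + A') with hs
    have e1 : s = B z κ := by rw [hs, hP.add_right, hP.sing' z hz1 A' hA', add_zero]
    rw [← h3, hP.smul_right, hzc] at e1
    have e2 : (2 : F) * s = 0 := by linear_combination e1
    exact (mul_eq_zero.1 e2).resolve_left hP.two_ne
  -- `k` maps the orthogonal in `U` of a fixed vector of `U'` into `U`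
  obtain ⟨a₀, ha₀, ha₀0, ha₀₁, ha₀₂⟩ := hP.symm'.exists_killed (hP.finrank_eq.symm ▸ hbig) z₁ z₂
  have hka₀ : ap k a₀ = a₀ := hkfix a₀ ha₀₁ ha₀₂
  have main' : ∀ b ∈ U, B b a₀ = 0 → ap k b ∈ U := by
    intro b hb hba
    obtain ⟨β, hβ, L, hL, hbL⟩ := hP.decomp (ap k b)
    obtain ⟨h, hh, hap⟩ := hconj k hk a₀ ha₀ b hb (hP.eq_zero_comm hba)
    rw [hka₀] at hap
    have hU' : MapsIn h U' U' := fun y hy => by
      rw [hap, hP.sing' y hy a₀ ha₀, zero_smul, add_zero]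
      exact U'.add_mem hy (U'.smul_mem _ ha₀)
    obtain ⟨w, hw, -, haw⟩ := hP.symm'.sep' (S := ⊥) bot_le ha₀ (by simpa using ha₀0)
    have hwa : B w a₀ = -1 := by rw [hP.skew, haw]
    have h1 := hno' h hh hU' w hw
    rw [hap, hbL, hwa] at h1
    have e : -L + B w (β + L) • a₀ ∈ U := by
      have h2 := U.add_mem (U.sub_mem h1 hw) hβ
      convert h2 using 1
      rw [neg_one_smul]
      abel
    have e0 := Submodule.disjoint_def.mp hP.compl.symm.disjoint _
      (U'.add_mem (U'.neg_mem hL) (U'.smul_mem _ ha₀)) e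
    rw [neg_add_eq_zero] at e0
    set s := B w (β + L) with hs
    have e1 : s = B w L := by rw [hs, hP.add_right, hP.sing w hw β hβ, zero_add]
    rw [e0, hP.smul_right, hwa] at e1
    have e2 : (2 : F) * s = 0 := by linear_combination e1
    rw [(mul_eq_zero.1 e2).resolve_left hP.two_ne, zero_smul] at e0
    rw [hbL, e0, add_zero]; exact hβ
  -- so `k` maps `U'` into itself
  obtain ⟨b₁, b₂, hb₁, hb₂, hb₁0, hb₂1, h1a, h2a⟩ := hP.exists_two_perp hbig a₀
  have hb₂0 : b₂ ≠ 0 := fun h => hb₂1 (h ▸ zero_mem _)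
  refine hkU (hno' k hk fun a' ha' => ?_)
  obtain ⟨a₁, ha₁, h21, h11⟩ := hP.sep_one hb₁ hb₂ fun h => hb₂1 (by
    obtain ⟨c, hc⟩ := Submodule.mem_span_singleton.1 h
    have hc0 : c ≠ 0 := fun h0 => hb₁0 (by rw [← hc, h0, zero_smul])
    exact Submodule.mem_span_singleton.2 ⟨c⁻¹, by
      rw [← hc, smul_smul, inv_mul_cancel₀ hc0, one_smul]⟩)
  have hsub : B b₁ (a' - B b₁ a' • a₁) = 0 := by
    rw [sub_eq_add_neg, ← neg_smul, hP.add_right, hP.smul_right, h11, mul_one, add_neg_cancel]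
  have hA₁ := main b₁ hb₁ hb₁0 (main' b₁ hb₁ h1a) _ (U'.sub_mem ha' (U'.smul_mem _ ha₁)) hsub
  have hA₂ := main b₂ hb₂ hb₂0 (main' b₂ hb₂ h2a) _ ha₁ h21
  have := U'.add_mem hA₁ (U'.smul_mem (B b₁ a') hA₂)
  rwa [← ap_smul, ← ap_add, sub_add_cancel] at this

/-- The functional `B(·, v)`. -/
def fl (v : ι → F) : (ι → F) →ₗ[F] F where
  toFun x := B x v
  map_add' x y := hP.add_left x y v
  map_smul' c x := hP.smul_left c x v

/-- The transvection `x ↦ x + c B(x,v) v`. -/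
def tr (v : ι → F) (c : F) : GL ι F := tv v (c • hP.fl v) (by simp [fl, hP.self])

lemma ap_tr (v : ι → F) (c : F) (x : ι → F) :
    ap (hP.tr v c) x = x + (c * B x v) • v := by
  rw [tr, ap_tv]
  rfl

variable {G : Subgroup (GL ι F)} (hGB : ∀ g ∈ G, ∀ x y, B (ap g x) (ap g y) = B x y)
  (hT : ∀ v c, hP.tr v c ∈ G)
include hT

/-- The root element of two orthogonal vectors. -/
lemma exists_root {a b : ι → F} (hab : B a b = 0) :
    ∃ h ∈ G, ∀ x, ap h x = x + B x a • b + B x b • a := by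
  have hba : B b a = 0 := hP.eq_zero_comm hab
  refine ⟨hP.tr (a + b) 1 * hP.tr a (-1) * hP.tr b (-1),
    mul_mem (mul_mem (hT _ _) (hT _ _)) (hT _ _), fun x => ?_⟩
  simp only [ap_mul, ap_tr, hP.add_left, hP.smul_left, hP.add_right, hP.self, hab, hba]
  module

/-- An element of `G` exchanging `U` and `U'`. -/
lemma exists_swap : ∃ sw ∈ G, MapsIn sw U U' ∧ MapsIn sw U' U := by
  classical
  set b := Module.finBasis F U
  have hdual : ∀ i, ∃ f ∈ U', B (b i : ι → F) f = 1 ∧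
      ∀ j, j ≠ i → B (b j : ι → F) f = 0 := by
    intro i
    obtain ⟨f, hf, hf0, hf1⟩ := hP.sep' (S := (Submodule.span F (b '' {j | j ≠ i})).map U.subtype)
      (fun x hx => by obtain ⟨y, -, rfl⟩ := hx; exact y.2) (b i).2 (by
        rintro ⟨y, hy, hyx⟩
        obtain rfl : y = b i := Subtype.ext hyx
        exact b.linearIndependent.notMem_span_image (by simp) hy)
    exact ⟨f, hf, hf1, fun j hj => hf0 _ ⟨b j, Submodule.subset_span ⟨j, hj, rfl⟩, rfl⟩⟩
  choose f hfU hf1 hf0 using hdual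
  set e : Fin (Module.finrank F U) → ι → F := fun i => (b i : ι → F) with he
  have hee : ∀ i j, B (e i) (e j) = 0 := fun i j => hP.sing _ (b i).2 _ (b j).2
  have hff : ∀ i j, B (f i) (f j) = 0 := fun i j => hP.sing' _ (hfU i) _ (hfU j)
  have hef : ∀ i j, i ≠ j → B (e i) (f j) = 0 := fun i j h => hf0 j i h
  have hfe : ∀ i j, i ≠ j → B (f i) (e j) = 0 := fun i j h =>
    hP.eq_zero_comm (hf0 i j (Ne.symm h))
  have hef1 : ∀ i, B (e i) (f i) = 1 := hf1
  have hfe1 : ∀ i, B (f i) (e i) = -1 := fun i => by rw [hP.skew, hef1]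
  have hw : ∀ i, ∃ w ∈ G, ap w (e i) = f i ∧ ap w (f i) = -e i ∧
      ∀ j, j ≠ i → ap w (e j) = e j ∧ ap w (f j) = f j := by
    intro i
    refine ⟨hP.tr (e i) 1 * hP.tr (f i) 1 * hP.tr (e i) 1,
      mul_mem (mul_mem (hT _ _) (hT _ _)) (hT _ _), ?_, ?_, fun j hj => ⟨?_, ?_⟩⟩
    · simp only [ap_mul, ap_tr, hP.add_left, hP.smul_left, hee, hef1, hfe1]; module
    · simp only [ap_mul, ap_tr, hP.add_left, hP.smul_left, hee, hff, hef1, hfe1]; module
    · simp only [ap_mul, ap_tr, hP.add_left, hP.smul_left, hee, hef j i hj]; module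
    · simp only [ap_mul, ap_tr, hP.add_left, hP.smul_left, hff, hfe j i hj]; module
  have hall : ∀ s : Finset (Fin (Module.finrank F U)), ∃ w ∈ G,
      (∀ i ∈ s, ap w (e i) = f i ∧ ap w (f i) = -e i) ∧
        ∀ i ∉ s, ap w (e i) = e i ∧ ap w (f i) = f i := by
    intro s
    induction s using Finset.induction with
    | empty => exact ⟨1, one_mem _, by simp, fun i _ => ⟨ap_one _, ap_one _⟩⟩
    | insert i s his ih =>
      obtain ⟨w, hwG, h1, h2⟩ := ih
      obtain ⟨v, hvG, hve, hvf, hv⟩ := hw i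
      refine ⟨v * w, mul_mem hvG hwG, fun j hj => ?_, fun j hj => ?_⟩
      · rcases Finset.mem_insert.1 hj with rfl | hj
        · simp only [ap_mul, (h2 _ his).1, (h2 _ his).2, hve, hvf]
          trivial
        · have hji : j ≠ i := fun h => his (h ▸ hj)
          simp only [ap_mul, (h1 j hj).1, (h1 j hj).2, (hv j hji).2, true_and]
          rw [← neg_one_smul F (e j), ap_smul, (hv j hji).1]
      · simp only [Finset.mem_insert, not_or] at hj
        simp only [ap_mul, (h2 j hj.2).1, (h2 j hj.2).2, (hv j hj.1).1, (hv j hj.1).2]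
        trivial
  obtain ⟨w, hwG, hw1, -⟩ := hall Finset.univ
  have hmap : ∀ (x : ι → F) (V : Submodule F (ι → F)) (s : Set (ι → F)),
      x ∈ Submodule.span F s → (∀ y ∈ s, ap w y ∈ V) → ap w x ∈ V := fun x V s hx h =>
    (Submodule.span_le (p := V.comap (apEquiv w).toLinearMap)).2 h hx
  refine ⟨w, hwG, fun x hx => ?_, fun x hx => ?_⟩
  · refine hmap x U' (Set.range e) ?_ ?_
    · have h := b.mem_span ⟨x, hx⟩
      have h' := Submodule.mem_map_of_mem (f := U.subtype) h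
      rw [Submodule.map_span, ← Set.range_comp] at h'
      exact h'
    · rintro _ ⟨i, rfl⟩
      rw [(hw1 i (Finset.mem_univ i)).1]
      exact hfU i
  · refine hmap x U (Set.range f) ?_ ?_
    · have hli : LinearIndependent F f := by
        rw [Fintype.linearIndependent_iff]
        intro c hc i
        have h : hP.fl (e i) (∑ j, c j • f j) = 0 := by rw [hc, map_zero]
        rw [map_sum, Finset.sum_eq_single i (fun j _ hj => ?_) (by simp)] at h
        · simpa [fl, hP.smul_left, hfe1] using h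
        · simp [fl, hfe j i hj]
      have hle : Submodule.span F (Set.range f) ≤ U' :=
        Submodule.span_le.2 (by rintro _ ⟨i, rfl⟩; exact hfU i)
      have := Submodule.eq_of_le_of_finrank_le hle (by
        rw [finrank_span_eq_card hli, Fintype.card_fin, hP.finrank_eq])
      rwa [this]
    · rintro _ ⟨i, rfl⟩
      rw [(hw1 i (Finset.mem_univ i)).2]
      exact U.neg_mem (b i).2

/-- The root elements of the pair lie in the stabiliser. -/
lemma root_mem {M : Subgroup (GL ι F)}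
    (hH : ∀ g ∈ G, (MapsIn g U U ∧ MapsIn g U' U') ∨ (MapsIn g U U' ∧ MapsIn g U' U) → g ∈ M)
    {a b : ι → F} (ha : a ∈ U') (hb : b ∈ U) (hab : B a b = 0) :
    ∃ h ∈ M, ∀ x, ap h x = x + B x a • b + B x b • a := by
  obtain ⟨h, hh, hap⟩ := hP.exists_root hT hab
  refine ⟨h, hH h hh (Or.inl ⟨fun x hx => ?_, fun x hx => ?_⟩), hap⟩
  · rw [hap, hP.sing x hx b hb, zero_smul, add_zero]
    exact U.add_mem hx (U.smul_mem _ hb)
  · rw [hap, hP.sing' x hx a ha, zero_smul, add_zero]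
    exact U'.add_mem hx (U'.smul_mem _ ha)

include hGB

/-- A group properly containing the stabiliser of the pair contains all transvections. -/
theorem tr_mem {M : Subgroup (GL ι F)} (hMG : M ≤ G)
    (hH : ∀ g ∈ G, (MapsIn g U U ∧ MapsIn g U' U') ∨ (MapsIn g U U' ∧ MapsIn g U' U) → g ∈ M)
    (hfix : ∃ k ∈ M, MapsIn k U U ∧ ∃ x ∈ U', ap k x ∉ U') (v : ι → F) (c : F) :
    hP.tr v c ∈ M := by
  have hMB : ∀ g ∈ M, ∀ x y, B (ap g x) (ap g y) = B x y := fun g hg => hGB g (hMG hg)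
  have hroot : ∀ a ∈ U', ∀ b ∈ U, B a b = 0 →
      ∃ h ∈ M, ∀ x, ap h x = x + B x a • b + B x b • a :=
    fun a ha b hb hab => hP.root_mem hT hH ha hb hab
  obtain ⟨sw, hswG, hsw₁, hsw₂⟩ := hP.exists_swap hT
  have hswM : sw ∈ M := hH sw hswG (Or.inr ⟨hsw₁, hsw₂⟩)
  obtain ⟨k, hk, hkU, a, ha, hka⟩ := hfix
  obtain ⟨κ, hκ, A, hA, hkA⟩ := hP.decomp (ap k a)
  have hκ0 : κ ≠ 0 := fun h => hka (by rw [hkA, h, zero_add]; exact hA)
  set μ := B A κ with hμdef
  have hμ' : B κ A = -μ := hP.skew κ A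
  have hΨ : ∀ b ∈ U, B b A = 0 → ∃ h ∈ M, ∀ x,
      ap h x = x + B x κ • b + B x b • κ - (μ * B x b) • b := by
    intro b hb hbA
    set b₀ := ap k⁻¹ b with hb₀def
    have hb₀ : b₀ ∈ U := hkU.inv le_rfl b hb
    have hkb₀ : ap k b₀ = b := ap_ap_inv k b
    have hab₀ : B a b₀ = 0 := by
      rw [← hMB k hk, hkb₀, hkA, hP.add_left, hP.sing κ hκ b hb, zero_add]
      exact hP.eq_zero_comm hbA
    obtain ⟨h, hh, hap⟩ := hroot a ha b₀ hb₀ hab₀
    obtain ⟨q, hq, hqap⟩ := hroot A hA (-b) (U.neg_mem hb) (by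
      rw [← neg_one_smul F b, hP.smul_right, hP.eq_zero_comm hbA, mul_zero])
    refine ⟨k * h * k⁻¹ * q, mul_mem (mul_mem (mul_mem hk hh) (inv_mem hk)) hq, fun x => ?_⟩
    have e : ∀ y, ap (k * h * k⁻¹) y = y + B y (κ + A) • b + B y b • (κ + A) := by
      intro y
      obtain ⟨z, rfl⟩ : ∃ z, y = ap k z := ⟨ap k⁻¹ y, (ap_ap_inv k y).symm⟩
      rw [ap_mul, ap_mul, ap_inv_ap, hap, ap_add, ap_add, ap_smul, ap_smul, hkb₀, hkA,
        ← hMB k hk z a, ← hMB k hk z b₀, hkb₀, hkA]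
    rw [ap_mul, e, hqap]
    have hneg : ∀ y, B y (-b) = -B y b := fun y => by
      rw [← neg_one_smul F b, hP.smul_right, neg_one_mul]
    have hnegl : ∀ y, B (-b) y = -B b y := fun y => by
      rw [← neg_one_smul F b, hP.smul_left, neg_one_mul]
    simp only [hneg, hP.add_left, hP.smul_left, hP.add_right, hnegl, hP.sing b hb κ hκ, hbA,
      hP.self, hP.eq_zero_comm hbA, ← hμdef]
    module
  let C : (ι → F) → Prop := fun w => ∀ c, hP.tr w c ∈ M
  have hCmem : ∀ g ∈ M, ∀ w, C w → C (ap g w) := by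
    intro g hg w hC c
    have h := mul_mem (mul_mem hg (hC c)) (inv_mem hg)
    convert h using 1
    refine gl_ext fun x => ?_
    obtain ⟨y, rfl⟩ : ∃ y, x = ap g y := ⟨ap g⁻¹ x, (ap_ap_inv g x).symm⟩
    rw [ap_mul, ap_mul, ap_inv_ap, ap_tr, ap_tr, hMB g hg, ap_add, ap_smul]
  have hCsmul : ∀ (d : F) w, C w → C (d • w) := by
    intro d w hC c
    have h := hC (d * d * c)
    convert h using 1
    refine gl_ext fun x => ?_
    rw [ap_tr, ap_tr, hP.smul_right, smul_smul]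
    congr 2
    ring
  have h2 := hP.two_ne
  -- one centre in `U`
  obtain ⟨p, hp, hp0, hCp⟩ : ∃ p ∈ U, p ≠ 0 ∧ C p := by
    by_cases hμ0 : μ = 0
    · refine ⟨κ, hκ, hκ0, fun c => ?_⟩
      obtain ⟨h, hh, hap⟩ := hΨ ((c / 2) • κ) (U.smul_mem _ hκ)
        (by rw [hP.smul_left, hμ', hμ0, neg_zero, mul_zero])
      convert hh using 1
      refine gl_ext fun x => ?_
      rw [ap_tr, hap, hμ0, hP.smul_right]
      match_scalars <;> field_simp; ring
    · obtain ⟨b, hb, hbA, hb0⟩ := hP.exists_perp_zero A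
      refine ⟨b, hb, hb0, fun c => ?_⟩
      obtain ⟨h₁, hh₁, hap₁⟩ := hΨ ((c * μ⁻¹ / 2) • b) (U.smul_mem _ hb)
        (by rw [hP.smul_left, hbA, mul_zero])
      obtain ⟨h₂, hh₂, hap₂⟩ := hΨ b hb hbA
      obtain ⟨h₃, hh₃, hap₃⟩ := hΨ ((c * μ⁻¹ / 2 + 1) • b) (U.smul_mem _ hb)
        (by rw [hP.smul_left, hbA, mul_zero])
      have hmem := mul_mem (inv_mem hh₃) (mul_mem hh₁ hh₂)
      convert hmem using 1
      refine (eq_inv_mul_iff_mul_eq).2 (gl_ext fun x => ?_)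
      simp only [ap_mul, ap_tr, hap₁, hap₂, hap₃, hP.smul_right, hP.add_left, hP.smul_left,
        sub_eq_add_neg, hP.sing b hb κ hκ, hP.sing b hb b hb, hP.sing κ hκ κ hκ,
        hP.sing κ hκ b hb, ← neg_smul]
      match_scalars <;> field_simp <;> ring
  -- all of `U`
  have hU : ∀ w ∈ U, C w := by
    intro w hw
    by_cases hwp : w ∈ Submodule.span F {p}
    · obtain ⟨d, rfl⟩ := Submodule.mem_span_singleton.1 hwp
      exact hCsmul d p hCp
    obtain ⟨a, ha, hca, hpa⟩ := hP.sep_one hp (U.sub_mem hw hp) fun h => hwp (by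
      obtain ⟨d, hd⟩ := Submodule.mem_span_singleton.1 h
      by_cases hd0 : d = 0
      · exact absurd (by rw [← hd, hd0, zero_smul]) hp0
      · refine Submodule.mem_span_singleton.2 ⟨1 + d⁻¹, ?_⟩
        rw [add_smul, one_smul]
        conv_lhs => arg 2; rw [← hd, smul_smul, inv_mul_cancel₀ hd0, one_smul]
        abel)
    obtain ⟨h, hh, hap⟩ := hroot a ha (w - p) (U.sub_mem hw hp) (hP.eq_zero_comm hca)
    have := hCmem h hh p hCp
    rwa [hap, hpa, hP.sing p hp _ (U.sub_mem hw hp), one_smul, zero_smul, add_zero,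
      add_sub_cancel] at this
  have hU' : ∀ w ∈ U', C w := by
    intro w hw
    have h1 := hCmem sw hswM _ (hU _ (hsw₁.inv hP.finrank_eq.le w hw))
    rwa [ap_ap_inv] at h1
  -- all vectors
  obtain ⟨u, hu, w, hw, rfl⟩ := hP.decomp v
  by_cases hu0 : u = 0
  · subst hu0
    rw [zero_add]; exact hU' w hw c
  by_cases hw0 : w = 0
  · subst hw0
    rw [add_zero]; exact hU u hu c
  suffices h : C (u + w) from h c
  by_cases huw : B u w = 0
  · obtain ⟨u₁', hu₁', -, h1⟩ := hP.symm'.sep' (S := ⊥) bot_le hw (by simpa using hw0)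
    set u₁ := -u₁' with hu₁def
    have hu₁ : u₁ ∈ U := U.neg_mem hu₁'
    have h₁ : B u₁ w = 1 := by
      rw [hu₁def, ← neg_one_smul F u₁', hP.smul_left, hP.skew, h1]; ring
    have hC₁ : C (u₁ + w) := by
      have := hCmem _ (hU' w hw 1) u₁ (hU u₁ hu₁)
      rwa [ap_tr, h₁, one_mul, one_smul] at this
    set u₂ := u - u₁ with hu₂def
    have hu₂ : u₂ ∈ U := U.sub_mem hu hu₁
    have h₂' : B w u₂ = 1 := by
      have e : B u₂ w + B u₁ w = B u w := by rw [← hP.add_left, hu₂def, sub_add_cancel]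
      rw [hP.skew]
      linear_combination -e - huw + h₁
    have := hCmem _ (hU u₂ hu₂ 1) _ hC₁
    rwa [ap_tr, hP.add_left, hP.sing _ hu₁ _ hu₂, h₂', zero_add, one_mul, one_smul, hu₂def,
      show u₁ + w + (u - u₁) = u + w by abel] at this
  · have := hCmem _ (hU' w hw (B u w)⁻¹) u (hU u hu)
    rwa [ap_tr, inv_mul_cancel₀ huw, one_smul] at this

end SymPair

/-- Maximality of the stabiliser of a pair of complementary Lagrangian subspaces. -/
theorem Symp.pair_isMaximalIn_six [Finite F] {f : (ι → F) → (ι → F) → F}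
    (hf : Cfsg.Geo.IsSymplecticForm f) (h2 : (2 : F) ≠ 0) (hn : 5 ≤ Fintype.card ι) {k : ℕ}
    {D : Fin 2 → Submodule F (ι → F)} (hD : Cfsg.Geo.IsMDecomposition k D)
    (hts : ∀ i, Cfsg.Geo.IsTotallySingularFor f (D i)) :
    Cfsg.Geo.IsMaximalIn (isom f) (Cfsg.Geo.decompositionStabilizer D ⊓ isom f) := by
  have hk : 3 ≤ k := by
    have h := Submodule.finrank_add_eq_of_isCompl (isCompl_pair hD)
    rw [hD.finrank_eq, hD.finrank_eq, Module.finrank_fintype_fun_eq_card] at h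
    omega
  have hP : SymPair f (D 0) (D 1) :=
    { add_left := fun x y z => hf.bilinear.add_left x y z
      smul_left := fun c x y => hf.bilinear.smul_left c x y
      skew := fun v w => hf.skew v w
      two_ne := h2
      sep := fun S x hx => by
        obtain ⟨φ, hφ, hφx⟩ := exists_functional_eq_one hx
        obtain ⟨p, rfl⟩ := Symp.exists_eq_fl hf φ
        exact ⟨p, fun s hs => hφ s hs, hφx⟩
      compl := isCompl_pair hD
      sing := fun a ha b hb => hts 0 a ha b hb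
      sing' := fun a ha b hb => hts 1 a ha b hb
      finrank_eq := by rw [hD.finrank_eq, hD.finrank_eq]
      two_le := (by omega : 2 ≤ k).trans_eq (hD.finrank_eq 0).symm }
  have htr : ∀ v c, hP.tr v c = Symp.T hf v c :=
    fun v c => gl_ext fun x => by rw [SymPair.ap_tr, Symp.ap_T hf]
  have hT : ∀ v c, hP.tr v c ∈ isom f := fun v c => htr v c ▸ Symp.T_mem_isom hf v c
  refine ⟨lt_of_le_of_ne inf_le_right fun he => ?_, fun M hHM hMG => ?_⟩
  · obtain ⟨b, hb, -, hb0⟩ := hP.exists_perp_zero 0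
    obtain ⟨a, ha, -, hba⟩ := hP.sep' (S := ⊥) bot_le hb (by simpa using hb0)
    have hm : hP.tr b 1 ∈ Cfsg.Geo.decompositionStabilizer D ⊓ isom f := by
      rw [he]; exact hT _ _
    have hab : f a b ≠ 0 := fun h => one_ne_zero (hba.symm.trans (hP.eq_zero_comm h))
    rcases (mem_pairStab hD).1 hm.1 with ⟨-, h⟩ | ⟨h, -⟩
    · have h' := (D 1).sub_mem (h a ha) ha
      rw [SymPair.ap_tr, add_sub_cancel_left, one_mul] at h'
      have h'' := Submodule.disjoint_def.1 hP.compl.disjoint _ ((D 0).smul_mem _ hb) h'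
      exact hb0 ((smul_eq_zero.1 h'').resolve_left hab)
    · have h' := h b hb
      rw [SymPair.ap_tr, hP.self, mul_zero, zero_smul, add_zero] at h'
      exact hb0 (Submodule.disjoint_def.1 hP.compl.disjoint _ hb h')
  by_cases hM : M ≤ Cfsg.Geo.decompositionStabilizer D
  · exact Or.inl (le_antisymm (le_inf hM hMG) hHM)
  refine Or.inr (le_antisymm hMG (Symp.isom_le_of_T_mem hf fun v c => ?_))
  obtain ⟨g, hgM, hg⟩ := SetLike.not_le_iff_exists.mp hM
  rw [mem_pairStab hD, not_or] at hg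
  rw [← htr]
  have hGB : ∀ g ∈ isom f, ∀ x y, f (ap g x) (ap g y) = f x y := fun g hg x y => hg x y
  have hH : ∀ h ∈ isom f, (MapsIn h (D 0) (D 0) ∧ MapsIn h (D 1) (D 1)) ∨
      (MapsIn h (D 0) (D 1) ∧ MapsIn h (D 1) (D 0)) → h ∈ M :=
    fun h hh hc => hHM ⟨(mem_pairStab hD).2 hc, hh⟩
  obtain ⟨sw, hswG, hsw₁, hsw₂⟩ := hP.exists_swap hT
  refine hP.tr_mem hGB hT hMG hH
    (hP.exists_fix_one (hk.trans_eq (hD.finrank_eq 0).symm) (fun g hg => hGB g (hMG hg))
      (fun a ha b hb hab => ?_) (hH sw hswG (Or.inr ⟨hsw₁, hsw₂⟩)) hsw₁ hsw₂ hgM hg.1 hg.2) v c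
  exact hP.root_mem hT hH ha hb hab

end CfsgLib.Geometric
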