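import Cfsg.Agent.Lib.Geometric.SympPairSix

/-!
The stabiliser of a pair of complementary Lagrangian planes is maximal in the symplectic group of a
space of dimension four over a field of odd order at least five.
-/

namespace CfsgLib.Geometric

open Matrix

variable {ι : Type} [Fintype ι] [DecidableEq ι] {F : Type*} [Field F]
variable {B : (ι → F) → (ι → F) → F} {U U' : Submodule F (ι → F)}

namespace SymPair

variable (hP : SymPair B U U')
include hP

variable {G : Subgroup (GL ι F)} (hT : ∀ v c, hP.tr v c ∈ G)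

include hT in
/-- The hyperbolic element of a pair of vectors. -/
lemma exists_hyp {w w' : ι → F} (hw : B w w' = 1) {t : F} (ht : t ≠ 0) :
    ∃ h ∈ G, ∀ x, ap h x = x + ((t - 1) * B x w') • w - ((t⁻¹ - 1) * B x w) • w' := by
  have hw' : B w' w = -1 := by rw [hP.skew, hw]
  refine ⟨hP.tr w t * hP.tr w' t⁻¹ * hP.tr w t * (hP.tr w (-1) * hP.tr w' (-1) * hP.tr w (-1)),
    mul_mem (mul_mem (mul_mem (hT _ _) (hT _ _)) (hT _ _))
      (mul_mem (mul_mem (hT _ _) (hT _ _)) (hT _ _)), fun x => ?_⟩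
  simp only [ap_mul, ap_tr, hP.add_left, hP.smul_left, hP.self, hw, hw']
  match_scalars <;> field_simp <;> ring

/-- Two independent vectors span a plane. -/
lemma span_two {V : Submodule F (ι → F)} (hV : Module.finrank F V = 2) {a b : ι → F} (ha : a ∈ V)
    (hb : b ∈ V) (ha0 : a ≠ 0) (hab : b ∉ Submodule.span F {a}) {y : ι → F} (hy : y ∈ V) :
    ∃ c d : F, y = c • a + d • b := by
  have hli : LinearIndependent F ![a, b] := by
    rw [LinearIndependent.pair_iff]
    intro s r h
    by_cases hr : r = 0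
    · rw [hr, zero_smul, add_zero] at h
      exact ⟨(smul_eq_zero.1 h).resolve_right ha0, hr⟩
    · refine absurd (Submodule.mem_span_singleton.2 ⟨-(r⁻¹ * s), ?_⟩) hab
      have e : r • b = -(s • a) := by rw [eq_neg_iff_add_eq_zero, add_comm, h]
      rw [neg_smul, mul_smul, ← smul_neg, ← e, smul_smul, inv_mul_cancel₀ hr, one_smul]
  have h := Submodule.eq_of_le_of_finrank_le
    (show Submodule.span F (Set.range ![a, b]) ≤ V from
      Submodule.span_le.2 (by rintro _ ⟨i, rfl⟩; fin_cases i <;> assumption))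
    (by rw [finrank_span_eq_card hli, hV, Fintype.card_fin])
  rw [← h, Submodule.mem_span_range_iff_exists_fun] at hy
  obtain ⟨c, hc⟩ := hy
  exact ⟨c 0, c 1, by rw [← hc, Fin.sum_univ_two]; rfl⟩

variable (hGB : ∀ g ∈ G, ∀ x y, B (ap g x) (ap g y) = B x y)

include hT hGB in
/-- A group properly containing the stabiliser of a pair of planes has an element fixing only one. -/
theorem exists_fix_one_four (h4 : Module.finrank F U = 2) {t : F} (ht : t ≠ 0) (ht1 : t * t ≠ 1)
    {M : Subgroup (GL ι F)} (hMG : M ≤ G)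
    (hH : ∀ g ∈ G, (MapsIn g U U ∧ MapsIn g U' U') ∨ (MapsIn g U U' ∧ MapsIn g U' U) → g ∈ M)
    {g : GL ι F} (hg : g ∈ M) (hg₁ : ¬ (MapsIn g U U ∧ MapsIn g U' U'))
    (hg₂ : ¬ (MapsIn g U U' ∧ MapsIn g U' U)) :
    ∃ k ∈ M, MapsIn k U U ∧ ∃ x ∈ U', ap k x ∉ U' := by
  by_contra hcon
  push Not at hcon
  have hno : ∀ k ∈ M, MapsIn k U U → MapsIn k U' U' := hcon
  have hd := hP.finrank_eq
  obtain ⟨sw, hswG, hsw₁, hsw₂⟩ := hP.exists_swap hT
  have hsw : sw ∈ M := hH sw hswG (Or.inr ⟨hsw₁, hsw₂⟩)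
  have hno' : ∀ k ∈ M, MapsIn k U' U' → MapsIn k U U := by
    intro k hk h
    have h1 := hno _ (mul_mem (mul_mem hsw hk) (inv_mem hsw))
      ((hsw₂.mul h).mul (hsw₂.inv hd.ge))
    have h2 := ((hsw₁.inv hd.le).mul h1).mul hsw₁
    intro x hx
    have := h2 x hx
    simpa [mul_assoc, ap_mul, ap_inv_ap] using this
  have hMB : ∀ g ∈ M, ∀ x y, B (ap g x) (ap g y) = B x y := fun g hg => hGB g (hMG hg)
  have h2 := hP.two_ne
  have ht' : t - 1 ≠ 0 := fun h => ht1 (by rw [sub_eq_zero.1 h, one_mul])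
  have hta : t⁻¹ - 1 ≠ 0 := fun h => ht1 (by rw [inv_eq_one.1 (sub_eq_zero.1 h), one_mul])
  -- an element moving `U` keeps no vector of `U` in it
  have hA : ∀ m ∈ M, ∀ u ∈ U, u ≠ 0 → ap m⁻¹ u ∈ U → MapsIn m U U := by
    intro m hm u hu hu0 humU
    by_contra hmU
    obtain ⟨x, hx, hxU⟩ : ∃ x ∈ U, ap m x ∉ U := by simpa [MapsIn] using hmU
    obtain ⟨r, hr, a, ha, hra⟩ := hP.decomp (ap m x)
    have ha0 : a ≠ 0 := fun h => hxU (by rw [hra, h, add_zero]; exact hr)
    have hua : B u a = 0 := by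
      have h := hMB m hm (ap m⁻¹ u) x
      rw [ap_ap_inv, hra, hP.add_right, hP.sing u hu r hr, hP.sing _ humU x hx, zero_add] at h
      exact h
    obtain ⟨v₀, hv₀, -, hav⟩ := hP.symm'.sep' (S := ⊥) bot_le ha (by simpa using ha0)
    set v := -v₀ with hvdef
    have hv : v ∈ U := U.neg_mem hv₀
    have hva : B v a = 1 := by
      rw [hvdef, ← neg_one_smul F v₀, hP.smul_left, hP.skew, hav]; ring
    have huv : v ∉ Submodule.span F {u} := fun h => by
      obtain ⟨c, hc⟩ := Submodule.mem_span_singleton.1 h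
      rw [← hc, hP.smul_left, hua, mul_zero] at hva
      exact one_ne_zero hva.symm
    have huv' : u ∉ Submodule.span F {v} := fun h => by
      obtain ⟨c, hc⟩ := Submodule.mem_span_singleton.1 h
      rw [← hc, hP.smul_left, hva, mul_one] at hua
      exact hu0 (by rw [← hc, hua, zero_smul])
    obtain ⟨w, hw, hvw, huw⟩ := hP.sep_one hu hv huv'
    have hwa : a ∉ Submodule.span F {w} := fun h => by
      obtain ⟨c, hc⟩ := Submodule.mem_span_singleton.1 h
      rw [← hc, hP.smul_right, hvw, mul_zero] at hva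
      exact one_ne_zero hva.symm
    obtain ⟨ρ, s, hrs⟩ := hP.span_two h4 hu hv hu0 huv hr
    set z := a + s • v with hzdef
    have hmz : ap m⁻¹ z ∈ U := by
      have e : z = ap m x - ρ • u := by rw [hra, hrs, hzdef]; abel
      rw [e, ap_sub, ap_inv_ap, ap_smul]
      exact U.sub_mem hx (U.smul_mem _ humU)
    have hz0 : ap m⁻¹ z ∉ Submodule.span F {ap m⁻¹ u} := fun h => by
      obtain ⟨c, hc⟩ := Submodule.mem_span_singleton.1 h
      have e := congrArg (fun y => B (ap m y) w) hc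
      simp only [ap_smul, ap_ap_inv, hP.smul_left, huw, hzdef, hP.add_left, hvw,
        hP.sing' a ha w hw] at e
      have hz : z = 0 := by
        have h' := congrArg (ap m) hc
        rw [ap_smul, ap_ap_inv, ap_ap_inv] at h'
        rw [← h', show c = 0 by simpa using e, zero_smul]
      refine ha0 (Submodule.disjoint_def.mp hP.compl.disjoint _ ?_ ha)
      rw [eq_neg_of_add_eq_zero_left hz]
      exact U.neg_mem (U.smul_mem _ hv)
    have hmu0 : ap m⁻¹ u ≠ 0 := fun h => hu0 (by rw [← ap_ap_inv m u, h, ap_zero])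
    -- the elements keeping the image of `U` keep that of `U'`
    have stab : ∀ l ∈ M, ap m⁻¹ (ap l u) ∈ U → ap m⁻¹ (ap l z) ∈ U →
        ∀ y, ap m⁻¹ y ∈ U' → ap m⁻¹ (ap l y) ∈ U' := by
      intro l hl hlu hlz y hy
      have hU : MapsIn (m⁻¹ * l * m) U U := fun q hq => by
        obtain ⟨c, e, hce⟩ := hP.span_two h4 humU hmz hmu0 hz0 hq
        have hce' : ap m q = c • u + e • z := by
          rw [hce, ap_add, ap_smul, ap_smul, ap_ap_inv, ap_ap_inv]
        rw [ap_mul, ap_mul, hce', ap_add, ap_add, ap_smul, ap_smul, ap_smul, ap_smul]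
        exact U.add_mem (U.smul_mem _ hlu) (U.smul_mem _ hlz)
      have h' := hno _ (mul_mem (mul_mem (inv_mem hm) hl) hm) hU _ hy
      rwa [ap_mul, ap_mul, ap_ap_inv] at h'
    obtain ⟨l, hlG, hl⟩ := hP.exists_hyp hT huw ht
    have hwu : B w u = -1 := by rw [hP.skew, huw]
    have hlM : l ∈ M := hH l hlG (Or.inl ⟨fun q hq => by
        rw [hl, hP.sing q hq u hu, mul_zero, zero_smul, sub_zero]
        exact U.add_mem hq (U.smul_mem _ hu),
      fun q hq => by
        rw [hl, hP.sing' q hq w hw, mul_zero, zero_smul, add_zero]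
        exact U'.sub_mem hq (U'.smul_mem _ hw)⟩)
    have hlu : ap l u = t • u := by
      rw [hl, huw, hP.self]; match_scalars <;> ring
    have hlz : ap l z = z := by
      simp only [hl, hzdef, hP.add_left, hP.smul_left, hP.sing' a ha w hw, hvw, hP.sing v hv u hu,
        hP.eq_zero_comm hua]
      simp
    have hst := stab l hlM (by rw [hlu, ap_smul]; exact U.smul_mem _ humU) (by rw [hlz]; exact hmz)
    have hlw : ap l w = t⁻¹ • w := by
      rw [hl, hwu, hP.self]; match_scalars <;> ring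
    obtain ⟨y, hy, hyu⟩ : ∃ y, ap m⁻¹ y ∈ U' ∧ B y u ≠ 0 := by
      obtain ⟨q, hq, -, huq⟩ := hP.sep' (S := ⊥) bot_le humU (by simpa using hmu0)
      refine ⟨ap m q, by rwa [ap_inv_ap], fun h => ?_⟩
      rw [← ap_ap_inv m u, hMB m hm, hP.skew, huq] at h
      simp at h
    have hwW : ap m⁻¹ w ∈ U' := by
      have h1 := hst y hy
      have h3 := hst _ h1
      set κ := (t⁻¹ - 1) * B y u with hκ
      have e : t • (ap l y - y) - (ap l (ap l y) - ap l y) =
          (κ * (t⁻¹ - t)) • w := by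
        rw [hl (ap l y), hl y]
        simp only [hP.add_left, hP.smul_left, sub_eq_add_neg, ← neg_smul, hP.self, huw, hwu, hκ]
        match_scalars <;> ring
      have hne : κ * (t⁻¹ - t) ≠ 0 := mul_ne_zero (mul_ne_zero hta hyu) fun h => ht1 (by
        have h' := congrArg (· * t) (sub_eq_zero.1 h)
        simpa [inv_mul_cancel₀ ht] using h'.symm)
      have h' : ap m⁻¹ ((κ * (t⁻¹ - t)) • w) ∈ U' := by
        rw [← e, ap_sub, ap_smul, ap_sub, ap_sub]
        exact U'.sub_mem (U'.smul_mem _ (U'.sub_mem h1 hy)) (U'.sub_mem h3 h1)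
      rwa [ap_smul, Submodule.smul_mem_iff _ hne] at h'
    obtain ⟨h, hhM, hh⟩ := hP.root_mem hT hH ha hu (hP.eq_zero_comm hua)
    have hhu : ap h u = u := by rw [hh, hua, hP.self]; simp
    have hhz : ap h z = z + s • u := by
      simp only [hh, hzdef, hP.add_left, hP.smul_left, hP.self, hva, hP.eq_zero_comm hua,
        hP.sing v hv u hu]
      simp
    have haW : ap m⁻¹ a ∈ U' := by
      have h1 := stab h hhM (by rw [hhu]; exact humU)
        (by rw [hhz, ap_add, ap_smul]; exact U.add_mem hmz (U.smul_mem _ humU)) w hwW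
      rw [hh, hP.sing' w hw a ha, hwu, zero_smul, add_zero, neg_one_smul, ← sub_eq_add_neg,
        ap_sub] at h1
      simpa using U'.sub_mem hwW h1
    have hw0 : w ≠ 0 := fun h0 => by
      rw [h0, ← zero_smul F (0 : ι → F), hP.smul_right, zero_mul] at huw
      exact zero_ne_one huw
    have hU' : MapsIn m⁻¹ U' U' := fun q hq => by
      obtain ⟨c, e, rfl⟩ := hP.span_two (hd.trans h4) hw ha hw0 hwa hq
      rw [ap_add, ap_smul, ap_smul]
      exact U'.add_mem (U'.smul_mem _ hwW) (U'.smul_mem _ haW)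
    have hm' : MapsIn m U' U' := by simpa using hU'.inv le_rfl
    exact hmU (hno' m hm hm')
  -- `g` moves `U` to a plane meeting neither `U` nor `U'`
  have hgU : ¬ MapsIn g U U := fun h => hg₁ ⟨h, hno g hg h⟩
  have hgU' : ¬ MapsIn g U U' := fun h => by
    refine hg₂ ⟨h, ?_⟩
    have h1 := hno _ (mul_mem hsw hg) (hsw₂.mul h)
    intro x hx
    have := (hsw₁.inv hd.le).mul h1 x hx
    simpa [mul_assoc, ap_mul, ap_inv_ap] using this
  have hnot : ∀ u ∈ U, ap g⁻¹ u ∈ U → u = 0 := fun u hu h => by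
    by_contra hu0
    exact hgU (hA g hg u hu hu0 h)
  have hnot' : ∀ u ∈ U, ap g⁻¹ u ∈ U' → u = 0 := fun u hu h => by
    by_contra hu0
    have h1 := hA (g * sw) (mul_mem hg hsw) u hu hu0
      (by rw [_root_.mul_inv_rev, ap_mul]; exact hsw₁.inv hd.le _ h)
    have hm : MapsIn g U' U := by
      have := h1.mul (hsw₁.inv hd.le)
      simpa [mul_assoc] using this
    have h3 := hno _ (mul_mem hg hsw) h1
    have := h3.mul (hsw₂.inv hd.ge)
    exact hgU' (by simpa [mul_assoc] using this)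
  choose p hp p' hp' hpp using fun y => hP.decomp (ap g⁻¹ y)
  obtain ⟨x, hx, hq⟩ : ∃ x ∈ U, B (p x) (p' x) ≠ 0 := by
    by_contra! h
    have huniq : ∀ {a b a' b' : ι → F}, a ∈ U → a' ∈ U → b ∈ U' → b' ∈ U' →
        a + b = a' + b' → a = a' ∧ b = b' := by
      intro a b a' b' ha ha' hb hb' e
      have e' : a - a' = b' - b := by rw [sub_eq_sub_iff_add_eq_add, e, add_comm]
      have h0 := Submodule.disjoint_def.mp hP.compl.disjoint _ (U.sub_mem ha ha')
        (e' ▸ U'.sub_mem hb' hb)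
      exact ⟨sub_eq_zero.1 h0, (sub_eq_zero.1 (e' ▸ h0)).symm⟩
    have hcross : ∀ y₁ ∈ U, ∀ y₂ ∈ U, B (p y₁) (p' y₂) = 0 := by
      intro y₁ hy₁ y₂ hy₂
      have e : p y₁ + p y₂ = p (y₁ + y₂) ∧ p' y₁ + p' y₂ = p' (y₁ + y₂) :=
        huniq (U.add_mem (hp _) (hp _)) (hp _) (U'.add_mem (hp' _) (hp' _)) (hp' _)
          (by rw [← hpp, ap_add, hpp, hpp]; abel)
      have h1 := h _ (U.add_mem hy₁ hy₂)
      rw [← e.1, ← e.2, hP.add_left, hP.add_right, hP.add_right, h y₁ hy₁, h y₂ hy₂] at h1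
      have h3 : B (p y₁ + p' y₁) (p y₂ + p' y₂) = 0 := by
        rw [← hpp, ← hpp, ← hMB g hg, ap_ap_inv, ap_ap_inv]; exact hP.sing _ hy₁ _ hy₂
      simp only [hP.add_left, hP.add_right, hP.sing _ (hp y₁) _ (hp y₂),
        hP.sing' _ (hp' y₁) _ (hp' y₂)] at h3
      rw [hP.skew (p' y₁)] at h3
      have h5 : (2 : F) * B (p y₁) (p' y₂) = 0 := by linear_combination h1 + h3
      exact (mul_eq_zero.1 h5).resolve_left h2
    obtain ⟨y₂, hy₂, -, hy₂0⟩ := hP.exists_perp_zero 0
    have hp'0 : p' y₂ ≠ 0 := fun h0 => hy₂0 (hnot _ hy₂ (by rw [hpp, h0, add_zero]; exact hp _))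
    let P : U →ₗ[F] U :=
      { toFun := fun y => ⟨p y, hp _⟩
        map_add' := fun y z => Subtype.ext (huniq (hp _) (U.add_mem (hp _) (hp _)) (hp' _)
          (U'.add_mem (hp' y) (hp' z)) (by
            show p ((y : ι → F) + z) + p' ((y : ι → F) + z) = _
            rw [← hpp, ap_add, hpp, hpp]; abel)).1
        map_smul' := fun c y => Subtype.ext (huniq (hp _) (U.smul_mem c (hp _)) (hp' _)
          (U'.smul_mem c (hp' y)) (by
            show p (c • (y : ι → F)) + p' (c • (y : ι → F)) = _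
            rw [← hpp, ap_smul, hpp, smul_add])).1 }
    have hinj : Function.Injective P := (injective_iff_map_eq_zero P).2 fun y hy => by
      have h0 : p y = 0 := congrArg Subtype.val hy
      exact Subtype.ext (hnot' _ y.2 (by rw [hpp, h0, zero_add]; exact hp' _))
    obtain ⟨b, hb, -, hb1⟩ := hP.symm'.sep' (S := ⊥) bot_le (hp' y₂) (by simpa using hp'0)
    obtain ⟨y, hy⟩ := (LinearMap.injective_iff_surjective.1 hinj) ⟨b, hb⟩
    have hb0 : B b (p' y₂) = 0 := by
      have := hcross y y.2 y₂ hy₂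
      rwa [show p y = b from congrArg Subtype.val hy] at this
    rw [hP.eq_zero_comm hb0] at hb1
    exact zero_ne_one hb1
  -- an element fixing a vector of `U` and moving `U`
  set q := B (p x) (p' x) with hqdef
  obtain ⟨l, hlG, hl⟩ := hP.exists_hyp hT (w := p x) (w' := q⁻¹ • p' x)
    (by rw [hP.smul_right, inv_mul_cancel₀ hq]) ht
  have hlM : l ∈ M := hH l hlG (Or.inl ⟨fun y hy => by
      rw [hl, hP.sing y hy _ (hp x), mul_zero, zero_smul, sub_zero]
      exact U.add_mem hy (U.smul_mem _ (hp x)),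
    fun y hy => by
      rw [hl, hP.smul_right, hP.sing' y hy _ (hp' x), mul_zero, mul_zero, zero_smul, add_zero]
      exact U'.sub_mem hy (U'.smul_mem _ (U'.smul_mem _ (hp' x)))⟩)
  set k := g * l * g⁻¹ with hk
  have hkM : k ∈ M := mul_mem (mul_mem hg hlM) (inv_mem hg)
  obtain ⟨b, hb, hbz, hb0⟩ := hP.exists_perp_zero (ap g (p' x))
  have hb' : B (ap g⁻¹ b) (p' x) = 0 := by rw [← hMB g hg, ap_ap_inv]; exact hbz
  have hb'' : B (ap g⁻¹ b) (p x) = 0 := by
    have h := hP.sing b hb x hx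
    rw [← ap_ap_inv g b, ← ap_ap_inv g x, hMB g hg, hpp x, hP.add_right, hb', add_zero] at h
    exact h
  have hkb : ap k b = b := by
    rw [hk, ap_mul, ap_mul, hl, hP.smul_right, hb', hb'']
    simp [ap_ap_inv]
  have hkU := hA k hkM b hb hb0 (by
    rw [show ap k⁻¹ b = b by nth_rw 1 [← hkb]; rw [ap_inv_ap]]; exact hb)
  have hfin := hP.sing x hx _ (hkU x hx)
  rw [hk, ap_mul, ap_mul, ← ap_ap_inv g x, hMB g hg, ap_inv_ap, hl] at hfin
  simp only [hpp x, sub_eq_add_neg, ← neg_smul, hP.add_left, hP.add_right, hP.smul_right, hP.self,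
    hP.sing _ (hp x) _ (hp x), hP.sing' _ (hp' x) _ (hp' x), hP.skew (p' x) (p x), ← hqdef] at hfin
  field_simp at hfin
  have e : q * q * (t * t - 1) = 0 := by linear_combination -hfin
  exact mul_ne_zero (mul_ne_zero hq hq) (sub_ne_zero.2 ht1) e

end SymPair

/-- Maximality of the stabiliser of a pair of complementary Lagrangian planes. -/
theorem Symp.pair_isMaximalIn_four [Fintype F] {f : (ι → F) → (ι → F) → F}
    (hf : Cfsg.Geo.IsSymplecticForm f) (h2 : (2 : F) ≠ 0) (h5 : 4 ≤ Fintype.card F)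
    {D : Fin 2 → Submodule F (ι → F)}
    (hD : Cfsg.Geo.IsMDecomposition 2 D)
    (hts : ∀ i, Cfsg.Geo.IsTotallySingularFor f (D i)) :
    Cfsg.Geo.IsMaximalIn (isom f) (Cfsg.Geo.decompositionStabilizer D ⊓ isom f) := by
  classical
  have hP : SymPair f (D 0) (D 1) :=
    { add_left := fun x y z => hf.bilinear.add_left x y z
      smul_left := fun c x y => hf.bilinear.smul_left c x y
      skew := fun v w => hf.skew v w
      two_ne := h2
      sep := fun S x hx => by
        obtain ⟨φ, hφ, hφx⟩ := exists_functional_eq_one hx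
        obtain ⟨p, rfl⟩ := Symp.exists_eq_fl hf φ
        exact ⟨p, fun s hs => hφ s hs, hφx⟩
      compl := isCompl_pair hD
      sing := fun a ha b hb => hts 0 a ha b hb
      sing' := fun a ha b hb => hts 1 a ha b hb
      finrank_eq := by rw [hD.finrank_eq, hD.finrank_eq]
      two_le := (hD.finrank_eq 0).ge }
  obtain ⟨t, ht, ht1⟩ : ∃ t : F, t ≠ 0 ∧ t * t ≠ 1 := by
    by_contra! h
    have : Fintype.card F ≤ 3 := by
      rw [← Finset.card_univ]
      refine (Finset.card_le_card (t := {0, 1, -1}) fun x _ => ?_).trans Finset.card_le_three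
      by_cases hx : x = 0
      · simp [hx]
      · rcases mul_self_eq_one_iff.1 (h x hx) with r | r <;> simp [r]
    omega
  have htr : ∀ v c, hP.tr v c = Symp.T hf v c :=
    fun v c => gl_ext fun x => by rw [SymPair.ap_tr, Symp.ap_T hf]
  have hT : ∀ v c, hP.tr v c ∈ isom f := fun v c => htr v c ▸ Symp.T_mem_isom hf v c
  refine ⟨lt_of_le_of_ne inf_le_right fun he => ?_, fun M hHM hMG => ?_⟩
  · obtain ⟨b, hb, -, hb0⟩ := hP.exists_perp_zero 0
    obtain ⟨a, ha, -, hba⟩ := hP.sep' (S := ⊥) bot_le hb (by simpa using hb0)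
    have hm : hP.tr b 1 ∈ Cfsg.Geo.decompositionStabilizer D ⊓ isom f := by
      rw [he]; exact hT _ _
    have hab : f a b ≠ 0 := fun h => one_ne_zero (hba.symm.trans (hP.eq_zero_comm h))
    rcases (mem_pairStab hD).1 hm.1 with ⟨-, h⟩ | ⟨h, -⟩
    · have h' := (D 1).sub_mem (h a ha) ha
      rw [SymPair.ap_tr, add_sub_cancel_left, one_mul] at h'
      have h'' := Submodule.disjoint_def.1 hP.compl.disjoint _ ((D 0).smul_mem _ hb) h'
      exact hb0 ((smul_eq_zero.1 h'').resolve_left hab)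
    · have h' := h b hb
      rw [SymPair.ap_tr, hP.self, mul_zero, zero_smul, add_zero] at h'
      exact hb0 (Submodule.disjoint_def.1 hP.compl.disjoint _ hb h')
  by_cases hM : M ≤ Cfsg.Geo.decompositionStabilizer D
  · exact Or.inl (le_antisymm (le_inf hM hMG) hHM)
  refine Or.inr (le_antisymm hMG (Symp.isom_le_of_T_mem hf fun v c => ?_))
  obtain ⟨g, hgM, hg⟩ := SetLike.not_le_iff_exists.mp hM
  rw [mem_pairStab hD, not_or] at hg
  rw [← htr]
  have hGB : ∀ g ∈ isom f, ∀ x y, f (ap g x) (ap g y) = f x y := fun g hg x y => hg x y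
  have hH : ∀ h ∈ isom f, (MapsIn h (D 0) (D 0) ∧ MapsIn h (D 1) (D 1)) ∨
      (MapsIn h (D 0) (D 1) ∧ MapsIn h (D 1) (D 0)) → h ∈ M :=
    fun h hh hc => hHM ⟨(mem_pairStab hD).2 hc, hh⟩
  exact hP.tr_mem hGB hT hMG hH
    (hP.exists_fix_one_four hT hGB (hD.finrank_eq 0) ht ht1 hMG hH hgM hg.1 hg.2) v c

end CfsgLib.Geometric
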