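import Cfsg.Agent.Lib.Geometric.Decomp
import Cfsg.Agent.Lib.Geometric.Symp

/-!
Over two elements the stabiliser of a decomposition into orthogonal hyperbolic planes lies
properly inside an orthogonal group, so it is not maximal in the symplectic group.
-/

namespace CfsgLib.Geometric

open Matrix

variable {ι : Type} [Fintype ι] [DecidableEq ι] {F : Type*} [Field F] [Fintype F]
variable {f : (ι → F) → (ι → F) → F} (hf : Cfsg.Geo.IsSymplecticForm f)
include hf

namespace Symp

theorem exists_between_planes {t : ℕ} {D : Fin t → Submodule F (ι → F)}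
    (hD : Cfsg.Geo.IsNondegenerateMDecomposition f 2 D) (hq : Fintype.card F = 2)
    (hcard : 5 ≤ Fintype.card ι) :
    ∃ K : Subgroup (GL ι F),
      Cfsg.Geo.decompositionStabilizer D ⊓ isom f < K ∧ K < isom f := by
  classical
  have hd := hD.decomp
  have ht : 3 ≤ t := by have := Decomp.card_le hd; omega
  have h2 : (2 : F) = 0 := by
    have := Nat.cast_card_eq_zero F
    rw [hq] at this; simpa using this
  have h01 : ∀ s : F, s = 0 ∨ s = 1 := by
    intro s
    by_contra hs
    push Not at hs
    have h1 := Finset.card_le_univ ({0, 1, s} : Finset F)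
    have h3 : ({0, 1, s} : Finset F).card = 3 := by
      rw [Finset.card_insert_of_notMem (by simp [Ne.symm hs.1]),
        Finset.card_insert_of_notMem (by simp [Ne.symm hs.2]), Finset.card_singleton]
    omega
  -- the sign identity inside one plane
  have hplane : ∀ l, ∀ x ∈ D l, ∀ y ∈ D l, (if x + y = 0 then (0 : F) else 1) =
      (if x = 0 then 0 else 1) + (if y = 0 then 0 else 1) + f x y := by
    intro l x hx y hy
    by_cases hx0 : x = 0
    · simp [hx0, zero_left hf]
    by_cases hy0 : y = 0
    · simp [hy0, zero_right hf]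
    have h11 : (1 : F) + 1 = 0 := by linear_combination h2
    by_cases hxy : x + y = 0
    · rw [if_pos hxy, if_neg hx0, if_neg hy0, eq_neg_of_add_eq_zero_left hxy, neg_left hf,
        hf.alternating, neg_zero, add_zero, h11]
    have hxy' : y ∉ Submodule.span F {x} := by
      intro h
      obtain ⟨c, rfl⟩ := Submodule.mem_span_singleton.mp h
      rcases h01 c with rfl | rfl
      · simp at hy0
      · exact hxy (by rw [one_smul, ← two_smul F, h2, zero_smul])
    have hne : f x y ≠ 0 := by
      intro h0
      obtain ⟨z, hz, hzne⟩ := (hD.nondegenerate l x hx hx0).2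
      have hsp : Submodule.span F {x, y} = D l := by
        refine Submodule.eq_of_le_of_finrank_le ?_ ?_
        · rw [Submodule.span_le]
          rintro w (rfl | rfl) <;> assumption
        · have hlt : Submodule.span F {x} < Submodule.span F {x, y} := by
            refine lt_of_le_of_ne (Submodule.span_mono (by simp)) fun he => hxy' ?_
            rw [he]; exact Submodule.subset_span (by simp)
          have := Submodule.finrank_lt_finrank_of_lt hlt
          rw [finrank_span_singleton hx0] at this
          rw [hd.finrank_eq l]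
          omega
      obtain ⟨p, q, rfl⟩ := Submodule.mem_span_pair.mp (hsp.symm ▸ hz)
      simp [hf.bilinear.add_right, hf.bilinear.smul_right, hf.alternating, h0] at hzne
    rw [if_neg hxy, if_neg hx0, if_neg hy0, (h01 _).resolve_left hne, h11, zero_add]
  have hf_comp : ∀ x y, f x y = ∑ l, f (Decomp.comp hd l x) (Decomp.comp hd l y) := by
    intro x y
    conv_lhs => rw [← Decomp.sum_comp hd y]
    rw [show f x (∑ l, Decomp.comp hd l y) = ∑ l, f x (Decomp.comp hd l y) from
      map_sum ((fl hf).flip x) _ _]
    refine Finset.sum_congr rfl fun l _ => ?_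
    conv_lhs => rw [← Decomp.sum_comp hd x]
    rw [show f (∑ r, Decomp.comp hd r x) (Decomp.comp hd l y) =
      ∑ r, f (Decomp.comp hd r x) (Decomp.comp hd l y) from map_sum (fl hf _) _ _]
    rw [Finset.sum_eq_single l (fun r _ hr =>
      hD.orthogonal r l hr _ (Decomp.comp_mem hd r x) _ (Decomp.comp_mem hd l y))
      (fun h => absurd (Finset.mem_univ l) h)]
  have hquad : ∀ x y, Decomp.weight hd (x + y) =
      Decomp.weight hd x + Decomp.weight hd y + f x y := by
    intro x y
    rw [hf_comp x y]
    simp only [Decomp.weight, ← Finset.sum_add_distrib]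
    refine Finset.sum_congr rfl fun l _ => ?_
    simp only [Decomp.ind, map_add]
    convert hplane l _ (Decomp.comp_mem hd l x) _ (Decomp.comp_mem hd l y)
  choose U hU hU0 using Decomp.exists_ne_zero_mem hd
  let a : Fin t := ⟨0, by omega⟩
  let b : Fin t := ⟨1, by omega⟩
  let c : Fin t := ⟨2, by omega⟩
  have nab : a ≠ b := by simp [a, b, Fin.ext_iff]
  have nac : a ≠ c := by simp [a, c, Fin.ext_iff]
  have nbc : b ≠ c := by simp [b, c, Fin.ext_iff]
  obtain ⟨v, hv, hne⟩ := (hD.nondegenerate a (U a) (hU a) (hU0 a)).1
  have hv0 : v ≠ 0 := fun h => hne (by rw [h, zero_left hf])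
  refine ⟨Cfsg.isometryGroup F (Decomp.weight hd) ⊓ isom f, ?_, ?_⟩
  · refine lt_of_le_of_ne (inf_le_inf_right _ (Decomp.decompStab_le hd)) fun he => ?_
    set p := U a + U b + U c with hp
    have hwp : Decomp.weight hd p = 1 := by
      rw [hp, hquad, Decomp.weight_add_of_mem hd nab (hU a) (hU b) (hU0 a) (hU0 b),
        Decomp.weight_of_mem hd (hU c) (hU0 c), hf.bilinear.add_left,
        hD.orthogonal a c nac _ (hU a) _ (hU c), hD.orthogonal b c nbc _ (hU b) _ (hU c)]
      linear_combination h2
    have hvp : f v p = 1 := by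
      rw [hp, hf.bilinear.add_right, hf.bilinear.add_right,
        hD.orthogonal a b nab _ hv _ (hU b), hD.orthogonal a c nac _ hv _ (hU c), add_zero,
        add_zero]
      exact (h01 _).resolve_left hne
    have hm : T hf p 1 ∈ Cfsg.Geo.decompositionStabilizer D ⊓ isom f := by
      rw [he]
      refine ⟨fun x _ => ?_, T_mem_isom hf p 1⟩
      change Decomp.weight hd (ap (T hf p 1) x) = Decomp.weight hd x
      rw [ap_T hf, one_mul]
      rcases h01 (f x p) with h | h
      · rw [h, zero_smul, add_zero]
      · rw [h, one_smul, hquad, hwp, h]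
        linear_combination h2
    refine Decomp.not_mem_decompStab hd nbc hv ?_ ?_ hm.1
    · rw [ap_T hf, hvp, one_mul, one_smul]
      simp [hp, Decomp.comp_of_mem hd hv, Decomp.comp_of_mem hd (hU a),
        Decomp.comp_of_mem hd (hU b), Decomp.comp_of_mem hd (hU c), nab.symm, nbc, hU0]
    · rw [ap_T hf, hvp, one_mul, one_smul]
      simp [hp, Decomp.comp_of_mem hd hv, Decomp.comp_of_mem hd (hU a),
        Decomp.comp_of_mem hd (hU b), Decomp.comp_of_mem hd (hU c), nac.symm, nbc.symm, hU0]
  · refine lt_of_le_of_ne inf_le_right fun he => ?_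
    have hm : T hf (U a + U b) 1 ∈ Cfsg.isometryGroup F (Decomp.weight hd) ⊓ isom f := by
      rw [he]; exact T_mem_isom hf _ _
    have h := hm.1 v v
    change Decomp.weight hd (ap _ v) = Decomp.weight hd v at h
    have hvp : f v (U a + U b) = 1 := by
      rw [hf.bilinear.add_right, hD.orthogonal a b nab _ hv _ (hU b), add_zero]
      exact (h01 _).resolve_left hne
    rw [ap_T hf, one_mul, hvp, one_smul, hquad,
      Decomp.weight_add_of_mem hd nab (hU a) (hU b) (hU0 a) (hU0 b), hvp] at h
    exact one_ne_zero (α := F) (by linear_combination h - h2)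

end Symp

end CfsgLib.Geometric
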