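import Cfsg.Agent.Lib.Geometric.SympQuad

/-!
The isometry group of a quadratic form is maximal in the symplectic group from dimension four on,
for fields of even order at least four.
-/

set_option autoImplicit false
set_option linter.unusedSectionVars false

namespace CfsgLib.Geometric

open Matrix

variable {ι : Type} [Fintype ι] [DecidableEq ι] {F : Type*} [Field F]
variable {f : (ι → F) → (ι → F) → F} (hf : Cfsg.Geo.IsSymplecticForm f)
include hf

namespace Symp

variable [Fintype F] (heven : ringChar F = 2) {Q : (ι → F) → F}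
  (hQs : ∀ (c : F) (v : ι → F), Q (c • v) = c ^ 2 * Q v)
  (hpol : ∀ u v, QuadraticMap.polar Q u v = f u v)
include heven hQs hpol

/-- Vectors with prescribed product with one vector and prescribed value of the form. -/
lemma exists_one (hdim : 4 ≤ Fintype.card ι) {a : ι → F} (ha : a ≠ 0) (s r : F) :
    ∃ z, f z a = s ∧ Q z = r := by
  obtain ⟨p, -, hp⟩ := exists_perp_ne hf (U := ⊥) (x := a) (by simpa using ha)
  have hp' : f p a ≠ 0 := hp ∘ (eq_zero_comm hf).mp
  obtain ⟨z₀, hz₀⟩ : ∃ z, z = (s / f p a) • p := ⟨_, rfl⟩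
  have h0 : f z₀ a = s := by rw [hz₀, hf.bilinear.smul_left, div_mul_cancel₀ _ hp']
  obtain ⟨e, he, hQe⟩ : ∃ e ∈ perp hf (Submodule.span F {a, z₀}), Q e ≠ 0 := by
    by_contra hc
    push Not at hc
    set U := Submodule.span F {a, z₀}
    have hle : perp hf U ≤ U := fun x hx => mem_of_forall_perp hf fun y hy => by
      have := quad_add hf hQs hpol x y
      rw [hc x hx, hc y hy, hc _ ((perp hf U).add_mem hx hy)] at this
      simpa using this.symm
    have hU : Module.finrank F U ≤ 2 := by
      classical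
      have := finrank_span_finset_le_card (R := F) ({a, z₀} : Finset (ι → F))
      rw [Finset.coe_insert, Finset.coe_singleton] at this
      exact this.trans Finset.card_le_two
    have h1 := card_le_finrank_add_finrank_perp hf U
    have hEq := Submodule.eq_of_le_of_finrank_le hle (by omega)
    have haU : a ∈ perp hf U := by rw [hEq]; exact Submodule.subset_span (Or.inl rfl)
    have hs : s = 0 := by
      rw [← h0]
      exact (eq_zero_comm hf).mp (haU z₀ (Submodule.subset_span (by simp)))
    have h2 : U ≤ Submodule.span F {a} := Submodule.span_le.2 (by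
      rintro x (rfl | rfl)
      · exact Submodule.mem_span_singleton_self _
      · rw [SetLike.mem_coe, hz₀, hs, zero_div, zero_smul]
        exact zero_mem _)
    have h3 := Submodule.finrank_mono h2
    have h4 := Submodule.finrank_mono hle
    rw [finrank_span_singleton ha] at h3
    omega
  obtain ⟨l, hl⟩ := exists_mul_self_eq hf heven ((r - Q z₀) / Q e)
  refine ⟨z₀ + l • e, ?_, ?_⟩
  · rw [hf.bilinear.add_left, hf.bilinear.smul_left, he a (Submodule.subset_span (by simp)),
      mul_zero, add_zero, h0]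
  · rw [quad_add hf hQs hpol, hQs, hf.bilinear.smul_right,
      (eq_zero_comm hf).mp (he z₀ (Submodule.subset_span (by simp))), pow_two, hl]
    field_simp
    ring

/-- A vector of prescribed value meeting two orthogonal vectors of equal value. -/
lemma exists_two {w v : ι → F} (hw : w ≠ 0) (hdep : v ∉ Submodule.span F {w}) (hwv : f w v = 0)
    (hQ : Q w = Q v) {t : F} (ht : t ≠ 1) (r : F) : ∃ z, f z w = 1 ∧ f z v = t ∧ Q z = r := by
  have : CharP F 2 := heven ▸ ringChar.charP F
  obtain ⟨p, hp, hpv⟩ := exists_perp_ne hf hdep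
  have hdep' : w ∉ Submodule.span F {v} := by
    intro h
    obtain ⟨c, hc⟩ := Submodule.mem_span_singleton.mp h
    have hc0 : c ≠ 0 := fun h0 => hw (by rw [← hc, h0, zero_smul])
    exact hdep (Submodule.mem_span_singleton.mpr ⟨c⁻¹, by
      rw [← hc, smul_smul, inv_mul_cancel₀ hc0, one_smul]⟩)
  obtain ⟨q, hq, hqw⟩ := exists_perp_ne hf hdep'
  rw [mem_perp_span hf] at hp hq
  have hpv' : f p v ≠ 0 := hpv ∘ (eq_zero_comm hf).mp
  have hqw' : f q w ≠ 0 := hqw ∘ (eq_zero_comm hf).mp
  obtain ⟨z₀, hz₀⟩ : ∃ z, z = (1 / f q w) • q + (t / f p v) • p := ⟨_, rfl⟩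
  have h0a : f z₀ w = 1 := by
    rw [hz₀, hf.bilinear.add_left, hf.bilinear.smul_left, hf.bilinear.smul_left, hp]
    field_simp
    ring
  have h0b : f z₀ v = t := by
    rw [hz₀, hf.bilinear.add_left, hf.bilinear.smul_left, hf.bilinear.smul_left, hq]
    field_simp
    ring
  have hvw := (eq_zero_comm hf).mp hwv
  by_cases hQw : Q w = 0
  · refine ⟨z₀ + (r - Q z₀) • w, ?_, ?_, ?_⟩
    · rw [hf.bilinear.add_left, hf.bilinear.smul_left, hf.alternating, mul_zero, add_zero, h0a]
    · rw [hf.bilinear.add_left, hf.bilinear.smul_left, hwv, mul_zero, add_zero, h0b]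
    · rw [quad_add hf hQs hpol, hQs, hf.bilinear.smul_right, h0a, hQw]
      ring
  obtain ⟨e, he⟩ : ∃ e, e = t • w + v := ⟨_, rfl⟩
  have hze : f z₀ e = 0 := by
    rw [he, hf.bilinear.add_right, hf.bilinear.smul_right, h0a, h0b, mul_one]
    exact CharTwo.add_self_eq_zero t
  have hQe : Q e ≠ 0 := by
    rw [he, quad_add hf hQs hpol, hQs, hf.bilinear.smul_left, hwv, ← hQ, mul_zero, add_zero]
    intro h
    have h' : (t + 1) * (t + 1) * Q w = 0 := by
      linear_combination h + t * Q w * CharTwo.two_eq_zero (R := F)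
    rcases mul_eq_zero.mp h' with h' | h'
    · exact ht (CharTwo.add_eq_zero.mp (mul_self_eq_zero.mp h'))
    · exact hQw h'
  obtain ⟨l, hl⟩ := exists_mul_self_eq hf heven ((r - Q z₀) / Q e)
  refine ⟨z₀ + l • e, ?_, ?_, ?_⟩
  · rw [he, hf.bilinear.add_left, hf.bilinear.smul_left, hf.bilinear.add_left, hf.bilinear.smul_left,
      hf.alternating, hvw, mul_zero, add_zero, mul_zero, add_zero, h0a]
  · rw [he, hf.bilinear.add_left, hf.bilinear.smul_left, hf.bilinear.add_left, hf.bilinear.smul_left,
      hf.alternating, hwv, mul_zero, add_zero, mul_zero, add_zero, h0b]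
  · rw [quad_add hf hQs hpol, hQs, hf.bilinear.smul_right, hze, pow_two, hl]
    field_simp
    ring

/-- The isometries of a quadratic form are maximal among the isometries of its polar form. -/
theorem quad_isMaximalIn_four (hdim : 4 ≤ Fintype.card ι) {t₀ : F} (ht₀ : t₀ ≠ 0) (ht₁ : t₀ ≠ 1) :
    Cfsg.Geo.IsMaximalIn (isom f) (Cfsg.Geo.quadSimilarityGroup Q ⊓ isom f) := by
  have : CharP F 2 := heven ▸ ringChar.charP F
  have hQ0 : Q 0 = 0 := by simpa using hQs 0 0
  obtain ⟨i, j, hij⟩ : ∃ i j : ι, i ≠ j :=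
    Fintype.exists_pair_of_one_lt_card (by omega)
  have hsingle : ∀ k : ι, (Pi.single k 1 : ι → F) ≠ 0 := fun k => by simp
  -- an auxiliary vector outside a line
  have haux : ∀ a : ι → F, ∃ b, b ∉ Submodule.span F {a} := by
    intro a
    by_contra hc
    push Not at hc
    obtain ⟨c, hc1⟩ := Submodule.mem_span_singleton.mp (hc (Pi.single i 1))
    obtain ⟨d, hd⟩ := Submodule.mem_span_singleton.mp (hc (Pi.single j 1))
    have h1 : c * a i = 1 := by simpa using congrFun hc1 i
    have h2 : c * a j = 0 := by simpa [hij.symm] using congrFun hc1 j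
    have h3 : d * a j = 1 := by simpa using congrFun hd j
    rcases mul_eq_zero.mp h2 with h | h
    · simp [h] at h1
    · simp [h] at h3
  obtain ⟨u₀, hu₀⟩ := (hf.nondegenerate _ (hsingle i)).1
  have hV : ∃ u v, f u v ≠ 0 := ⟨_, _, hu₀⟩
  refine ⟨lt_of_le_of_ne inf_le_right fun he => ?_, fun M hHM hMS => ?_⟩
  · obtain ⟨w, hw₁, hw₂⟩ := exists_one hf heven hQs hpol hdim (hsingle i) 1 0
    have hm : T hf w 1 ∈ Cfsg.Geo.quadSimilarityGroup Q ⊓ isom f := by
      rw [he]; exact T_mem_isom hf _ _
    have := eq_of_mem_quadSimilarity hf hpol hV hm (Pi.single i 1)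
    rw [ap_T hf, quad_add hf hQs hpol, hQs, hw₂, hf.bilinear.smul_right,
      hf.skew (Pi.single i 1) w, hw₁] at this
    simp at this
  by_cases hM : M ≤ Cfsg.Geo.quadSimilarityGroup Q
  · exact Or.inl (le_antisymm (le_inf hM hMS) hHM)
  refine Or.inr (le_antisymm hMS (isom_le_of_T_mem hf fun v c => ?_))
  obtain ⟨g, hgM, hg⟩ := SetLike.not_le_iff_exists.mp hM
  have hgI := hMS hgM
  -- the difference of the two forms is the square of a functional
  set d : (ι → F) → F := fun x => Q (ap g⁻¹ x) - Q x with hd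
  have hdadd : ∀ x y, d (x + y) = d x + d y := by
    intro x y
    have h1 := (mem_isom_iff.mp (inv_mem hgI)) x y
    simp only [hd, ap_add, quad_add hf hQs hpol, h1]
    ring
  have hdsmul : ∀ (c : F) x, d (c • x) = c * c * d x := by
    intro c x
    simp only [hd, ap_smul, hQs]
    ring
  choose sq hsq using exists_mul_self_eq hf heven
  have hinj : ∀ {p q : F}, p * p = q * q → p = q := fun {p q} h => by
    rw [← sub_eq_zero, ← mul_self_eq_zero]
    linear_combination h + (q * q - p * q) * CharTwo.two_eq_zero (R := F)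
  let L : (ι → F) →ₗ[F] F :=
    { toFun := fun x => sq (d x)
      map_add' := fun x y => hinj (by
        rw [hsq, hdadd]
        linear_combination -(hsq (d x)) - hsq (d y) -
          (sq (d x) * sq (d y)) * CharTwo.two_eq_zero (R := F))
      map_smul' := fun c x => hinj (by
        simp only [RingHom.id_apply, smul_eq_mul, hsq, hdsmul]
        linear_combination -(c * c) * hsq (d x)) }
  obtain ⟨a, ha⟩ := exists_eq_fl hf L
  have hQ' : ∀ x, Q (ap g⁻¹ x) = Q x + f x a * f x a := by
    intro x
    have : f x a = sq (d x) := by rw [← fl_apply hf, ha]; rfl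
    rw [this, hsq, hd]
    ring
  have ha0 : a ≠ 0 := by
    intro h
    apply hg
    refine ⟨1, fun x => ?_⟩
    have := hQ' (ap g x)
    rw [ap_inv_ap, h, zero_right hf, mul_zero, add_zero] at this
    rw [← ap_def, ← this, Units.val_one, one_mul]
  have hO : ∀ v, Q v ≠ 0 → T hf v (Q v)⁻¹ ∈ M := fun v hv =>
    hHM (T_mem_quadSimilarity hf heven hQs hpol hv)
  have hO' : ∀ v, Q v + f v a * f v a ≠ 0 → T hf v (Q v + f v a * f v a)⁻¹ ∈ M := by
    intro v hv
    rw [← hQ'] at hv ⊢
    have := mul_mem (mul_mem hgM (hO _ hv)) (inv_mem hgM)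
    rwa [conj_T hf hgI, ap_ap_inv] at this
  -- transitivity of `M` on non-zero vectors with a given value
  have one : ∀ w v, f w v ≠ 0 → Q w = Q v → ∀ c, T hf w c ∈ M → T hf v c ∈ M := by
    intro w v hne hwv c hc
    have hQs' : Q (w + v) = f w v := by
      rw [quad_add hf hQs hpol, hwv]
      linear_combination Q v * CharTwo.two_eq_zero (R := F)
    have hr := hO (w + v) (by rwa [hQs'])
    have h2 := mul_mem (mul_mem hr hc) (inv_mem hr)
    rw [conj_T hf (T_mem_isom hf _ _)] at h2
    convert h2 using 2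
    rw [ap_T hf, hQs', hf.bilinear.add_right, hf.alternating w, zero_add, inv_mul_cancel₀ hne,
      one_smul, ← add_assoc, ← two_smul F w, CharTwo.two_eq_zero, zero_smul, zero_add]
  have move : ∀ w v, w ≠ 0 → v ≠ 0 → Q w = Q v → ∀ c, T hf w c ∈ M → T hf v c ∈ M := by
    intro w v hw hv hwv c hc
    by_cases hne : f w v ≠ 0
    · exact one w v hne hwv c hc
    obtain ⟨z, hz₁, hz₂, hz₃⟩ : ∃ z, f w z ≠ 0 ∧ f z v ≠ 0 ∧ Q z = Q w := by
      by_cases hdep : v ∈ Submodule.span F {w}
      · obtain ⟨l, rfl⟩ := Submodule.mem_span_singleton.mp hdep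
        obtain ⟨z, hz₁, hz₃⟩ := exists_one hf heven hQs hpol hdim hw 1 (Q w)
        refine ⟨z, ?_, ?_, hz₃⟩
        · rw [hf.skew, hz₁]; simp
        · rw [hf.bilinear.smul_right, hz₁, mul_one]
          exact fun h => hv (by rw [h, zero_smul])
      · obtain ⟨z, hz₁, hz₂, hz₃⟩ := exists_two hf heven hQs hpol hw hdep (not_not.mp hne) hwv ht₁ (Q w)
        refine ⟨z, ?_, ?_, hz₃⟩
        · rw [hf.skew, hz₁]; simp
        · rw [hz₂]; exact ht₀
    exact one z v hz₂ (hz₃.trans hwv) c (one w z hz₁ hz₃.symm c hc)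
  by_cases hv : v = 0
  · have : T hf v c = 1 := gl_ext fun x => by simp [ap_T hf, hv]
    rw [this]; exact one_mem M
  by_cases hc : c = 0
  · rw [hc, T_zero_right hf]; exact one_mem M
  obtain ⟨t, ht⟩ := exists_mul_self_eq hf heven (c⁻¹ - Q v)
  obtain ⟨w, hw₁, hw₂⟩ := exists_one hf heven hQs hpol hdim ha0 t (Q v)
  have hsum : Q w + f w a * f w a = c⁻¹ := by rw [hw₁, hw₂, ht]; ring
  have hw : w ≠ 0 := by
    rintro rfl
    rw [zero_left hf, hQ0, mul_zero, add_zero] at hsum
    exact inv_ne_zero hc hsum.symm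
  have := hO' w (by rw [hsum]; exact inv_ne_zero hc)
  rw [hsum, inv_inv] at this
  exact move w v hw hv hw₂ c this

end Symp

end CfsgLib.Geometric
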