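import Cfsg.Agent.Lib.Geometric.UnitaryTensorMax.Gen

/-!
An overgroup of the factorwise special isometries of a tensor power of a unitary form which holds
a transvection at a product of isotropic vectors contains the special unitary group.
-/

set_option autoImplicit false
set_option linter.unusedSectionVars false

namespace CfsgLib.Geometric.Unitary

open Matrix

variable {ι : Type} [Fintype ι] [DecidableEq ι] {F : Type*} [Field F] {σ : F ≃+* F}

section Factor

variable {f : (ι → F) → (ι → F) → F} (hf : IsSkewForm σ f)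
include hf

lemma perp_bot_nondeg_on : Cfsg.Geo.IsNondegenerateOn f (perp hf (⊥ : Submodule F (ι → F))) := by
  intro v _ hv0
  obtain ⟨⟨x, hx⟩, y, hy⟩ := hf.nondegenerate v hv0
  exact ⟨⟨x, mem_perp_bot hf x, hx⟩, y, mem_perp_bot hf y, hy⟩

/-- A plane argument: two orthogonal centres give their sum by means of a third one meeting both. -/
lemma fullAt_add {M : Subgroup (GL ι F)} (hMI : M ≤ isom f) {v w z : ι → F} (hv : f v v = 0)
    (hw : f w w = 0) (hz : f z z = 0) (fv : FullAt hf M v) (fw : FullAt hf M w)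
    (fz : FullAt hf M z) (hvw : f v w = 0) {b : F} (hb : σ b = b) (hb0 : b ≠ 0) (hb1 : b + 1 ≠ 0)
    (hvz : f v z ≠ 0) (hwz : f w z = b * f v z) : FullAt hf M (v + w) := by
  set N := f v z
  set z' := (σ N)⁻¹ • z with hz'
  have hz'0 : f z' z' = 0 := isotropic_smul hf hz _
  have e1 : f v z' = 1 := by
    rw [hz', smul_right hf, map_inv₀, hf.involutive, inv_mul_cancel₀ hvz]
  have e2 : f w z' = b := by
    rw [hz', smul_right hf, map_inv₀, hf.involutive, hwz]
    field_simp
  have fz' : FullAt hf M z' := fz.smul hf _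
  -- the three moves
  have g1 := fz' hz'0 1 (map_one σ)
  have w1 := fw.conj hf g1 (hMI g1)
  rw [ap_T hf, e2, one_mul] at w1
  have g2 := fv hv (-b⁻¹) (by rw [map_neg, map_inv₀, hb])
  have w2 := w1.conj hf g2 (hMI g2)
  have e3 : f (w + b • z') v = -b := by
    rw [hf.add_left, hf.smul_left, (eq_zero_comm hf).mp hvw, hf.skew z' v, e1, map_one]
    ring
  rw [ap_T hf, e3] at w2
  have g3 := fz' hz'0 (-(b / (b + 1))) (by rw [map_neg, map_div₀, map_add, map_one, hb])
  have w3 := w2.conj hf g3 (hMI g3)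
  have e4 : f (w + b • z' + (-b⁻¹ * -b) • v) z' = b + 1 := by
    simp only [hf.add_left, hf.smul_left b, hf.smul_left (-b⁻¹ * -b), hz'0, e1, e2]
    field_simp
    ring
  rw [ap_T hf, e4] at w3
  convert w3 using 1
  rw [show -b⁻¹ * -b = (1 : F) by field_simp, show -(b / (b + 1)) * (b + 1) = -b by field_simp]
  module

variable [Finite F]

lemma perp_line_nondeg {x : ι → F} (hx : f x x ≠ 0) :
    Cfsg.Geo.IsNondegenerateOn f (perp hf (Submodule.span F {x})) := by
  refine perp_nondegenerate hf fun v hv hv0 => ?_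
  obtain ⟨a, rfl⟩ := Submodule.mem_span_singleton.mp hv
  have ha : a ≠ 0 := fun h => hv0 (by rw [h, zero_smul])
  refine ⟨⟨x, Submodule.mem_span_singleton_self x, ?_⟩, x, Submodule.mem_span_singleton_self x, ?_⟩
  · rw [smul_right hf]
    exact mul_ne_zero ((map_ne_zero σ).mpr ha) hx
  · rw [hf.smul_left]
    exact mul_ne_zero ha hx

/-- Every vector is a sum of two isotropic ones. -/
lemma exists_iso_sum (hn : 3 ≤ Fintype.card ι) (x : ι → F) :
    ∃ v₁ v₂, f v₁ v₁ = 0 ∧ f v₂ v₂ = 0 ∧ x = v₁ + v₂ := by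
  by_cases hx : f x x = 0
  · exact ⟨x, 0, hx, zero_left hf 0, (add_zero x).symm⟩
  have hS := perp_line_nondeg hf hx
  obtain ⟨e, he, hee⟩ := exists_anisotropic hf hS fun hb => by
    have h1 := card_le_finrank_add_finrank_perp hf (Submodule.span F {x})
    rw [hb, finrank_bot, finrank_span_singleton (show x ≠ 0 from fun h => hx (by
      rw [h, zero_left hf]))] at h1
    omega
  obtain ⟨v₁, v₂, -, -, h1, h2, h⟩ := exists_isotropic_add hf (S := ⊤) (x := x) (e := e) trivial
    trivial hee ((eq_zero_comm hf).mp ((mem_perp_span hf).mp he))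
  exact ⟨v₁, v₂, h1, h2, h⟩

/-- An isotropic vector not orthogonal to two given ones. -/
lemma exists_iso_nonperp_two (hn : 3 ≤ Fintype.card ι) {a b : ι → F} (ha : a ≠ 0) (hb : b ≠ 0) :
    ∃ z, f z z = 0 ∧ f z a ≠ 0 ∧ f z b ≠ 0 := by
  have one : ∀ a : ι → F, a ≠ 0 → ∃ z, f z z = 0 ∧ f z a ≠ 0 := by
    intro a ha
    obtain ⟨y, hy⟩ := (hf.nondegenerate a ha).1
    obtain ⟨v₁, v₂, h1, h2, rfl⟩ := exists_iso_sum hf hn y
    by_contra h
    push Not at h
    exact hy (by rw [hf.add_left, h v₁ h1, h v₂ h2, add_zero])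
  obtain ⟨z₁, hz₁, hz₁a⟩ := one a ha
  by_cases h1 : f z₁ b ≠ 0
  · exact ⟨z₁, hz₁, hz₁a, h1⟩
  push Not at h1
  obtain ⟨z₂, hz₂, hz₂b⟩ := one b hb
  by_cases h2 : f z₂ a ≠ 0
  · exact ⟨z₂, hz₂, h2, hz₂b⟩
  push Not at h2
  by_cases h12 : f z₁ z₂ = 0
  · refine ⟨z₁ + z₂, ?_, ?_, ?_⟩
    · simp [hf.add_left, add_right hf, hz₁, hz₂, h12, (eq_zero_comm hf).mp h12]
    · rwa [hf.add_left, h2, add_zero]
    · rwa [hf.add_left, h1, zero_add]
  · have hl : f (ap (T hf z₂ 1 hz₂) z₁) (ap (T hf z₂ 1 hz₂) z₁) = 0 :=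
      isotropic_ap hf (T_mem hf hz₂ (map_one σ)).1 hz₁
    rw [ap_T hf, one_mul] at hl
    refine ⟨_, hl, ?_, ?_⟩
    · rwa [hf.add_left, hf.smul_left, h2, mul_zero, add_zero]
    · rw [hf.add_left, hf.smul_left, h1, zero_add]
      exact mul_ne_zero h12 hz₂b

/-- Isotropic vectors which are not orthogonal are exchanged by a special isometry. -/
lemma exists_move_nonperp (hn : 3 ≤ Fintype.card ι) {x y : ι → F} (hxx : f x x = 0)
    (hyy : f y y = 0) (hxy : f x y ≠ 0) :
    ∃ g ∈ isom f ⊓ Cfsg.Geo.specialLinear ι F, ap g x = y := by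
  have hS := perp_bot_nondeg_on hf
  obtain ⟨e, he, hee, hex, hey⟩ := exists_anisotropic_perp_pair hf hS
    (hn.trans (by simpa using card_le_finrank_add_finrank_perp hf (⊥ : Submodule F (ι → F))))
    (mem_perp_bot hf x) (mem_perp_bot hf y) hxx hyy hxy
  have hli : y ∉ Submodule.span F {x} := by
    intro h
    obtain ⟨c, rfl⟩ := Submodule.mem_span_singleton.mp h
    rw [smul_right hf, hxx, mul_zero] at hxy
    exact hxy rfl
  have hx0 : x ≠ 0 := fun h => hxy (by rw [h, zero_left hf])
  obtain ⟨u, -, huu, hxu, hyu⟩ := exists_isotropic_common hf hS (mem_perp_bot hf x)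
    (mem_perp_bot hf y) hli hx0 he hee hex hey
  obtain ⟨hvu, c, hc, hm⟩ := exists_E_move hf huu hxu hyu (hyy.trans hxx.symm)
  exact ⟨_, E_mem hf hc, hm⟩

/-- The special isometries are transitive on the isotropic vectors. -/
lemma exists_sisom_move (hn : 3 ≤ Fintype.card ι) {x y : ι → F} (hxx : f x x = 0) (hyy : f y y = 0)
    (hx : x ≠ 0) (hy : y ≠ 0) : ∃ g ∈ isom f ⊓ Cfsg.Geo.specialLinear ι F, ap g x = y := by
  obtain ⟨z, hzz, hzx, hzy⟩ := exists_iso_nonperp_two hf hn hx hy
  obtain ⟨g, hg, hgx⟩ := exists_move_nonperp hf hn hxx hzz (hzx ∘ (eq_zero_comm hf).mp)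
  obtain ⟨h, hh, hhz⟩ := exists_move_nonperp hf hn hzz hyy hzy
  exact ⟨h * g, mul_mem hh hg, by rw [ap_mul, hgx, hhz]⟩

/-- In dimension at least four the vectors orthogonal to an isotropic vector are sums of isotropic
ones orthogonal to it. -/
lemma exists_iso_sum_perp (hn : 4 ≤ Fintype.card ι) {q x : ι → F} (hq : f q q = 0)
    (hx : f x q = 0) :
    ∃ v₁ v₂, f v₁ v₁ = 0 ∧ f v₂ v₂ = 0 ∧ f v₁ q = 0 ∧ f v₂ q = 0 ∧ x = v₁ + v₂ := by
  by_cases hxx : f x x = 0
  · exact ⟨x, 0, hxx, zero_left hf 0, hx, zero_left hf q, (add_zero x).symm⟩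
  obtain ⟨e, he, hee⟩ : ∃ e ∈ perp hf (Submodule.span F {q, x}), f e e ≠ 0 := by
    by_contra hcon
    push Not at hcon
    set U := Submodule.span F {q, x}
    have hle : perp hf U ≤ U := fun z hz => mem_of_forall_perp hf fun p hp =>
      totallySingular_of_isotropic hf hcon hz hp
    have h2 : Module.finrank F U ≤ 2 := by
      classical
      have := finrank_span_finset_le_card (R := F) ({q, x} : Finset (ι → F))
      rw [Finset.coe_insert, Finset.coe_singleton] at this
      exact this.trans Finset.card_le_two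
    have h3 := card_le_finrank_add_finrank_perp hf U
    have h4 := Submodule.finrank_mono hle
    have heq : perp hf U = U := Submodule.eq_of_le_of_finrank_le hle (by omega)
    exact hxx (hcon x (by rw [heq]; exact Submodule.subset_span (by simp)))
  obtain ⟨v₁, v₂, h1, h2, i1, i2, h⟩ := exists_isotropic_add hf (S := LinearMap.ker (fl hf q))
    (x := x) (e := e) (LinearMap.mem_ker.mpr (by simpa using hx))
    (LinearMap.mem_ker.mpr (by simpa using he q (Submodule.subset_span (by simp)))) hee
    ((eq_zero_comm hf).mp (he x (Submodule.subset_span (by simp))))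
  simp only [LinearMap.mem_ker, fl_apply] at h1 h2
  exact ⟨v₁, v₂, i1, i2, h1, h2, h⟩

end Factor

/-- A tensor power of a skew-hermitian form, given by its products of vectors. -/
structure FormPower {f : (ι → F) → (ι → F) → F} (hf : IsSkewForm σ f) {κ : Type} [Fintype κ]
    [DecidableEq κ] {k : ℕ} (f₁ : (Fin k → F) → (Fin k → F) → F)
    (P : (κ → Fin k → F) → (ι → F)) : Prop where
  skew₁ : IsSkewForm σ f₁
  map_add : ∀ (x : κ → Fin k → F) (i : κ) (a b : Fin k → F),
    P (Function.update x i (a + b)) = P (Function.update x i a) + P (Function.update x i b)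
  map_smul : ∀ (x : κ → Fin k → F) (i : κ) (c : F) (a : Fin k → F),
    P (Function.update x i (c • a)) = c • P (Function.update x i a)
  gram : ∃ ν : F, ν ≠ 0 ∧ ∀ x y, f (P x) (P y) = ν * ∏ l, f₁ (x l) (y l)
  span : Submodule.span F (Set.range P) = ⊤

namespace FormPower

variable {f : (ι → F) → (ι → F) → F} {hf : IsSkewForm σ f} {κ : Type} [Fintype κ] [DecidableEq κ]
  {k : ℕ} {f₁ : (Fin k → F) → (Fin k → F) → F} {P : (κ → Fin k → F) → (ι → F)}
  (hP : FormPower hf f₁ P) {M : Subgroup (GL ι F)}
include hP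

lemma f_eq_zero {x y : κ → Fin k → F} (i : κ) (h : f₁ (x i) (y i) = 0) : f (P x) (P y) = 0 := by
  obtain ⟨ν, -, hν⟩ := hP.gram
  rw [hν, Finset.prod_eq_zero (Finset.mem_univ i) h, mul_zero]

lemma f_ne_zero {x y : κ → Fin k → F} (h : ∀ l, f₁ (x l) (y l) ≠ 0) : f (P x) (P y) ≠ 0 := by
  obtain ⟨ν, hν0, hν⟩ := hP.gram
  rw [hν]
  exact mul_ne_zero hν0 (Finset.prod_ne_zero_iff.mpr fun l _ => h l)

lemma smul_update (x : κ → Fin k → F) (i : κ) (c : F) :
    c • P x = P (Function.update x i (c • x i)) := by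
  rw [hP.map_smul, Function.update_eq_self]

lemma map_zero_slot {x : κ → Fin k → F} (i : κ) (h : x i = 0) : P x = 0 := by
  have := hP.smul_update x i 0
  rw [zero_smul, zero_smul, ← h, Function.update_eq_self] at this
  exact this.symm

lemma isotropic {x : κ → Fin k → F} (i : κ) (h : f₁ (x i) (x i) = 0) : f (P x) (P x) = 0 :=
  hP.f_eq_zero i h

section Overgroup

variable [Finite F] (hk : 3 ≤ k) (hT2 : 2 ≤ Fintype.card κ) (hMI : M ≤ isom f)
  (hmove : ∀ i : κ, ∀ A ∈ isom f₁ ⊓ Cfsg.Geo.specialLinear (Fin k) F, ∃ g ∈ M, ∀ x,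
    ap g (P x) = P (Function.update x i (ap A (x i))))
include hk hT2 hMI hmove

/-- A property closed under conjugation in `M` passes from one product to another which differs in
isotropic slots. -/
lemma transport (Q : (ι → F) → Prop) (hQ : ∀ g ∈ M, ∀ v, Q v → Q (ap g v))
    {x y : κ → Fin k → F}
    (h : ∀ l, y l = x l ∨ (x l ≠ 0 ∧ f₁ (x l) (x l) = 0 ∧ y l ≠ 0 ∧ f₁ (y l) (y l) = 0))
    (hx : Q (P x)) : Q (P y) := by
  suffices H : ∀ s : Finset κ, Q (P fun l => if l ∈ s then y l else x l) by
    simpa using H Finset.univ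
  intro s
  induction s using Finset.induction with
  | empty => simpa using hx
  | insert i s hi ih =>
    set x' : κ → Fin k → F := fun l => if l ∈ s then y l else x l with hx'
    have he : (fun l => if l ∈ insert i s then y l else x l) = Function.update x' i (y i) := by
      funext l
      rcases eq_or_ne l i with rfl | hl <;> simp [hx', *]
    rw [he]
    have hi' : x' i = x i := if_neg hi
    rcases h i with he' | ⟨h1, h2, h3, h4⟩
    · rwa [he', ← hi', Function.update_eq_self]
    · obtain ⟨A, hA, hAi⟩ := exists_sisom_move hP.skew₁ (by simpa using hk) h2 h4 h1 h3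
      obtain ⟨g, hg, hgA⟩ := hmove i A hA
      have := hQ g hg _ ih
      rwa [hgA, hi', hAi] at this

lemma fullAt_transport {x y : κ → Fin k → F}
    (h : ∀ l, y l = x l ∨ (x l ≠ 0 ∧ f₁ (x l) (x l) = 0 ∧ y l ≠ 0 ∧ f₁ (y l) (y l) = 0))
    (hx : FullAt hf M (P x)) : FullAt hf M (P y) :=
  hP.transport hk hT2 hMI hmove (FullAt hf M) (fun _ hg _ hv => hv.conj hf hg (hMI hg)) h hx

variable {w : κ → Fin k → F} (hw : ∀ l, w l ≠ 0 ∧ f₁ (w l) (w l) = 0) {c : F} (hc0 : c ≠ 0)
  (hc : σ c = c) (hroot : ∀ h : f (P w) (P w) = 0, T hf (P w) c h ∈ M)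
include hw hc0 hc hroot

/-- All products of isotropic vectors are full centres. -/
lemma fullAt_iso {x : κ → Fin k → F} (hx : ∀ l, f₁ (x l) (x l) = 0) : FullAt hf M (P x) := by
  obtain ⟨i⟩ : Nonempty κ := Fintype.card_pos_iff.mp (by omega)
  intro hxx d hd
  by_cases h0 : ∃ l, x l = 0
  · obtain ⟨l, hl⟩ := h0
    rw [show T hf (P x) d hxx = 1 from gl_ext fun z => by simp [ap_T hf, hP.map_zero_slot l hl]]
    exact one_mem M
  push Not at h0
  by_cases hd0 : d = 0
  · rw [show T hf (P x) d hxx = 1 from gl_ext fun z => by simp [ap_T hf, hd0]]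
    exact one_mem M
  obtain ⟨a, ha⟩ := exists_norm hf (c := d / c) (by rw [map_div₀, hd, hc])
  have ha0 : a ≠ 0 := fun h => by
    rw [h, zero_mul, eq_comm, div_eq_zero_iff] at ha
    exact ha.elim hd0 hc0
  have hy : ∀ l, Function.update x i (a • x i) l ≠ 0 ∧
      f₁ (Function.update x i (a • x i) l) (Function.update x i (a • x i) l) = 0 := by
    intro l
    rcases eq_or_ne l i with rfl | hl
    · rw [Function.update_self]
      exact ⟨smul_ne_zero ha0 (h0 l), isotropic_smul hP.skew₁ (hx l) a⟩
    · rw [Function.update_of_ne hl]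
      exact ⟨h0 l, hx l⟩
  have := hP.transport hk hT2 hMI hmove (fun v => ∀ h : f v v = 0, T hf v c h ∈ M)
    (fun g hg v hv h => by
      have hv0 : f v v = 0 := by rwa [mem_isom_iff.mp (hMI hg)] at h
      rw [← conj_T hf (hMI hg) hv0]
      exact mul_mem (mul_mem hg (hv hv0)) (inv_mem hg))
    (x := w) (y := Function.update x i (a • x i))
    (fun l => Or.inr ⟨(hw l).1, (hw l).2, (hy l).1, (hy l).2⟩) hroot
  rw [← hP.smul_update] at this
  have h2 := this (isotropic_smul hf hxx a)
  rw [T_smul hf hxx] at h2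
  convert h2 using 2
  field_simp at ha
  linear_combination -ha

variable (hq : (∃ b : F, σ b = b ∧ b ≠ 0 ∧ b + 1 ≠ 0) ∨ 4 ≤ k)
include hq

/-- A product with all slots but one isotropic is a full centre. -/
lemma fullAt_one {x : κ → Fin k → F} (i : κ) (hx : ∀ l, l ≠ i → f₁ (x l) (x l) = 0) :
    FullAt hf M (P x) := by
  have h₁ := hP.skew₁
  by_cases hxi : f₁ (x i) (x i) = 0
  · exact hP.fullAt_iso hk hT2 hMI hmove hw hc0 hc hroot fun l => by
      rcases eq_or_ne l i with rfl | hl
      exacts [hxi, hx l hl]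
  by_cases h0 : ∃ l, x l = 0
  · obtain ⟨l, hl⟩ := h0
    intro hxx d _
    rw [show T hf (P x) d hxx = 1 from gl_ext fun z => by simp [ap_T hf, hP.map_zero_slot l hl]]
    exact one_mem M
  push Not at h0
  obtain ⟨j, hj⟩ : ∃ j, j ≠ i := Fintype.exists_ne_of_one_lt_card (by omega) i
  have hk' : 3 ≤ Fintype.card (Fin k) := by simpa using hk
  have hiso : ∀ (y : κ → Fin k → F), (∀ l, f₁ (y l) (y l) = 0) → FullAt hf M (P y) := fun y hy =>
    hP.fullAt_iso hk hT2 hMI hmove hw hc0 hc hroot hy
  rcases hq with ⟨b, hb, hb0, hb1⟩ | hk4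
  · obtain ⟨e, he, hee⟩ := exists_anisotropic h₁ (perp_line_nondeg h₁ hxi) fun hbot => by
      have h1 := card_le_finrank_add_finrank_perp h₁ (Submodule.span F {x i})
      rw [hbot, finrank_bot, finrank_span_singleton (h0 i)] at h1
      omega
    obtain ⟨u₁, u₂, -, -, i₁, i₂, hu⟩ := exists_isotropic_add h₁ (S := ⊤) (x := x i) (e := e)
      trivial trivial hee ((eq_zero_comm h₁).mp ((mem_perp_span h₁).mp he))
    have h12 : f₁ u₁ u₂ ≠ 0 := fun h => hxi (by
      simp [hu, h₁.add_left, add_right h₁, i₁, i₂, h, (eq_zero_comm h₁).mp h])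
    set y₂ := b⁻¹ • u₂ with hy₂
    have hy2 : f₁ y₂ y₂ = 0 := isotropic_smul h₁ i₂ _
    have h12' : f₁ u₁ y₂ ≠ 0 := by
      rw [hy₂, smul_right h₁]
      exact mul_ne_zero ((map_ne_zero σ).mpr (inv_ne_zero hb0)) h12
    have hS := perp_bot_nondeg_on h₁
    have hdim := card_le_finrank_add_finrank_perp h₁ (⊥ : Submodule F (Fin k → F))
    rw [finrank_bot, add_zero] at hdim
    obtain ⟨e', he', hee', hex, hey⟩ := exists_anisotropic_perp_pair h₁ hS
      (hk'.trans hdim)
      (mem_perp_bot h₁ u₁) (mem_perp_bot h₁ y₂) i₁ hy2 h12'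
    obtain ⟨z₀, -, hz00, hz₁, hz₂⟩ := exists_isotropic_common h₁ hS (mem_perp_bot h₁ u₁)
      (mem_perp_bot h₁ y₂) (fun h => by
        obtain ⟨r, hr⟩ := Submodule.mem_span_singleton.mp h
        rw [← hr, smul_right h₁, i₁, mul_zero] at h12'
        exact h12' rfl) (fun h => h12 (by rw [h, zero_left h₁])) he' hee' hex hey
    rw [hy₂, h₁.smul_left, inv_mul_eq_one₀ hb0] at hz₂
    choose z hz hzx using fun l => (exists_iso_nonperp_two h₁ hk' (h0 l) (h0 l)).imp
      fun _ h => And.intro h.1 h.2.1
    set Z := Function.update z i z₀ with hZ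
    obtain ⟨N, hN0, hN⟩ : ∃ N : F, N ≠ 0 ∧
        ∀ v, f (P (Function.update x i v)) (P Z) = f₁ v z₀ * N := by
      obtain ⟨ν, hν0, hν⟩ := hP.gram
      refine ⟨ν * ∏ l ∈ Finset.univ.erase i, f₁ (x l) (z l), mul_ne_zero hν0
        (Finset.prod_ne_zero_iff.mpr fun l _ => hzx l ∘ (eq_zero_comm h₁).mp), fun v => ?_⟩
      rw [hν, ← Finset.mul_prod_erase Finset.univ _ (Finset.mem_univ i), hZ, Function.update_self,
        Function.update_self, Finset.prod_congr rfl fun l hl => show _ = f₁ (x l) (z l) by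
          rw [Function.update_of_ne (Finset.mem_erase.mp hl).1,
            Function.update_of_ne (Finset.mem_erase.mp hl).1]]
      ring
    have hupd : ∀ v, f₁ v v = 0 → ∀ l, f₁ (Function.update x i v l) (Function.update x i v l) = 0 := by
      intro v hv l
      rcases eq_or_ne l i with rfl | hl
      · rwa [Function.update_self]
      · rw [Function.update_of_ne hl]; exact hx l hl
    have hsplit : P x = P (Function.update x i u₁) + P (Function.update x i u₂) := by
      rw [← hP.map_add, ← hu, Function.update_eq_self]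
    rw [hsplit]
    refine fullAt_add hf hMI (b := b) (z := P Z) (hP.isotropic i (hupd u₁ i₁ i))
      (hP.isotropic i (hupd u₂ i₂ i)) (hP.isotropic i ?_) (hiso _ (hupd _ i₁))
      (hiso _ (hupd _ i₂)) (hiso _ fun l => ?_) (hP.f_eq_zero j ?_) hb hb0 hb1 ?_ ?_
    · rw [hZ, Function.update_self]; exact hz00
    · rcases eq_or_ne l i with rfl | hl
      · rw [hZ, Function.update_self]; exact hz00
      · rw [hZ, Function.update_of_ne hl]; exact hz l
    · rw [Function.update_of_ne hj, Function.update_of_ne hj]; exact hx j hj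
    · rw [hN, hz₁, one_mul]; exact hN0
    · rw [hN, hN, hz₁, ← hz₂, one_mul]
  · have hk4' : 4 ≤ Fintype.card (Fin k) := by simpa using hk4
    set a := x i with ha
    have hS := perp_line_nondeg h₁ hxi
    obtain ⟨u, hu, hu0, huu⟩ := exists_isotropic h₁ hS (by
      have h1 := card_le_finrank_add_finrank_perp h₁ (Submodule.span F {a})
      rw [finrank_span_singleton (h0 i)] at h1
      omega)
    obtain ⟨p₀, hp₀, hp₀u⟩ := (hS u hu hu0).1
    obtain ⟨s, hs⟩ := exists_isotropic_shift h₁ huu (p := p₀) hp₀u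
    set q := p₀ + s • u with hqdef
    have hqu : f₁ q u ≠ 0 := by
      rwa [hqdef, h₁.add_left, h₁.smul_left, huu, mul_zero, add_zero]
    have hqa : f₁ q a = 0 := (mem_perp_span h₁).mp ((perp h₁ _).add_mem hp₀
      ((perp h₁ _).smul_mem s hu))
    have hua : f₁ u a = 0 := (mem_perp_span h₁).mp hu
    obtain ⟨x₁, x₂, x₁0, x₂0, x₁q, x₂q, hax⟩ := exists_iso_sum_perp h₁ hk4' hs
      ((eq_zero_comm h₁).mp hqa)
    obtain ⟨x₀, x₀0, x₀q, hx₀a⟩ : ∃ x₀, f₁ x₀ x₀ = 0 ∧ f₁ x₀ q = 0 ∧ f₁ a x₀ ≠ 0 := by
      by_cases h : f₁ a x₁ = 0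
      · refine ⟨x₂, x₂0, x₂q, fun h2 => hxi ?_⟩
        nth_rw 2 [hax]
        rw [add_right h₁, h, h2, add_zero]
      · exact ⟨x₁, x₁0, x₁q, h⟩
    obtain ⟨v₁, v₂, v₁0, v₂0, v₁u, v₂u, hav⟩ := exists_iso_sum_perp h₁ hk4' huu
      ((eq_zero_comm h₁).mp hua)
    set U : κ → Fin k → F := fun _ => u with hU
    set Q : κ → Fin k → F := fun _ => q with hQ
    set Y := Function.update U i a with hY
    set X₀ := Function.update Q i x₀ with hX₀
    have hupd : ∀ (v₀ v : Fin k → F), f₁ v₀ v₀ = 0 → f₁ v v = 0 → ∀ l,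
        f₁ (Function.update (fun _ : κ => v₀) i v l) (Function.update (fun _ : κ => v₀) i v l)
          = 0 := by
      intro v₀ v h1 h2 l
      rcases eq_or_ne l i with rfl | hl
      · rwa [Function.update_self]
      · rwa [Function.update_of_ne hl]
    have hYY : f (P Y) (P Y) = 0 := hP.isotropic j (by rw [hY, Function.update_of_ne hj]; exact huu)
    have hpp : f (P U) (P U) = 0 := hP.isotropic i huu
    have hzz : f (P Q) (P Q) = 0 := hP.isotropic i hs
    -- the vector y is an Eichler vector at p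
    have hEy : EMem hf M (P U) (P Y) := by
      have key : ∀ v, f₁ v v = 0 → f₁ v u = 0 → EMem hf M (P U) (P (Function.update U i v)) := by
        intro v hv hvu
        refine EMem.of_full hf hpp (hP.isotropic i ?_) (hP.f_eq_zero i ?_) (hiso U fun _ => huu)
          (hiso _ (hupd u v huu hv)) ?_
        · rwa [Function.update_self]
        · rwa [Function.update_self]
        · have hsum : P U + P (Function.update U i v) = P (Function.update U i (u + v)) := by
            rw [hP.map_add]
            congr 1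
            exact (congrArg P (Function.update_eq_self i U)).symm
          rw [hsum]
          refine hiso _ (hupd u _ huu ?_)
          simp [h₁.add_left, add_right h₁, huu, hv, hvu, (eq_zero_comm h₁).mp hvu]
      rw [hY, hav, hP.map_add]
      exact EMem.add hf (key v₁ v₁0 v₁u) (key v₂ v₂0 v₂u)
    have hzp : f (P Q) (P U) ≠ 0 := hP.f_ne_zero fun _ => hqu
    set z' := (f (P Q) (P U))⁻¹ • P Q with hz'
    have hyp : f (P Y) (P U) = 0 := hP.f_eq_zero i (by
      rw [hY, Function.update_self]; exact (eq_zero_comm h₁).mp hua)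
    have g1 := EMem.all_mem hf hEy (hiso U fun _ => huu) hpp hyp (t := 0)
      (by rw [map_zero, sub_zero, hYY])
    have w1 := ((hiso Q fun _ => hs).smul hf (f (P Q) (P U))⁻¹).conj hf g1 (hMI g1)
    have e1 : f z' (P U) = 1 := by rw [hz', hf.smul_left, inv_mul_cancel₀ hzp]
    have e2 : f z' (P Y) = 0 := by
      rw [hz', hf.smul_left, hP.f_eq_zero (x := Q) (y := Y) i (by rw [hY, Function.update_self]; exact hqa), mul_zero]
    rw [← hz', ap_E hf, e1, e2, one_smul, zero_smul, add_zero, zero_mul, zero_smul, add_zero] at w1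
    -- move back
    set μ := f (P Y) (P X₀) with hμ
    have hμ0 : μ ≠ 0 := hP.f_ne_zero fun l => by
      rcases eq_or_ne l i with rfl | hl
      · rwa [hY, hX₀, Function.update_self, Function.update_self]
      · rw [hY, hX₀, Function.update_of_ne hl, Function.update_of_ne hl]
        exact hqu ∘ (eq_zero_comm h₁).mp
    set r := -(μ⁻¹ * (f (P Q) (P U))⁻¹) with hr
    have hX₀0 : f (P X₀) (P X₀) = 0 := hP.isotropic i (by rw [hX₀, Function.update_self]; exact x₀0)
    have hQX : f (P Q) (P X₀) = 0 := hP.f_eq_zero i (by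
      rw [hX₀, Function.update_self]; exact (eq_zero_comm h₁).mp x₀q)
    have hrX : f (r • P Q) (P X₀) = 0 := by rw [hf.smul_left, hQX, mul_zero]
    have hE2 : EMem hf M (P X₀) (r • P Q) := by
      refine EMem.of_full hf hX₀0 (isotropic_smul hf hzz r) hrX
        (hiso X₀ (hupd q x₀ hs x₀0)) ((hiso Q fun _ => hs).smul hf r) ?_
      have hsum : P X₀ + r • P Q = P (Function.update Q i (x₀ + r • q)) := by
        rw [hP.map_add, hP.map_smul]
        congr 2
        exact (congrArg P (Function.update_eq_self i Q)).symm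
      rw [hsum]
      refine hiso _ (hupd q _ hs ?_)
      simp [h₁.add_left, add_right h₁, h₁.smul_left, smul_right h₁, x₀0, hs, x₀q,
        (eq_zero_comm h₁).mp x₀q]
    have g2 := EMem.all_mem hf hE2 (hiso X₀ (hupd q x₀ hs x₀0)) hX₀0 hrX (t := 0)
      (by rw [map_zero, sub_zero, isotropic_smul hf hzz r])
    have w2 := w1.conj hf g2 (hMI g2)
    have e3 : f (z' + P Y) (P X₀) = μ := by
      rw [hf.add_left, hz', hf.smul_left, hQX, mul_zero, zero_add]
    have e4 : f (z' + P Y) (r • P Q) = 0 := by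
      rw [smul_right hf, hf.add_left, hz', hf.smul_left, hzz,
        (eq_zero_comm hf).mp (hP.f_eq_zero (x := Q) (y := Y) i
          (by rw [hY, Function.update_self]; exact hqa))]
      ring
    rw [ap_E hf, e3, e4, zero_smul, add_zero, zero_mul, zero_smul, add_zero] at w2
    have e5 : z' + P Y + μ • r • P Q = P Y := by
      rw [smul_smul, hr, hz', show μ * -(μ⁻¹ * (f (P Q) (P U))⁻¹) = -(f (P Q) (P U))⁻¹ by
        field_simp]
      module
    rw [e5] at w2
    refine hP.fullAt_transport hk hT2 hMI hmove (x := Y) (fun l => ?_) w2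
    rcases eq_or_ne l i with rfl | hl
    · exact Or.inl (by rw [hY, Function.update_self])
    · refine Or.inr ?_
      rw [hY, Function.update_of_ne hl]
      exact ⟨hu0, huu, h0 l, hx l hl⟩

variable {u : κ → Fin k → F} (hu : ∀ l, u l ≠ 0 ∧ f₁ (u l) (u l) = 0)
include hu

/-- Products with all slots but one isotropic which are orthogonal to the centre give Eichler
elements. -/
lemma eMem_step {x : κ → Fin k → F} (i : κ) (hx : ∀ l, l ≠ i → f₁ (x l) (x l) = 0)
    (hxp : f (P x) (P u) = 0) : EMem hf M (P u) (P x) := by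
  have h₁ := hP.skew₁
  have hk' : 3 ≤ Fintype.card (Fin k) := by simpa using hk
  obtain ⟨i'⟩ : Nonempty κ := ⟨i⟩
  have hpp : f (P u) (P u) = 0 := hP.isotropic i' (hu i').2
  have hone : ∀ (y : κ → Fin k → F) (i : κ), (∀ l, l ≠ i → f₁ (y l) (y l) = 0) →
      FullAt hf M (P y) := fun y i hy => hP.fullAt_one hk hT2 hMI hmove hw hc0 hc hroot hq i hy
  have hfullp : FullAt hf M (P u) := hone u i fun l _ => (hu l).2
  by_cases h0 : ∃ l, x l = 0
  · obtain ⟨l, hl⟩ := h0
    rw [hP.map_zero_slot l hl]
    exact EMem.zero hf hpp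
  push Not at h0
  have hupd : ∀ (v : Fin k → F) (m l : κ), l ≠ m →
      f₁ (Function.update u m v l) (Function.update u m v l) = 0 := fun v m l hl => by
    rw [Function.update_of_ne hl]; exact (hu l).2
  -- one changed slot
  have first : ∀ (m : κ) (v : Fin k → F), f₁ v (u m) = 0 →
      EMem hf M (P u) (P (Function.update u m v)) := by
    intro m v hv
    obtain ⟨j, hj⟩ : ∃ j, j ≠ m := Fintype.exists_ne_of_one_lt_card (by omega) m
    refine EMem.of_full hf hpp (hP.isotropic j (hupd v m j hj))
      (hP.f_eq_zero m (by rwa [Function.update_self])) hfullp (hone _ m (hupd v m)) ?_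
    have hsum : P u + P (Function.update u m v) = P (Function.update u m (u m + v)) := by
      rw [hP.map_add, Function.update_eq_self]
    rw [hsum]
    exact hone _ m (hupd _ m)
  -- products meeting an Eichler vector
  have meet : ∀ (y z : κ → Fin k → F) (m : κ), (∀ r : F, EMem hf M (P u) (r • P y)) →
      (∀ l, l ≠ m → f₁ (z l) (z l) = 0) → f (P z) (P u) = 0 → f (P y) (P z) ≠ 0 →
      ∀ r : F, EMem hf M (P u) (r • P z) := by
    intro y z m hy hz hzp hyz r
    have hzz : f (P z) (P z) = 0 := by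
      obtain ⟨j, hj⟩ : ∃ j, j ≠ m := Fintype.exists_ne_of_one_lt_card (by omega) m
      exact hP.isotropic j (hz j hj)
    have g := hone z m hz hzz 1 (map_one σ)
    have hfix : ap (T hf (P z) 1 hzz) (P u) = P u :=
      ap_T_fix hf hzz ((eq_zero_comm hf).mp hzp)
    have h1 := hy (r / f (P y) (P z))
    have := EMem.sub hf (EMem.conj hf h1 g (hMI g) hfix) h1
    convert this using 1
    rw [ap_T hf, hf.smul_left, one_mul, div_mul_cancel₀ _ hyz, add_sub_cancel_left]
  by_cases hpar : ∀ l, x l ∈ Submodule.span F {u l}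
  · choose s hs using fun l => Submodule.mem_span_singleton.mp (hpar l)
    have : ∀ t : Finset κ, ∃ r : F, P (fun l => if l ∈ t then x l else u l) = r • P u := by
      intro t
      induction t using Finset.induction with
      | empty => exact ⟨1, by simp⟩
      | insert m t hm ih =>
        obtain ⟨r, hr⟩ := ih
        refine ⟨s m * r, ?_⟩
        set y : κ → Fin k → F := fun l => if l ∈ t then x l else u l with hy
        have hym : y m = u m := if_neg hm
        rw [mul_smul, ← hr, hP.smul_update y m, hym, hs]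
        congr 1
        funext l
        rcases eq_or_ne l m with rfl | hl <;> simp [hy, *]
    obtain ⟨r, hr⟩ := this Finset.univ
    simp only [Finset.mem_univ, if_true] at hr
    rw [hr]
    have hrp : f (r • P u) (P u) = 0 := by rw [hf.smul_left, hpp, mul_zero]
    refine ⟨hpp, hrp, 0, by rw [map_zero, sub_zero, isotropic_smul hf hpp r], ?_⟩
    have hE : E hf (P u) (r • P u) 0 hpp hrp = T hf (P u) (r + σ r + 0) hpp :=
      E_smul_self hf r hrp 0 rfl
    rw [hE]
    exact hfullp hpp _ (by simp [hf.involutive, add_comm])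
  push Not at hpar
  obtain ⟨m, hm⟩ := hpar
  -- the middle product
  obtain ⟨a, hau, ha, hax⟩ : ∃ a, f₁ a (u m) = 0 ∧ a ∉ Submodule.span F {u m} ∧
      f₁ (x m) a ≠ 0 := by
    obtain ⟨a, hau, hax⟩ := exists_perp_ne h₁ hm
    rw [mem_perp_span h₁] at hau
    by_cases ha : a ∈ Submodule.span F {u m}
    swap
    · exact ⟨a, hau, ha, hax⟩
    obtain ⟨e, he, he'⟩ := SetLike.not_le_iff_exists.mp (show ¬ perp h₁ (Submodule.span F {u m}) ≤
        Submodule.span F {u m} from fun hle => by
      have h1 := card_le_finrank_add_finrank_perp h₁ (Submodule.span F {u m})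
      have h2 := Submodule.finrank_mono hle
      rw [finrank_span_singleton (hu m).1] at h1 h2
      omega)
    rw [mem_perp_span h₁] at he
    by_cases hxe : f₁ (x m) e = 0
    · refine ⟨a + e, by rw [h₁.add_left, hau, he, add_zero], fun h => he' ?_, ?_⟩
      · simpa using Submodule.sub_mem _ h ha
      · rwa [add_right h₁, hxe, add_zero]
    · exact ⟨e, he, he', hxe⟩
  obtain ⟨b, hbu, hba⟩ := exists_perp_ne h₁ ha
  rw [mem_perp_span h₁] at hbu
  choose z hz hzu hzx using fun l => exists_iso_nonperp_two h₁ hk' (hu l).1 (h0 l)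
  set Z := Function.update z m a with hZ
  have hy : ∀ r : F, EMem hf M (P u) (r • P (Function.update u m b)) := fun r => by
    rw [← hP.map_smul]
    exact first m _ (by rw [h₁.smul_left, hbu, mul_zero])
  have hZy : f (P (Function.update u m b)) (P Z) ≠ 0 := hP.f_ne_zero fun l => by
    rcases eq_or_ne l m with rfl | hl
    · rw [hZ, Function.update_self, Function.update_self]
      exact hba ∘ (eq_zero_comm h₁).mp
    · rw [hZ, Function.update_of_ne hl, Function.update_of_ne hl]
      exact hzu l ∘ (eq_zero_comm h₁).mp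
  have hZu : f (P Z) (P u) = 0 := hP.f_eq_zero m (by rw [hZ, Function.update_self]; exact hau)
  have h2 := meet _ Z m hy (fun l hl => by rw [hZ, Function.update_of_ne hl]; exact hz l) hZu hZy
  have hZx : f (P Z) (P x) ≠ 0 := hP.f_ne_zero fun l => by
    rcases eq_or_ne l m with rfl | hl
    · rw [hZ, Function.update_self]
      exact hax ∘ (eq_zero_comm h₁).mp
    · rw [hZ, Function.update_of_ne hl]
      exact hzx l
  simpa using meet Z x i h2 hx hxp hZx 1

/-- Products with a slot orthogonal to the centre give Eichler elements. -/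
lemma eMem_orth {x : κ → Fin k → F} (i : κ) (hxi : f₁ (x i) (u i) = 0) :
    EMem hf M (P u) (P x) := by
  suffices H : ∀ (s : Finset κ) (x : κ → Fin k → F), i ∉ s →
      (∀ l, l ≠ i → l ∉ s → f₁ (x l) (x l) = 0) → f₁ (x i) (u i) = 0 → EMem hf M (P u) (P x) from
    H (Finset.univ.erase i) x (by simp) (fun l hl hl' => absurd (by simp [hl]) hl') hxi
  intro s
  induction s using Finset.induction with
  | empty =>
    intro x _ hx hxi
    exact hP.eMem_step hk hT2 hMI hmove hw hc0 hc hroot hq hu i
      (fun l hl => hx l hl (Finset.notMem_empty l)) (hP.f_eq_zero i hxi)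
  | insert m s hm ih =>
    intro x his hx hxi
    rw [Finset.mem_insert, not_or] at his
    obtain ⟨v₁, v₂, h1, h2, h⟩ := exists_iso_sum hP.skew₁ (by simpa using hk) (x m)
    have key : ∀ v, f₁ v v = 0 → EMem hf M (P u) (P (Function.update x m v)) := fun v hv => by
      refine ih _ his.2 (fun l hl hl' => ?_) (by rwa [Function.update_of_ne his.1])
      rcases eq_or_ne l m with rfl | hlm
      · rwa [Function.update_self]
      · rw [Function.update_of_ne hlm]
        exact hx l hl (by simp [hlm, hl'])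
    rw [← Function.update_eq_self m x, h, hP.map_add]
    exact EMem.add hf (key _ h1) (key _ h2)

/-- Every vector orthogonal to the centre gives Eichler elements. -/
lemma eMem_perp {X : ι → F} (hX : f X (P u) = 0) : EMem hf M (P u) X := by
  have h₁ := hP.skew₁
  obtain ⟨j⟩ : Nonempty κ := Fintype.card_pos_iff.mp (by omega)
  have hpp : f (P u) (P u) = 0 := hP.isotropic j (hu j).2
  choose q hq0 hqu using fun l => (exists_iso_nonperp_two h₁ (by simpa using hk) (hu l).1
    (hu l).1).imp fun _ h => And.intro h.1 h.2.1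
  set z := P q
  have hzp : f z (P u) ≠ 0 := hP.f_ne_zero hqu
  let S : Submodule F (ι → F) :=
    { carrier := {v | ∀ r : F, EMem hf M (P u) (r • (v - (f v (P u) / f z (P u)) • z))}
      zero_mem' := fun r => by simpa [zero_left hf] using EMem.zero hf hpp
      add_mem' := fun {v v'} hv hv' r => by
        have := EMem.add hf (hv r) (hv' r)
        convert this using 1
        rw [hf.add_left, add_div]
        module
      smul_mem' := fun a v hv r => by
        convert hv (r * a) using 1
        rw [hf.smul_left, mul_div_assoc]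
        module }
  suffices hS : ∀ x, P x ∈ S by
    have : (⊤ : Submodule F (ι → F)) ≤ S := by
      rw [← hP.span]
      exact Submodule.span_le.mpr (by rintro _ ⟨x, rfl⟩; exact hS x)
    simpa [hX] using this (Submodule.mem_top (x := X)) 1
  suffices H : ∀ (s : Finset κ) (x : κ → Fin k → F),
      (∀ l ∉ s, x l ∈ Submodule.span F {q l}) → P x ∈ S from
    fun x => H Finset.univ x fun l hl => absurd (Finset.mem_univ l) hl
  intro s
  induction s using Finset.induction with
  | empty =>
    intro x hx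
    have hz : ∀ t : Finset κ, ∃ r : F, P (fun l => if l ∈ t then x l else q l) = r • z := by
      intro t
      induction t using Finset.induction with
      | empty => exact ⟨1, by simp [z]⟩
      | insert m t hm ih =>
        obtain ⟨r, hr⟩ := ih
        obtain ⟨a, ha⟩ := Submodule.mem_span_singleton.mp (hx m (Finset.notMem_empty m))
        refine ⟨a * r, ?_⟩
        set y : κ → Fin k → F := fun l => if l ∈ t then x l else q l with hy
        have hym : y m = q m := if_neg hm
        rw [mul_smul, ← hr, hP.smul_update y m, hym, ha]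
        congr 1
        funext l
        rcases eq_or_ne l m with rfl | hl <;> simp [hy, *]
    obtain ⟨r, hr⟩ := hz Finset.univ
    simp only [Finset.mem_univ, if_true] at hr
    rw [hr]
    refine S.smul_mem r fun b => ?_
    simpa [div_self hzp] using EMem.zero hf hpp
  | insert m s hm ih =>
    intro x hx
    set a := f₁ (x m) (u m) / f₁ (q m) (u m) with ha
    rw [← Function.update_eq_self m x, show x m = (x m - a • q m) + a • q m by abel, hP.map_add]
    have h0 : f₁ (x m - a • q m) (u m) = 0 := by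
      rw [sub_left h₁, h₁.smul_left, ha, div_mul_cancel₀ _ (hqu m), sub_self]
    refine S.add_mem ?_ (ih _ fun l hl => ?_)
    · intro r
      set y := Function.update x m (x m - a • q m) with hy
      have hym : f₁ (y m) (u m) = 0 := by rw [hy, Function.update_self]; exact h0
      rw [hP.f_eq_zero m hym, zero_div, zero_smul, sub_zero, hP.smul_update y m]
      refine hP.eMem_orth hk hT2 hMI hmove hw hc0 hc hroot hq hu m ?_
      rw [Function.update_self, h₁.smul_left, hym, mul_zero]
    · rcases eq_or_ne l m with rfl | hlm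
      · rw [Function.update_self]
        exact Submodule.smul_mem _ a (Submodule.mem_span_singleton_self _)
      · rw [Function.update_of_ne hlm]
        exact hx l (by simp [hlm, hl])

omit hu

/-- All transvections occur. -/
lemma hasT : HasT hf M := by
  intro X hX d hd
  have h₁ := hP.skew₁
  suffices h : FullAt hf M X from h hX d hd
  obtain ⟨i⟩ : Nonempty κ := Fintype.card_pos_iff.mp (by omega)
  by_cases hX0 : X = 0
  · intro h0 t _
    rw [show T hf X t h0 = 1 from gl_ext fun z => by simp [ap_T hf, hX0]]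
    exact one_mem M
  obtain ⟨u, hu, hXu⟩ : ∃ u : κ → Fin k → F, (∀ l, f₁ (u l) (u l) = 0) ∧ f X (P u) ≠ 0 := by
    by_contra hc
    push Not at hc
    have hall : ∀ (s : Finset κ) (x : κ → Fin k → F),
        (∀ l ∉ s, f₁ (x l) (x l) = 0) → f X (P x) = 0 := by
      intro s
      induction s using Finset.induction with
      | empty => exact fun x hx => hc x fun l => hx l (Finset.notMem_empty l)
      | insert m s hm ih =>
        intro x hx
        obtain ⟨v₁, v₂, h1, h2, h⟩ := exists_iso_sum h₁ (by simpa using hk) (x m)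
        rw [← Function.update_eq_self m x, h, hP.map_add, add_right hf, ih _ ?_, ih _ ?_,
          add_zero]
        all_goals
          intro l hl
          rcases eq_or_ne l m with rfl | hlm
          · rwa [Function.update_self]
          · rw [Function.update_of_ne hlm]
            exact hx l (by simp [hlm, hl])
    obtain ⟨y, hy⟩ := (hf.nondegenerate X hX0).2
    suffices key : ∀ v ∈ Submodule.span F (Set.range P), f X v = 0 from
      hy (key y (hP.span ▸ Submodule.mem_top))
    intro v this
    induction this using Submodule.span_induction with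
    | mem v hv => obtain ⟨x, rfl⟩ := hv; exact hall Finset.univ x (by simp)
    | zero => exact zero_right hf X
    | add v v' _ _ hv hv' => rw [add_right hf, hv, hv', add_zero]
    | smul a v _ hv => rw [smul_right hf, hv, mul_zero]
  have hu' : ∀ l, u l ≠ 0 ∧ f₁ (u l) (u l) = 0 := fun l =>
    ⟨fun h => hXu (by rw [hP.map_zero_slot l h, zero_right hf]), hu l⟩
  choose q hq0 hqu using fun l => (exists_iso_nonperp_two h₁ (by simpa using hk) (hu' l).1
    (hu' l).1).imp fun _ h => And.intro h.1 h.2.1
  have hpp : f (P u) (P u) = 0 := hP.isotropic i (hu i)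
  have hzp : f (P q) (P u) ≠ 0 := hP.f_ne_zero hqu
  set z := (f (P q) (P u))⁻¹ • P q with hz
  set Y := (f X (P u))⁻¹ • X with hY
  have e1 : f z (P u) = 1 := by rw [hz, hf.smul_left, inv_mul_cancel₀ hzp]
  have e2 : f Y (P u) = 1 := by rw [hY, hf.smul_left, inv_mul_cancel₀ hXu]
  have e3 : f Y Y = f z z := by
    rw [hY, hz, isotropic_smul hf hX, isotropic_smul hf (hP.isotropic i (hq0 i))]
  obtain ⟨hvu, t, ht, hm⟩ := exists_E_move hf hpp e1 e2 e3
  have hE := EMem.all_mem hf (hP.eMem_perp hk hT2 hMI hmove hw hc0 hc hroot hq hu' hvu)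
    (hP.fullAt_iso hk hT2 hMI hmove hw hc0 hc hroot hu) hpp hvu ht
  have := (((hP.fullAt_iso hk hT2 hMI hmove hw hc0 hc hroot hq0).smul hf
    (f (P q) (P u))⁻¹).conj hf hE (hMI hE)).smul hf (f X (P u))
  rwa [← hz, hm, hY, smul_smul, mul_inv_cancel₀ hXu, one_smul] at this

/-- The special unitary group lies in `M`. -/
theorem le_of_root (hn : 4 ≤ Fintype.card ι) : isom f ⊓ Cfsg.Geo.specialLinear ι F ≤ M :=
  le_of_hasT hf hn (hP.hasT hk hT2 hMI hmove hw hc0 hc hroot hq)

end Overgroup

end FormPower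

end CfsgLib.Geometric.Unitary
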