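import Cfsg.Agent.Lib.Geometric.UnitaryStab
import Cfsg.Agent.Lib.Geometric.SingularPair

/-!
Quasi-reflections of a skew-hermitian form, swaps of orthogonal non-degenerate subspaces and the
elements of the special unitary group preserving an orthogonal decomposition.
-/

namespace CfsgLib.Geometric

open Matrix

variable {ι : Type} [Fintype ι] [DecidableEq ι] {F : Type*} [Field F]

namespace Unitary

variable {σ : F ≃+* F} {f : (ι → F) → (ι → F) → F} (hf : IsSkewForm σ f)
include hf

/-- A quasi-reflection, as an isometry of norm-one determinant. -/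
lemma exists_dil {h : ι → F} {a : F} (ha : σ a - a + a * σ a * f h h = 0) :
    ∃ g ∈ isom f, (g : Matrix ι ι F).det = 1 + a * f h h ∧
      (g : Matrix ι ι F).det * σ (g : Matrix ι ι F).det = 1 ∧
      ∀ x, ap g x = x + (a * f x h) • h := by
  set φ : (ι → F) →ₗ[F] F := a • fl hf h with hφ
  have hφa : ∀ x, φ x = a * f x h := fun x => rfl
  have hn : (1 + φ h) * σ (1 + φ h) = 1 := by
    rw [hφa, map_add, map_one, map_mul, skew_self hf]
    linear_combination (-(f h h)) * ha
  have hne : 1 + φ h ≠ 0 := left_ne_zero_of_mul (hn.trans_ne one_ne_zero)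
  have hd := det_of_ap (dil h φ hne) h φ (ap_dil h φ hne)
  refine ⟨dil h φ hne, fun u v => ?_, by rw [hd, hφa], by rw [hd]; exact hn,
    fun x => by rw [ap_dil, hφa]⟩
  change f (ap _ u) (ap _ v) = f u v
  rw [ap_dil, ap_dil, hφa, hφa]
  simp only [hf.add_left, add_right hf, hf.smul_left, smul_right hf, map_mul, hf.skew h v]
  linear_combination (f u h * σ (f v h)) * ha

/-- A quasi-reflection mapping `x` to `y`. -/
lemma exists_reflect {x y : ι → F} (hn : f x x = f y y) (hne : f x (y - x) ≠ 0) :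
    ∃ g ∈ isom f, (g : Matrix ι ι F).det * σ (g : Matrix ι ι F).det = 1 ∧
      (∀ z, ap g z = z + ((f x (y - x))⁻¹ * f z (y - x)) • (y - x)) ∧ ap g x = y := by
  have hm : f (y - x) (y - x) = σ (f x (y - x)) - f x (y - x) := by
    rw [sub_right hf, sub_left hf, sub_left hf, sub_right hf, map_sub, skew_self hf, hf.skew y x]
    linear_combination -hn
  have hne' : σ (f x (y - x)) ≠ 0 := by rwa [ne_eq, EmbeddingLike.map_eq_zero_iff]
  obtain ⟨g, hg, -, hd, hap⟩ := exists_dil hf (h := y - x) (a := (f x (y - x))⁻¹) (by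
    rw [map_inv₀, hm]
    field_simp
    ring)
  refine ⟨g, hg, hd, hap, ?_⟩
  rw [hap, inv_mul_cancel₀ hne, one_smul, add_sub_cancel]

/-- A quasi-reflection along `h` of prescribed norm-one determinant. -/
lemma exists_det {h : ι → F} (hh : f h h ≠ 0) {s : F} (hs : s * σ s = 1) :
    ∃ g ∈ isom f, (g : Matrix ι ι F).det = s ∧
      ∀ x, ap g x = x + ((s - 1) / f h h * f x h) • h := by
  have hσh : σ (f h h) ≠ 0 := by rwa [ne_eq, EmbeddingLike.map_eq_zero_iff]
  obtain ⟨g, hg, hd, -, hap⟩ := exists_dil hf (h := h) (a := (s - 1) / f h h) (by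
    rw [map_div₀, map_sub, map_one, skew_self hf]
    field_simp
    linear_combination -hs)
  refine ⟨g, hg, ?_, hap⟩
  rw [hd, div_mul_cancel₀ _ hh, add_sub_cancel]

omit hf in
lemma isom_apply {g : GL ι F} (hg : g ∈ isom f) (x y : ι → F) : f (ap g x) (ap g y) = f x y :=
  hg x y

/-- The elements orthogonal to an anisotropic vector in a non-degenerate subspace. -/
lemma inf_perp_span {A : Submodule F (ι → F)} (hA : Cfsg.Geo.IsNondegenerateOn f A) {a : ι → F}
    (ha : a ∈ A) (haa : f a a ≠ 0) :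
    Cfsg.Geo.IsNondegenerateOn f (A ⊓ perp hf (Submodule.span F {a})) ∧
      Module.finrank F (A ⊓ perp hf (Submodule.span F {a}) : Submodule F (ι → F)) + 1 =
        Module.finrank F A ∧
      ∀ x ∈ A, ∃ c : F, ∃ x' ∈ A ⊓ perp hf (Submodule.span F {a}), x = c • a + x' := by
  have hdec : ∀ x ∈ A, ∃ c : F, ∃ x' ∈ A ⊓ perp hf (Submodule.span F {a}), x = c • a + x' := by
    intro x hx
    refine ⟨f x a / f a a, x - (f x a / f a a) • a, ⟨A.sub_mem hx (A.smul_mem _ ha),
      (mem_perp_span hf).2 (by rw [sub_left hf, hf.smul_left, div_mul_cancel₀ _ haa, sub_self])⟩,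
      by abel⟩
  refine ⟨fun w hw hw0 => ?_, ?_, hdec⟩
  · obtain ⟨x, hx, hne⟩ := (hA w hw.1 hw0).2
    obtain ⟨c, x', hx', rfl⟩ := hdec x hx
    have hwa : f w a = 0 := (mem_perp_span hf).1 hw.2
    rw [add_right hf, smul_right hf, hwa, mul_zero, zero_add] at hne
    exact ⟨⟨x', hx', hne ∘ (eq_zero_comm hf).mp⟩, ⟨x', hx', hne⟩⟩
  · have hsup : Submodule.span F {a} ⊔ (A ⊓ perp hf (Submodule.span F {a})) = A := by
      refine le_antisymm (sup_le ((Submodule.span_singleton_le_iff_mem _ _).2 ha) inf_le_left)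
        fun x hx => ?_
      obtain ⟨c, x', hx', rfl⟩ := hdec x hx
      exact Submodule.mem_sup.2
        ⟨c • a, Submodule.smul_mem _ _ (Submodule.mem_span_singleton_self a), x', hx', rfl⟩
    have hbot : Submodule.span F {a} ⊓ (A ⊓ perp hf (Submodule.span F {a})) = ⊥ := by
      rw [eq_bot_iff]
      rintro x ⟨hx, -, hxp⟩
      obtain ⟨c, rfl⟩ := Submodule.mem_span_singleton.1 hx
      have h := (mem_perp_span hf).1 hxp
      rw [hf.smul_left, mul_eq_zero] at h
      simp [h.resolve_right haa]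
    have ha0 : a ≠ 0 := fun h => haa (by rw [h, zero_left hf])
    have h := Submodule.finrank_sup_add_finrank_inf_eq (Submodule.span F {a})
      (A ⊓ perp hf (Submodule.span F {a}))
    rw [hsup, hbot, finrank_bot, add_zero, finrank_span_singleton ha0] at h
    omega

variable [Finite F]

/-- An anisotropic vector scaled to a given value. -/
lemma exists_scaled {A : Submodule F (ι → F)} (hA : Cfsg.Geo.IsNondegenerateOn f A) (h0 : A ≠ ⊥)
    {δ : F} (hδ : σ δ = -δ) : ∃ a ∈ A, f a a = δ := by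
  obtain ⟨e, he, hee⟩ := exists_anisotropic hf hA h0
  obtain ⟨ν, hν⟩ := exists_norm hf (c := δ / f e e) (by
    rw [map_div₀, hδ, skew_self hf, neg_div_neg_eq])
  refine ⟨ν • e, A.smul_mem _ he, ?_⟩
  rw [hf.smul_left, smul_right hf, ← mul_assoc, hν, div_mul_cancel₀ _ hee]

/-- An isometry exchanging two orthogonal non-degenerate subspaces of equal dimension. -/
lemma exists_swap_isom (j : ℕ) : ∀ A B : Submodule F (ι → F),
    Cfsg.Geo.IsNondegenerateOn f A → Cfsg.Geo.IsNondegenerateOn f B →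
    Module.finrank F A = j → Module.finrank F B = j → A ≤ perp hf B →
    ∃ g ∈ isom f, (g : Matrix ι ι F).det * σ (g : Matrix ι ι F).det = 1 ∧
      MapsIn g A B ∧ MapsIn g B A ∧ ∀ x, x ∈ perp hf A → x ∈ perp hf B → ap g x = x := by
  induction j with
  | zero =>
    intro A B _ _ hA hB _
    rw [Submodule.finrank_eq_zero.1 hA, Submodule.finrank_eq_zero.1 hB]
    refine ⟨1, one_mem _, by simp, ?_, ?_, fun x _ _ => ap_one x⟩ <;>
    · intro x hx
      rw [ap_one]
      exact hx
  | succ j ih =>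
    intro A B hA hB hdA hdB hAB
    obtain ⟨ζ, hζ0, hζ⟩ := exists_skew hf
    obtain ⟨a, ha, haa⟩ := exists_scaled hf hA (fun h => by rw [h, finrank_bot] at hdA; omega) hζ
    obtain ⟨b, hb, hbb⟩ := exists_scaled hf hB (fun h => by rw [h, finrank_bot] at hdB; omega) hζ
    have hab : f a b = 0 := hAB ha b hb
    have hba : f b a = 0 := (eq_zero_comm hf).1 hab
    obtain ⟨hAn, hAd, hAdec⟩ := inf_perp_span hf hA ha (by rw [haa]; exact hζ0)
    obtain ⟨hBn, hBd, hBdec⟩ := inf_perp_span hf hB hb (by rw [hbb]; exact hζ0)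
    set A' := A ⊓ perp hf (Submodule.span F {a})
    set B' := B ⊓ perp hf (Submodule.span F {b})
    obtain ⟨g, hg, hgd, hgA, hgB, hgfix⟩ := ih A' B' hAn hBn (by omega) (by omega)
      (fun x hx y hy => hAB hx.1 y hy.1)
    have hne : f a (b - a) ≠ 0 := by rw [sub_right hf, hab, haa, zero_sub]; exact neg_ne_zero.2 hζ0
    obtain ⟨r, hr, hrd, hrap, hra⟩ := exists_reflect hf (haa.trans hbb.symm) hne
    have hrb : ap r b = a := by
      rw [hrap, sub_right hf, sub_right hf, hab, haa, hbb, hba, zero_sub, sub_zero, inv_neg,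
        neg_mul, inv_mul_cancel₀ hζ0, neg_smul, one_smul]
      abel
    have hrfix : ∀ x, f x a = 0 → f x b = 0 → ap r x = x := fun x h1 h2 => by
      rw [hrap]
      simp only [sub_right hf, h1, h2]
      simp
    have hga : ap g a = a := hgfix a
      (fun y hy => (eq_zero_comm hf).1 ((mem_perp_span hf).1 hy.2)) (fun y hy => hAB ha y hy.1)
    have hgb : ap g b = b := hgfix b (fun y hy => (eq_zero_comm hf).1 (hAB hy.1 b hb))
      (fun y hy => (eq_zero_comm hf).1 ((mem_perp_span hf).1 hy.2))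
    refine ⟨r * g, mul_mem hr hg, ?_, fun x hx => ?_, fun x hx => ?_, fun x hxA hxB => ?_⟩
    · rw [Units.val_mul, Matrix.det_mul, map_mul]
      linear_combination (r : Matrix ι ι F).det * σ (r : Matrix ι ι F).det * hgd + hrd
    · obtain ⟨c, x', hx', rfl⟩ := hAdec x hx
      have hy := hgA x' hx'
      rw [ap_mul, ap_add, ap_smul, hga, ap_add, ap_smul, hra,
        hrfix _ ((eq_zero_comm hf).1 (hAB ha _ hy.1)) ((mem_perp_span hf).1 hy.2)]
      exact B.add_mem (B.smul_mem _ hb) hy.1
    · obtain ⟨c, x', hx', rfl⟩ := hBdec x hx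
      have hy := hgB x' hx'
      rw [ap_mul, ap_add, ap_smul, hgb, ap_add, ap_smul, hrb,
        hrfix _ ((mem_perp_span hf).1 hy.2) (hAB hy.1 b hb)]
      exact A.add_mem (A.smul_mem _ ha) hy.1
    · rw [ap_mul, hgfix x (fun y hy => hxA y hy.1) (fun y hy => hxB y hy.1),
        hrfix x (hxA a ha) (hxB b hb)]

section Decomp

variable {t k : ℕ} {D : Fin t → Submodule F (ι → F)}
  (hD : Cfsg.Geo.IsNondegenerateMDecomposition f k D)
include hD

omit [Finite F] in
lemma f_of_mem {i : Fin t} (x : ι → F) {v : ι → F} (hv : v ∈ D i) :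
    f x v = f (Decomp.comp hD.decomp i x) v := by
  conv_lhs => rw [← Decomp.sum_comp hD.decomp x]
  rw [← fl_apply hf, map_sum, Finset.sum_eq_single i]
  · rfl
  · exact fun l _ hl => hD.orthogonal l i hl _ (Decomp.comp_mem hD.decomp l x) _ hv
  · exact fun h => absurd (Finset.mem_univ i) h

omit [Finite F] in
lemma f_of_mem' {i : Fin t} (x : ι → F) {v : ι → F} (hv : v ∈ D i) :
    f v x = f v (Decomp.comp hD.decomp i x) := by
  rw [hf.skew, f_of_mem hf hD x hv, ← hf.skew]

omit [Finite F] in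
/-- A special isometry permuting the members stabilises the decomposition. -/
lemma mem_stab_of_mapsIn {g : GL ι F} (π : Equiv.Perm (Fin t))
    (h : ∀ l, MapsIn g (D l) (D (π l))) : g ∈ Cfsg.Geo.decompositionStabilizer D :=
  ⟨π, fun l => (h l).map_eq (by rw [hD.decomp.finrank_eq, hD.decomp.finrank_eq])⟩

omit [Finite F] in
/-- A map `x ↦ x + φ x • h` with `h ∈ D i` and `φ` killing the other members fixes each one. -/
lemma mapsIn_of_ap {g : GL ι F} {i : Fin t} {h : ι → F} (hh : h ∈ D i) (a : F)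
    (hap : ∀ x, ap g x = x + (a * f x h) • h) (l : Fin t) : MapsIn g (D l) (D l) := by
  intro x hx
  rw [hap]
  by_cases hl : l = i
  · subst hl
    exact (D l).add_mem hx ((D l).smul_mem _ hh)
  · rw [hD.orthogonal l i hl x hx h hh, mul_zero, zero_smul, add_zero]
    exact hx

/-- An element of the special isometry group exchanging two members and fixing the others. -/
lemma exists_swap_decomp {i j : Fin t} (hij : i ≠ j) :
    ∃ g ∈ Cfsg.Geo.decompositionStabilizer D ⊓ sisom hf,
      ∀ l, MapsIn g (D l) (D (Equiv.swap i j l)) := by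
  obtain ⟨g, hg, hgd, hgA, hgB, hfix⟩ := exists_swap_isom hf k (D i) (D j) (hD.nondegenerate i)
    (hD.nondegenerate j) (hD.decomp.finrank_eq i) (hD.decomp.finrank_eq j)
    (fun x hx y hy => hD.orthogonal i j hij x hx y hy)
  obtain ⟨h, hh, hhh⟩ := exists_anisotropic hf (hD.nondegenerate i) fun h => by
    have := hD.decomp.finrank_eq i
    rw [h, finrank_bot] at this
    exact absurd hD.decomp.pos (by omega)
  have hd0 : (g : Matrix ι ι F).det ≠ 0 := left_ne_zero_of_mul (hgd.trans_ne one_ne_zero)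
  obtain ⟨r, hr, hrd, hrap⟩ := exists_det hf hhh (s := ((g : Matrix ι ι F).det)⁻¹)
    (by rw [map_inv₀, ← mul_inv, hgd, inv_one])
  have hmaps : ∀ l, MapsIn (r * g) (D l) (D (Equiv.swap i j l)) := by
    intro l
    refine (mapsIn_of_ap hf hD hh _ hrap _).mul ?_
    by_cases hi : l = i
    · subst hi; rw [Equiv.swap_apply_left]; exact hgA
    by_cases hj : l = j
    · subst hj; rw [Equiv.swap_apply_right]; exact hgB
    rw [Equiv.swap_apply_of_ne_of_ne hi hj]
    intro x hx
    rw [hfix x (fun y hy => hD.orthogonal l i hi x hx y hy)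
      (fun y hy => hD.orthogonal l j hj x hx y hy)]
    exact hx
  refine ⟨r * g, ⟨mem_stab_of_mapsIn hf hD _ hmaps, mul_mem hr hg, ?_⟩, hmaps⟩
  exact (mem_specialLinear_iff _).2
    (by rw [Units.val_mul, Matrix.det_mul, hrd, inv_mul_cancel₀ hd0])

omit [Finite F] in
/-- A quasi-reflection of a member corrected by one of a member to determinant one. -/
lemma exists_reflect_decomp {i c : Fin t} {x y h : ι → F} (hx : x ∈ D i) (hy : y ∈ D i)
    (hn : f x x = f y y) (hne : f x (y - x) ≠ 0) (hh : h ∈ D c) (hhh : f h h ≠ 0)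
    (hyh : f y h = 0) :
    ∃ g ∈ Cfsg.Geo.decompositionStabilizer D ⊓ sisom hf, ap g x = y ∧
      ∀ v, f v (y - x) = 0 → f v h = 0 → ap g v = v := by
  obtain ⟨g, hg, hgd, hgap, hgx⟩ := exists_reflect hf hn hne
  have hd0 : (g : Matrix ι ι F).det ≠ 0 := left_ne_zero_of_mul (hgd.trans_ne one_ne_zero)
  obtain ⟨r, hr, hrd, hrap⟩ := exists_det hf hhh (s := ((g : Matrix ι ι F).det)⁻¹)
    (by rw [map_inv₀, ← mul_inv, hgd, inv_one])
  refine ⟨r * g, ⟨mem_stab_of_mapsIn hf hD 1 fun l => ?_, mul_mem hr hg, ?_⟩, ?_, fun v h1 h2 => ?_⟩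
  · exact (mapsIn_of_ap hf hD hh _ hrap l).mul (mapsIn_of_ap hf hD ((D i).sub_mem hy hx) _ hgap l)
  · exact (mem_specialLinear_iff _).2
      (by rw [Units.val_mul, Matrix.det_mul, hrd, inv_mul_cancel₀ hd0])
  · rw [ap_mul, hgx, hrap, hyh, mul_zero, zero_smul, add_zero]
  · rw [ap_mul, hgap, h1, mul_zero, zero_smul, add_zero, hrap, h2, mul_zero, zero_smul, add_zero]

end Decomp

end Unitary

end CfsgLib.Geometric
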