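import Cfsg.Agent.Lib.Geometric.UnitaryVectors

/-!
Linear maps of a skew-hermitian space and conjugation by its transvections: a space of maps
invariant under the special unitary group with a non-scalar member contains many maps of rank one.
-/

namespace CfsgLib.Geometric

open Matrix

variable {ι : Type} [Fintype ι] [DecidableEq ι] {F : Type*} [Field F]

namespace Unitary

variable {σ : F ≃+* F} {f : (ι → F) → (ι → F) → F} (hf : IsSkewForm σ f)

/-- The rank one map `x ↦ f(x, v) u`. -/
def rk (hf : IsSkewForm σ f) (u v : ι → F) : Module.End F (ι → F) := (fl hf v).smulRight u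

/-- Conjugation of a linear map. -/
noncomputable def cj (g : GL ι F) (A : Module.End F (ι → F)) : Module.End F (ι → F) :=
  (apEquiv g).toLinearMap ∘ₗ A ∘ₗ (apEquiv g⁻¹).toLinearMap

omit hf in
@[simp] lemma cj_apply (g : GL ι F) (A : Module.End F (ι → F)) (x : ι → F) :
    cj g A x = ap g (A (ap g⁻¹ x)) := rfl

include hf

@[simp] lemma rk_apply (u v x : ι → F) : rk hf u v x = f x v • u := rfl

lemma rk_smul_left (t : F) (u v : ι → F) : rk hf (t • u) v = t • rk hf u v :=
  LinearMap.ext fun x => by simp [smul_comm t (f x v) u]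

lemma rk_smul_right (t : F) (u v : ι → F) : rk hf u (t • v) = σ t • rk hf u v :=
  LinearMap.ext fun x => by simp [smul_right hf, smul_smul]

lemma rk_add_left (u u' v : ι → F) : rk hf (u + u') v = rk hf u v + rk hf u' v :=
  LinearMap.ext fun x => by simp

lemma rk_add_right (u v v' : ι → F) : rk hf u (v + v') = rk hf u v + rk hf u v' :=
  LinearMap.ext fun x => by simp [add_right hf, add_smul]

lemma cj_rk {g : GL ι F} (hg : g ∈ isom f) (u v : ι → F) :
    cj g (rk hf u v) = rk hf (ap g u) (ap g v) :=
  LinearMap.ext fun x => by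
    have := mem_isom_iff.mp hg (ap g⁻¹ x) v
    rw [ap_ap_inv] at this
    simp [ap_smul, this]

lemma T_inv {v : ι → F} {c : F} (hv : f v v = 0) : (T hf v c hv)⁻¹ = T hf v (-c) hv := by
  refine inv_eq_of_mul_eq_one_right (gl_ext fun x => ?_)
  rw [ap_mul, ap_T hf, ap_T hf, ap_one, hf.add_left, hf.smul_left, hv]
  module

/-- Conjugation by a transvection. -/
lemma cj_T {v : ι → F} {c : F} (hv : f v v = 0) (A : Module.End F (ι → F)) :
    cj (T hf v c hv) A =
      A + c • (rk hf v v * A - A * rk hf v v) - c ^ 2 • (rk hf v v * A * rk hf v v) :=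
  LinearMap.ext fun x => by
    simp only [cj_apply, T_inv hf, ap_T hf, LinearMap.add_apply, LinearMap.sub_apply,
      LinearMap.smul_apply, Module.End.mul_apply, rk_apply, map_add, map_smul, hf.add_left,
      hf.smul_left, add_smul, smul_add]
    match_scalars <;> ring

/-- Maps with every isotropic vector as an eigenvector are scalar. -/
lemma scalar_of_iso_eigen [Finite F] {A : Module.End F (ι → F)}
    (h : ∀ x, f x x = 0 → ∃ t : F, A x = t • x) :
    ∀ a, f a a = 0 → ∀ b, f b b = 0 → f b a ≠ 0 → ∀ t : F, A a = t • a →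
      ∀ y, A y = t • y := by
  intro a ha b hb hba t hat
  have hab : f a b ≠ 0 := fun h0 => hba ((eq_zero_comm hf).mp h0)
  have ha0 : a ≠ 0 := fun h0 => hab (by rw [h0, zero_left hf])
  -- the isotropic vectors pairing with one of eigenvalue `t` share it
  have step : ∀ a b : ι → F, f a a = 0 → f b b = 0 → f a b ≠ 0 → A a = t • a → A b = t • b := by
    intro a b ha hb hab hat
    obtain ⟨s, hs⟩ := h b hb
    have hli : ∀ p r : F, p • a + r • b = 0 → p = 0 := fun p r h0 => by
      have := congrArg (fun z => f z b) h0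
      simpa [hf.add_left, hf.smul_left, hb, zero_left hf, hab] using this
    set r := (σ (f a b))⁻¹ with hr
    have hσ : σ (f a b) ≠ 0 := by rwa [ne_eq, EmbeddingLike.map_eq_zero_iff]
    have hr0 : r ≠ 0 := inv_ne_zero hσ
    have hiso : f (a + r • b) (a + r • b) = 0 := by
      rw [hf.add_left, add_right hf, add_right hf, hf.smul_left, hf.smul_left, smul_right hf,
        smul_right hf, ha, hb, hf.skew b a, hr, map_inv₀, hf.involutive]
      field_simp
      ring
    obtain ⟨m, hm⟩ := h _ hiso
    rw [map_add, map_smul, hat, hs] at hm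
    have h1 := hli (t - m) (r * s - m * r) (by linear_combination (norm := module) hm)
    have h2 : (r * s - m * r) • b = 0 := by
      have := hm
      rw [show t = m from sub_eq_zero.mp h1] at this
      linear_combination (norm := module) this
    have hb0 : b ≠ 0 := fun h0 => hab (by rw [h0, zero_right hf])
    have := (smul_eq_zero.mp h2).resolve_right hb0
    have hst : s = t := by
      have h3 : r * (s - m) = 0 := by linear_combination this
      rw [sub_eq_zero.mp ((mul_eq_zero.mp h3).resolve_left hr0), sub_eq_zero.mp h1]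
    rw [hs, hst]
  let E : Submodule F (ι → F) := LinearMap.ker (A - t • LinearMap.id)
  have hE : ∀ x, x ∈ E ↔ A x = t • x := fun x => by simp [E, sub_eq_zero]
  have hbt : A b = t • b := step a b ha hb hab hat
  suffices hall : ∀ y, y ∈ E from fun y => (hE y).mp (hall y)
  have hiso : ∀ x, f x x = 0 → x ∈ E := by
    intro x hxx
    rw [hE]
    by_cases hax : f a x = 0
    swap
    · exact step a x ha hxx hax hat
    by_cases hbx : f b x = 0
    swap
    · exact step b x hb hxx hbx hbt
    -- an isotropic vector meeting both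
    by_cases hx0 : x = 0
    · simp [hx0]
    obtain ⟨p, hp⟩ := (hf.nondegenerate x hx0).1
    by_cases hpa : f p a ≠ 0
    · obtain ⟨l, hl⟩ := exists_isotropic_shift hf ha hpa
      have hz : f (p + l • a) x ≠ 0 := by rwa [hf.add_left, hf.smul_left, hax, mul_zero, add_zero]
      have hza : f a (p + l • a) ≠ 0 := by
        rw [add_right hf, smul_right hf, ha, mul_zero, add_zero]
        exact fun h0 => hpa ((eq_zero_comm hf).mp h0)
      exact step _ x hl hxx hz (step a _ ha hl hza hat)
    · push Not at hpa
      have hpa' : f (p + b) a ≠ 0 := by rwa [hf.add_left, hpa, zero_add]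
      obtain ⟨l, hl⟩ := exists_isotropic_shift hf ha hpa'
      have hz : f (p + b + l • a) x ≠ 0 := by
        rwa [hf.add_left, hf.add_left, hf.smul_left, hax, hbx, mul_zero, add_zero, add_zero]
      have hza : f a (p + b + l • a) ≠ 0 := by
        rw [add_right hf, smul_right hf, ha, mul_zero, add_zero]
        exact fun h0 => hpa' ((eq_zero_comm hf).mp h0)
      exact step _ x hl hxx hz (step a _ ha hl hza hat)
  intro y
  refine mem_of_forall_perp hf fun p hp => ?_
  have hpi : ∀ x, f x x = 0 → f x p = 0 := fun x hx => (eq_zero_comm hf).mp (hp x (hiso x hx))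
  have : p = 0 := by
    by_contra hp0
    obtain ⟨q, hq⟩ := (hf.nondegenerate p hp0).1
    have hqa : f p a = 0 := (eq_zero_comm hf).mp (hpi a ha)
    have hqb : f p b = 0 := (eq_zero_comm hf).mp (hpi b hb)
    by_cases hqa' : f q a ≠ 0
    · obtain ⟨l, hl⟩ := exists_isotropic_shift hf ha hqa'
      apply hq
      have := hpi _ hl
      rwa [hf.add_left, hf.smul_left, hpi a ha, mul_zero, add_zero] at this
    · push Not at hqa'
      have hqa'' : f (q + b) a ≠ 0 := by rwa [hf.add_left, hqa', zero_add]
      obtain ⟨l, hl⟩ := exists_isotropic_shift hf ha hqa''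
      apply hq
      have := hpi _ hl
      rwa [hf.add_left, hf.add_left, hf.smul_left, hpi a ha, hpi b hb, mul_zero, add_zero,
        add_zero] at this
  rw [this, zero_right hf]

/-- A non-degenerate space of dimension at least two has a non-orthogonal isotropic pair. -/
lemma exists_iso_pair [Finite F] (hn : 2 ≤ Fintype.card ι) :
    ∃ a b : ι → F, f a a = 0 ∧ f b b = 0 ∧ f b a ≠ 0 := by
  have htop : Cfsg.Geo.IsNondegenerateOn f (⊤ : Submodule F (ι → F)) := fun v _ hv => by
    obtain ⟨⟨x, hx⟩, ⟨y, hy⟩⟩ := hf.nondegenerate v hv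
    exact ⟨⟨x, trivial, hx⟩, ⟨y, trivial, hy⟩⟩
  obtain ⟨a, -, ha0, ha⟩ := exists_isotropic hf htop
    (by rw [finrank_top, Module.finrank_fintype_fun_eq_card]; exact hn)
  obtain ⟨p, hp⟩ := (hf.nondegenerate a ha0).1
  obtain ⟨l, hl⟩ := exists_isotropic_shift hf ha hp
  exact ⟨a, _, ha, hl, by rwa [hf.add_left, hf.smul_left, ha, mul_zero, add_zero]⟩

/-- If every conjugate of `K` by a transvection differs from it by a scalar, `K` is scalar. -/
theorem scalar_of_cj [Finite F] (hn : 2 ≤ Fintype.card ι)
    (hq : (∃ c : F, σ c = c ∧ c ≠ 0 ∧ c ≠ 1) ∨ 3 ≤ Fintype.card ι) {K : Module.End F (ι → F)}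
    (h : ∀ (x : ι → F) (hx : f x x = 0) (c : F), σ c = c →
      ∃ t : F, ∀ y, cj (T hf x c hx) K y - K y = t • y) :
    ∃ t : F, ∀ y, K y = t • y := by
  -- the commutators vanish
  have hcomm : ∀ x, f x x = 0 → x ≠ 0 → ∀ y, K (f y x • x) = f (K y) x • x := by
    intro x hxx hx0
    have key : ∀ c : F, σ c = c → ∃ t : F, ∀ y,
        c • (f (K y) x • x - K (f y x • x)) = t • (y + (c * f y x) • x) := by
      intro c hc
      obtain ⟨t, ht⟩ := h x hxx c hc
      refine ⟨t, fun y => ?_⟩
      have := ht (y + (c * f y x) • x)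
      rw [cj_apply, T_inv hf hxx, ap_T hf, ap_T hf, hf.add_left, hf.smul_left, hxx] at this
      simp only [map_add, map_smul, hf.add_left, hf.smul_left] at this ⊢
      rw [← this]
      match_scalars <;> ring
    obtain ⟨t, ht⟩ := key 1 (map_one σ)
    suffices ht0 : t = 0 by
      intro y
      have := ht y
      rw [one_smul, ht0, zero_smul, sub_eq_zero] at this
      exact this.symm
    rcases hq with ⟨c, hc, hc0, hc1⟩ | h3
    · obtain ⟨s, hs⟩ := key c hc
      obtain ⟨p, hp⟩ := (hf.nondegenerate x hx0).1
      have hrel : (s - c * t) • p + (c * f p x * (s - t)) • x = 0 := by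
        linear_combination (norm := module) c • ht p - hs p
      have h1 := congrArg (fun z => f z x) hrel
      simp only [hf.add_left, hf.smul_left, hxx, mul_zero, add_zero, zero_left hf] at h1
      have e1 : s = c * t := sub_eq_zero.mp ((mul_eq_zero.mp h1).resolve_right hp)
      rw [e1, sub_self, zero_smul, zero_add] at hrel
      have e2 := ((smul_eq_zero.mp hrel).resolve_right hx0)
      have e3 : c * f p x * (c - 1) * t = 0 := by linear_combination e2
      exact (mul_eq_zero.mp e3).resolve_left
        (mul_ne_zero (mul_ne_zero hc0 hp) (sub_ne_zero.mpr hc1))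
    · by_contra ht0
      obtain ⟨y, -, hy0, hy⟩ := exists_ne_zero_map_eq_zero (k := 2) (⊤ : Submodule F (ι → F))
        (LinearMap.pi ![fl hf x, (fl hf x).comp K])
        (by rw [finrank_top, Module.finrank_fintype_fun_eq_card]; omega)
      have h1 : f y x = 0 := congrFun hy 0
      have h2 : f (K y) x = 0 := congrFun hy 1
      have := ht y
      rw [h1, h2] at this
      simp only [zero_smul, map_zero, sub_zero, smul_zero, mul_zero, add_zero] at this
      exact (smul_eq_zero.mp this.symm).elim ht0 hy0
  have heig : ∀ x, f x x = 0 → ∃ t : F, K x = t • x := by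
    intro x hxx
    by_cases hx0 : x = 0
    · exact ⟨0, by simp [hx0]⟩
    obtain ⟨y, hy⟩ := (hf.nondegenerate x hx0).1
    refine ⟨f (K y) x / f y x, ?_⟩
    have := hcomm x hxx hx0 y
    rw [map_smul] at this
    rw [div_eq_mul_inv, mul_comm, mul_smul, ← this, smul_smul, inv_mul_cancel₀ hy, one_smul]
  obtain ⟨a, b, ha, hb, hba⟩ := exists_iso_pair hf hn
  obtain ⟨t, ht⟩ := heig a ha
  exact ⟨t, scalar_of_iso_eigen hf heig a ha b hb hba t ht⟩

/-- A non-scalar map moves some isotropic vector out of the orthogonal of that vector. -/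
theorem exists_iso_ne [Finite F] (hn : 2 ≤ Fintype.card ι) {A : Module.End F (ι → F)}
    (hA : ¬ ∃ t : F, ∀ y, A y = t • y) : ∃ x, f x x = 0 ∧ f (A x) x ≠ 0 := by
  by_contra hc
  push Not at hc
  obtain ⟨a, b, ha, hb, hba⟩ := exists_iso_pair hf hn
  refine hA ?_
  suffices heig : ∀ x, f x x = 0 → ∃ t : F, A x = t • x by
    obtain ⟨t, ht⟩ := heig a ha
    exact ⟨t, scalar_of_iso_eigen hf heig a ha b hb hba t ht⟩
  intro x hxx
  by_cases hx0 : x = 0
  · exact ⟨0, by simp [hx0]⟩
  obtain ⟨p, hp⟩ := (hf.nondegenerate x hx0).1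
  obtain ⟨l, hl⟩ := exists_isotropic_shift hf hxx hp
  set y := p + l • x with hy
  have hyx : f y x ≠ 0 := by rwa [hy, hf.add_left, hf.smul_left, hxx, mul_zero, add_zero]
  have hxy : f x y ≠ 0 := fun h0 => hyx ((eq_zero_comm hf).mp h0)
  set d := f (A x) y / f x y with hd
  refine ⟨d, sub_eq_zero.mp ?_⟩
  set B := A - d • LinearMap.id with hB
  have hBiso : ∀ z, f z z = 0 → f (B z) z = 0 := fun z hz => by
    simp [hB, sub_left hf, hf.smul_left, hc z hz, hz]
  have hBxy : f (B x) y = 0 := by
    simp [hB, sub_left hf, hf.smul_left, hd, div_mul_cancel₀ _ hxy]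
  change B x = 0
  obtain ⟨θ, hθ⟩ := exists_trace hf
  set β := f y x with hβ
  have hxβ : f x y = -σ β := hf.skew x y
  have hσ : σ β ≠ 0 := by rwa [ne_eq, EmbeddingLike.map_eq_zero_iff]
  -- the vectors orthogonal to the pair are orthogonal to `B x`
  have hperp : ∀ u, f u x = 0 → f u y = 0 → f u (B x) = 0 := by
    intro u hux huy
    have hfam : ∀ ω : F, ω * σ ω = 1 → ∀ k : F, σ k = k →
        σ (θ * f u u / σ β + k / σ β) * (f (B y) x + ω * f (B u) x) +
          (θ * f u u / σ β + k / σ β) * σ ω * f (B x) u +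
          (σ ω * f (B y) u + ω * f (B u) y + f (B u) u) = 0 := by
      intro ω hω k hk
      set r := θ * f u u / σ β + k / σ β with hr
      have hiso : f (y + ω • u + r • x) (y + ω • u + r • x) = 0 := by
        simp only [hf.add_left, add_right hf, hf.smul_left, smul_right hf, hl, hxx, hux, huy,
          (eq_zero_comm hf).mp hux, (eq_zero_comm hf).mp huy, hxβ, ← hβ]
        rw [hr, map_add, map_div₀, map_div₀, map_mul, skew_self hf, hf.involutive, hk]
        field_simp
        linear_combination (β * σ β) * (f u u * hω - f u u * hθ)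
      have h := hBiso _ hiso
      simp only [map_add, map_smul, hf.add_left, add_right hf, hf.smul_left, smul_right hf,
        hBiso y hl, hBiso x hxx, hBxy] at h
      linear_combination h - f (B u) u * hω
    obtain ⟨-, h2, -⟩ := norm_one_indep hf (A := f (B u) x / β) (B := f (B x) u / σ β)
      (C := f (B y) x / β) (fun ω hω => by
        have h := hfam ω hω 1 (map_one σ)
        have h' := hfam ω hω 0 (map_zero σ)
        simp only [map_add, map_div₀, map_mul, map_one, map_zero, hf.involutive] at h h'
        linear_combination h - h')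
    exact (eq_zero_comm hf).mp ((div_eq_zero_iff.mp h2).resolve_right hσ)
  by_contra hne
  obtain ⟨u, hu⟩ := (hf.nondegenerate _ hne).1
  apply hu
  have h := hperp (u - (f u y / f x y) • x - (f u x / f y x) • y)
    (by rw [sub_left hf, sub_left hf, hf.smul_left, hf.smul_left, hxx, div_mul_cancel₀ _ hyx]; ring)
    (by rw [sub_left hf, sub_left hf, hf.smul_left, hf.smul_left, hl, div_mul_cancel₀ _ hxy]; ring)
  rw [sub_left hf, sub_left hf, hf.smul_left, hf.smul_left,
    (eq_zero_comm hf).mp (hBiso x hxx), (eq_zero_comm hf).mp hBxy, mul_zero, mul_zero, sub_zero,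
    sub_zero] at h
  exact h

end Unitary

end CfsgLib.Geometric
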