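import Cfsg.Agent.Lib.Geometric.UnitaryReflect
import Cfsg.Agent.Lib.Geometric.UnitaryEnd

/-!
Similitudes of a skew-hermitian space with a scalar square, in odd characteristic: their
eigenspaces, and the invariant non-degenerate planes.
-/

namespace CfsgLib.Geometric

open Matrix

variable {ι : Type} [Fintype ι] [DecidableEq ι] {F : Type*} [Field F]

namespace Unitary

variable {σ : F ≃+* F} {f : (ι → F) → (ι → F) → F} (hf : IsSkewForm σ f) (h2 : (2 : F) ≠ 0)
  {b : GL ι F} {ν β : F} (hb : ∀ y y', f (ap b y) (ap b y') = ν * f y y')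
  (hbb : ∀ z, ap b (ap b z) = β • z)
include hf h2 hb hbb

/-- The scalar square has a square root, of norm plus or minus the multiplier. -/
lemma exists_sqrt [Finite F] (hν : ν ≠ 0) (hσν : σ ν = ν) {v : ι → F} (hv : f v v ≠ 0) :
    ∃ l : F, β = l * l ∧ l ≠ 0 ∧ (l * σ l = ν ∨ l * σ l = -ν) := by
  have h := hb (ap b v) (ap b v)
  rw [hbb, hf.smul_left, smul_right hf, hb] at h
  have hβ : β * σ β = ν * ν := mul_right_cancel₀ hv (by linear_combination h)
  have hσν' : σ ν ≠ 0 := by rwa [hσν]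
  obtain ⟨r, hr⟩ := isSquare_norm_one hf h2 (u := β / ν) (by
    rw [map_div₀, hσν, div_mul_div_comm, hβ, div_self (mul_ne_zero hν hν)])
  obtain ⟨s, hs⟩ := isSquare_fixed hf h2 hσν
  have hβl : β = r * s * (r * s) := by
    rw [← div_mul_cancel₀ β hν, hr, hs]; ring
  refine ⟨r * s, hβl, fun h0 => ?_, ?_⟩
  · rw [hβl, h0, zero_mul, zero_mul, eq_comm, mul_self_eq_zero] at hβ
    exact hν hβ
  · refine mul_self_eq_mul_self_iff.mp ?_
    rw [← hβ, hβl]
    simp only [map_mul]
    ring

omit h2 hbb in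
/-- Eigenvectors are orthogonal unless the eigenvalues pair to the multiplier. -/
lemma eig_orth {x y : ι → F} {a a' : F} (hx : ap b x = a • x) (hy : ap b y = a' • y)
    (h : a * σ a' ≠ ν) : f x y = 0 := by
  have h1 := hb x y
  rw [hx, hy, hf.smul_left, smul_right hf, ← mul_assoc, mul_eq_mul_right_iff] at h1
  exact h1.resolve_left h

variable {l : F} (hβ : β = l * l) (hl : l ≠ 0)
include hβ hl

omit hb in
/-- The eigen-decomposition. -/
lemma exists_split (x : ι → F) :
    ∃ p m, x = p + m ∧ ap b p = l • p ∧ ap b m = (-l) • m := by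
  refine ⟨(2 * l)⁻¹ • (l • x + ap b x), (2 * l)⁻¹ • (l • x - ap b x), ?_, ?_, ?_⟩
  · match_scalars <;> field_simp <;> ring
  · rw [ap_smul, ap_add, ap_smul, hbb, hβ]
    match_scalars <;> ring
  · rw [ap_smul, ap_sub, ap_smul, hbb, hβ]
    match_scalars <;> ring

variable [Finite F]

/-- A non-scalar similitude whose eigenspaces are orthogonal has isotropic eigenvectors for both
eigenvalues, or is a scaled reflection. -/
lemma classify (hν : ν ≠ 0) (hlν : l * σ l = ν) (hn : 2 ≤ Fintype.card ι)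
    (hns : ¬ ∃ t : F, ∀ y, ap b y = t • y) :
    (∃ v v', v ≠ 0 ∧ v' ≠ 0 ∧ f v v = 0 ∧ f v' v' = 0 ∧ ap b v = l • v ∧ ap b v' = (-l) • v') ∨
      ∃ v a, f v v ≠ 0 ∧ a * a = β ∧ a * σ a = ν ∧ a ≠ 0 ∧ ap b v = (-a) • v ∧
        ∀ x, f x v = 0 → ap b x = a • x := by
  obtain ⟨u, hu, hbu⟩ := exists_iso_ne hf hn (A := (apEquiv b).toLinearMap) hns
  simp only [LinearEquiv.coe_coe, apEquiv_apply] at hbu
  obtain ⟨p, m, rfl, hp, hm⟩ := exists_split hf h2 hbb hβ hl u
  have hne : l * σ (-l) ≠ ν := fun h => hν (by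
    rw [map_neg, mul_neg, hlν] at h
    exact (mul_eq_zero.mp (by linear_combination -h : (2 : F) * ν = 0)).resolve_left h2)
  have hne' : (-l) * σ l ≠ ν := fun h => hne (by rw [map_neg, mul_neg, ← neg_mul]; exact h)
  have hpm := eig_orth hf hb hp hm hne
  have hmp := (eq_zero_comm hf).mp hpm
  rw [hf.add_left, add_right hf, add_right hf, hpm, hmp, add_zero, zero_add] at hu
  rw [ap_add, hp, hm, hf.add_left, add_right hf, add_right hf, hf.smul_left, hf.smul_left,
    hf.smul_left, hf.smul_left, hpm, hmp] at hbu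
  have hp0 : f p p ≠ 0 := fun h => hbu (by linear_combination -l * hu + 2 * l * h)
  have hm0 : f m m ≠ 0 := fun h => hp0 (by linear_combination hu - h)
  -- an isotropic eigenvector beside an anisotropic one
  have side : ∀ (a : F) (z : ι → F), ap b z = a • z → f z z ≠ 0 →
      (∀ x, ap b x = a • x → f x z = 0 → x = 0) ∨ ∃ v, v ≠ 0 ∧ f v v = 0 ∧ ap b v = a • v := by
    intro a z hz hzz
    refine or_iff_not_imp_left.mpr fun h => ?_
    push Not at h
    obtain ⟨x, hx, hxz, hx0⟩ := h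
    by_cases hxx : f x x = 0
    · exact ⟨x, hx0, hxx, hx⟩
    obtain ⟨t, ht0, ht⟩ := iso_of_orth_pair hf hzz hxx ((eq_zero_comm hf).mp hxz)
    exact ⟨_, ht0, ht, by rw [ap_add, ap_smul, hz, hx, smul_add, smul_comm]⟩
  rcases side l p hp hp0 with hP | ⟨v, hv0, hvv, hv⟩
  · refine Or.inr ⟨p, -l, hp0, by rw [hβ]; ring, by rw [map_neg, neg_mul_neg, hlν],
      neg_ne_zero.mpr hl, by rw [neg_neg, hp], fun x hx => ?_⟩
    obtain ⟨p', m', rfl, hp', hm'⟩ := exists_split hf h2 hbb hβ hl x
    rw [hf.add_left, eig_orth hf hb hm' hp hne', add_zero] at hx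
    rw [hP p' hp' hx, zero_add, hm']
  · rcases side (-l) m hm hm0 with hM | ⟨v', hv'0, hv'v', hv'⟩
    · refine Or.inr ⟨m, l, hm0, hβ.symm, hlν, hl, hm, fun x hx => ?_⟩
      obtain ⟨p', m', rfl, hp', hm'⟩ := exists_split hf h2 hbb hβ hl x
      rw [hf.add_left, eig_orth hf hb hp' hm hne, zero_add] at hx
      rw [hM m' hm' hx, add_zero, hp']
    · exact Or.inl ⟨v, v', hv0, hv'0, hvv, hv'v', hv, hv'⟩

/-- With totally isotropic eigenspaces some element anticommutes. -/
lemma exists_anticommute (hν : ν ≠ 0) (hlν : l * σ l = -ν) :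
    ∃ R : GL ι F, ∀ x, ap R (ap b x) = -ap b (ap R x) := by
  classical
  set p : (ι → F) →ₗ[F] (ι → F) := (apEquiv b).toLinearMap with hpdef
  set A := LinearMap.ker (p - l • LinearMap.id) with hA
  set B := LinearMap.ker (p - (-l) • LinearMap.id) with hB
  have memA : ∀ x, x ∈ A ↔ ap b x = l • x := fun x => by
    simp only [hA, hpdef, LinearMap.mem_ker, LinearMap.sub_apply, LinearEquiv.coe_coe,
      apEquiv_apply, LinearMap.smul_apply, LinearMap.id_apply, sub_eq_zero]
  have memB : ∀ x, x ∈ B ↔ ap b x = (-l) • x := fun x => by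
    simp only [hB, hpdef, LinearMap.mem_ker, LinearMap.sub_apply, LinearEquiv.coe_coe,
      apEquiv_apply, LinearMap.smul_apply, LinearMap.id_apply, sub_eq_zero]
  have hne : l * σ l ≠ ν := fun h => hν (by
    rw [hlν] at h
    exact (mul_eq_zero.mp (by linear_combination -h : (2 : F) * ν = 0)).resolve_left h2)
  have hne' : (-l) * σ (-l) ≠ ν := by rwa [map_neg, neg_mul_neg]
  have hc : IsCompl A B := by
    refine IsCompl.of_eq ?_ ?_
    · rw [eq_bot_iff]
      intro x hx
      have h1 := ((memA x).mp hx.1).symm.trans ((memB x).mp hx.2)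
      rw [← sub_eq_zero, ← sub_smul, sub_neg_eq_add, ← two_mul, smul_eq_zero] at h1
      exact h1.resolve_left (mul_ne_zero h2 hl)
    · rw [eq_top_iff]
      intro x _
      obtain ⟨q, m, rfl, hq, hm⟩ := exists_split hf h2 hbb hβ hl x
      exact Submodule.add_mem_sup ((memA q).mpr hq) ((memB m).mpr hm)
  have perpA : perp hf A ≤ A := fun x hx => by
    obtain ⟨q, m, rfl, hq, hm⟩ := exists_split hf h2 hbb hβ hl x
    suffices hm0 : m = 0 by rw [hm0, add_zero]; exact (memA q).mpr hq
    by_contra hm0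
    obtain ⟨y, hy⟩ := (hf.nondegenerate m hm0).2
    obtain ⟨q', m', rfl, hq', hm'⟩ := exists_split hf h2 hbb hβ hl y
    have h1 := hx q' ((memA q').mpr hq')
    rw [hf.add_left, eig_orth hf hb hq hq' hne, zero_add] at h1
    exact hy (by rw [add_right hf, h1, eig_orth hf hb hm hm' hne', add_zero])
  have perpB : perp hf B ≤ B := fun x hx => by
    obtain ⟨q, m, rfl, hq, hm⟩ := exists_split hf h2 hbb hβ hl x
    suffices hq0 : q = 0 by rw [hq0, zero_add]; exact (memB m).mpr hm
    by_contra hq0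
    obtain ⟨y, hy⟩ := (hf.nondegenerate q hq0).2
    obtain ⟨q', m', rfl, hq', hm'⟩ := exists_split hf h2 hbb hβ hl y
    have h1 := hx m' ((memB m').mpr hm')
    rw [hf.add_left, eig_orth hf hb hm hm' hne', add_zero] at h1
    exact hy (by rw [add_right hf, h1, eig_orth hf hb hq hq' hne, add_zero])
  have k1 := card_le_finrank_add_finrank_perp hf A
  have k2 := card_le_finrank_add_finrank_perp hf B
  have k3 := Submodule.finrank_add_eq_of_isCompl hc
  rw [Module.finrank_fintype_fun_eq_card] at k3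
  have k4 := Submodule.finrank_mono perpA
  have k5 := Submodule.finrank_mono perpB
  let φ : A ≃ₗ[F] B := LinearEquiv.ofFinrankEq A B (by omega)
  let D := Submodule.prodEquivOfIsCompl A B hc
  let E : (A × B) ≃ₗ[F] (A × B) := (φ.prodCongr φ.symm).trans (LinearEquiv.prodComm F B A)
  refine ⟨ofEquiv (D.symm.trans (E.trans D)), fun x => ?_⟩
  obtain ⟨⟨q, m⟩, rfl⟩ := D.surjective x
  have hD : ∀ q m, D (q, m) = (q : ι → F) + m :=
    fun q m => Submodule.coe_prodEquivOfIsCompl' A B hc (q, m)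
  have hbD : ∀ q m, ap b (D (q, m)) = D (l • q, (-l) • m) := fun q m => by
    rw [hD, hD, ap_add, (memA _).mp q.2, (memB _).mp m.2]
    rfl
  have hR : ∀ q m, ap (ofEquiv (D.symm.trans (E.trans D))) (D (q, m)) = D (φ.symm m, φ q) :=
    fun q m => by simp [E]
  rw [hbD, hR, hR, hbD, ← map_neg]
  simp only [map_smul, Prod.neg_mk]
  congr 1
  refine Prod.ext ?_ ?_ <;> module

omit hl in
omit hβ in
/-- A similitude with a scalar square commutes with the reflections in some plane. -/
lemma exists_plane (hν : ν ≠ 0) (hn : 2 ≤ Fintype.card ι) :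
    ∃ (w : Fin 2 → ι → F) (hw : Orth hf w),
      b * negOn hf h2 w hw * b⁻¹ = negOn hf h2 w hw := by
  by_cases hs : ∃ t : F, ∀ y, ap b y = t • y
  · obtain ⟨t, ht⟩ := hs
    obtain ⟨w, hw⟩ := exists_orth hf 2 hn
    refine ⟨w, hw, ?_⟩
    rw [mul_inv_eq_iff_eq_mul]
    exact gl_ext fun x => by rw [ap_mul, ap_mul, ht, ht, ap_smul]
  obtain ⟨u, hu, hbu⟩ := exists_iso_ne hf hn (A := (apEquiv b).toLinearMap) hs
  simp only [LinearEquiv.coe_coe, apEquiv_apply] at hbu
  obtain ⟨s, -, hw₁⟩ := exists_aniso_of_pair hf hu (q := ap b u) (by rw [hb, hu, mul_zero]) hbu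
  set w₁ := u + s • ap b u with hw₁def
  set k := f (ap b u) w₁ / f w₁ w₁ with hk
  set w₂ := ap b u - k • w₁ with hw₂def
  have h21 : f w₂ w₁ = 0 := by
    rw [hw₂def, sub_left hf, hf.smul_left, hk, div_mul_cancel₀ _ hw₁, sub_self]
  have hbu' : f u (ap b u) ≠ 0 := fun h => hbu ((eq_zero_comm hf).mp h)
  have hw₂ : f w₂ w₂ ≠ 0 := by
    intro h
    have h21' := (eq_zero_comm hf).mp h21
    have e2 : f w₂ (ap b u) = 0 := by
      rw [show ap b u = w₂ + k • w₁ by rw [hw₂def, sub_add_cancel], add_right hf, smul_right hf,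
        h, h21, mul_zero, add_zero]
    have e1 : f w₂ u = 0 := by
      rw [show u = w₁ - s • ap b u by rw [hw₁def, add_sub_cancel_right], sub_right hf,
        smul_right hf, h21, e2, mul_zero, sub_zero]
    rw [hw₂def, hw₁def, sub_left hf, hf.smul_left, hf.add_left, hf.smul_left, hu, zero_add,
      ← mul_assoc, ← one_sub_mul, mul_eq_zero] at e1
    rw [hw₂def, hw₁def, sub_left hf, hf.smul_left, hf.add_left, hf.smul_left, hb u u, hu,
      mul_zero, mul_zero, add_zero, zero_sub, neg_eq_zero, mul_eq_zero] at e2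
    have hk0 := e2.resolve_right hbu'
    rw [hk0, zero_mul, sub_zero] at e1
    exact one_ne_zero (e1.resolve_right hbu)
  have hw : Orth hf ![w₁, w₂] := by
    refine ⟨fun i => ?_, fun i j hij => ?_⟩
    · fin_cases i <;> simp [hw₁, hw₂]
    · have h12 := (eq_zero_comm hf).mp h21
      fin_cases i <;> fin_cases j
      exacts [absurd rfl hij, h12, h21, absurd rfl hij]
  refine ⟨_, hw, eq_negOn hf h2 hw (fun x hx => ?_) fun i => ?_⟩
  · have hx₁ : f x w₁ = 0 := hx 0
    have hx₂ : f x w₂ = 0 := hx 1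
    have hxb : f x (ap b u) = 0 := by
      rw [show ap b u = w₂ + k • w₁ by rw [hw₂def, sub_add_cancel], add_right hf, smul_right hf,
        hx₁, hx₂, mul_zero, add_zero]
    have hxu : f x u = 0 := by
      rw [show u = w₁ - s • ap b u by rw [hw₁def, add_sub_cancel_right], sub_right hf,
        smul_right hf, hx₁, hxb, mul_zero, sub_zero]
    have hyu : f (ap b⁻¹ x) u = 0 := by
      have := hb (ap b⁻¹ x) u
      rw [ap_ap_inv, hxb, eq_comm, mul_eq_zero] at this
      exact this.resolve_left hν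
    have hyb : f (ap b⁻¹ x) (ap b u) = 0 := by
      have := hb (ap b⁻¹ x) (ap b u)
      rw [ap_ap_inv, hbb, smul_right hf, hxu, mul_zero, eq_comm, mul_eq_zero] at this
      exact this.resolve_left hν
    rw [ap_mul, ap_mul, negOn_fix hf h2 hw fun i => ?_, ap_ap_inv]
    fin_cases i
    · simp [hw₁def, add_right hf, smul_right hf, hyu, hyb]
    · simp [hw₂def, hw₁def, sub_right hf, add_right hf, smul_right hf, hyu, hyb]
  · set X := negOn hf h2 ![w₁, w₂] hw
    have n₁ : ap X w₁ = -w₁ := negOn_neg hf h2 hw 0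
    have n₂ : ap X w₂ = -w₂ := negOn_neg hf h2 hw 1
    have nbu : ap X (ap b u) = -ap b u := by
      rw [show ap b u = w₂ + k • w₁ by rw [hw₂def, sub_add_cancel], ap_add, ap_smul, n₁, n₂]
      module
    have nu : ap X u = -u := by
      rw [show u = w₁ - s • ap b u by rw [hw₁def, add_sub_cancel_right], ap_sub, ap_smul, n₁, nbu]
      module
    have cu : ap (b * X * b⁻¹) (ap b u) = -ap b u := by
      rw [ap_mul, ap_mul, ap_inv_ap, nu, ← neg_one_smul F u, ap_smul, neg_one_smul]
    have hu0 : u ≠ 0 := fun h => hbu' (by rw [h, zero_left hf])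
    have hβ0 : β ≠ 0 := fun h => hu0 (ap_injective b (ap_injective b (by
      rw [hbb, h, zero_smul, ap_zero, ap_zero])))
    have cu' : ap (b * X * b⁻¹) u = -u := by
      have hu' : ap b⁻¹ u = β⁻¹ • ap b u := by
        apply ap_injective b
        rw [ap_ap_inv, ap_smul, hbb, smul_smul, inv_mul_cancel₀ hβ0, one_smul]
      rw [ap_mul, ap_mul, hu', ap_smul, nbu, ← neg_one_smul F (ap b u), smul_smul, ap_smul, hbb,
        smul_smul]
      rw [show β⁻¹ * -1 * β = -1 by field_simp, neg_one_smul]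
    clear_value X
    revert i
    rw [Fin.forall_fin_two]
    refine ⟨?_, ?_⟩
    · change ap (b * X * b⁻¹) w₁ = -w₁
      rw [hw₁def, ap_add, ap_smul, cu, cu']
      module
    · change ap (b * X * b⁻¹) w₂ = -w₂
      rw [hw₂def, ap_sub, hw₁def, ap_smul, ap_add, ap_smul, cu, cu']
      module

end Unitary

end CfsgLib.Geometric
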