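import Cfsg.Agent.Lib.Geometric.UnitaryEnd

/-!
A space of linear maps invariant under the special unitary group over more than four elements with
a non-scalar member contains the rank one maps of all orthogonal anisotropic pairs.
-/

namespace CfsgLib.Geometric

open Matrix

variable {ι : Type} [Fintype ι] [DecidableEq ι] {F : Type*} [Field F]

namespace Unitary

variable {σ : F ≃+* F} {f : (ι → F) → (ι → F) → F} (hf : IsSkewForm σ f)
  {S : Submodule F (Module.End F (ι → F))}
  (hinv : ∀ a ∈ isom f ⊓ Cfsg.Geo.specialLinear ι F, ∀ A ∈ S, cj a A ∈ S)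
include hf hinv

variable {c : F} (hc : σ c = c) (hc0 : c ≠ 0) (hc1 : c ≠ 1)
include hc hc0 hc1

/-- The quadratic part of conjugation by the transvections at `v`. -/
lemma quad_mem {A : Module.End F (ι → F)} (hA : A ∈ S) {v : ι → F} (hv : f v v = 0) :
    f (A v) v • rk hf v v ∈ S := by
  have h1 := hinv _ (T_mem hf hv (map_one σ)) A hA
  have h2 := hinv _ (T_mem hf hv hc) A hA
  rw [cj_T hf hv] at h1 h2
  have h3 : (c - c ^ 2) • (rk hf v v * A * rk hf v v) ∈ S := by
    have := S.sub_mem (S.sub_mem h2 hA) (S.smul_mem c (S.sub_mem h1 hA))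
    convert this using 1
    simp only [one_smul, one_pow]
    module
  have hne : c - c ^ 2 ≠ 0 := by
    intro h
    rcases mul_eq_zero.mp (show c * (1 - c) = 0 by linear_combination h) with h | h
    · exact hc0 h
    · exact hc1 (sub_eq_zero.mp h).symm
  have h4 := S.smul_mem (c - c ^ 2)⁻¹ h3
  rw [smul_smul, inv_mul_cancel₀ hne, one_smul] at h4
  convert h4 using 1
  refine LinearMap.ext fun x => ?_
  simp [hf.smul_left, smul_smul, mul_comm]

/-- All rank one maps `x ↦ f(x, y) y` at isotropic vectors. -/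
lemma rk_self_mem [Finite F] (hn : 2 ≤ Fintype.card ι) {A : Module.End F (ι → F)} (hA : A ∈ S)
    (hns : ¬ ∃ t : F, ∀ y, A y = t • y) {y : ι → F} (hy : f y y = 0) : rk hf y y ∈ S := by
  obtain ⟨x, hxx, hx⟩ := exists_iso_ne hf hn hns
  have hR : rk hf x x ∈ S := by
    have := S.smul_mem (f (A x) x)⁻¹ (quad_mem hf hinv hc hc0 hc1 hA hxx)
    rwa [smul_smul, inv_mul_cancel₀ hx, one_smul] at this
  have step : ∀ p r : ι → F, f p p = 0 → f r r = 0 → f p r ≠ 0 → rk hf p p ∈ S →
      rk hf r r ∈ S := by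
    intro p r hp hr hpr hP
    have h := quad_mem hf hinv hc hc0 hc1 hP hr
    simp only [rk_apply, hf.smul_left] at h
    have hne : f r p * f p r ≠ 0 := mul_ne_zero (fun h0 => hpr ((eq_zero_comm hf).mp h0)) hpr
    have := S.smul_mem (f r p * f p r)⁻¹ h
    rwa [smul_smul, inv_mul_cancel₀ hne, one_smul] at this
  have hx0 : x ≠ 0 := fun h => hx (by rw [h, zero_right hf])
  by_cases hxy : f x y = 0
  swap
  · exact step x y hxx hy hxy hR
  by_cases hy0 : y = 0
  · subst hy0
    have : rk hf (0 : ι → F) 0 = 0 := LinearMap.ext fun z => by simp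
    rw [this]; exact zero_mem S
  obtain ⟨p, hpx, hpy⟩ : ∃ p, f p x ≠ 0 ∧ f p y ≠ 0 := by
    obtain ⟨p, hp⟩ := (hf.nondegenerate x hx0).1
    obtain ⟨q, hq⟩ := (hf.nondegenerate y hy0).1
    by_cases h1 : f p y = 0
    · by_cases h2 : f q x = 0
      · exact ⟨p + q, by rwa [hf.add_left, h2, add_zero], by rwa [hf.add_left, h1, zero_add]⟩
      · exact ⟨q, h2, hq⟩
    · exact ⟨p, hp, h1⟩
  obtain ⟨l, hl⟩ := exists_isotropic_shift hf hxx hpx
  refine step _ y hl hy (by rwa [hf.add_left, hf.smul_left, hxy, mul_zero, add_zero]) ?_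
  refine step x _ hxx hl ?_ hR
  rw [add_right hf, smul_right hf, hxx, mul_zero, add_zero]
  exact fun h0 => hpx ((eq_zero_comm hf).mp h0)

/-- The rank one maps of orthogonal anisotropic pairs, over more than four elements. -/
theorem rk_perp_mem_of_large [Finite F] (hn : 2 ≤ Fintype.card ι) {A : Module.End F (ι → F)}
    (hA : A ∈ S) (hns : ¬ ∃ t : F, ∀ y, A y = t • y) {u v : ι → F} (hu : f u u ≠ 0)
    (hv : f v v ≠ 0) (huv : f u v = 0) : rk hf u v ∈ S := by
  have hvu := (eq_zero_comm hf).mp huv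
  obtain ⟨lam, hlam⟩ := exists_norm hf (c := -f v v / f u u) (by
    rw [map_div₀, map_neg, skew_self hf, skew_self hf]; ring)
  have hlam0 : lam ≠ 0 := fun h => by
    rw [h, zero_mul, eq_div_iff hu, zero_mul, eq_comm, neg_eq_zero] at hlam
    exact hv hlam
  have hiso : ∀ w : F, w * σ w = 1 → f ((w * lam) • u + v) ((w * lam) • u + v) = 0 := by
    intro w hw
    simp only [hf.add_left, add_right hf, hf.smul_left, smul_right hf, huv, hvu, map_mul]
    rw [eq_div_iff hu] at hlam
    linear_combination hlam + lam * σ lam * f u u * hw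
  have hX : ∀ w : F, w * σ w = 1 → (lam * σ lam) • rk hf u u + (w * lam) • rk hf u v +
      (σ w * σ lam) • rk hf v u + rk hf v v ∈ S := by
    intro w hw
    convert rk_self_mem hf hinv hc hc0 hc1 hn hA hns (hiso w hw) using 1
    rw [rk_add_left, rk_add_right, rk_add_right, rk_smul_left, rk_smul_left, rk_smul_right,
      rk_smul_right, map_mul, smul_smul,
      show w * lam * (σ w * σ lam) = lam * σ lam by linear_combination lam * σ lam * hw]
    abel
  obtain ⟨a, b, ha, hb, ha1, hb1, hab⟩ := exists_norm_one_two hf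
  have h := S.sub_mem (S.smul_mem (σ b - 1) (S.sub_mem (hX a ha) (hX 1 (by rw [map_one, mul_one]))))
    (S.smul_mem (σ a - 1) (S.sub_mem (hX b hb) (hX 1 (by rw [map_one, mul_one]))))
  set d := ((a - 1) * (σ b - 1) - (b - 1) * (σ a - 1)) * lam with hd
  have hmem : d • rk hf u v ∈ S := by
    convert h using 1
    simp only [map_one, one_mul, hd]
    module
  have hd0 : d ≠ 0 := by
    refine mul_ne_zero (fun h0 => ?_) hlam0
    have h1 : (a - 1) * (b - 1) * (a - b) * (-1) = 0 := by
      linear_combination (a * b) * h0 + (b - 1) * b * ha - (a - 1) * a * hb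
    simp [sub_eq_zero, ha1, hb1, hab] at h1
  have := S.smul_mem d⁻¹ hmem
  rwa [smul_smul, inv_mul_cancel₀ hd0, one_smul] at this

end Unitary

end CfsgLib.Geometric
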