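import Cfsg.Agent.Lib.Geometric.UnitaryEnd

/-!
A space of linear maps invariant under the special unitary group over four elements, in dimension
at least three, with a non-scalar member contains the rank one maps of all orthogonal anisotropic
pairs.
-/

namespace CfsgLib.Geometric

open Matrix

variable {ι : Type} [Fintype ι] [DecidableEq ι] {F : Type*} [Field F]

namespace Unitary

variable {σ : F ≃+* F} {f : (ι → F) → (ι → F) → F} (hf : IsSkewForm σ f)
  (hall : ∀ c : F, σ c = c → c = 0 ∨ c = 1)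
include hf hall

lemma two_zero : (2 : F) = 0 := by
  rcases hall 2 (map_ofNat σ 2) with h | h
  · exact h
  · exact absurd (show (1 : F) = 0 by linear_combination h) one_ne_zero

lemma neg_eq (x : F) : -x = x := by linear_combination -x * two_zero hf hall

/-- The anisotropic values are one. -/
lemma value_one {v : ι → F} (hv : f v v ≠ 0) : f v v = 1 :=
  (hall _ (by rw [skew_self hf, neg_eq hf hall])).resolve_left hv

/-- A primitive cube root of unity. -/
lemma exists_omega : ∃ ω : F, ω ≠ 1 ∧ ω ≠ 0 ∧ σ ω = ω ^ 2 ∧ ω ^ 2 + ω + 1 = 0 := by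
  have h2 := two_zero hf hall
  obtain ⟨a, -, ha, -, ha1, -, -⟩ := exists_norm_one_two hf
  have ha0 : a ≠ 0 := fun h => by rw [h, zero_mul] at ha; exact zero_ne_one ha
  rcases hall (a + σ a) (by rw [map_add, hf.involutive, add_comm]) with h | h
  · exfalso
    apply ha1
    have : (a - 1) ^ 2 = 0 := by linear_combination -ha + a * h - (a - 1) * h2 - h2
    exact sub_eq_zero.mp (pow_eq_zero_iff two_ne_zero |>.mp this)
  · have hrel : a ^ 2 + a + 1 = 0 := by linear_combination a * h - ha + (1 + a) * h2 - a * h2 + a * h2 - h2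
    exact ⟨a, ha1, ha0, by linear_combination h - hrel + (1 : F) * h2, hrel⟩

variable {ω : F} (hω : σ ω = ω ^ 2) (hω2 : ω ^ 2 + ω + 1 = 0)
include hω hω2

/-- The diagonal element of determinant one on an orthogonal pair. -/
lemma exists_diag {v w : ι → F} (hv : f v v = 1) (hw : f w w = 1) (hvw : f v w = 0) :
    ∃ d ∈ isom f ⊓ Cfsg.Geo.specialLinear ι F,
      (∀ x, ap d x = x + (ω ^ 2 * f x v) • v + (ω * f x w) • w) ∧
      ∀ x, ap d⁻¹ x = x + (ω * f x v) • v + (ω ^ 2 * f x w) • w := by
  have h2 := two_zero hf hall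
  have hwv := (eq_zero_comm hf).mp hvw
  have hn : ω * σ ω = 1 := by rw [hω]; linear_combination (ω - 1) * hω2
  have hn' : ω ^ 2 * σ (ω ^ 2) = 1 := by
    rw [map_pow, ← mul_pow, hn, one_pow]
  obtain ⟨g, hg, hgd, hga⟩ := exists_det hf (h := v) (by rw [hv]; exact one_ne_zero) hn
  obtain ⟨g', hg', hgd', hga'⟩ := exists_det hf (h := w) (by rw [hw]; exact one_ne_zero) hn'
  have hap : ∀ x, ap (g * g') x = x + (ω ^ 2 * f x v) • v + (ω * f x w) • w := fun x => by
    rw [ap_mul, hga', hga, hv, hw, hf.add_left, hf.smul_left, hwv, mul_zero, add_zero, div_one,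
      div_one]
    match_scalars
    · ring
    · linear_combination (f x w) * hω2 - (ω * f x w + f x w) * h2
    · linear_combination (f x v) * (ω * h2 - hω2)
  refine ⟨g * g', ⟨mul_mem hg hg', (mem_specialLinear_iff _).mpr ?_⟩, hap, fun x => ?_⟩
  · rw [Units.val_mul, Matrix.det_mul, hgd, hgd']
    linear_combination (ω - 1) * hω2
  · apply ap_injective (g * g')
    rw [ap_ap_inv, hap]
    simp only [hf.add_left, hf.smul_left, hv, hw, hvw, hwv]
    match_scalars
    · ring
    · linear_combination -(f x v) * (ω * hω2) + 0 * h2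
    · linear_combination -(f x w) * (ω * hω2) + 0 * h2

variable {S : Submodule F (Module.End F (ι → F))}
  (hinv : ∀ a ∈ isom f ⊓ Cfsg.Geo.specialLinear ι F, ∀ A ∈ S, cj a A ∈ S)
include hinv

/-- The part of a member in an eigenspace of the conjugation by a diagonal pair. -/
lemma exists_part {v w : ι → F} (hv : f v v = 1) (hw : f w w = 1) (hvw : f v w = 0) (τ : F)
    {A : Module.End F (ι → F)} (hA : A ∈ S) :
    ∃ B ∈ S,
      (∀ x, f x v = 0 → f x w = 0 → τ = 1 → B x = A x + f (A x) v • v + f (A x) w • w) ∧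
      (∀ x, f x v = 0 → f x w = 0 → τ = ω → B x = f (A x) v • v) ∧
      (∀ x, f x v = 0 → f x w = 0 → τ = ω ^ 2 → B x = f (A x) w • w) ∧
      (τ = ω ^ 2 → B v = A v + f (A v) v • v + f (A v) w • w ∧ B w = f (A w) v • v) ∧
      (τ = ω → B v = f (A v) w • w ∧ B w = A w + f (A w) v • v + f (A w) w • w) ∧
      (τ = 1 → B v = f (A v) v • v ∧ B w = f (A w) w • w) := by
  have h2 := two_zero hf hall
  have hwv := (eq_zero_comm hf).mp hvw
  obtain ⟨d, hd, hap, hapi⟩ := exists_diag hf hall hω hω2 hv hw hvw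
  refine ⟨A + τ ^ 2 • cj d A + τ • cj d⁻¹ A, S.add_mem (S.add_mem hA (S.smul_mem _ (hinv d hd A hA)))
    (S.smul_mem _ (hinv _ (inv_mem hd) A hA)), ?_⟩
  refine ⟨fun x h h' ht => ?_, fun x h h' ht => ?_, fun x h h' ht => ?_, fun ht => ⟨?_, ?_⟩,
    fun ht => ⟨?_, ?_⟩, fun ht => ⟨?_, ?_⟩⟩
  all_goals
    subst ht
    simp only [LinearMap.add_apply, LinearMap.smul_apply, cj_apply, inv_inv, hapi, hap, map_add,
      map_smul, hf.add_left, hf.smul_left, hv, hw, hvw, hwv, *]
    match_scalars
  all_goals grind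

/-- A corner entry of a member, in dimension at least four. -/
lemma entry_mem [Finite F] {v v' e e' : ι → F} (hv : f v v = 1) (hv' : f v' v' = 1)
    (he : f e e = 1) (he' : f e' e' = 1) (h1 : f v v' = 0) (h2 : f v e = 0) (h3 : f v e' = 0)
    (h4 : f v' e = 0) (h5 : f v' e' = 0) (h6 : f e e' = 0)
    {A : Module.End F (ι → F)} (hA : A ∈ S) : f (A v') v • rk hf v v' ∈ S := by
  have g1 := (eq_zero_comm hf).mp h1
  have g2 := (eq_zero_comm hf).mp h2
  have g3 := (eq_zero_comm hf).mp h3
  have g4 := (eq_zero_comm hf).mp h4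
  have g5 := (eq_zero_comm hf).mp h5
  have g6 := (eq_zero_comm hf).mp h6
  obtain ⟨A₁, hA₁, -, -, a₁, a₁', -, -⟩ :=
    exists_part hf hall hω hω2 hinv hv hv' h1 (ω ^ 2) hA
  obtain ⟨A₂, hA₂, -, a₂, -, -, a₂', -⟩ := exists_part hf hall hω hω2 hinv hv he h2 ω hA₁
  obtain ⟨A₃, hA₃, -, a₃, -, -, a₃', -⟩ := exists_part hf hall hω hω2 hinv hv he' h3 ω hA₂
  convert hA₃ using 1
  refine LinearMap.ext fun x => ?_
  set r := x - f x v • v - f x v' • v' - f x e • e - f x e' • e' with hr
  have r1 : f r v = 0 := by simp [hr, sub_left hf, hf.smul_left, hv, g1, g2, g3]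
  have r2 : f r v' = 0 := by simp [hr, sub_left hf, hf.smul_left, h1, hv', g4, g5]
  have r3 : f r e = 0 := by simp [hr, sub_left hf, hf.smul_left, h2, h4, he, g6]
  have r4 : f r e' = 0 := by simp [hr, sub_left hf, hf.smul_left, h3, h5, h6, he']
  have z : ∀ y, f y v = 0 → f y v' = 0 → f y e = 0 → A₂ y = 0 := fun y p p' p'' => by
    rw [a₂ y p p'' rfl, a₁ y p p' rfl, hf.smul_left, g1, mul_zero, zero_smul]
  have ev : A₃ v = 0 := by
    rw [(a₃' rfl).1, (a₂' rfl).1, hf.smul_left, h6, mul_zero, zero_smul]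
  have ev' : A₃ v' = f (A v') v • v := by
    rw [a₃ v' g1 h5 rfl, a₂ v' g1 h4 rfl, (a₁' rfl).2]
    simp [hf.smul_left, hv]
  have ee : A₃ e = 0 := by
    rw [a₃ e g2 h6 rfl, (a₂' rfl).2, a₁ e g2 g4 rfl]
    simp [hf.add_left, hf.smul_left, g1, g2, zero_left hf]
  have ee' : A₃ e' = 0 := by
    rw [(a₃' rfl).2, z e' g3 g5 g6]
    simp [zero_left hf]
  have er : A₃ r = 0 := by rw [a₃ r r1 r4 rfl, z r r1 r2 r3, zero_left hf, zero_smul]
  have hx : x = r + f x v • v + f x v' • v' + f x e • e + f x e' • e' := by rw [hr]; abel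
  conv_rhs => rw [hx]
  simp only [map_add, map_smul, ev, ev', ee, ee', er, LinearMap.smul_apply, rk_apply]
  module

omit hω hω2 hinv in
/-- An anisotropic vector orthogonal to a short orthonormal family. -/
lemma exists_unit_perp {k : ℕ} (hk : k < Fintype.card ι) {v : Fin k → ι → F}
    (hv : ∀ i j, f (v i) (v j) = if i = j then 1 else 0) :
    ∃ e, f e e = 1 ∧ ∀ i, f e (v i) = 0 := by
  classical
  by_contra hcon
  push Not at hcon
  have hiso : ∀ x, (∀ i, f x (v i) = 0) → f x x = 0 := fun x hx => by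
    by_contra hne
    obtain ⟨i, hi⟩ := hcon x (value_one hf hall hne)
    exact hi (hx i)
  obtain ⟨x, -, hx0, hx⟩ := exists_ne_zero_map_eq_zero (k := k) (⊤ : Submodule F (ι → F))
    (LinearMap.pi fun i => fl hf (v i))
    (by rw [finrank_top, Module.finrank_fintype_fun_eq_card]; exact hk)
  have hx' : ∀ i, f x (v i) = 0 := fun i => congrFun hx i
  obtain ⟨q₀, hq₀⟩ := (hf.nondegenerate x hx0).1
  set L : (ι → F) →ₗ[F] (ι → F) := LinearMap.id - ∑ i, (fl hf (v i)).smulRight (v i)
  have hL : ∀ i, f (L q₀) (v i) = 0 := fun i => by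
    have : fl hf (v i) (L q₀) = 0 := by
      simp only [L, LinearMap.sub_apply, LinearMap.sum_apply, LinearMap.id_apply,
        LinearMap.smulRight_apply, map_sub, map_sum, map_smul]
      simp [hv]
    simpa using this
  have hq : f (L q₀) x ≠ 0 := by
    have : fl hf x (L q₀) = fl hf x q₀ := by
      simp only [L, LinearMap.sub_apply, LinearMap.sum_apply, LinearMap.id_apply,
        LinearMap.smulRight_apply, map_sub, map_sum, map_smul]
      simp [(eq_zero_comm hf).mp (hx' _)]
    simp only [fl_apply] at this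
    rwa [this]
  obtain ⟨t, -, hne⟩ := exists_aniso_of_pair hf (hiso x hx') (hiso _ hL) hq
  exact hne (hiso _ fun i => by rw [hf.add_left, hf.smul_left, hx', hL, mul_zero, add_zero])

omit hω hω2 hinv in
/-- Three orthonormal vectors resolve the identity of a three-dimensional space. -/
lemma frame_three [Finite F] (h3 : Fintype.card ι = 3) {a b e : ι → F} (ha : f a a = 1)
    (hb : f b b = 1) (he : f e e = 1) (hab : f a b = 0) (hae : f a e = 0) (hbe : f b e = 0)
    (x : ι → F) : x = f x a • a + f x b • b + f x e • e := by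
  have hba := (eq_zero_comm hf).mp hab
  have hea := (eq_zero_comm hf).mp hae
  have heb := (eq_zero_comm hf).mp hbe
  have hli : LinearIndependent F ![a, b, e] := by
    rw [Fintype.linearIndependent_iff]
    intro g hg i
    simp only [Fin.sum_univ_three] at hg
    have h1 := congrArg (fun z => f z a) hg
    have h2 := congrArg (fun z => f z b) hg
    have h3 := congrArg (fun z => f z e) hg
    simp [hf.add_left, hf.smul_left, ha, hb, he, hab, hae, hbe, hba, hea, heb,
      zero_left hf] at h1 h2 h3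
    fin_cases i <;> assumption
  have hmem : x ∈ Submodule.span F (Set.range ![a, b, e]) := by
    rw [hli.span_eq_top_of_card_eq_finrank
      (by rw [Fintype.card_fin, Module.finrank_fintype_fun_eq_card, h3])]
    trivial
  obtain ⟨g, rfl⟩ := (Submodule.mem_span_range_iff_exists_fun F).mp hmem
  simp [Fin.sum_univ_three, hf.add_left, hf.smul_left, ha, hb, he, hab, hae, hbe, hba, hea, heb]

/-- In dimension three: from a member moving the pair in one cyclic sense, the cyclic map. -/
lemma cycle_mem [Finite F] (h3 : Fintype.card ι = 3) {a b e : ι → F} (ha : f a a = 1)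
    (hb : f b b = 1) (he : f e e = 1) (hab : f a b = 0) (hae : f a e = 0) (hbe : f b e = 0)
    {A : Module.End F (ι → F)} (hA : A ∈ S) (hsum : f (A b) a + f (A e) b + f (A a) e ≠ 0) :
    rk hf a b + rk hf b e + rk hf e a ∈ S := by
  have h2 := two_zero hf hall
  have hba := (eq_zero_comm hf).mp hab
  have hea := (eq_zero_comm hf).mp hae
  have heb := (eq_zero_comm hf).mp hbe
  obtain ⟨N, hN, -, -, n₁, n₁', -, -⟩ := exists_part hf hall hω hω2 hinv ha hb hab (ω ^ 2) hA
  have hfr := frame_three hf hall h3 ha hb he hab hae hbe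
  have Nb : N b = f (A b) a • a := (n₁' rfl).2
  have Ne' : N e = f (A e) b • b := n₁ e hea heb rfl
  have Na : N a = f (A a) e • e := by
    rw [(n₁' rfl).1]
    conv_lhs => arg 1; arg 1; rw [hfr (A a)]
    match_scalars <;> grind
  set u₀ := a + b + e with hu₀
  set u₁ := a + ω • b + ω ^ 2 • e with hu₁
  set u₂ := a + ω ^ 2 • b + ω • e with hu₂
  have hs2 : σ (ω ^ 2) = ω ^ 4 := by rw [map_pow, hω]; ring
  have w0 : f u₀ u₀ = 1 := by
    simp only [hu₀, hf.add_left, add_right hf, ha, hb, he, hab, hae, hbe, hba, hea, heb]; grind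
  have w1 : f u₁ u₁ = 1 := by
    simp only [hu₁, hf.add_left, add_right hf, hf.smul_left, smul_right hf, hω, hs2, ha, hb, he,
      hab, hae, hbe, hba, hea, heb]; grind
  have w2 : f u₂ u₂ = 1 := by
    simp only [hu₂, hf.add_left, add_right hf, hf.smul_left, smul_right hf, hω, hs2, ha, hb, he,
      hab, hae, hbe, hba, hea, heb]; grind
  have w01 : f u₀ u₁ = 0 := by
    simp only [hu₀, hu₁, hf.add_left, add_right hf, hf.smul_left, smul_right hf, hω, hs2, ha, hb,
      he, hab, hae, hbe, hba, hea, heb]; grind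
  have w02 : f u₀ u₂ = 0 := by
    simp only [hu₀, hu₂, hf.add_left, add_right hf, hf.smul_left, smul_right hf, hω, hs2, ha, hb,
      he, hab, hae, hbe, hba, hea, heb]; grind
  have w12 : f u₁ u₂ = 0 := by
    simp only [hu₁, hu₂, hf.add_left, add_right hf, hf.smul_left, smul_right hf, hω, hs2, ha, hb,
      he, hab, hae, hbe, hba, hea, heb]; grind
  obtain ⟨B, hB, b₁, -, -, -, -, b₁'⟩ := exists_part hf hall hω hω2 hinv w0 w1 w01 1 hN
  set m := f (A b) a + f (A e) b + f (A a) e with hm
  have n0 : f (N u₀) u₀ = m := by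
    simp only [hu₀, map_add, Na, Nb, Ne', hf.add_left, add_right hf, hf.smul_left, ha, hb, he, hab,
      hae, hbe, hba, hea, heb, hm]; grind
  have n1 : f (N u₁) u₁ = ω * m := by
    simp only [hu₁, map_add, map_smul, Na, Nb, Ne', hf.add_left, add_right hf, hf.smul_left,
      smul_right hf, hω, hs2, ha, hb, he, hab, hae, hbe, hba, hea, heb, hm]; grind
  have n2 : f (N u₂) u₂ = ω ^ 2 * m := by
    simp only [hu₂, map_add, map_smul, Na, Nb, Ne', hf.add_left, add_right hf, hf.smul_left,
      smul_right hf, hω, hs2, ha, hb, he, hab, hae, hbe, hba, hea, heb, hm]; grind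
  have hfu := frame_three hf hall h3 w0 w1 w2 w01 w02 w12
  have eB2 : B u₂ = f (N u₂) u₂ • u₂ := by
    rw [b₁ u₂ ((eq_zero_comm hf).mp w02) ((eq_zero_comm hf).mp w12) rfl]
    conv_lhs => arg 1; arg 1; rw [hfu (N u₂)]
    match_scalars <;> grind
  have := S.smul_mem m⁻¹ hB
  convert this using 1
  refine LinearMap.ext fun x => ?_
  conv_rhs => rw [hfu x]
  simp only [LinearMap.smul_apply, map_add, map_smul, (b₁' rfl).1, (b₁' rfl).2, eB2, n0, n1, n2,
    smul_add, smul_smul, LinearMap.add_apply, rk_apply]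
  simp only [hu₀, hu₁, hu₂, add_right hf, smul_right hf, hω, hs2]
  match_scalars <;> field_simp <;> grind

end Unitary

end CfsgLib.Geometric
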