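import Cfsg.Agent.Lib.Geometric.UnitaryEndTwo
import Cfsg.Agent.Lib.Geometric.UnitaryEndRk

/-!
A space of linear maps invariant under the special unitary group with a non-scalar member contains
the rank one maps of all orthogonal anisotropic pairs.
-/

namespace CfsgLib.Geometric

open Matrix

variable {ι : Type} [Fintype ι] [DecidableEq ι] {F : Type*} [Field F]

set_option maxHeartbeats 800000

namespace Unitary

variable {σ : F ≃+* F} {f : (ι → F) → (ι → F) → F} (hf : IsSkewForm σ f)
  {S : Submodule F (Module.End F (ι → F))}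
  (hinv : ∀ a ∈ isom f ⊓ Cfsg.Geo.specialLinear ι F, ∀ A ∈ S, cj a A ∈ S)
include hf hinv

section Four

variable (hall : ∀ c : F, σ c = c → c = 0 ∨ c = 1) {ω : F} (hω : σ ω = ω ^ 2)
  (hω2 : ω ^ 2 + ω + 1 = 0)
include hall hω hω2

omit hω hω2 in
/-- Exchanging an orthonormal pair. -/
lemma exists_swap_pair {p r : ι → F} (hp : f p p = 1) (hr : f r r = 1) (hpr : f p r = 0) :
    ∃ g ∈ isom f ⊓ Cfsg.Geo.specialLinear ι F, ap g p = r ∧ ap g r = p ∧
      (∀ x, f x p = 0 → f x r = 0 → ap g x = x) ∧ g⁻¹ = g := by
  have hrp := (eq_zero_comm hf).mp hpr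
  have hiso : f (p + r) (p + r) = 0 := by
    rw [hf.add_left, add_right hf, add_right hf, hp, hr, hpr, hrp]
    linear_combination two_zero hf hall
  refine ⟨T hf (p + r) 1 hiso, T_mem hf hiso (map_one σ), ?_, ?_, fun x h h' => ?_, ?_⟩
  · rw [ap_T hf, add_right hf, hp, hpr]
    match_scalars
    · linear_combination two_zero hf hall
    · ring
  · rw [ap_T hf, add_right hf, hr, hrp]
    match_scalars
    · linear_combination two_zero hf hall
    · ring
  · exact ap_T_fix hf hiso (by rw [add_right hf, h, h', add_zero])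
  · rw [T_inv hf]
    congr 1
    exact neg_eq hf hall 1

/-- In dimension three a non-zero corner gives the rank one map. -/
lemma rk_of_entry_three [Finite F] (h3 : Fintype.card ι = 3) {u v : ι → F} (hu : f u u = 1)
    (hv : f v v = 1) (huv : f u v = 0) {A : Module.End F (ι → F)} (hA : A ∈ S)
    (hne : f (A u) v ≠ 0) : rk hf u v ∈ S := by
  classical
  have h2 := two_zero hf hall
  have hvu := (eq_zero_comm hf).mp huv
  obtain ⟨e, he, he'⟩ := exists_unit_perp hf hall (k := 2) (by omega) (v := ![v, u]) (by
    intro i j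
    fin_cases i <;> fin_cases j <;> simp [hu, hv, huv, hvu])
  have hev : f e v = 0 := he' 0
  have heu : f e u = 0 := he' 1
  have hve := (eq_zero_comm hf).mp hev
  have hue := (eq_zero_comm hf).mp heu
  obtain ⟨l, hl, hsum⟩ : ∃ l : F, l * σ l = 1 ∧
      f (A (l • u)) v + f (A e) (l • u) + f (A v) e ≠ 0 := by
    by_contra hc
    push Not at hc
    refine hne (norm_one_indep hf (B := f (A e) u) (C := f (A v) e) fun l hl => ?_).1
    have := hc l hl
    simp only [map_smul, hf.smul_left, smul_right hf] at this
    linear_combination this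
  set u₀ := l • u with hu₀
  have hu0 : f u₀ u₀ = 1 := by
    rw [hu₀, hf.smul_left, smul_right hf, hu]; linear_combination hl
  have h0v : f v u₀ = 0 := by rw [hu₀, smul_right hf, hvu, mul_zero]
  have h0e : f u₀ e = 0 := by rw [hu₀, hf.smul_left, hue, mul_zero]
  have hC := cycle_mem hf hall hω hω2 hinv h3 hv hu0 he h0v hve h0e hA hsum
  -- the map attached to a frame and to its transform
  have hn : ω * σ ω = 1 := by rw [hω]; linear_combination (ω - 1) * hω2
  have hω0 : ω ≠ 0 := fun h => by rw [h, zero_mul] at hn; exact zero_ne_one hn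
  have key : ∀ a b c : ι → F, f a a = 1 → f b b = 1 → f c c = 1 → f a b = 0 → f a c = 0 →
      f b c = 0 → ∃ g ∈ isom f ⊓ Cfsg.Geo.specialLinear ι F,
        ap g a = a + b + c ∧ ap g b = a + ω • b + ω ^ 2 • c ∧ ap g c = a + ω ^ 2 • b + ω • c ∧
        ∀ x, ap g⁻¹ x = f x (a + b + c) • a + f x (a + ω • b + ω ^ 2 • c) • b +
          f x (a + ω ^ 2 • b + ω • c) • c := by
    intro a b c ha hb hc hab hac hbc
    have hba := (eq_zero_comm hf).mp hab
    have hca := (eq_zero_comm hf).mp hac
    have hcb := (eq_zero_comm hf).mp hbc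
    have hs2 : σ (ω ^ 2) = ω ^ 4 := by rw [map_pow, hω]; ring
    have hfr := frame_three hf hall h3 ha hb hc hab hac hbc
    let L : (ι → F) →ₗ[F] (ι → F) := (fl hf a).smulRight (a + b + c) +
      (fl hf b).smulRight (a + ω • b + ω ^ 2 • c) + (fl hf c).smulRight (a + ω ^ 2 • b + ω • c)
    let R : (ι → F) →ₗ[F] (ι → F) := (fl hf (a + b + c)).smulRight a +
      (fl hf (a + ω • b + ω ^ 2 • c)).smulRight b + (fl hf (a + ω ^ 2 • b + ω • c)).smulRight c
    have hLR : ∀ x, L (R x) = x := fun x => by
      conv_rhs => rw [hfr x]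
      simp only [L, R, LinearMap.add_apply, LinearMap.smulRight_apply, fl_apply, hf.add_left,
        add_right hf, hf.smul_left, smul_right hf, hω, hs2, ha, hb, hc, hab, hac, hbc, hba, hca,
        hcb]
      match_scalars <;> grind
    have hRL : ∀ x, R (L x) = x := fun x => by
      conv_rhs => rw [hfr x]
      simp only [L, R, LinearMap.add_apply, LinearMap.smulRight_apply, fl_apply, hf.add_left,
        add_right hf, hf.smul_left, smul_right hf, hω, hs2, ha, hb, hc, hab, hac, hbc, hba, hca,
        hcb]
      match_scalars <;> grind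
    set g := ofEquiv { L with invFun := R, left_inv := hRL, right_inv := hLR } with hg
    have hgap : ∀ x, ap g x = L x := fun x => by rw [hg, ap_ofEquiv]; rfl
    have hga : ap g a = a + b + c := by simp [hgap, L, ha, hab, hac]
    have hgb : ap g b = a + ω • b + ω ^ 2 • c := by simp [hgap, L, hb, hba, hbc]
    have hgc : ap g c = a + ω ^ 2 • b + ω • c := by simp [hgap, L, hc, hca, hcb]
    have hgI : g ∈ isom f := mem_isom_iff.mpr fun x y => by
      conv_rhs => rw [hfr x, hfr y]
      simp only [hgap, L, LinearMap.add_apply, LinearMap.smulRight_apply, fl_apply, hf.add_left,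
        add_right hf, hf.smul_left, smul_right hf, hω, hs2, ha, hb, hc, hab, hac, hbc, hba, hca,
        hcb]
      grind
    have q1 : ap g (ap g a) = a := by
      simp only [hga, hgb, hgc, ap_add]
      match_scalars <;> grind
    have q2 : ap g (ap g b) = c := by
      simp only [hgb, ap_add, ap_smul, hga, hgc]
      match_scalars <;> grind
    have q3 : ap g (ap g c) = b := by
      simp only [hgc, ap_add, ap_smul, hga, hgb]
      match_scalars <;> grind
    have hg4 : g ^ 4 = 1 := gl_ext fun x => by
      conv_rhs => rw [ap_one]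
      rw [pow_succ, pow_succ, pow_succ, pow_one]
      conv_lhs => rw [hfr x]
      simp only [ap_mul, ap_add, ap_smul, q1, q2, q3]
      exact (hfr x).symm
    refine ⟨g, ⟨hgI, (mem_specialLinear_iff g).mpr ?_⟩, hga, hgb, hgc, fun x => ?_⟩
    · set D := (g : Matrix ι ι F).det with hD
      have hnorm := det_norm hf hgI
      have hp : D ^ 4 = 1 := by rw [hD, ← Matrix.det_pow, ← Units.val_pow_eq_pow_val, hg4]; simp
      rw [← hD] at hnorm
      have hfix : σ (D + σ D) = D + σ D := by rw [map_add, hf.involutive, add_comm]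
      rcases hall _ hfix with h | h <;> grind
    · apply ap_injective g
      rw [ap_ap_inv, hgap]
      exact (hLR x).symm
  -- the diagonal map of the frame
  set d := rk hf v v + ω ^ 2 • rk hf u₀ u₀ + ω • rk hf e e with hd
  have hdS : d ∈ S := by
    obtain ⟨g, hg, g1, g2, g3, gi⟩ := key v u₀ e hv hu0 he h0v hve h0e
    convert hinv g hg _ hC using 1
    refine LinearMap.ext fun x => ?_
    have hs2 : σ (ω ^ 2) = ω ^ 4 := by rw [map_pow, hω]; ring
    simp only [hd, cj_apply, LinearMap.add_apply, LinearMap.smul_apply, rk_apply, gi, ap_add,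
      ap_smul, g1, g2, g3, hf.add_left, add_right hf, hf.smul_left, smul_right hf, hω, hs2, hv,
      hu0, he, h0v, hve, h0e, (eq_zero_comm hf).mp h0v, (eq_zero_comm hf).mp hve,
      (eq_zero_comm hf).mp h0e]
    match_scalars <;> grind
  -- the maps of the rescaled frames
  have hX : ∀ m : F, m * σ m = 1 →
      rk hf v e + m • rk hf u₀ v + σ m • rk hf e u₀ ∈ S := by
    intro m hm
    set b := m • u₀ with hb
    have hbb : f b b = 1 := by
      rw [hb, hf.smul_left, smul_right hf, hu0]; linear_combination hm
    have hvb : f v b = 0 := by rw [hb, smul_right hf, h0v, mul_zero]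
    have hbe : f b e = 0 := by rw [hb, hf.smul_left, h0e, mul_zero]
    obtain ⟨g, hg, g1, g2, g3, gi⟩ := key v b e hv hbb he hvb hve hbe
    convert hinv g hg _ hdS using 1
    refine LinearMap.ext fun x => ?_
    have hs2 : σ (ω ^ 2) = ω ^ 4 := by rw [map_pow, hω]; ring
    simp only [hd, hb] at g1 g2 g3 gi ⊢
    simp only [cj_apply, LinearMap.add_apply, LinearMap.smul_apply, rk_apply, gi, ap_add,
      ap_smul, g1, g3, hf.add_left, add_right hf, hf.smul_left, smul_right hf, hω, hs2, hv,
      hu0, he, h0v, hve, h0e, (eq_zero_comm hf).mp h0v, (eq_zero_comm hf).mp hve,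
      (eq_zero_comm hf).mp h0e]
    have g2' : ap g u₀ = σ m • (v + ω • m • u₀ + ω ^ 2 • e) := by
      rw [← g2, ap_smul g m u₀, smul_smul (σ m) m (ap g u₀), show σ m * m = 1 by linear_combination hm, one_smul]
    simp only [g2']
    match_scalars <;> grind
  have hω' : ω ^ 2 * σ (ω ^ 2) = 1 := by rw [map_pow, ← mul_pow, hn, one_pow]
  have h := S.add_mem (S.add_mem (hX 1 (by rw [map_one, mul_one]))
    (S.smul_mem (ω ^ 2) (hX ω hn))) (S.smul_mem ω (hX (ω ^ 2) hω'))
  have hmem : rk hf u₀ v ∈ S := by
    convert h using 1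
    have hs2 : σ (ω ^ 2) = ω ^ 4 := by rw [map_pow, hω]; ring
    simp only [map_one, hω, hs2]
    match_scalars <;> grind
  rw [hu₀, rk_smul_left] at hmem
  have hl0 : l ≠ 0 := fun h => by rw [h, zero_mul] at hl; exact zero_ne_one hl
  have := S.smul_mem l⁻¹ hmem
  rwa [smul_smul, inv_mul_cancel₀ hl0, one_smul] at this

/-- A member with a non-zero corner gives the rank one map. -/
lemma rk_of_entry [Finite F] (hn : 3 ≤ Fintype.card ι) {u v : ι → F} (hu : f u u = 1)
    (hv : f v v = 1) (huv : f u v = 0) {A : Module.End F (ι → F)} (hA : A ∈ S)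
    (hne : f (A v) u ≠ 0) : rk hf u v ∈ S := by
  classical
  have hvu := (eq_zero_comm hf).mp huv
  by_cases h3 : Fintype.card ι = 3
  · obtain ⟨g, hg, gu, gv, -, hgi⟩ := exists_swap_pair hf hinv hall hu hv huv
    refine rk_of_entry_three hf hinv hall hω hω2 h3 hu hv huv (hinv g hg A hA) ?_
    rw [cj_apply, hgi, gu]
    have := mem_isom_iff.mp hg.1 (A v) u
    rw [gu] at this
    rwa [this]
  obtain ⟨e, he, he'⟩ := exists_unit_perp hf hall (k := 2) (by omega) (v := ![u, v]) (by
    intro i j
    fin_cases i <;> fin_cases j <;> simp [hu, hv, huv, hvu])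
  have heu : f e u = 0 := he' 0
  have hev : f e v = 0 := he' 1
  obtain ⟨e', he2, he2'⟩ := exists_unit_perp hf hall (k := 3) (by omega) (v := ![u, v, e]) (by
    intro i j
    fin_cases i <;> fin_cases j <;>
      simp [hu, hv, he, huv, hvu, heu, hev, (eq_zero_comm hf).mp heu, (eq_zero_comm hf).mp hev])
  have h := entry_mem hf hall hω hω2 hinv hu hv he he2 huv ((eq_zero_comm hf).mp heu)
    ((eq_zero_comm hf).mp (he2' 0)) ((eq_zero_comm hf).mp hev) ((eq_zero_comm hf).mp (he2' 1))
    ((eq_zero_comm hf).mp (he2' 2)) hA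
  have := S.smul_mem (f (A v) u)⁻¹ h
  rwa [smul_smul, inv_mul_cancel₀ hne, one_smul] at this

/-- The rank one maps of orthonormal pairs. -/
lemma rk_perp_mem_of_four [Finite F] (hn : 3 ≤ Fintype.card ι) {A : Module.End F (ι → F)}
    (hA : A ∈ S) (hns : ¬ ∃ t : F, ∀ y, A y = t • y) {u v : ι → F} (hu : f u u = 1)
    (hv : f v v = 1) (huv : f u v = 0) : rk hf u v ∈ S := by
  classical
  have h2 := two_zero hf hall
  -- one pair
  obtain ⟨a, b, ha, hb, hab, hAba⟩ : ∃ a b, f a a = 1 ∧ f b b = 1 ∧ f a b = 0 ∧ f (A b) a ≠ 0 := by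
    by_contra hc
    push Not at hc
    have hz : ∀ b, f b b = 1 → A b = f (A b) b • b := by
      intro b hb
      rw [← sub_eq_zero]
      refine eq_zero_of_perp_aniso hf fun p hp => ?_
      have hq : f (p - f p b • b) b = 0 := by rw [sub_left hf, hf.smul_left, hb, mul_one, sub_self]
      have hAb : ∀ z, f z b = 0 → f z (A b) = 0 := by
        intro z hz
        refine span_aniso_perp hf (v := b) (by rw [hb]; exact one_ne_zero)
          (LinearMap.ker (fl hf (A b))) (fun a ha hab' => ?_) hz
        exact (eq_zero_comm hf).mp (hc a b (value_one hf hall ha) hb hab')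
      have h3 := hAb _ hq
      rw [sub_left hf, hf.smul_left, sub_eq_zero] at h3
      rw [sub_right hf, smul_right hf, h3, hf.skew b (A b)]
      linear_combination -(σ (f (A b) b) * f p b) * h2
    refine hns ?_
    obtain ⟨w, hw, -⟩ := exists_unit_perp hf hall (k := 0) (by omega) (v := ![]) (fun i => i.elim0)
    refine ⟨f (A w) w, fun y => ?_⟩
    have hsame : ∀ b c, f b b = 1 → f c c = 1 → f b c = 0 → f (A b) b = f (A c) c := by
      intro b c hb hc hbc
      have hcb := (eq_zero_comm hf).mp hbc
      obtain ⟨e, he, he'⟩ := exists_unit_perp hf hall (k := 2) (by omega) (v := ![b, c]) (by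
        intro i j
        fin_cases i <;> fin_cases j <;> simp [hb, hc, hbc, hcb])
      have heb : f e b = 0 := he' 0
      have hec : f e c = 0 := he' 1
      have hs : f (b + c + e) (b + c + e) = 1 := by
        simp only [hf.add_left, add_right hf, hb, hc, he, hbc, hcb, heb, hec,
          (eq_zero_comm hf).mp heb, (eq_zero_comm hf).mp hec]
        linear_combination h2
      have h := hz _ hs
      rw [map_add, map_add, hz b hb, hz c hc, hz e he] at h
      have h1 := congrArg (fun z => f z b) h
      have h3 := congrArg (fun z => f z c) h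
      simp [hf.add_left, hf.smul_left, hb, hc, hbc, hcb, heb, hec] at h1 h3
      exact h1.trans h3.symm
    have heq : ∀ p, f p p = 1 → f (A p) p = f (A w) w := by
      intro p hp1
      by_cases hpw : f p w = 0
      · exact hsame p w hp1 hw hpw
      set t := σ (ω / f p w) with ht
      have hσt : σ t * f p w = ω := by rw [ht, hf.involutive, div_mul_cancel₀ _ hpw]
      have hn' : ω * σ ω = 1 := by rw [hω]; linear_combination (ω - 1) * hω2
      have hω0 : ω ≠ 0 := fun h => by rw [h, zero_mul] at hn'; exact zero_ne_one hn'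
      have ht0 : t ≠ 0 := fun h => hω0 (by rw [← hσt, h, map_zero, zero_mul])
      have htn : t * σ t = 1 := (hall _ (by rw [map_mul, hf.involutive, mul_comm])).resolve_left
        (mul_ne_zero ht0 (by rwa [ne_eq, EmbeddingLike.map_eq_zero_iff]))
      have hs : f (p + t • w) (p + t • w) = 1 := by
        simp only [hf.add_left, add_right hf, hf.smul_left, smul_right hf, hp1, hw, hf.skew w p]
        have hσω : t * σ (f p w) = σ ω := by rw [← hσt, map_mul, hf.involutive]
        linear_combination hσt + htn - hσω - hω + hω2 + (1 - σ ω) * h2 - h2 + (σ ω - ω ^ 2) * 0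
          - ω ^ 2 * h2 + σ ω * h2
      have h := hz _ hs
      set k := f (A (p + t • w)) (p + t • w) with hk'
      clear_value k
      rw [map_add, map_smul, hz p hp1, hz w hw] at h
      have hrel : (f (A p) p - k) • p + (t * (f (A w) w - k)) • w = 0 := by
        linear_combination (norm := module) h
      by_contra hne
      by_cases hk : f (A p) p - k = 0
      · rw [hk, zero_smul, zero_add, smul_eq_zero, mul_eq_zero, sub_eq_zero] at hrel
        rcases hrel with (h' | h') | h'
        · exact ht0 h'
        · exact hne ((sub_eq_zero.mp hk).trans h'.symm)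
        · rw [h', zero_left hf] at hw; exact zero_ne_one hw
      · set m := -(t * (f (A w) w - k)) / (f (A p) p - k) with hm
        have hpm : p = m • w := by
          apply smul_right_injective (ι → F) hk
          change (f (A p) p - k) • p = (f (A p) p - k) • (m • w)
          rw [smul_smul, hm, mul_div_cancel₀ _ hk]
          linear_combination (norm := module) hrel
        have hmn : m * σ m = 1 := by
          have := hp1
          rw [hpm, hf.smul_left, smul_right hf, hw] at this
          linear_combination this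
        apply hne
        rw [hpm, map_smul, hf.smul_left, smul_right hf]
        linear_combination f (A w) w * hmn
    have hker := span_aniso hf (LinearMap.ker (A - f (A w) w • LinearMap.id)) (fun p hp => by
      have hp1 := value_one hf hall hp
      have h := hz p hp1
      rw [heq p hp1] at h
      simp [sub_eq_zero, h]) y
    simpa [sub_eq_zero] using hker
  have hB := rk_of_entry hf hinv hall hω hω2 hn ha hb hab hA hAba
  have step : ∀ a b u v : ι → F, rk hf a b ∈ S → f u u = 1 → f v v = 1 → f u v = 0 →
      f v b ≠ 0 → f a u ≠ 0 → rk hf u v ∈ S := fun a b u v h hu hv huv h1 h2 =>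
    rk_of_entry hf hinv hall hω hω2 hn hu hv huv h (by
      rw [rk_apply, hf.smul_left]; exact mul_ne_zero h1 h2)
  by_cases h3 : Fintype.card ι = 3
  · -- one pair of the frame through the pair, then all by exchanges
    have hvu := (eq_zero_comm hf).mp huv
    obtain ⟨e, he, he'⟩ := exists_unit_perp hf hall (k := 2) (by omega) (v := ![u, v]) (by
      intro i j
      fin_cases i <;> fin_cases j <;> simp [hu, hv, huv, hvu])
    have heu : f e u = 0 := he' 0
    have hev : f e v = 0 := he' 1
    have hue := (eq_zero_comm hf).mp heu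
    have hve := (eq_zero_comm hf).mp hev
    have hswap : ∀ p r p' r' : ι → F, rk hf p' r' ∈ S → f p p = 1 → f r r = 1 → f p r = 0 →
        ∀ p'' r'', (∀ g ∈ isom f, ap g p = r → ap g r = p →
          (∀ x, f x p = 0 → f x r = 0 → ap g x = x) → ap g p' = p'' ∧ ap g r' = r'') →
        rk hf p'' r'' ∈ S := by
      intro p r p' r' h hp hr hpr p'' r'' hmap
      obtain ⟨g, hg, g1, g2, g3, -⟩ := exists_swap_pair hf hinv hall hp hr hpr
      obtain ⟨e1, e2⟩ := hmap g hg.1 g1 g2 g3
      have := hinv g hg _ h
      rwa [cj_rk hf hg.1, e1, e2] at this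
    have fr := frame_three hf hall h3 hu hv he huv hue hve
    have conv_mem : ∀ z, f z u = 0 → f z v = 0 → f z e = 0 → z = 0 := fun z p p' p'' => by
      rw [fr z, p, p', p'']; simp
    have some : rk hf u v ∈ S ∨ rk hf v u ∈ S ∨ rk hf u e ∈ S ∨ rk hf e u ∈ S ∨ rk hf v e ∈ S ∨
        rk hf e v ∈ S := by
      by_contra hno
      push Not at hno
      obtain ⟨n1, n2, n3, n4, n5, n6⟩ := hno
      have c1 : f v b = 0 ∨ f a u = 0 := by
        by_contra h; push Not at h; exact n1 (step a b u v hB hu hv huv h.1 h.2)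
      have c2 : f u b = 0 ∨ f a v = 0 := by
        by_contra h; push Not at h; exact n2 (step a b v u hB hv hu hvu h.1 h.2)
      have c3 : f e b = 0 ∨ f a u = 0 := by
        by_contra h; push Not at h; exact n3 (step a b u e hB hu he hue h.1 h.2)
      have c4 : f u b = 0 ∨ f a e = 0 := by
        by_contra h; push Not at h; exact n4 (step a b e u hB he hu heu h.1 h.2)
      have c5 : f e b = 0 ∨ f a v = 0 := by
        by_contra h; push Not at h; exact n5 (step a b v e hB hv he hve h.1 h.2)
      have c6 : f v b = 0 ∨ f a e = 0 := by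
        by_contra h; push Not at h; exact n6 (step a b e v hB he hv hev h.1 h.2)
      have hb0 : ¬ (f u b = 0 ∧ f v b = 0 ∧ f e b = 0) := fun ⟨p, p', p''⟩ => by
        have := conv_mem b ((eq_zero_comm hf).mp p) ((eq_zero_comm hf).mp p') ((eq_zero_comm hf).mp p'')
        rw [this, zero_left hf] at hb; exact zero_ne_one hb
      have ha0 : ¬ (f a u = 0 ∧ f a v = 0 ∧ f a e = 0) := fun ⟨p, p', p''⟩ => by
        rw [conv_mem a p p' p'', zero_left hf] at ha; exact zero_ne_one ha
      have hsum : f a u * f u b + f a v * f v b + f a e * f e b = 0 := by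
        rw [← hab]
        conv_rhs => rw [fr a]
        simp only [hf.add_left, hf.smul_left]
      grind
    have m1 : rk hf v u ∈ S → rk hf u v ∈ S := fun h =>
      hswap u v v u h hu hv huv u v fun g _ g1 g2 _ => ⟨g2, g1⟩
    have m3 : rk hf u e ∈ S → rk hf u v ∈ S := fun h =>
      hswap v e u e h hv he hve u v fun g _ _ g2 g3 => ⟨g3 u huv hue, g2⟩
    have m6 : rk hf e v ∈ S → rk hf u v ∈ S := fun h =>
      hswap u e e v h hu he hue u v fun g _ _ g2 g3 => ⟨g2, g3 v hvu hve⟩
    have m4 : rk hf e u ∈ S → rk hf v u ∈ S := fun h =>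
      hswap v e e u h hv he hve v u fun g _ _ g2 g3 => ⟨g2, g3 u huv hue⟩
    have m5 : rk hf v e ∈ S → rk hf v u ∈ S := fun h =>
      hswap u e v e h hu he hue v u fun g _ _ g2 g3 => ⟨g3 v hvu hve, g2⟩
    rcases some with h | h | h | h | h | h
    exacts [h, m1 h, m3 h, m1 (m4 h), m1 (m5 h), m6 h]
  -- moves in dimension at least four
  have moveR : ∀ a b b' : ι → F, f a a = 1 → f b b = 1 → f a b = 0 → f b' b' = 1 → f a b' = 0 →
      rk hf a b ∈ S → rk hf a b' ∈ S := by
    intro a b b' ha hb hab hb' hab' h
    by_cases hbb : f b' b ≠ 0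
    · exact step a b a b' h ha hb' hab' hbb (by rw [ha]; exact one_ne_zero)
    push Not at hbb
    have hbb' := (eq_zero_comm hf).mp hbb
    obtain ⟨e, he, he'⟩ := exists_unit_perp hf hall (k := 3) (by omega) (v := ![a, b, b']) (by
      intro i j
      fin_cases i <;> fin_cases j <;>
        simp [ha, hb, hb', hab, hab', hbb, hbb', (eq_zero_comm hf).mp hab,
          (eq_zero_comm hf).mp hab'])
    have hea : f e a = 0 := he' 0
    have heb : f e b = 0 := he' 1
    have heb' : f e b' = 0 := he' 2
    have hs : f (b + b' + e) (b + b' + e) = 1 := by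
      simp only [hf.add_left, add_right hf, hb, hb', he, hbb, hbb', heb, heb',
        (eq_zero_comm hf).mp heb, (eq_zero_comm hf).mp heb']
      linear_combination h2
    have hsa : f a (b + b' + e) = 0 := by
      simp [add_right hf, hab, hab', (eq_zero_comm hf).mp hea]
    have h' := step a b a _ h ha hs hsa
      (by rw [hf.add_left, hf.add_left, hb, hbb, heb]; simp) (by rw [ha]; exact one_ne_zero)
    exact step a _ a b' h' ha hb' hab'
      (by rw [add_right hf, add_right hf, hb', hbb, (eq_zero_comm hf).mp heb']; simp)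
      (by rw [ha]; exact one_ne_zero)
  have moveL : ∀ a a' b : ι → F, f a a = 1 → f b b = 1 → f a b = 0 → f a' a' = 1 → f a' b = 0 →
      rk hf a b ∈ S → rk hf a' b ∈ S := by
    intro a a' b ha hb hab ha' ha'b h
    by_cases haa : f a a' ≠ 0
    · exact step a b a' b h ha' hb ha'b (by rw [hb]; exact one_ne_zero) haa
    push Not at haa
    have haa' := (eq_zero_comm hf).mp haa
    obtain ⟨e, he, he'⟩ := exists_unit_perp hf hall (k := 3) (by omega) (v := ![a, b, a']) (by
      intro i j
      fin_cases i <;> fin_cases j <;>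
        simp [ha, hb, ha', hab, ha'b, haa, haa', (eq_zero_comm hf).mp hab,
          (eq_zero_comm hf).mp ha'b])
    have hea : f e a = 0 := he' 0
    have heb : f e b = 0 := he' 1
    have hea' : f e a' = 0 := he' 2
    have hs : f (a + a' + e) (a + a' + e) = 1 := by
      simp only [hf.add_left, add_right hf, ha, ha', he, haa, haa', hea, hea',
        (eq_zero_comm hf).mp hea, (eq_zero_comm hf).mp hea']
      linear_combination h2
    have hsb : f (a + a' + e) b = 0 := by simp [hf.add_left, hab, ha'b, heb]
    have h' := step a b _ b h hs hb hsb (by rw [hb]; exact one_ne_zero)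
      (by rw [add_right hf, add_right hf, ha, haa, (eq_zero_comm hf).mp hea]; simp)
    exact step _ b a' b h' ha' hb ha'b (by rw [hb]; exact one_ne_zero)
      (by rw [hf.add_left, hf.add_left, haa, ha', hea']; simp)
  obtain ⟨d, hda, hdu, hdd⟩ : ∃ d, f d a = 0 ∧ f d u = 0 ∧ f d d = 1 := by
    by_contra hcon
    push Not at hcon
    set U := Submodule.span F (Set.range ![a, u])
    have hP : ∀ x ∈ perp hf U, f x x = 0 := fun x hx => by
      by_contra hne
      exact hcon x (hx a (Submodule.subset_span ⟨0, rfl⟩)) (hx u (Submodule.subset_span ⟨1, rfl⟩))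
        (value_one hf hall hne)
    have hle : perp hf U ≤ U := fun x hx => mem_of_forall_perp hf fun p hp =>
      totallySingular_of_isotropic hf hP hx hp
    have k1 := finrank_range_le_card (R := F) ![a, u]
    rw [Set.finrank, Fintype.card_fin] at k1
    have k2 := card_le_finrank_add_finrank_perp hf U
    have heq : perp hf U = U := Submodule.eq_of_le_of_finrank_le hle (by
      change Module.finrank F U ≤ 2 at k1
      omega)
    have := hP a (by rw [heq]; exact Submodule.subset_span ⟨0, rfl⟩)
    rw [ha] at this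
    exact one_ne_zero this
  have h1 := moveR a b d ha hb hab hdd ((eq_zero_comm hf).mp hda) hB
  have h2' := moveL a u d ha hdd ((eq_zero_comm hf).mp hda) hu ((eq_zero_comm hf).mp hdu) h1
  exact moveR u d v hu hdd ((eq_zero_comm hf).mp hdu) hv huv h2'

end Four

/-- The rank one maps of all orthogonal anisotropic pairs. -/
theorem rk_perp_mem [Finite F] (hn : 2 ≤ Fintype.card ι)
    (hq : (∃ c : F, σ c = c ∧ c ≠ 0 ∧ c ≠ 1) ∨ 3 ≤ Fintype.card ι) {A : Module.End F (ι → F)}
    (hA : A ∈ S) (hns : ¬ ∃ t : F, ∀ y, A y = t • y) {u v : ι → F} (hu : f u u ≠ 0)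
    (hv : f v v ≠ 0) (huv : f u v = 0) : rk hf u v ∈ S := by
  by_cases hc : ∃ c : F, σ c = c ∧ c ≠ 0 ∧ c ≠ 1
  · obtain ⟨c, h, h0, h1⟩ := hc
    exact rk_perp_mem_of_large hf hinv h h0 h1 hn hA hns hu hv huv
  push Not at hc
  have hall : ∀ c : F, σ c = c → c = 0 ∨ c = 1 := fun c h => or_iff_not_imp_left.mpr (hc c h)
  obtain ⟨ω, -, -, hω, hω2⟩ := exists_omega hf hall
  exact rk_perp_mem_of_four hf hinv hall hω hω2
    (hq.resolve_left fun ⟨c, h, h0, h1⟩ => h1 (hc c h h0)) hA hns (value_one hf hall hu)
    (value_one hf hall hv) huv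

end Unitary

end CfsgLib.Geometric
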