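import Cfsg.Agent.Lib.Geometric.UnitaryStab
import Cfsg.Agent.Lib.Geometric.Decomp

/-!
Over four elements a non-degenerate unitary plane has one orthogonal frame, so stabilisers of
decompositions into planes preserve a finer set of lines.
-/

namespace CfsgLib.Geometric

open Matrix

variable {ι : Type} [Fintype ι] [DecidableEq ι] {F : Type*} [Field F] [Fintype F]

namespace Unitary

variable {σ : F ≃+* F} {f : (ι → F) → (ι → F) → F}

lemma norm_eq_one (hq : Fintype.card F = 4) (hσ : ∀ x, σ x = x ^ 2) {a : F} (ha : a ≠ 0) :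
    a * σ a = 1 := by
  have h := FiniteField.pow_card_sub_one_eq_one a ha
  rw [hq] at h
  rw [hσ, ← h]
  ring

lemma fixed_eq_one (hσ : ∀ x, σ x = x ^ 2) {c : F} (hc : σ c = c) (hc0 : c ≠ 0) : c = 1 := by
  rw [hσ, pow_two] at hc
  exact mul_left_cancel₀ hc0 (hc.trans (mul_one c).symm)

variable (hf : IsSkewForm σ f) (hq : Fintype.card F = 4) (hσ : ∀ x, σ x = x ^ 2)
  (htwo : (2 : F) = 0)
include hf hq hσ htwo

lemma value_eq_one {v : ι → F} (h : f v v ≠ 0) : f v v = 1 :=
  fixed_eq_one hσ (by linear_combination skew_self hf v - f v v * htwo) h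

/-- In a plane two anisotropic vectors are dependent or orthogonal. -/
lemma orth_or_dep {P : Submodule F (ι → F)} (hP : Cfsg.Geo.IsNondegenerateOn f P)
    (hdim : Module.finrank F P ≤ 2) {u v : ι → F} (hu : u ∈ P) (hv : v ∈ P) (huu : f u u ≠ 0)
    (hvv : f v v ≠ 0) : f v u = 0 ∨ v ∈ Submodule.span F {u} := by
  by_cases hdep : v ∈ Submodule.span F {u}
  · exact Or.inr hdep
  left
  by_contra hα
  have hu1 := value_eq_one hf hq hσ htwo huu
  set α := f v u with hαdef
  set w := v - α • u with hw
  have hwu : f w u = 0 := by rw [hw, sub_left hf, hf.smul_left, hu1, mul_one, sub_self]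
  have hsp : Submodule.span F ({u, w} : Set (ι → F)) = P := by
    have hli : LinearIndependent F ![u, w] := by
      rw [LinearIndependent.pair_iff]
      intro s t h
      have ht : t = 0 := by
        by_contra ht
        apply hdep
        refine Submodule.mem_span_singleton.mpr ⟨α - s / t, ?_⟩
        have : t⁻¹ • (s • u + t • w) = 0 := by rw [h, smul_zero]
        rw [smul_add, smul_smul, smul_smul, inv_mul_cancel₀ ht, one_smul, hw] at this
        rw [sub_smul, div_eq_inv_mul]
        linear_combination (norm := module) -this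
      subst ht
      refine ⟨?_, rfl⟩
      rw [zero_smul, add_zero] at h
      exact (smul_eq_zero.mp h).resolve_right fun h0 => huu (by simp [h0, zero_left hf])
    refine Submodule.eq_of_le_of_finrank_le ?_ (hdim.trans ?_)
    · rw [Submodule.span_le]
      rintro _ (rfl | rfl)
      exacts [hu, P.sub_mem hv (P.smul_mem _ hu)]
    · have := finrank_span_eq_card hli
      rw [Fintype.card_fin, show Set.range ![u, w] = {u, w} by simp [Set.pair_comm]] at this
      rw [this]
  have hw0 : w ≠ 0 := fun h0 => hdep (Submodule.mem_span_singleton.mpr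
    ⟨α, (sub_eq_zero.mp (hw ▸ h0)).symm⟩)
  obtain ⟨x, hx, hwx⟩ := (hP w (P.sub_mem hv (P.smul_mem _ hu)) hw0).2
  rw [← hsp] at hx
  obtain ⟨s, t, rfl⟩ := Submodule.mem_span_pair.mp hx
  rw [add_right hf, smul_right hf, smul_right hf, hwu, mul_zero, zero_add] at hwx
  have hww := value_eq_one hf hq hσ htwo (v := w) (right_ne_zero_of_mul hwx)
  have hv2 : f v v = α * σ α + 1 := by
    have : v = α • u + w := by rw [hw]; abel
    rw [this, hf.add_left, add_right hf, add_right hf, hf.smul_left, smul_right hf,
      hf.smul_left, smul_right hf, hu1, hww, (eq_zero_comm hf).mp hwu, hwu]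
    ring
  rw [norm_eq_one hq hσ hα] at hv2
  exact hvv (by linear_combination hv2 + htwo)

/-- Plane decompositions are not maximal. -/
theorem exists_between_planes {t : ℕ} {D : Fin t → Submodule F (ι → F)}
    (hD : Cfsg.Geo.IsNondegenerateMDecomposition f 2 D) (ht : 4 ≤ t) :
    ∃ K : Subgroup (GL ι F),
      Cfsg.Geo.decompositionStabilizer D ⊓ sisom hf < K ∧ K < sisom hf := by
  classical
  set S : Set (ι → F) := {v | ∃ i, v ∈ D i ∧ f v v ≠ 0} with hS
  set St := Cfsg.stabilizing (Cfsg.glToMat ι F) S with hSt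
  have hne : ∀ i, D i ≠ ⊥ := fun i h => by
    have := hD.decomp.finrank_eq i
    rw [h, finrank_bot] at this
    omega
  choose v hv hvv using fun i => exists_anisotropic hf (hD.nondegenerate i) (hne i)
  have hindep : ∀ i l, i ≠ l → ∀ x, x ∈ D i → x ∈ D l → x = 0 := fun i l hil x h1 h2 =>
    (Submodule.disjoint_def.mp (hD.decomp.indep.pairwiseDisjoint hil)) x h1 h2
  let a : Fin t := ⟨0, by omega⟩
  let b : Fin t := ⟨1, by omega⟩
  let c : Fin t := ⟨2, by omega⟩
  let d : Fin t := ⟨3, by omega⟩
  have horth : ∀ i l, i ≠ l → f (v i) (v l) = 0 := fun i l hil =>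
    hD.orthogonal i l hil _ (hv i) _ (hv l)
  have hone : ∀ i, f (v i) (v i) = 1 := fun i => value_eq_one hf hq hσ htwo (hvv i)
  have hnab : a ≠ b := by simp [a, b, Fin.ext_iff]
  refine ⟨St ⊓ sisom hf, ?_, ?_⟩
  · have hle : Cfsg.Geo.decompositionStabilizer D ⊓ sisom hf ≤ St ⊓ sisom hf := by
      intro g hg
      refine ⟨fun x => ?_, hg.2⟩
      have fwd : ∀ g : GL ι F, g ∈ Cfsg.Geo.decompositionStabilizer D ⊓ sisom hf →
          ∀ x ∈ S, ap g x ∈ S := by
        rintro g ⟨⟨π, hπ⟩, hgI, -⟩ x ⟨i, hi, hx⟩
        refine ⟨π i, ?_, ?_⟩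
        · rw [← hπ i]; exact ⟨x, hi, rfl⟩
        · have := hgI x x
          change f (ap g x) (ap g x) = f x x at this
          rwa [this]
      exact ⟨fun h => fwd g hg x h, fun h => by
        simpa [ap_inv_ap] using fwd g⁻¹ (inv_mem hg) (ap g x) h⟩
    refine lt_of_le_of_ne hle fun he => ?_
    -- exchange two lines of different members
    set w := v a + v b with hw
    have hww : f w w = 0 := by
      rw [hw, hf.add_left, add_right hf, add_right hf, hone, hone, horth a b hnab,
        horth b a hnab.symm]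
      linear_combination htwo
    set T₀ := T hf w 1 hww with hT
    have hT₁ : T₀ ∈ sisom hf := T_mem hf hww (map_one σ)
    have hTa : ap T₀ (v a) = v b := by
      rw [hT, ap_T hf, hw, add_right hf, hone, horth a b hnab, add_zero, mul_one, one_smul]
      have : v a + v a = 0 := by
        rw [← two_smul F (v a), htwo, zero_smul]
      rw [← add_assoc, this, zero_add]
    have hTb : ap T₀ (v b) = v a := by
      rw [hT, ap_T hf, hw, add_right hf, hone, horth b a hnab.symm, zero_add, mul_one, one_smul]
      have : v b + v b = 0 := by rw [← two_smul F (v b), htwo, zero_smul]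
      rw [add_comm (v a), ← add_assoc, this, zero_add]
    have hTS : ∀ x ∈ S, ap T₀ x ∈ S := by
      rintro x ⟨i, hi, hx⟩
      have key : ∀ j k, ap T₀ (v j) = v k → x ∈ Submodule.span F {v j} → ap T₀ x ∈ S := by
        intro j k h hm
        obtain ⟨r, rfl⟩ := Submodule.mem_span_singleton.mp hm
        refine ⟨k, ?_, ?_⟩
        · rw [ap_smul, h]; exact (D k).smul_mem _ (hv k)
        · rw [ap_smul, h, hf.smul_left, smul_right hf, hone]
          rw [hf.smul_left, smul_right hf, hone] at hx
          exact hx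
      by_cases hxw : f x w = 0
      · rw [hT, ap_T_fix hf hww hxw]; exact ⟨i, hi, hx⟩
      rw [hw, add_right hf] at hxw
      by_cases hia : i = a
      · subst hia
        rcases orth_or_dep hf hq hσ htwo (hD.nondegenerate a) (hD.decomp.finrank_eq a).le (hv a)
          hi (hvv a) hx with h | h
        · exact absurd (by rw [h, hD.orthogonal a b hnab _ hi _ (hv b), add_zero]) hxw
        · exact key a b hTa h
      by_cases hib : i = b
      · subst hib
        rcases orth_or_dep hf hq hσ htwo (hD.nondegenerate b) (hD.decomp.finrank_eq b).le (hv b)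
          hi (hvv b) hx with h | h
        · exact absurd (by rw [h, hD.orthogonal b a hnab.symm _ hi _ (hv a), add_zero]) hxw
        · exact key b a hTb h
      · exact absurd (by rw [hD.orthogonal i a hia _ hi _ (hv a),
          hD.orthogonal i b hib _ hi _ (hv b), add_zero]) hxw
    have hinv : ∀ x, ap T₀ (ap T₀ x) = x := by
      intro x
      rw [hT, ap_T hf, ap_T hf]
      simp only [hf.add_left, hf.smul_left, hww, one_mul, mul_zero, add_zero]
      rw [add_assoc, ← add_smul, ← two_mul, htwo, zero_mul, zero_smul, add_zero]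
    have hmem : T₀ ∈ Cfsg.Geo.decompositionStabilizer D ⊓ sisom hf := by
      rw [he]
      exact ⟨fun x => ⟨hTS x, fun h => hinv x ▸ hTS _ h⟩, hT₁⟩
    obtain ⟨π, hπ⟩ := hmem.1
    obtain ⟨x, hx, hxv, hfx⟩ : ∃ x ∈ D a, x ≠ 0 ∧ f x (v a) = 0 := by
      obtain ⟨x, hx, hx0, h⟩ := exists_ne_zero_map_eq_zero (k := 1) (D a)
        (LinearMap.pi fun _ => fl hf (v a)) (by rw [hD.decomp.finrank_eq a]; omega)
      exact ⟨x, hx, hx0, congrFun h 0⟩
    have hfix : ap T₀ x = x := by
      apply ap_T_fix hf hww
      rw [hw, add_right hf, hfx, hD.orthogonal a b hnab _ hx _ (hv b), add_zero]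
    have h1 : v b ∈ D (π a) := by rw [← hπ a]; exact ⟨v a, hv a, hTa⟩
    have h2 : x ∈ D (π a) := by rw [← hπ a]; exact ⟨x, hx, hfix⟩
    by_cases hπa : π a = a
    · rw [hπa] at h1
      exact hvv b (by rw [hindep a b hnab _ h1 (hv b), zero_left hf])
    · exact hxv (hindep a (π a) (Ne.symm hπa) _ hx h2)
  · refine lt_of_le_of_ne inf_le_right fun he => ?_
    set w := v a + v b + v c + v d with hw
    have hn : a ≠ c ∧ a ≠ d ∧ b ≠ c ∧ b ≠ d ∧ c ≠ d := by simp [a, b, c, d, Fin.ext_iff]
    obtain ⟨hac, had, hbc, hbd, hcd⟩ := hn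
    have hwv : f (v a) w = 1 := by
      simp [hw, add_right hf, hone, horth, hnab, hac, had]
    have hww : f w w = 0 := by
      simp [hw, hf.add_left, add_right hf, hone, horth, hnab, hnab.symm, hac, hac.symm, had,
        had.symm, hbc, hbc.symm, hbd, hbd.symm, hcd, hcd.symm]
      linear_combination (2 : F) * htwo
    have hm : T hf w 1 hww ∈ St ⊓ sisom hf := by rw [he]; exact T_mem hf hww (map_one σ)
    obtain ⟨i, hi, -⟩ := (hm.1 (v a)).mp ⟨a, hv a, hvv a⟩
    change ap (T hf w 1 hww) (v a) ∈ D i at hi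
    rw [ap_T hf, hwv, mul_one, one_smul] at hi
    have hi' : v b + v c + v d ∈ D i := by
      convert hi using 1
      have : v a + v a = 0 := by rw [← two_smul F (v a), htwo, zero_smul]
      linear_combination (norm := module) -this
    have hval : ∀ j, f (v b + v c + v d) (v j) ≠ 0 → i = j := fun j hj => by
      by_contra hij
      exact hj (hD.orthogonal i j hij _ hi' _ (hv j))
    exact hbc ((hval b (by simp [hf.add_left, hone, horth, hbc.symm, hbd.symm])).symm.trans
      (hval c (by simp [hf.add_left, hone, horth, hbc, hcd.symm])))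

end Unitary

end CfsgLib.Geometric

namespace CfsgLib.Geometric

/-- The standard unitary form over four elements is skew-hermitian. -/
theorem exists_skewForm_hermForm_four {F : Type*} [Field F] [Fintype F] (n : ℕ)
    (hF : Fintype.card F = 4) :
    ∃ σ : F ≃+* F, (∀ x, σ x = x ^ 2) ∧ (2 : F) = 0 ∧
      IsSkewForm σ (Cfsg.hermForm n F 2) := by
  obtain ⟨σ, hσ, hh⟩ := isUnitaryForm_hermForm (F := F) n 2 (by rw [hF]; norm_num)
  have htwo : (2 : F) = 0 := by
    have h := Nat.cast_card_eq_zero F
    rw [hF] at h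
    have : (2 : F) * 2 = 0 := by norm_num at h ⊢; exact h
    simpa using this
  refine ⟨σ, hσ, htwo, hh.ne_refl, hh.involutive, hh.add_left, hh.smul_left, fun v w => ?_,
    hh.nondegenerate⟩
  rw [← hh.herm v w]
  linear_combination (Cfsg.hermForm n F 2 v w) * htwo

end CfsgLib.Geometric
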