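import Cfsg.Agent.Lib.Geometric.UnitaryTensorFull

/-!
An element mixing two slices with a non-scalar first component generates, with the stabiliser of a
tensor product of skew-hermitian forms, the whole special unitary group.
-/

namespace CfsgLib.Geometric

open Matrix Tensor

variable {ι : Type} [Fintype ι] [DecidableEq ι] {F : Type*} [Field F]
variable {σ : F ≃+* F} {f : (ι → F) → (ι → F) → F} {n₁ n₂ : ℕ} {e : ι ≃ Fin n₁ × Fin n₂}
  {P : GL ι F} {f₁ : (Fin n₁ → F) → (Fin n₁ → F) → F} {f₂ : (Fin n₂ → F) → (Fin n₂ → F) → F}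
  {c : F}

namespace UTensor

open Unitary

/-- An element of `M` shifts the slices orthogonal to `w` along `B`. -/
def Comp (_hT : UTensor σ f e P f₁ f₂ c) (M : Subgroup (GL ι F)) (w z : Fin n₂ → F)
    (B : Module.End F (Fin n₁ → F)) : Prop :=
  ∃ g ∈ M, ∀ a y, f₂ y w = 0 → ap g (pt e P a y) = pt e P a y + f₂ y z • pt e P (B a) w

variable (hT : UTensor σ f e P f₁ f₂ c)
include hT

lemma cc_inv {r : GL ι F} (hr : r ∈ isom f) {z w : Fin n₂ → F} {B : Module.End F (Fin n₁ → F)}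
    (hrz : ∀ a, ap r (pt e P a z) = pt e P a z + pt e P (B a) w) (x : ι → F) (a : Fin n₁ → F) :
    f₁ (hT.cc z (ap r⁻¹ x)) a = f₁ (hT.cc z x) a + f₁ (hT.cc w x) (B a) := by
  have h := mem_isom_iff.mp hr (ap r⁻¹ x) (pt e P a z)
  rw [ap_ap_inv, hrz, Unitary.add_right hT.form, hT.form_right, hT.form_right, hT.form_right] at h
  exact mul_left_cancel₀ hT.c_ne (by linear_combination -h)

/-- A conjugate of a transvection of the second factor. -/
lemma ap_conj_T {r : GL ι F} {z w : Fin n₂ → F} (hz : f₂ z z = 0)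
    {B : Module.End F (Fin n₁ → F)}
    (hrz : ∀ a, ap r (pt e P a z) = pt e P a z + pt e P (B a) w) (x : ι → F) :
    ap (r * kron e P (1 : GL (Fin n₁) F) (T hT.form₂ z 1 hz) * r⁻¹) x =
      x + pt e P (hT.cc z (ap r⁻¹ x)) z + pt e P (B (hT.cc z (ap r⁻¹ x))) w := by
  rw [ap_mul, ap_mul, hT.ap_one_kron_T, ap_add, ap_ap_inv, one_smul, hrz, add_assoc]

lemma ap_one_kron_T_inv {z : Fin n₂ → F} (hz : f₂ z z = 0) (x : ι → F) :
    ap (kron e P (1 : GL (Fin n₁) F) (T hT.form₂ z 1 hz))⁻¹ x =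
      x - pt e P (hT.cc z x) z := by
  rw [kron_inv, inv_one, T_inv hT.form₂, hT.ap_one_kron_T, neg_one_smul, sub_eq_add_neg]

variable [Finite F] (hn₁ : 2 ≤ n₁) (hn₂ : 5 ≤ n₂) {M : Subgroup (GL ι F)}
  (hH : Cfsg.Geo.tensorProductSubgroup n₁ n₂ e P ⊓ sisom hT.form ≤ M) (hMI : M ≤ isom f)
include hH hMI

omit hH [Finite F] in
lemma comp_of_conj {r : GL ι F} (hr : r ∈ isom f) {z w : Fin n₂ → F} (hz : f₂ z z = 0)
    (hzw : f₂ z w = 0) {B : Module.End F (Fin n₁ → F)}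
    (hrz : ∀ a, ap r (pt e P a z) = pt e P a z + pt e P (B a) w)
    (hmem : r * kron e P (1 : GL (Fin n₁) F) (T hT.form₂ z 1 hz) * r⁻¹ *
      (kron e P (1 : GL (Fin n₁) F) (T hT.form₂ z 1 hz))⁻¹ ∈ M) :
    hT.Comp M w z B := by
  refine ⟨_, hmem, fun a y hy => ?_⟩
  set x' := pt e P a y - pt e P (hT.cc z (pt e P a y)) z with hx'
  have hA : hT.cc z (ap r⁻¹ x') = f₂ y z • a := by
    refine hT.eq_of_pairing hT.form₁ fun b => ?_
    rw [hT.cc_inv hr hrz, hx', map_sub, map_sub, cc_pt, cc_pt, cc_pt, cc_pt, hy, hzw, hz]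
    simp [Unitary.zero_left hT.form₁]
  rw [ap_mul, hT.ap_one_kron_T_inv, ← hx', hT.ap_conj_T hz hrz, hA, hx', cc_pt, map_smul,
    pt_smul_left, pt_smul_left]
  abel

omit [Finite F] hMI in
lemma kron_mem_M {a : GL (Fin n₁) F} {b : GL (Fin n₂) F} (ha : a ∈ sisom hT.form₁)
    (hb : b ∈ sisom hT.form₂) : kron e P a b ∈ M :=
  hH (hT.kron_mem_inf ha hb)

omit hH [Finite F] hMI in
lemma comp_add {z w : Fin n₂ → F} (hw : f₂ w w = 0) (hwz : f₂ w z = 0)
    {B B' : Module.End F (Fin n₁ → F)} (h : hT.Comp M w z B) (h' : hT.Comp M w z B') :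
    hT.Comp M w z (B + B') := by
  obtain ⟨g, hg, hg'⟩ := h
  obtain ⟨k, hk, hk'⟩ := h'
  refine ⟨g * k, mul_mem hg hk, fun a y hy => ?_⟩
  rw [ap_mul, hk' a y hy, ap_add, ap_smul, hg' a y hy, hg' (B' a) w hw, hwz, zero_smul, add_zero,
    LinearMap.add_apply, pt_add_left, smul_add, add_assoc]

omit hH [Finite F] hMI in
lemma comp_zero {z w : Fin n₂ → F} : hT.Comp M w z 0 :=
  ⟨1, one_mem _, fun a y _ => by simp [pt_zero_left]⟩

omit [Finite F] hMI in
lemma comp_cj {z w : Fin n₂ → F} {B : Module.End F (Fin n₁ → F)} (h : hT.Comp M w z B)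
    {a : GL (Fin n₁) F} (ha : a ∈ sisom hT.form₁) : hT.Comp M w z (cj a B) := by
  obtain ⟨g, hg, hg'⟩ := h
  have hk := hT.kron_mem_M hH ha (one_mem (sisom hT.form₂))
  refine ⟨kron e P a 1 * g * (kron e P a 1)⁻¹, M.mul_mem (M.mul_mem hk hg) (M.inv_mem hk),
    fun b y hy => ?_⟩
  rw [ap_mul, ap_mul, kron_inv, inv_one, ap_kron, ap_one, hg' _ _ hy, ap_add, ap_smul, ap_kron,
    ap_kron, ap_one, ap_one, ap_ap_inv, cj_apply]

omit hMI in
include hn₂ in
lemma comp_smul {z w : Fin n₂ → F} (hw : f₂ w w = 0) (hz : f₂ z z = 0) (hzw : f₂ z w = 0)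
    (hzw' : z ∉ Submodule.span F {w}) (hw0 : w ≠ 0) {B : Module.End F (Fin n₁ → F)}
    (h : hT.Comp M w z B) (s : F) : hT.Comp M w z (s • B) := by
  by_cases hs : s = 0
  · rw [hs, zero_smul]; exact hT.comp_zero
  have hf := hT.form₂
  have hc : 5 ≤ Fintype.card (Fin n₂) := by rwa [Fintype.card_fin]
  obtain ⟨z', hz'w, hz', hz'z⟩ := exists_iso_partner hf hc hzw'
  have hU : Cfsg.Geo.IsNondegenerateOn f₂ (Submodule.span F ({z', z} : Set (Fin n₂ → F))) := by
    intro v hv hv0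
    obtain ⟨a, b, rfl⟩ := Submodule.mem_span_pair.mp hv
    suffices hx : ∃ x ∈ Submodule.span F ({z', z} : Set (Fin n₂ → F)),
        f₂ (a • z' + b • z) x ≠ 0 by
      obtain ⟨x, hx, hne⟩ := hx
      first
        | exact ⟨⟨x, hx, hne⟩, ⟨x, hx, fun h => hne ((Unitary.eq_zero_comm hf).mp h)⟩⟩
        | exact ⟨⟨x, hx, fun h => hne ((Unitary.eq_zero_comm hf).mp h)⟩, ⟨x, hx, hne⟩⟩
    by_cases ha : a = 0
    · refine ⟨z', Submodule.subset_span (by simp), fun h0 => hv0 ?_⟩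
      have hzz' : f₂ z z' ≠ 0 := fun h => by
        rw [(Unitary.eq_zero_comm hf).mp h] at hz'z; exact zero_ne_one hz'z
      rw [ha, zero_smul, zero_add, hf.smul_left, mul_eq_zero] at h0
      rw [ha, h0.resolve_right hzz', zero_smul, zero_smul, add_zero]
    · refine ⟨z, Submodule.subset_span (by simp), ?_⟩
      rwa [hf.add_left, hf.smul_left, hf.smul_left, hz'z, hz, mul_one, mul_zero, add_zero]
  set U := Submodule.span F ({z', z} : Set (Fin n₂ → F)) with hUdef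
  have hdim : 3 ≤ Module.finrank F (perp hf U) := by
    have h1 := finrank_add_perp hf hU
    have h2 : Module.finrank F U ≤ 2 := by
      classical
      have := finrank_span_finset_le_card (R := F) ({z', z} : Finset (Fin n₂ → F))
      rw [Finset.coe_insert, Finset.coe_singleton] at this
      exact this.trans Finset.card_le_two
    omega
  have hmem : ∀ t : F, t • w ∈ perp hf U := by
    intro t u hu
    obtain ⟨a, b, rfl⟩ := Submodule.mem_span_pair.mp hu
    simp [Unitary.add_right hf, hf.smul_left, Unitary.smul_right hf,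
      (Unitary.eq_zero_comm hf).mp hz'w, (Unitary.eq_zero_comm hf).mp hzw]
  obtain ⟨b, hb, -, hbU, hbw⟩ := exists_move hf (M := sisom hf)
    (fun v hv k hk => T_mem hf hv hk) (by omega) (perp_nondegenerate hf hU) hdim
    (by simpa using hmem 1) (hmem s) hw (isotropic_smul hf hw s) hw0 (smul_ne_zero hs hw0)
  obtain ⟨g, hg, hg'⟩ := h
  have hk := hT.kron_mem_M hH (one_mem (sisom hT.form₁)) hb
  refine ⟨kron e P 1 b * g * (kron e P 1 b)⁻¹, M.mul_mem (M.mul_mem hk hg) (M.inv_mem hk),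
    fun a y hy => ?_⟩
  have hbz : ap b z = z := hbU z (Submodule.subset_span (by simp))
  have h1 := mem_isom_iff.mp hb.1 (ap b⁻¹ y) w
  rw [ap_ap_inv, hbw, Unitary.smul_right hf, hy, mul_zero] at h1
  have h2 := mem_isom_iff.mp hb.1 (ap b⁻¹ y) z
  rw [ap_ap_inv, hbz] at h2
  rw [ap_mul, ap_mul, kron_inv, inv_one, ap_kron, ap_one, hg' _ _ h1.symm, ap_add, ap_smul,
    ap_kron, ap_kron, ap_one, ap_one, ap_ap_inv, hbw, ← h2, pt_smul_right, LinearMap.smul_apply,
    pt_smul_left]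

/-- An element mixing slices non-scalarly generates everything. -/
theorem le_of_comp (hn₁ : 2 ≤ n₁) (hn₂ : 5 ≤ n₂)
    (hq : (∃ k : F, σ k = k ∧ k ≠ 0 ∧ k ≠ 1) ∨ 3 ≤ n₁) {z w : Fin n₂ → F}
    (hw : f₂ w w = 0) (hz : f₂ z z = 0) (hzw : f₂ z w = 0)
    (hzw' : z ∉ Submodule.span F {w}) (hw0 : w ≠ 0) {B : Module.End F (Fin n₁ → F)}
    (hns : ¬ ∃ t : F, ∀ y, B y = t • y) (h : hT.Comp M w z B) : sisom hT.form ≤ M := by
  classical
  have hf₁ := hT.form₁
  have hf₂ := hT.form₂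
  have hc₁ : 2 ≤ Fintype.card (Fin n₁) := by rwa [Fintype.card_fin]
  have hc₂ : 5 ≤ Fintype.card (Fin n₂) := by rwa [Fintype.card_fin]
  have hq' : (∃ k : F, σ k = k ∧ k ≠ 0 ∧ k ≠ 1) ∨ 3 ≤ Fintype.card (Fin n₁) := by
    rwa [Fintype.card_fin]
  have hwz : f₂ w z = 0 := (Unitary.eq_zero_comm hf₂).mp hzw
  let S : Submodule F (Module.End F (Fin n₁ → F)) :=
    { carrier := {B | ∀ s : F, hT.Comp M w z (s • B)}
      add_mem' := fun {A A'} hA hA' s => by
        rw [smul_add]; exact hT.comp_add hw hwz (hA s) (hA' s)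
      zero_mem' := fun s => by rw [smul_zero]; exact hT.comp_zero
      smul_mem' := fun r A hA s => by rw [smul_smul]; exact hA _ }
  have hinv : ∀ a ∈ isom f₁ ⊓ Cfsg.Geo.specialLinear (Fin n₁) F, ∀ A ∈ S, cj a A ∈ S :=
    fun a ha A hA s => by
      have h1 : s • cj a A = cj a (s • A) := LinearMap.ext fun x => by simp [ap_smul]
      rw [h1]
      exact hT.comp_cj hH (hA s) ha
  have hrk : ∀ {u v}, f₁ u u ≠ 0 → f₁ v v ≠ 0 → f₁ u v = 0 → rk hf₁ u v ∈ S :=
    fun hu hv huv => rk_perp_mem hf₁ hinv hc₁ hq' (A := B)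
      (fun s => hT.comp_smul hn₂ hH hw hz hzw hzw' hw0 h s) hns hu hv huv
  obtain ⟨z', hz'w, hz', hz'z⟩ := exists_iso_partner hf₂ hc₂ hzw'
  have hwz' : f₂ w z' = 0 := (Unitary.eq_zero_comm hf₂).mp hz'w
  -- transvections at one slice
  have hX : ∀ u, f₁ u u ≠ 0 → InX hT.form M (pt e P u w) := by
    intro u hu
    refine ⟨hT.pt_iso u hw, fun hv k hk => ?_⟩
    obtain ⟨v, hvu, hvv⟩ : ∃ v, f₁ u v = 0 ∧ f₁ v v ≠ 0 := by
      by_contra hcon
      push Not at hcon
      have hU : Submodule.span F {u} ≤ ⊤ := le_top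
      have hne : Cfsg.Geo.IsNondegenerateOn f₁ (Submodule.span F {u}) := by
        intro x hx hx0
        obtain ⟨t, rfl⟩ := Submodule.mem_span_singleton.mp hx
        have ht : t ≠ 0 := fun h0 => hx0 (by rw [h0, zero_smul])
        have hσt : σ t ≠ 0 := by rwa [ne_eq, EmbeddingLike.map_eq_zero_iff]
        exact ⟨⟨u, Submodule.mem_span_singleton_self u, by simp [hf₁.smul_left, Unitary.smul_right hf₁, ht, hσt, hu]⟩,
          ⟨u, Submodule.mem_span_singleton_self u, by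
            simp [hf₁.smul_left, Unitary.smul_right hf₁, ht, hσt, hu]⟩⟩
      have h1 := finrank_add_perp hf₁ hne
      have h2 : Module.finrank F (Submodule.span F {u}) = 1 :=
        finrank_span_singleton fun h0 => hu (by rw [h0, Unitary.zero_left hf₁])
      obtain ⟨v, hv, hvv⟩ := exists_anisotropic hf₁ (perp_nondegenerate hf₁ hne) (fun h0 => by
        rw [h0, finrank_bot] at h1; omega)
      exact hvv (hcon v ((Unitary.eq_zero_comm hf₁).mp ((mem_perp_span hf₁).mp hv)))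
    have hh := hT.kron_mem_M hH (one_mem (sisom hf₁)) (T_mem hf₂ hz' (map_one σ))
    set hgl := kron e P (1 : GL (Fin n₁) F) (T hf₂ z' 1 hz') with hgl'
    -- the commutators
    have hD : ∀ s : F, ∃ D ∈ M, ∀ x, ap D x = x + pt e P ((-σ s * f₁ (hT.cc w x) u) • v) z' +
        pt e P ((s * f₁ (hT.cc z' x) v) • u) w +
        pt e P ((-(s * σ s) * f₁ v v * f₁ (hT.cc w x) u) • u) w := by
      intro s
      obtain ⟨g, hg, hg'⟩ := hrk hu hvv hvu s
      refine ⟨g * hgl * g⁻¹ * hgl⁻¹,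
        M.mul_mem (M.mul_mem (M.mul_mem hg hh) (M.inv_mem hg)) (M.inv_mem hh), fun x => ?_⟩
      have hrz : ∀ a, ap g (pt e P a z') = pt e P a z' + pt e P ((s • rk hf₁ u v) a) w :=
        fun a => by rw [hg' a z' hz'w, hz'z, one_smul]
      set x' := x - pt e P (hT.cc z' x) z' with hx'
      have hA : hT.cc z' (ap g⁻¹ x') =
          hT.cc z' x + (-σ s * f₁ (hT.cc w x) u) • v := by
        refine hT.eq_of_pairing hf₁ fun b => ?_
        rw [hT.cc_inv (hMI hg) hrz, hx', map_sub, map_sub, cc_pt, cc_pt, hz', hz'w, zero_smul,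
          sub_zero, sub_zero, hf₁.add_left, hf₁.smul_left, LinearMap.smul_apply,
          rk_apply, smul_smul, Unitary.smul_right hf₁, map_mul, hf₁.skew v b]
        ring
      rw [ap_mul, hgl', hT.ap_one_kron_T_inv, ← hx', hT.ap_conj_T hz' hrz, hA,
        LinearMap.smul_apply, rk_apply, hf₁.add_left, hf₁.smul_left, smul_smul, hx']
      rw [pt_add_left, sub_eq_add_neg]
      have hsplit : pt e P ((s * (f₁ (hT.cc z' x) v + -σ s * f₁ (hT.cc w x) u * f₁ v v)) • u) w =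
          pt e P ((s * f₁ (hT.cc z' x) v) • u) w +
            pt e P ((-(s * σ s) * f₁ v v * f₁ (hT.cc w x) u) • u) w := by
        rw [← pt_add_left, ← add_smul]; congr 2; ring
      rw [hsplit]
      abel
    obtain ⟨θ, hθ⟩ := exists_trace hT.form
    set r := k * c / f₁ v v with hr
    have hc : σ c = -c := by
      obtain ⟨y, -, -, hyy⟩ := exists_aniso_perp_two hf₂ hc₂ w w
      have h1 := Unitary.skew_self hT.form (pt e P u y)
      rw [hT.form_pt, map_mul, map_mul, Unitary.skew_self hf₁, Unitary.skew_self hf₂] at h1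
      have hne : f₁ u u * f₂ y y ≠ 0 := mul_ne_zero hu hyy
      exact mul_right_cancel₀ hne (by linear_combination h1)
    have hrfix : σ r = r := by
      rw [hr, map_div₀, map_mul, hk, hc, Unitary.skew_self hf₁, mul_neg, neg_div_neg_eq]
    obtain ⟨D₁, hD₁, h₁⟩ := hD (θ * r)
    obtain ⟨D₂, hD₂, h₂⟩ := hD 1
    obtain ⟨D₃, hD₃, h₃⟩ := hD (θ * r + 1)
    convert M.mul_mem (M.mul_mem hD₁ hD₂) (M.inv_mem hD₃) using 1
    refine gl_ext fun x => ?_
    obtain ⟨y, rfl⟩ : ∃ y, ap D₃ y = x := ⟨_, ap_ap_inv D₃ x⟩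
    have hcw : hT.cc w (ap D₂ y) = hT.cc w y := by
      rw [h₂, map_add, map_add, map_add, cc_pt, cc_pt, cc_pt, hw, hz'w]; simp
    have hcz : hT.cc z' (ap D₂ y) = hT.cc z' y := by
      rw [h₂, map_add, map_add, map_add, cc_pt, cc_pt, cc_pt, hz', hwz']; simp
    have hcw3 : hT.cc w (ap D₃ y) = hT.cc w y := by
      rw [h₃, map_add, map_add, map_add, cc_pt, cc_pt, cc_pt, hw, hz'w]; simp
    rw [ap_mul, ap_inv_ap, ap_mul, h₁, hcw, hcz, h₂, hT.ap_T_pt hw, hcw3, h₃]
    have hkey : k * c = f₁ v v * ((θ * r) + σ (θ * r)) := by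
      rw [map_mul, hrfix, ← add_mul, hθ, one_mul, hr, mul_div_cancel₀ _ hvv]
    simp only [pt_smul_left, map_add, map_one, map_mul] at hkey ⊢
    match_scalars <;> grind
  -- all isotropic second factors
  refine hT.le_of_pure hn₂ hn₁ hq hMI fun u w' hu hw' => ?_
  by_cases hw'0 : w' = 0
  · rw [hw'0, pt_zero_right]; exact inX_zero hT.form
  have hbot : perp hf₂ (⊥ : Submodule F (Fin n₂ → F)) = ⊤ :=
    eq_top_iff.mpr fun x _ => mem_perp_bot hf₂ x
  obtain ⟨b, hb, -, -, hbw⟩ := exists_move hf₂ (M := sisom hf₂)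
    (fun v hv k hk => T_mem hf₂ hv hk) (by omega) (U := ⊥)
    (perp_nondegenerate hf₂ fun x hx hne => absurd ((Submodule.mem_bot F).mp hx) hne)
    (by rw [hbot, finrank_top, Module.finrank_fintype_fun_eq_card]; omega) (mem_perp_bot hf₂ w)
    (mem_perp_bot hf₂ w') hw hw' hw0 hw'0
  have hk := hT.kron_mem_M hH (one_mem (sisom hf₁)) hb
  have := inX_ap hT.form hk (hMI hk) (hX u hu)
  rwa [ap_kron, ap_one, hbw] at this

end UTensor

end CfsgLib.Geometric
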