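import Cfsg.Agent.Lib.Geometric.UnitaryTensorSpace

/-!
The transvections at pure tensors with an anisotropic first and an isotropic second factor
generate the special unitary group.
-/

namespace CfsgLib.Geometric

open Matrix Tensor

variable {ι : Type} [Fintype ι] [DecidableEq ι] {F : Type*} [Field F]

namespace Unitary

variable {σ : F ≃+* F} {f : (ι → F) → (ι → F) → F} (hf : IsSkewForm σ f)

/-- All Eichler elements at `(u₀, x)` lie in `M`. -/
def EIn (hf : IsSkewForm σ f) (M : Subgroup (GL ι F)) (u₀ x : ι → F) : Prop :=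
  ∀ (d : F) (hu : f u₀ u₀ = 0) (hx : f x u₀ = 0), d - σ d = f x x → E hf u₀ x d hu hx ∈ M

include hf

variable {M : Subgroup (GL ι F)}

lemma conj_E {g : GL ι F} (hg : g ∈ isom f) {u v : ι → F} {d : F} (hu : f u u = 0)
    (hvu : f v u = 0) :
    g * E hf u v d hu hvu * g⁻¹ = E hf (ap g u) (ap g v) d (isotropic_ap hf hg hu)
      (by rw [mem_isom_iff.mp hg, hvu]) := by
  refine gl_ext fun x => ?_
  obtain ⟨y, rfl⟩ : ∃ y, ap g y = x := ⟨_, ap_ap_inv g x⟩
  rw [ap_mul, ap_mul, ap_inv_ap, ap_E hf, ap_E hf, ap_add, ap_add, ap_add, ap_smul, ap_smul,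
    ap_smul, mem_isom_iff.mp hg, mem_isom_iff.mp hg]

lemma E_congr {u u' v v' : ι → F} {d : F} {hu : f u u = 0} {hvu : f v u = 0} (e₁ : u = u')
    (e₂ : v = v') (hu' : f u' u' = 0) (hvu' : f v' u' = 0) :
    E hf u v d hu hvu = E hf u' v' d hu' hvu' := by
  subst e₁ e₂; rfl

/-- The second vectors form a set closed under sums. -/
lemma eIn_add {u₀ x x' : ι → F} (hX : InX hf M u₀) (h : EIn hf M u₀ x) (h' : EIn hf M u₀ x')
    (hx : f x u₀ = 0) (hx' : f x' u₀ = 0) : EIn hf M u₀ (x + x') := by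
  intro d hu hxx hd
  obtain ⟨a, ha⟩ := exists_sub_eq hf (skew_self hf x)
  obtain ⟨b, hb⟩ := exists_sub_eq hf (skew_self hf x')
  have h0 := mul_mem (h a hu hx ha) (h' b hu hx' hb)
  rw [E_mul_E hf hxx] at h0
  have hfix : σ (d - (a + b + f x' x)) = d - (a + b + f x' x) := by
    simp only [hf.add_left, add_right hf] at hd
    rw [map_sub, map_add, map_add]
    linear_combination -hd + ha + hb - hf.skew x x'
  have h1 := mul_mem h0 (hX.2 hu _ hfix)
  rwa [E_mul_T hf, add_sub_cancel] at h1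

/-- An isotropic vector whose sum with `u₀` is a centre. -/
lemma eIn_of_inX {u₀ x : ι → F} (hX : InX hf M u₀) (hx : InX hf M x) (hs : InX hf M (u₀ + x))
    (hxu : f x u₀ = 0) : EIn hf M u₀ x := by
  intro d hu hxu' hd
  rw [hx.1, sub_eq_zero] at hd
  have h1 : E hf u₀ x 0 hu hxu' ∈ M := by
    rw [← E_eq_T_mul hf hx.1 hs.1]
    exact mul_mem (mul_mem (hs.2 _ _ (map_one σ)) (hX.2 _ _ (by simp))) (hx.2 _ _ (by simp))
  have h2 := mul_mem h1 (hX.2 hu d hd.symm)
  rwa [E_mul_T hf, zero_add] at h2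

/-- A vector moved by an element of `M` fixing `u₀`. -/
lemma eIn_ap {g : GL ι F} (hgM : g ∈ M) (hgI : g ∈ isom f) {u₀ x : ι → F}
    (hfix : ap g u₀ = u₀) (h : EIn hf M u₀ x) : EIn hf M u₀ (ap g x) := by
  intro d hu hxu hd
  have hxu' : f x u₀ = 0 := by rwa [← mem_isom_iff.mp hgI, hfix]
  rw [mem_isom_iff.mp hgI] at hd
  have := mul_mem (mul_mem hgM (h d hu hxu' hd)) (inv_mem hgM)
  rw [conj_E hf hgI, E_congr hf hfix rfl hu hxu] at this
  exact this

lemma eIn_zero {u₀ : ι → F} (hX : InX hf M u₀) : EIn hf M u₀ 0 := by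
  intro d hu hxu hd
  rw [zero_left hf, sub_eq_zero] at hd
  convert hX.2 hu d hd.symm using 1
  exact gl_ext fun x => by simp [ap_E hf, ap_T hf, zero_right hf]

/-- A linear space of second vectors. -/
def eSpace {u₀ : ι → F} (hX : InX hf M u₀) : Submodule F (ι → F) where
  carrier := {x | f x u₀ = 0 ∧ ∀ a : F, EIn hf M u₀ (a • x)}
  add_mem' {x y} hx hy := ⟨by rw [hf.add_left, hx.1, hy.1, add_zero], fun a => by
    rw [smul_add]
    exact eIn_add hf hX (hx.2 a) (hy.2 a) (by rw [hf.smul_left, hx.1, mul_zero])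
      (by rw [hf.smul_left, hy.1, mul_zero])⟩
  zero_mem' := ⟨zero_left hf u₀, fun a => by rw [smul_zero]; exact eIn_zero hf hX⟩
  smul_mem' r x hx := ⟨by rw [hf.smul_left, hx.1, mul_zero], fun a => by
    rw [smul_smul]; exact hx.2 _⟩

lemma mem_eSpace {u₀ : ι → F} (hX : InX hf M u₀) {x : ι → F} :
    x ∈ eSpace hf hX ↔ f x u₀ = 0 ∧ ∀ a : F, EIn hf M u₀ (a • x) := Iff.rfl

/-- A transvection fixing `u₀` and moving a second vector yields its centre. -/
lemma mem_eSpace_of_move {u₀ : ι → F} (hX : InX hf M u₀) {p : ι → F} (hp : InX hf M p)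
    (hup : f u₀ p = 0) {x : ι → F} (hx : x ∈ eSpace hf hX) (hxp : f x p ≠ 0) :
    p ∈ eSpace hf hX := by
  have hmove : ∀ a : F, EIn hf M u₀ (a • x + (f (a • x) p) • p) := by
    intro a
    have := eIn_ap hf (hp.2 hp.1 1 (map_one σ)) (T_mem_isom hf hp.1 (map_one σ))
      (ap_T_fix hf hp.1 hup) (((mem_eSpace hf hX).mp hx).2 a)
    rwa [ap_T hf, one_mul] at this
  have hmem : x + f x p • p ∈ eSpace hf hX := by
    refine ⟨?_, fun a => ?_⟩
    · rw [hf.add_left, hf.smul_left, hx.1, (eq_zero_comm hf).mp hup, mul_zero, add_zero]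
    · have := hmove a
      rwa [smul_add, smul_smul, ← hf.smul_left]
  have h := (eSpace hf hX).sub_mem hmem hx
  rw [add_sub_cancel_left] at h
  have := (eSpace hf hX).smul_mem (f x p)⁻¹ h
  rwa [smul_smul, inv_mul_cancel₀ hxp, one_smul] at this

/-- A centre with all Eichler elements reaches the isotropic vectors meeting it. -/
lemma inX_of_full [Finite F] (hMI : M ≤ isom f) {u₀ u₁ : ι → F} (h₀ : InX hf M u₀)
    (h₁ : InX hf M u₁) (h01 : f u₁ u₀ ≠ 0) (hE : ∀ x, f x u₀ = 0 → EIn hf M u₀ x) {v : ι → F}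
    (hv : f v v = 0) (hvu : f v u₀ ≠ 0) : InX hf M v := by
  set w := (f u₁ u₀)⁻¹ • u₁ with hw
  set y := (f v u₀)⁻¹ • v with hy
  obtain ⟨hvu', d, hd, hmap⟩ := exists_E_move hf (u := u₀) (w := w) (y := y) h₀.1
    (by rw [hw, hf.smul_left, inv_mul_cancel₀ h01])
    (by rw [hy, hf.smul_left, inv_mul_cancel₀ hvu])
    (by rw [isotropic_smul hf hv, isotropic_smul hf h₁.1])
  have hm := hE _ hvu' d h₀.1 hvu' hd
  have hwX : InX hf M w := inX_smul hf h₁ _
  have := inX_ap hf hm (hMI hm) hwX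
  rw [hmap] at this
  have h2 := inX_smul hf this (f v u₀)
  rwa [hy, smul_smul, mul_inv_cancel₀ hvu, one_smul] at h2

/-- Two non-orthogonal centres with all Eichler elements generate everything. -/
theorem le_of_two_full [Finite F] (hn : 4 ≤ Fintype.card ι) (hMI : M ≤ isom f) {u₀ u₁ : ι → F}
    (h₀ : InX hf M u₀) (h₁ : InX hf M u₁) (h01 : f u₁ u₀ ≠ 0)
    (hE : ∀ x, f x u₀ = 0 → EIn hf M u₀ x) (hE' : ∀ x, f x u₁ = 0 → EIn hf M u₁ x) :
    sisom hf ≤ M := by
  refine le_of_hasT hf hn (hasT_of_inX hf fun v hv => ?_)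
  have h10 : f u₀ u₁ ≠ 0 := fun h => h01 ((eq_zero_comm hf).mp h)
  by_cases hvu : f v u₀ = 0
  swap
  · exact inX_of_full hf hMI h₀ h₁ h01 hE hv hvu
  by_cases hdep : v ∈ Submodule.span F {u₀}
  · obtain ⟨t, rfl⟩ := Submodule.mem_span_singleton.mp hdep
    exact inX_smul hf h₀ t
  obtain ⟨x₀, hx₀, hvx⟩ := exists_perp_ne hf hdep
  rw [mem_perp_span hf] at hx₀
  obtain ⟨μ, hμ⟩ : ∃ μ : F, f v u₁ + μ * f u₀ u₁ ≠ 0 :=
    ⟨(1 - f v u₁) / f u₀ u₁, by rw [div_mul_cancel₀ _ h10, add_sub_cancel]; exact one_ne_zero⟩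
  -- the Eichler element shifting along `u₀`
  set x := (σ (-μ / f v x₀)) • x₀ with hx
  have hxu : f x u₀ = 0 := by rw [hx, hf.smul_left, hx₀, mul_zero]
  have hvX : f v x = -μ := by
    rw [hx, smul_right hf, hf.involutive, div_mul_cancel₀ _ hvx]
  obtain ⟨d, hd⟩ := exists_sub_eq hf (skew_self hf x)
  have hm := hE x hxu d h₀.1 hxu hd
  have hiso : f (v + μ • u₀) (v + μ • u₀) = 0 := by
    simp [hf.add_left, add_right hf, hf.smul_left, smul_right hf, hv, h₀.1, hvu,
      (eq_zero_comm hf).mp hvu]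
  have hs : InX hf M (v + μ • u₀) := inX_of_full hf hMI h₁ h₀ h10 hE' hiso
    (by rwa [hf.add_left, hf.smul_left])
  have := inX_ap hf hm (hMI hm) hs
  rw [ap_E hf, hf.add_left, hf.add_left, hf.smul_left, hf.smul_left, hvu, h₀.1, hvX,
    (eq_zero_comm hf).mp hxu] at this
  convert this using 1
  simp only [mul_zero, add_zero, zero_smul]
  module

end Unitary

namespace UTensor

open Unitary

variable {σ : F ≃+* F} {f : (ι → F) → (ι → F) → F} {n₁ n₂ : ℕ} {e : ι ≃ Fin n₁ × Fin n₂}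
  {P : GL ι F} {f₁ : (Fin n₁ → F) → (Fin n₁ → F) → F} {f₂ : (Fin n₂ → F) → (Fin n₂ → F) → F}
  {c : F}

/-- The transvections at pure tensors generate everything. -/
theorem le_of_pure [Finite F] (hT : UTensor σ f e P f₁ f₂ c) (hn₂ : 5 ≤ n₂) (hn₁ : 2 ≤ n₁)
    (hq : (∃ k : F, σ k = k ∧ k ≠ 0 ∧ k ≠ 1) ∨ 3 ≤ n₁) {M : Subgroup (GL ι F)}
    (hMI : M ≤ isom f)
    (hX : ∀ u w, f₁ u u ≠ 0 → f₂ w w = 0 → InX hT.form M (pt e P u w)) :
    sisom hT.form ≤ M := by
  classical
  have hf := hT.form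
  have hf₁ := hT.form₁
  have hf₂ := hT.form₂
  have hc2 : 5 ≤ Fintype.card (Fin n₂) := by rwa [Fintype.card_fin]
  have hq' : (∃ k : F, σ k = k ∧ k ≠ 0 ∧ k ≠ 1) ∨ 3 ≤ Fintype.card (Fin n₁) := by
    rwa [Fintype.card_fin]
  -- all Eichler elements at a pure centre
  have hfull : ∀ u w (hu : f₁ u u ≠ 0) (hw : f₂ w w = 0), w ≠ 0 →
      ∀ x, f x (pt e P u w) = 0 → EIn hf M (pt e P u w) x := by
    intro u w hu hw hw0 x hx
    have h₀ := hX u w hu hw
    set A := eSpace hf h₀ with hA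
    -- the first factor fixed
    have s1 : ∀ z, f₂ z w = 0 → pt e P u z ∈ A := by
      intro z hz
      have iso : ∀ z, f₂ z w = 0 → f₂ z z = 0 → pt e P u z ∈ A := fun z hz hzz =>
        ⟨by rw [hT.form_pt, hz, mul_zero, mul_zero], fun a => by
          rw [← pt_smul_right]
          refine eIn_of_inX hf h₀ (hX u _ hu (isotropic_smul hf₂ hzz a)) ?_ ?_
          · rw [← pt_add_right]
            refine hX u _ hu ?_
            simp [hf₂.add_left, Unitary.add_right hf₂, hf₂.smul_left, Unitary.smul_right hf₂, hw,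
              hzz, hz, (Unitary.eq_zero_comm hf₂).mp hz]
          · rw [hT.form_pt, hf₂.smul_left, hz, mul_zero, mul_zero, mul_zero]⟩
      obtain ⟨v₁, v₂, h₁, h₂, i₁, i₂, rfl⟩ := exists_perp_iso_add hf₂ hc2 hz
      rw [pt_add_right]
      exact A.add_mem (iso v₁ h₁ i₁) (iso v₂ h₂ i₂)
    -- moving by another centre
    have move : ∀ a a' z w₁, pt e P a' z ∈ A → f₁ a a ≠ 0 → f₂ w₁ w₁ = 0 →
        f₁ u a * f₂ w w₁ = 0 → f₁ a' a ≠ 0 → f₂ z w₁ ≠ 0 → pt e P a w₁ ∈ A := by
      intro a a' z w₁ hmem ha hw₁ h0 h1 h2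
      refine mem_eSpace_of_move hf h₀ (hX a w₁ ha hw₁) ?_ hmem ?_
      · rw [hT.form_pt, h0, mul_zero]
      · rw [hT.form_pt]
        exact mul_ne_zero hT.c_ne (mul_ne_zero h1 h2)
    have s2 : ∀ a z, f₁ a a ≠ 0 → f₂ z w = 0 → pt e P a z ∈ A := by
      have iso : ∀ a z, f₁ a a ≠ 0 → f₂ z w = 0 → f₂ z z = 0 → z ∉ Submodule.span F {w} →
          pt e P a z ∈ A := by
        intro a z ha hz hzz hzw
        obtain ⟨b, hb, hbu, hba⟩ := aniso_connect hf₁ hq' hu ha
        obtain ⟨p, hpw, hpp, hpz⟩ := exists_iso_partner hf₂ hc2 hzw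
        have hwz : f₂ w z = 0 := (Unitary.eq_zero_comm hf₂).mp hz
        have hzp : f₂ z p ≠ 0 := fun h => by
          rw [(Unitary.eq_zero_comm hf₂).mp h] at hpz; exact zero_ne_one hpz
        have hbp : pt e P b p ∈ A :=
          move b u z p (s1 z hz) hb hpp (by rw [(Unitary.eq_zero_comm hf₂).mp hpw, mul_zero])
            (fun h => hbu ((Unitary.eq_zero_comm hf₁).mp h)) hzp
        exact move a b p z hbp ha hzz (by rw [hwz, mul_zero]) hba
          (by rw [hpz]; exact one_ne_zero)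
      intro a z ha hz
      obtain ⟨v₁, v₂, h₁, h₂, i₁, i₂, rfl⟩ := exists_perp_iso_add hf₂ hc2 hz
      obtain ⟨y, hyw, -, hyy⟩ := exists_aniso_perp_two hf₂ hc2 w w
      obtain ⟨z', hz', hz'2, hz'y⟩ := exists_iso_partner hf₂ hc2 (w := w) (y := y) (fun hmem => by
          obtain ⟨t, rfl⟩ := Submodule.mem_span_singleton.mp hmem
          exact hyy (isotropic_smul hf₂ hw t))
      have hz'w : z' ∉ Submodule.span F {w} := fun hmem => by
        obtain ⟨t, rfl⟩ := Submodule.mem_span_singleton.mp hmem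
        rw [hf₂.smul_left, (Unitary.eq_zero_comm hf₂).mp hyw, mul_zero] at hz'y
        exact zero_ne_one hz'y
      have gen : ∀ v, f₂ v w = 0 → f₂ v v = 0 → pt e P a v ∈ A := by
        intro v hv hvv
        by_cases hvw : v ∈ Submodule.span F {w}
        swap
        · exact iso a v ha hv hvv hvw
        have hsum : v + z' ∉ Submodule.span F {w} := fun h => hz'w
          ((Submodule.add_mem_iff_right _ hvw).mp h)
        have hiso : f₂ (v + z') (v + z') = 0 := by
          obtain ⟨t, rfl⟩ := Submodule.mem_span_singleton.mp hvw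
          simp [hf₂.add_left, Unitary.add_right hf₂, hf₂.smul_left, Unitary.smul_right hf₂, hw,
            hz'2, hz', (Unitary.eq_zero_comm hf₂).mp hz']
        have := A.sub_mem (iso a _ ha (by rw [hf₂.add_left, hv, hz', add_zero]) hiso hsum)
          (iso a z' ha hz' hz'2 hz'w)
        rwa [← pt_sub_right, add_sub_cancel_right] at this
      rw [pt_add_right]
      exact A.add_mem (gen v₁ h₁ i₁) (gen v₂ h₂ i₂)
    have s3 : ∀ a z, f₁ a a ≠ 0 → f₁ a u = 0 → pt e P a z ∈ A := by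
      intro a z ha hau
      obtain ⟨v₁, v₂, -, -, i₁, i₂, rfl⟩ := exists_perp_iso_add hf₂ hc2 (w := 0) (z := z)
        (Unitary.zero_right hf₂ z)
      have gen : ∀ v, f₂ v v = 0 → pt e P a v ∈ A := by
        intro v hv
        by_cases hvw : f₂ v w = 0
        · exact s2 a v ha hvw
        have hv0 : v ∉ Submodule.span F {w} := fun h => by
          obtain ⟨t, rfl⟩ := Submodule.mem_span_singleton.mp h
          exact hvw (by rw [hf₂.smul_left, hw, mul_zero])
        obtain ⟨p, hpw, -, hpv⟩ := exists_iso_partner hf₂ hc2 hv0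
        exact move a a p v (s2 a p ha hpw) ha hv
          (by rw [(Unitary.eq_zero_comm hf₁).mp hau, zero_mul]) ha
          (by rw [hpv]; exact one_ne_zero)
      rw [pt_add_right]
      exact A.add_mem (gen v₁ i₁) (gen v₂ i₂)
    suffices hxA : x ∈ A by
      have := ((mem_eSpace hf h₀).mp hxA).2 1
      rwa [one_smul] at this
    set r := (f₁ u u)⁻¹ • conr e P (fl hf₁ u) x with hr
    have hrw : f₂ r w = 0 := by
      have h := apply_conr e P (fl hf₁ u) (fl hf₂ w) x
      simp only [fl_apply] at h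
      rw [hr, hf₂.smul_left, h]
      rw [hT.form_right, mul_eq_zero] at hx
      rw [show con e P (fl hf₂ w) x = hT.cc w x from rfl, hx.resolve_left hT.c_ne, mul_zero]
    set d := x - pt e P u r with hd
    have hdα : conr e P (fl hf₁ u) d = 0 := by
      rw [hd, map_sub, conr_pt, fl_apply, hr, smul_smul, mul_inv_cancel₀ hu, one_smul, sub_self]
    have hsum : d = ∑ j, pt e P (con e P (LinearMap.proj j) d) (Pi.single j 1) := by
      have h : LinearMap.id = ∑ j, (ptl e P (Pi.single j 1)).comp (con e P (LinearMap.proj j)) :=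
        ext_pt e P fun a y => by
          simp only [LinearMap.id_apply, LinearMap.sum_apply, LinearMap.comp_apply, con_pt,
            LinearMap.proj_apply, ptl_apply, pt_smul_left, ← pt_smul_right]
          exact (congrArg (ptr e P a) (pi_eq_sum_univ' y)).trans (map_sum _ _ _)
      simpa using LinearMap.congr_fun h d
    have hdA : d ∈ A := by
      rw [hsum]
      refine Submodule.sum_mem _ fun j _ => ?_
      have hpar : f₁ (con e P (LinearMap.proj j) d) u = 0 := by
        have h := apply_conr e P (fl hf₁ u) (LinearMap.proj j) d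
        rw [hdα, map_zero] at h
        exact h.symm
      exact span_aniso_perp hf₁ hu (A.comap (ptl e P (Pi.single j 1)))
        (fun a ha hau => s3 a _ ha hau) hpar
    have : x = pt e P u r + d := by rw [hd, add_sub_cancel]
    rw [this]
    exact A.add_mem (s1 r hrw) hdA
  -- two non-orthogonal centres
  have htop₁ : ∀ U : Submodule F (Fin n₁ → F), (∀ a, f₁ a a ≠ 0 → a ∈ U) → U = ⊤ := fun U h =>
    eq_top_iff.mpr fun x _ => span_aniso hf₁ U h x
  obtain ⟨u, hu⟩ : ∃ u, f₁ u u ≠ 0 := by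
    by_contra hcon
    push Not at hcon
    have h := congrArg (fun U : Submodule F (Fin n₁ → F) => Module.finrank F U)
      (htop₁ ⊥ fun a ha => absurd (hcon a) ha)
    simp at h
    omega
  obtain ⟨w, hw, hw1⟩ := exists_iso_pairing hf₂ hc2 (y := Pi.single ⟨0, by omega⟩ 1)
    (by intro h; simpa using congrFun h ⟨0, by omega⟩)
  have hw0 : w ≠ 0 := fun h => by rw [h, Unitary.zero_left hf₂] at hw1; exact zero_ne_one hw1
  obtain ⟨w', hw', hww'⟩ := exists_iso_pairing hf₂ hc2 hw0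
  have hw'0 : w' ≠ 0 := fun h => by rw [h, Unitary.zero_left hf₂] at hww'; exact zero_ne_one hww'
  refine le_of_two_full hf ?_ hMI (hX u w hu hw) (hX u w' hu hw') ?_ (hfull u w hu hw hw0)
    (hfull u w' hu hw' hw'0)
  · rw [Fintype.card_congr e, Fintype.card_prod, Fintype.card_fin, Fintype.card_fin]
    calc 4 ≤ 2 * 5 := by norm_num
      _ ≤ n₁ * n₂ := Nat.mul_le_mul hn₁ hn₂
  · rw [hT.form_pt, hww', mul_one]
    exact mul_ne_zero hT.c_ne hu

end UTensor

end CfsgLib.Geometric
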