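import Cfsg.Agent.Lib.Geometric.UnitaryTensorOddBase
import Cfsg.Agent.Lib.Geometric.Dihedral

/-!
In odd characteristic a proper overgroup of the stabiliser of a tensor product of skew-hermitian
forms is the stabiliser.
-/

namespace CfsgLib.Geometric

open Matrix Tensor

variable {ι : Type} [Fintype ι] [DecidableEq ι] {F : Type*} [Field F]
variable {σ : F ≃+* F} {f : (ι → F) → (ι → F) → F} {n₁ n₂ : ℕ} {e : ι ≃ Fin n₁ × Fin n₂}
  {P : GL ι F} {f₁ : (Fin n₁ → F) → (Fin n₁ → F) → F} {f₂ : (Fin n₂ → F) → (Fin n₂ → F) → F}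
  {c : F}

namespace UTensor

open Unitary

/-- The scalar maps. -/
def scalars (ι : Type) [Fintype ι] [DecidableEq ι] (F : Type*) [Field F] :
    Subgroup (GL ι F) where
  carrier := {g | ∃ γ : F, γ ≠ 0 ∧ ∀ x, ap g x = γ • x}
  one_mem' := ⟨1, one_ne_zero, fun x => by simp⟩
  mul_mem' := fun {g g'} ⟨γ, h0, h⟩ ⟨γ', h0', h'⟩ => ⟨γ * γ', mul_ne_zero h0 h0', fun x => by
    rw [ap_mul, h', h, smul_smul]⟩
  inv_mem' := fun {g} ⟨γ, h0, h⟩ => ⟨γ⁻¹, inv_ne_zero h0, fun x => by
    apply ap_injective g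
    rw [ap_ap_inv, h, smul_smul, mul_inv_cancel₀ h0, one_smul]⟩

lemma scalars_commute {g : GL ι F} (hg : g ∈ scalars ι F) (k : GL ι F) : k * g = g * k := by
  obtain ⟨γ, -, h⟩ := hg
  exact gl_ext fun x => by rw [ap_mul, ap_mul, h, h, ap_smul]

lemma scalars_le_tensor {g : GL ι F} (hg : g ∈ scalars ι F) :
    g ∈ Cfsg.Geo.tensorProductSubgroup n₁ n₂ e P := by
  obtain ⟨γ, h0, h⟩ := hg
  refine (mem_iff e P g).mpr ⟨ofEquiv (LinearEquiv.smulOfNeZero F _ γ h0), 1, fun x y => ?_⟩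
  rw [h, ap_ofEquiv, ap_one, LinearEquiv.smulOfNeZero_apply, pt_smul_left]

/-- An element fixing a vector has all powers fixing it. -/
lemma ap_zpow_fix {t : GL ι F} {x : ι → F} (h : ap t x = x) (j : ℤ) : ap (t ^ j) x = x := by
  induction j using Int.induction_on with
  | zero => simp
  | succ i ih => rw [_root_.zpow_add_one, ap_mul, h, ih]
  | pred i ih =>
    rw [_root_.zpow_sub_one, ap_mul]
    conv_lhs => rw [← h, ap_inv_ap]
    exact ih

variable {hT : UTensor σ f e P f₁ f₂ c} [Finite F] {M : Subgroup (GL ι F)}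

namespace Over

variable (hO : hT.Over M) (h2 : (2 : F) ≠ 0)
include hO h2

/-- Central involutions modulo scalars: the data at the second factor. -/
lemma sign_data {G : Subgroup (GL ι F)} {z k : G} {d : GL (Fin n₂) F} (hd : d ∈ isom f₂)
    (hzd : (z : GL ι F) = kron e P 1 d) (hz : z ∉ (scalars ι F).subgroupOf G)
    (hz2 : z * z ∈ (scalars ι F).subgroupOf G)
    (hk : k * z * k⁻¹ * z⁻¹ ∈ (scalars ι F).subgroupOf G) :
    (¬ ∃ t : F, ∀ y, ap d y = t • y) ∧ ∃ β ε : F, (∀ y, ap d (ap d y) = β • y) ∧ ε * ε = 1 ∧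
      ∀ x, ap (k : GL ι F) (ap (kron e P (1 : GL (Fin n₁) F) d) x) =
        ε • ap (kron e P (1 : GL (Fin n₁) F) d) (ap (k : GL ι F) x) := by
  obtain ⟨γ₂, hγ₂, hsq⟩ := hz2
  obtain ⟨γ, hγ, hc⟩ := hk
  simp only [Subgroup.coe_subtype, Subgroup.coe_mul, Subgroup.coe_inv, hzd] at hsq hc
  obtain ⟨u, hu⟩ := exists_pt_ne (F := F) hO.pos
  have hdd : ∀ y, ap d (ap d y) = γ₂ • y := fun y => pt_inj_right e P hu (by
    have := hsq (pt e P u y)
    rwa [ap_mul, ap_kron, ap_kron, ap_one, ap_one, ← pt_smul_right] at this)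
  refine ⟨fun ⟨t, ht⟩ => hz ?_, γ₂, γ, hdd, ?_, fun x => ?_⟩
  · obtain ⟨y₀, -, -, hy₀⟩ := exists_aniso_perp_two hT.form₂ hO.card_two 0 0
    refine ⟨t, left_ne_zero_of_mul_eq_one (isom_scalar hT.form₂ hd ht hy₀), fun x => ?_⟩
    simp only [Subgroup.coe_subtype, hzd]
    exact LinearMap.congr_fun (ext_pt e P (f := (apEquiv (kron e P 1 d)).toLinearMap)
      (g := t • LinearMap.id) fun a b => by simp [ht, pt_smul_right]) x
  · have hkz : ∀ x, ap (k : GL ι F) (ap (kron e P 1 d) x) =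
        γ • ap (kron e P 1 d) (ap (k : GL ι F) x) := fun x => by
      rw [← hc (ap (kron e P 1 d) (ap (k : GL ι F) x))]
      simp only [ap_mul, ap_inv_ap]
    obtain ⟨y₀, -, -, hy₀⟩ := exists_aniso_perp_two hT.form₂ hO.card_two 0 0
    have hy0 : y₀ ≠ 0 := fun h0 => hy₀ (by rw [h0, Unitary.zero_left hT.form₂])
    set x := pt e P u y₀ with hx
    have h1 := hkz (ap (kron e P 1 d) x)
    rw [hkz x, ap_smul, smul_smul] at h1
    have hzz : ∀ v, ap (kron e P (1 : GL (Fin n₁) F) d) (ap (kron e P 1 d) v) = γ₂ • v :=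
      fun v => by rw [← ap_mul]; exact hsq v
    rw [hzz, hzz, ap_smul, smul_smul] at h1
    have hkx : ap (k : GL ι F) x ≠ 0 := ap_ne_zero _ (pt_ne_zero e P hu hy0)
    have h2' := smul_left_injective F hkx h1
    exact mul_right_cancel₀ hγ₂ (by rw [one_mul]; exact h2'.symm)
  · rw [← hc (ap (kron e P 1 d) (ap (k : GL ι F) x))]
    simp only [ap_mul, ap_inv_ap]

/-- The centraliser, up to sign, of a reflection of the second factor. -/
lemma refl_cent {g : GL ι F} (hg : g ∈ M) {w : Fin 1 → Fin n₂ → F} (hw : Orth hT.form₂ w)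
    {ε : F} (hε : ε * ε = 1)
    (hcomm : ∀ x, ap g (ap (kron e P (1 : GL (Fin n₁) F) (negOn hT.form₂ h2 w hw)) x) =
      ε • ap (kron e P (1 : GL (Fin n₁) F) (negOn hT.form₂ h2 w hw)) (ap g x)) :
    g ∈ Cfsg.Geo.tensorProductSubgroup n₁ n₂ e P := by
  classical
  have hf₂ := hT.form₂
  obtain ⟨y, hy, hwy⟩ := exists_orth_beside hf₂ hw 4 (by have := hO.card_two; omega)
  rcases mul_self_eq_one_iff.mp hε with rfl | rfl
  swap
  · exfalso
    exact not_conj_neg hT h2 hO.pos hw (y := y ∘ ![0, 1]) (orth_comp hf₂ hy (by decide))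
      (fun i j => hwy i _) (by norm_num) g fun x => by rw [hcomm, neg_one_smul]
  set r := negOn hf₂ h2 w hw with hr
  set R := kron e P (1 : GL (Fin n₁) F) r with hR
  set G : Subgroup (GL ι F) := M ⊓ Subgroup.centralizer {R} with hG
  have memG : ∀ k : GL ι F, k ∈ G ↔ k ∈ M ∧ R * k = k * R := fun k => by
    rw [hG, Subgroup.mem_inf, Subgroup.mem_centralizer_iff]
    simp
  -- the elements commuting with the reflection of the second factor
  have hfix : ∀ t : GL (Fin n₂) F, t ∈ sisom hf₂ → t * r * t⁻¹ = r →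
      kron e P (1 : GL (Fin n₁) F) t ∈ G := fun t ht htr => (memG _).mpr
    ⟨hO.one_kron_mem ht, by
      rw [hR, ← UTensor.kron_mul, ← UTensor.kron_mul]
      congr 1
      rw [mul_inv_eq_iff_eq_mul.mp htr]⟩
  have conj_r : ∀ (t : GL (Fin n₂) F), t ∈ isom f₂ → (∃ k : F, k ≠ 0 ∧ ap t (w 0) = k • w 0) →
      t * r * t⁻¹ = r := by
    intro t ht ⟨k, hk0, hk⟩
    have hb : ∀ y y', f₂ (ap t y) (ap t y') = 1 * f₂ y y' := fun y y' => by
      rw [one_mul]; exact mem_isom_iff.mp ht y y'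
    refine eq_negOn hf₂ h2 hw (fun x hx => ?_) fun i => ?_
    · rw [ap_mul, ap_mul, hr, negOn_fix hf₂ h2 hw fun i => ?_, ap_ap_inv]
      have h1 := hb (ap t⁻¹ x) (w i)
      rw [ap_ap_inv, one_mul, Subsingleton.elim i 0, hk, Unitary.smul_right hf₂, hx 0,
        mul_zero] at h1
      exact (Subsingleton.elim i 0).symm ▸ h1.symm
    · rw [Subsingleton.elim i 0]
      have hti : ap t⁻¹ (w 0) = k⁻¹ • w 0 := by
        apply ap_injective t
        rw [ap_ap_inv, ap_smul, hk, smul_smul, inv_mul_cancel₀ hk0, one_smul]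
      rw [ap_mul, ap_mul, hti, ap_smul, hr, negOn_neg hf₂ h2 hw, ← neg_one_smul F (w 0),
        smul_smul, ap_smul, hk, smul_smul]
      congr 1
      field_simp
  have hpw : Orth hf₂ ![w 0, y 0] := by
    refine ⟨fun i => ?_, fun i j hij => ?_⟩
    · fin_cases i
      exacts [hw.1 0, hy.1 0]
    · fin_cases i <;> fin_cases j
      exacts [absurd rfl hij, hwy 0 0, (Unitary.eq_zero_comm hf₂).mp (hwy 0 0), absurd rfl hij]
  have hxw : Orth hf₂ ![y 1, y 2] := by
    refine ⟨fun i => ?_, fun i j hij => ?_⟩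
    · fin_cases i
      exacts [hy.1 1, hy.1 2]
    · fin_cases i <;> fin_cases j
      exacts [absurd rfl hij, hy.2 1 2 (by decide), hy.2 2 1 (by decide), absurd rfl hij]
  set π := negOn hf₂ h2 ![w 0, y 0] hpw with hπ
  set χ := negOn hf₂ h2 ![y 1, y 2] hxw with hχ
  have hπu : ap π (w 0) = -w 0 := negOn_neg hf₂ h2 hpw 0
  have hχu : ap χ (w 0) = w 0 := negOn_fix hf₂ h2 hxw fun i => by
    fin_cases i
    exacts [hwy 0 1, hwy 0 2]
  have hπS : π ∈ sisom hf₂ := negOn_mem_sisom hf₂ h2 hpw even_two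
  have hχS : χ ∈ sisom hf₂ := negOn_mem_sisom hf₂ h2 hxw even_two
  have hpG := hfix π hπS (conj_r π hπS.1 ⟨-1, neg_ne_zero.mpr one_ne_zero, by
    rw [hπu, neg_one_smul]⟩)
  have hxG := hfix χ hχS (conj_r χ hχS.1 ⟨1, one_ne_zero, by rw [hχu, one_smul]⟩)
  have hone : kron e P (1 : GL (Fin n₁) F) (1 : GL (Fin n₂) F) = 1 :=
    gl_ext_pt e P fun x y => by simp
  have hgG : g ∈ G := (memG g).mpr ⟨hg, gl_ext fun x => by
    rw [ap_mul, ap_mul, hcomm, one_smul]⟩
  let H' := (Cfsg.Geo.tensorProductSubgroup n₁ n₂ e P).subgroupOf G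
  let p : G := ⟨_, hpG⟩
  let x : G := ⟨_, hxG⟩
  suffices key : (⟨g, hgG⟩ : G) * x * (⟨g, hgG⟩ : G)⁻¹ ∈ H' from
    hO.plane_good h2 hg hxw key
  refine conj_mem_of_dihedral (Z := (scalars ι F).subgroupOf G) (p := p) (x := x) ?_ ?_
    (Tensor.kron_mem e P _ _) (Tensor.kron_mem e P _ _) ?_ ?_ ?_ ?_ ?_ _
  · exact fun z hz => Subgroup.mem_center_iff.mpr fun k =>
      Subtype.ext (scalars_commute hz k.1)
  · exact fun z hz => scalars_le_tensor hz
  · rw [show p * p = 1 from Subtype.ext (by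
      simp [p, hπ, ← UTensor.kron_mul, negOn_sq hf₂ h2 hpw, hone])]
    exact Subgroup.one_mem _
  · rw [show x * x = 1 from Subtype.ext (by
      simp [x, hχ, ← UTensor.kron_mul, negOn_sq hf₂ h2 hxw, hone])]
    exact Subgroup.one_mem _
  · exact fun k hk => hO.plane_good h2 ((memG _).mp k.2).1 hpw hk
  · -- not conjugate modulo scalars
    intro h hh hZ
    obtain ⟨γ, hγ0, hγ⟩ := hZ
    obtain ⟨a, b, hab⟩ := exists_kron (Subgroup.mem_subgroupOf.mp hh)
    simp only [Subgroup.coe_subtype, Subgroup.coe_mul, Subgroup.coe_inv, p, x, hab,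
      kron_conj_one] at hγ
    obtain ⟨ν, hσν, hν0, hb, -⟩ := hT.exists_similitude hO.pos hO.five_le (a := a) (b := b)
      (by rw [← hab]; exact hO.isom_of_mem ((memG _).mp h.2).1)
    set Y := b * π * b⁻¹ with hY
    have hXY : ∀ z, ap χ z = γ • ap Y z := by
      intro z
      obtain ⟨u, hu⟩ := exists_pt_ne (F := F) hO.pos
      refine pt_inj_right e P hu ?_
      have h1 := hγ (ap (kron e P 1 Y) (pt e P u z))
      rw [ap_mul, ap_inv_ap, ap_kron, ap_kron, ap_one, ← pt_smul_right] at h1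
      simpa using h1
    -- `b` preserves the line of the reflection
    have hhR := ((memG _).mp h.2).2
    rw [hab, hR] at hhR
    have hbr : b * r * b⁻¹ = r := kron_one_inj (e := e) (P := P) hO.pos (by
      rw [← kron_conj_one (e := e) (P := P) a b r, ← hhR, mul_inv_cancel_right])
    have hrbu : ap r (ap b (w 0)) = -ap b (w 0) := by
      conv_lhs => rw [← hbr, ap_mul, ap_mul, ap_inv_ap, hr, negOn_neg hf₂ h2 hw]
      rw [← neg_one_smul F (w 0), ap_smul, neg_one_smul]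
    rw [hr, ap_negOn hf₂ h2 hw, Fin.sum_univ_one, eq_neg_iff_add_eq_zero, sub_add_eq_add_sub,
      sub_eq_zero, ← two_smul F] at hrbu
    set k := f₂ (ap b (w 0)) (w 0) / f₂ (w 0) (w 0)
    have hbu : ap b (w 0) = k • w 0 := by
      apply smul_right_injective (Fin n₂ → F) h2
      simpa [smul_smul, k, mul_div_assoc] using hrbu
    have hYb : ap Y (ap b (w 0)) = -ap b (w 0) := by
      rw [hY, ap_mul, ap_mul, ap_inv_ap, hπu, ← neg_one_smul F (w 0), ap_smul, neg_one_smul]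
    have hk0 : k ≠ 0 := fun h0 => by
      have : w 0 = 0 := ap_injective b (by rw [hbu, h0, zero_smul, ap_zero])
      exact hw.1 0 (by rw [this, Unitary.zero_left hf₂])
    rw [hbu, ap_smul, ← smul_neg] at hYb
    have hYu : ap Y (w 0) = -w 0 := smul_right_injective (Fin n₂ → F) hk0 hYb
    have hγ1 : γ = -1 := by
      have h1 := hXY (w 0)
      rw [hχu, hYu, smul_neg, ← neg_smul] at h1
      have hw0 : w 0 ≠ 0 := fun h0 => hw.1 0 (by rw [h0, Unitary.zero_left hf₂])
      have := smul_left_injective F hw0 (h1.symm.trans (one_smul F (w 0)).symm)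
      linear_combination -this
    have hneg : ∀ z, ap χ z = z → ap Y z = -z := fun z hz => by
      have h1 := hXY z
      rw [hz, hγ1, neg_one_smul] at h1
      rw [eq_neg_iff_add_eq_zero]
      nth_rewrite 2 [h1]
      exact add_neg_cancel _
    have hY' : Y = negOn hf₂ h2 _ (orth_sim hf₂ h2 hpw hν0 hb) := conj_negOn hf₂ h2 hpw hν0 hb
    have htri : Orth hf₂ ![w 0, y 0, y 3] := by
      refine ⟨fun i => ?_, fun i j hij => ?_⟩
      · fin_cases i
        exacts [hw.1 0, hy.1 0, hy.1 3]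
      · fin_cases i <;> fin_cases j
        exacts [absurd rfl hij, hwy 0 0, hwy 0 3, (Unitary.eq_zero_comm hf₂).mp (hwy 0 0),
          absurd rfl hij, hy.2 0 3 (by decide), (Unitary.eq_zero_comm hf₂).mp (hwy 0 3),
          hy.2 3 0 (by decide), absurd rfl hij]
    refine negOn_not_neg hf₂ h2 (orth_sim hf₂ h2 hpw hν0 hb) htri (by norm_num) fun j => ?_
    rw [← hY']
    refine hneg _ (negOn_fix hf₂ h2 hxw fun i => ?_)
    fin_cases i <;> fin_cases j
    exacts [hwy 0 1, hy.2 0 1 (by decide), hy.2 3 1 (by decide), hwy 0 2, hy.2 0 2 (by decide),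
      hy.2 3 2 (by decide)]
  · -- the central involutions
    intro g' hg' z hz hzZ hz2 k hk
    obtain ⟨a, b, hab⟩ := exists_kron (hO.plane_good h2 ((memG _).mp g'.2).1 hxw
      (Subgroup.mem_subgroupOf.mp hg'))
    obtain ⟨ν, hσν, hν0, hb, -⟩ := hT.exists_similitude hO.pos hO.five_le (a := a) (b := b)
      (by rw [← hab]; exact hO.isom_of_mem ((memG _).mp g'.2).1)
    obtain ⟨j, hj⟩ := Subgroup.mem_zpowers_iff.mp hz
    set t := π * (b * χ * b⁻¹) with ht
    set d := t ^ j with hd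
    have hzd : (z : GL ι F) = kron e P 1 d := by
      rw [← hj, hd, ← kron_one_zpow]
      simp only [SubgroupClass.coe_zpow, Subgroup.coe_mul, Subgroup.coe_inv, p, x, hab]
      rw [kron_conj_one, ← UTensor.kron_mul, one_mul]
    have hχ' : b * χ * b⁻¹ = negOn hf₂ h2 _ (orth_sim hf₂ h2 hxw hν0 hb) :=
      conj_negOn hf₂ h2 hxw hν0 hb
    have hdS : d ∈ sisom hf₂ := (sisom hf₂).zpow_mem ((sisom hf₂).mul_mem hπS
      (hχ' ▸ negOn_mem_sisom hf₂ h2 _ even_two)) j
    obtain ⟨hns, β, ε', hdd, hε', hkd⟩ := hO.sign_data h2 hdS.1 hzd hzZ hz2 hk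
    -- a common fixed vector
    obtain ⟨v₀, -, hv₀0, hv₀⟩ := exists_ne_zero_map_eq_zero (k := 4)
      (⊤ : Submodule F (Fin n₂ → F))
      (LinearMap.pi ![fl hf₂ (w 0), fl hf₂ (y 0), fl hf₂ (ap b (y 1)), fl hf₂ (ap b (y 2))])
      (by rw [finrank_top, Module.finrank_fintype_fun_eq_card]; have := hO.card_two; omega)
    have q0 : f₂ v₀ (w 0) = 0 := congrFun hv₀ 0
    have q1 : f₂ v₀ (y 0) = 0 := congrFun hv₀ 1
    have q2 : f₂ v₀ (ap b (y 1)) = 0 := congrFun hv₀ 2
    have q3 : f₂ v₀ (ap b (y 2)) = 0 := congrFun hv₀ 3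
    have htv : ap t v₀ = v₀ := by
      rw [ht, hχ', ap_mul, negOn_fix hf₂ h2 (orth_sim hf₂ h2 hxw hν0 hb) fun i => ?_,
        negOn_fix hf₂ h2 hpw fun i => ?_]
      · fin_cases i
        exacts [q0, q1]
      · fin_cases i
        exacts [q2, q3]
    have hdv : ap d v₀ = v₀ := ap_zpow_fix htv j
    have hβ1 : β = 1 := by
      have h1 := hdd v₀
      rw [hdv, hdv] at h1
      exact (smul_left_injective F hv₀0 ((one_smul F v₀).trans h1)).symm
    have hd1 : ∀ y y', f₂ (ap d y) (ap d y') = 1 * f₂ y y' := fun y y' => by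
      rw [one_mul]; exact mem_isom_iff.mp hdS.1 y y'
    rcases classify hf₂ h2 hd1 hdd (l := 1) (by rw [hβ1, one_mul]) one_ne_zero one_ne_zero
        (by rw [map_one, one_mul]) (by have := hO.card_two; omega) hns with
      ⟨v, v', hv0, hv'0, hv, hv', hdv1, hdv2⟩ | ⟨v, m, hv, hm2, -, -, hdm, hperp⟩
    · exact hO.eigen_mem h2 ((memG _).mp k.2).1 hdS.1 hv0 hv'0 hv hv' hdv1 hdv2 hε' hkd
    set wv : Fin 1 → Fin n₂ → F := fun _ => v
    have hwv : Orth hf₂ wv := ⟨fun _ => hv, fun i j hij => absurd (Subsingleton.elim i j) hij⟩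
    set rv := negOn hf₂ h2 wv hwv with hrv
    have hdr : ∀ z, ap d z = m • ap rv z := fun z => by
      set q := f₂ z v / f₂ v v
      have hzq : f₂ (z - q • v) v = 0 := by
        rw [Unitary.sub_left hf₂, hf₂.smul_left, div_mul_cancel₀ _ hv, sub_self]
      have e1 : ap rv v = -v := negOn_neg hf₂ h2 hwv 0
      have e2 : ap rv (z - q • v) = z - q • v := negOn_fix hf₂ h2 hwv fun _ => hzq
      conv_lhs => rw [← sub_add_cancel z (q • v), ap_add, ap_smul, hperp _ hzq, hdm]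
      conv_rhs => rw [← sub_add_cancel z (q • v), ap_add, ap_smul, e1, e2]
      module
    rcases mul_self_eq_one_iff.mp (hm2.trans hβ1) with rfl | rfl
    · exfalso
      have he : d = rv := gl_ext fun z => by rw [hdr, one_smul]
      have h1 := (mem_specialLinear_iff _).mp hdS.2
      rw [he, det_negOn, pow_one] at h1
      exact h2 (by linear_combination -h1)
    -- the product with the reflection is a plane involution
    have hvu : f₂ (w 0) v = 0 := by
      set q := f₂ v₀ v / f₂ v v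
      have hzq : f₂ (v₀ - q • v) v = 0 := by
        rw [Unitary.sub_left hf₂, hf₂.smul_left, div_mul_cancel₀ _ hv, sub_self]
      have h1 := hdv
      rw [← sub_add_cancel v₀ (q • v), ap_add, ap_smul, hperp _ hzq, hdm, neg_neg, one_smul] at h1
      have h3 : (2 : F) • (v₀ - q • v) = 0 := by linear_combination (norm := module) -h1
      have h4 := sub_eq_zero.mp ((smul_eq_zero.mp h3).resolve_left h2)
      rw [h4, hf₂.smul_left, mul_eq_zero] at q0
      refine (Unitary.eq_zero_comm hf₂).mp (q0.resolve_left fun h0 => hv₀0 ?_)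
      rw [h4, h0, zero_smul]
    have hwp : Orth hf₂ ![w 0, v] := by
      refine ⟨fun i => ?_, fun i j hij => ?_⟩
      · fin_cases i
        exacts [hw.1 0, hv]
      · fin_cases i <;> fin_cases j
        exacts [absurd rfl hij, hvu, (Unitary.eq_zero_comm hf₂).mp hvu, absurd rfl hij]
    have hprod : r * rv = negOn hf₂ h2 ![w 0, v] hwp := by
      refine eq_negOn hf₂ h2 hwp (fun z hz => ?_) fun i => ?_
      · rw [ap_mul, hrv, negOn_fix hf₂ h2 hwv fun _ => hz 1, hr,
          negOn_fix hf₂ h2 hw fun i => (Subsingleton.elim (0 : Fin 1) i) ▸ hz 0]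
      · fin_cases i
        · change ap (r * rv) (w 0) = -w 0
          rw [ap_mul, hrv, negOn_fix hf₂ h2 hwv fun _ => hvu, hr, negOn_neg hf₂ h2 hw]
        · change ap (r * rv) v = -v
          rw [ap_mul, hrv]
          rw [show ap (negOn hf₂ h2 wv hwv) v = -v from negOn_neg hf₂ h2 hwv 0, hr,
            ← neg_one_smul F v, ap_smul, negOn_fix hf₂ h2 hw fun i =>
              (Subsingleton.elim (0 : Fin 1) i) ▸ (Unitary.eq_zero_comm hf₂).mp hvu]
    refine Subgroup.mem_subgroupOf.mpr (hO.plane_cent h2 ((memG _).mp k.2).1 hwp hε' fun x => ?_)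
    have hkR : ∀ x, ap (k : GL ι F) (ap R x) = ap R (ap (k : GL ι F) x) := fun x => by
      rw [← ap_mul, ← ap_mul, ((memG _).mp k.2).2]
    have hdz : ∀ x, ap (kron e P (1 : GL (Fin n₁) F) rv) x =
        (-1 : F) • ap (kron e P (1 : GL (Fin n₁) F) d) x := fun x =>
      LinearMap.congr_fun (ext_pt e P (f := (apEquiv (kron e P 1 rv)).toLinearMap)
        (g := (-1 : F) • (apEquiv (kron e P 1 d)).toLinearMap) fun a b => by
          simp [hdr, pt_neg_right]) x
    have hsplit : kron e P (1 : GL (Fin n₁) F) (r * rv) = R * kron e P 1 rv := by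
      rw [hR, ← UTensor.kron_mul, one_mul]
    rw [← hprod, hsplit, ap_mul, ap_mul, hkR, hdz, hdz, ap_smul, ap_smul, ap_smul, hkd, ap_smul,
      smul_comm]

/-- The centraliser, up to sign, of an isometry of the second factor with a scalar square. -/
lemma isometry_cent {g : GL ι F} (hg : g ∈ M) {d : GL (Fin n₂) F} (hd : d ∈ isom f₂) {β : F}
    (hdd : ∀ y, ap d (ap d y) = β • y) (hns : ¬ ∃ t : F, ∀ y, ap d y = t • y) {ε : F}
    (hε : ε * ε = 1)
    (hcomm : ∀ x, ap g (ap (kron e P (1 : GL (Fin n₁) F) d) x) =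
      ε • ap (kron e P (1 : GL (Fin n₁) F) d) (ap g x)) :
    g ∈ Cfsg.Geo.tensorProductSubgroup n₁ n₂ e P := by
  have hf₂ := hT.form₂
  obtain ⟨y₀, -, -, hy₀⟩ := exists_aniso_perp_two hf₂ hO.card_two 0 0
  have hd1 : ∀ y y', f₂ (ap d y) (ap d y') = 1 * f₂ y y' := fun y y' => by
    rw [one_mul]; exact mem_isom_iff.mp hd y y'
  obtain ⟨l, hβ, hl0, hl⟩ := exists_sqrt hf₂ h2 hd1 hdd one_ne_zero (map_one σ) hy₀
  rcases hl with hl | hl
  swap
  · -- totally isotropic eigenspaces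
    obtain ⟨z, hz⟩ : ∃ z, ap d z ≠ l • z := by
      by_contra hc
      push Not at hc
      exact hns ⟨l, hc⟩
    obtain ⟨z', hz'⟩ : ∃ z, ap d z ≠ (-l) • z := by
      by_contra hc
      push Not at hc
      exact hns ⟨-l, hc⟩
    obtain ⟨p, m, rfl, hp, hm⟩ := exists_split hf₂ h2 hdd hβ hl0 z'
    obtain ⟨p', m', rfl, hp', hm'⟩ := exists_split hf₂ h2 hdd hβ hl0 z
    have hne : l * σ l ≠ 1 := fun h => h2 (by rw [hl] at h; linear_combination -h)
    have hne' : (-l) * σ (-l) ≠ 1 := by rwa [map_neg, neg_mul_neg]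
    exact hO.eigen_mem h2 hg hd (fun h0 => hz' (by rw [h0, zero_add, hm]))
      (fun h0 => hz (by rw [h0, add_zero, hp'])) (eig_orth hf₂ hd1 hp hp hne)
      (eig_orth hf₂ hd1 hm' hm' hne') hp hm' hε hcomm
  rcases classify hf₂ h2 hd1 hdd hβ hl0 one_ne_zero hl (by have := hO.card_two; omega) hns with
    ⟨v, v', hv0, hv'0, hv, hv', hdv1, hdv2⟩ | ⟨v, m, hv, -, -, hm0, hdm, hperp⟩
  · exact hO.eigen_mem h2 hg hd hv0 hv'0 hv hv' hdv1 hdv2 hε hcomm
  set wv : Fin 1 → Fin n₂ → F := fun _ => v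
  have hwv : Orth hf₂ wv := ⟨fun _ => hv, fun i j hij => absurd (Subsingleton.elim i j) hij⟩
  set rv := negOn hf₂ h2 wv hwv with hrv
  have hdr : ∀ z, ap d z = m • ap rv z := fun z => by
    set q := f₂ z v / f₂ v v
    have hzq : f₂ (z - q • v) v = 0 := by
      rw [Unitary.sub_left hf₂, hf₂.smul_left, div_mul_cancel₀ _ hv, sub_self]
    have e1 : ap rv v = -v := negOn_neg hf₂ h2 hwv 0
    have e2 : ap rv (z - q • v) = z - q • v := negOn_fix hf₂ h2 hwv fun _ => hzq
    conv_lhs => rw [← sub_add_cancel z (q • v), ap_add, ap_smul, hperp _ hzq, hdm]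
    conv_rhs => rw [← sub_add_cancel z (q • v), ap_add, ap_smul, e1, e2]
    module
  have hd' : ∀ x, ap (kron e P (1 : GL (Fin n₁) F) d) x =
      m • ap (kron e P (1 : GL (Fin n₁) F) rv) x := fun x =>
    LinearMap.congr_fun (ext_pt e P (f := (apEquiv (kron e P 1 d)).toLinearMap)
      (g := m • (apEquiv (kron e P 1 rv)).toLinearMap) fun a b => by
        simp [hdr, pt_smul_right]) x
  refine hO.refl_cent h2 hg hwv hε fun x => ?_
  have h1 := hcomm x
  rw [hd', hd', ap_smul, smul_comm] at h1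
  exact smul_right_injective (ι → F) hm0 h1

/-- In odd characteristic the stabiliser contains every proper overgroup, given an isometry of
the second factor with a scalar square unlike the plane involutions. -/
theorem le_tensor_of_odd {d₀ : GL (Fin n₂) F} (hd₀ : d₀ ∈ sisom hT.form₂) {β₀ : F}
    (hd₀2 : ∀ y, ap d₀ (ap d₀ y) = β₀ • y) (hd₀s : ¬ ∃ t : F, ∀ y, ap d₀ y = t • y)
    (hnp : ∀ (w : Fin 2 → Fin n₂ → F) (hw : Orth hT.form₂ w) (γ : F),
      ¬ ∀ y, ap d₀ y = γ • ap (negOn hT.form₂ h2 w hw) y) :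
    M ≤ Cfsg.Geo.tensorProductSubgroup n₁ n₂ e P := by
  classical
  have hf₂ := hT.form₂
  have hone : kron e P (1 : GL (Fin n₁) F) (1 : GL (Fin n₂) F) = 1 :=
    gl_ext_pt e P fun x y => by simp
  set X := kron e P (1 : GL (Fin n₁) F) d₀ with hX
  have hXM : X ∈ M := hO.one_kron_mem hd₀
  have hXX : ∀ x, ap X (ap X x) = β₀ • x := fun x => by
    have h := LinearMap.congr_fun (ext_pt e P
      (f := (apEquiv X).toLinearMap.comp (apEquiv X).toLinearMap) (g := β₀ • LinearMap.id)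
      fun a b => by simp [hX, hd₀2, pt_smul_right]) x
    simpa using h
  -- elements conjugating `X` into the stabiliser
  have hgood : ∀ g ∈ M, g * X * g⁻¹ ∈ Cfsg.Geo.tensorProductSubgroup n₁ n₂ e P →
      g ∈ Cfsg.Geo.tensorProductSubgroup n₁ n₂ e P := by
    intro g hg hy
    set y := g * X * g⁻¹ with hydef
    obtain ⟨a, b, hab⟩ := exists_kron hy
    obtain ⟨ν, hσν, hν0, hb, -⟩ := hT.exists_similitude hO.pos hO.five_le (a := a) (b := b)
      (hab ▸ hO.isom_of_mem (M.mul_mem (M.mul_mem hg hXM) (M.inv_mem hg)))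
    obtain ⟨β, hbb⟩ := exists_sq hO.pos (γ := β₀) (a := a) (b := b) (e := e) (P := P) fun x => by
      rw [← hab, hydef]
      simp only [ap_mul, ap_inv_ap]
      rw [hXX, ap_smul, ap_ap_inv]
    obtain ⟨w, hw, hwb⟩ := exists_plane hf₂ h2 hb hbb hν0 (by have := hO.card_two; omega)
    set W := kron e P (1 : GL (Fin n₁) F) (negOn hf₂ h2 w hw) with hW
    have hyW : y * W = W * y := mul_inv_eq_iff_eq_mul.mp (by rw [hab, hW, kron_conj_one, hwb])
    set k := g⁻¹ * W * g with hk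
    have hkM : k ∈ M := M.mul_mem (M.mul_mem (M.inv_mem hg)
      (hO.one_kron_mem (negOn_mem_sisom hf₂ h2 hw even_two))) hg
    have hkX : k * X = X * k := by
      calc k * X = g⁻¹ * (W * (g * X * g⁻¹)) * g := by rw [hk]; group
        _ = g⁻¹ * (g * X * g⁻¹ * W) * g := by rw [← hydef, hyW]
        _ = X * k := by rw [hk]; group
    have hkT := hO.isometry_cent h2 hkM hd₀.1 hd₀2 hd₀s (ε := 1) (mul_one 1) fun x => by
      rw [one_smul, ← hX, ← ap_mul, hkX, ap_mul]
    have := hO.plane_good h2 (M.inv_mem hg) hw (by rwa [inv_inv, ← hW, ← hk])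
    simpa using inv_mem this
  intro g hg
  refine hgood g hg ?_
  obtain ⟨w, hw⟩ := exists_orth hf₂ 2 (by have := hO.card_two; omega)
  have hπS := negOn_mem_sisom hf₂ h2 hw even_two
  let H' := (Cfsg.Geo.tensorProductSubgroup n₁ n₂ e P).subgroupOf M
  let p : M := ⟨_, hO.one_kron_mem hπS⟩
  let x : M := ⟨X, hXM⟩
  suffices key : (⟨g, hg⟩ : M) * x * (⟨g, hg⟩ : M)⁻¹ ∈ H' from key
  refine conj_mem_of_dihedral (Z := (scalars ι F).subgroupOf M) (p := p) (x := x) ?_ ?_
    (Tensor.kron_mem e P _ _) (Tensor.kron_mem e P _ _) ?_ ?_ ?_ ?_ ?_ _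
  · exact fun z hz => Subgroup.mem_center_iff.mpr fun k =>
      Subtype.ext (scalars_commute hz k.1)
  · exact fun z hz => scalars_le_tensor hz
  · rw [show p * p = 1 from Subtype.ext (by
      simp [p, ← UTensor.kron_mul, negOn_sq hf₂ h2 hw, hone])]
    exact Subgroup.one_mem _
  · have hβ₀ : β₀ ≠ 0 := fun h0 => hd₀s ⟨0, fun y => by
      have h1 := hd₀2 y
      rw [h0, zero_smul] at h1
      have h3 : ap d₀ y = 0 := ap_injective d₀ (h1.trans (ap_zero d₀).symm)
      rw [h3, zero_smul]⟩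
    exact ⟨β₀, hβ₀, fun v => by simp [x, ap_mul, hXX]⟩
  · exact fun k hk => hO.plane_good h2 k.2 hw hk
  · intro h hh hZ
    obtain ⟨γ, -, hγ⟩ := hZ
    obtain ⟨a, b, hab⟩ := exists_kron (Subgroup.mem_subgroupOf.mp hh)
    simp only [Subgroup.coe_subtype, Subgroup.coe_mul, Subgroup.coe_inv, p, x, hab,
      kron_conj_one] at hγ
    obtain ⟨ν, hσν, hν0, hb, -⟩ := hT.exists_similitude hO.pos hO.five_le (a := a) (b := b)
      (by rw [← hab]; exact hO.isom_of_mem h.2)
    refine hnp _ (orth_sim hf₂ h2 hw hν0 hb) γ fun z => ?_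
    obtain ⟨u, hu⟩ := exists_pt_ne (F := F) hO.pos
    rw [← conj_negOn hf₂ h2 hw hν0 hb]
    refine pt_inj_right e P hu ?_
    have h1 := hγ (ap (kron e P 1 (b * negOn hf₂ h2 w hw * b⁻¹)) (pt e P u z))
    rw [ap_mul, ap_inv_ap, ap_kron, ap_kron, ap_one, ← pt_smul_right] at h1
    simpa using h1
  · intro g' hg' z hz hzZ hz2 k hk
    obtain ⟨a, b, hab⟩ := exists_kron (hgood g'.1 g'.2 (Subgroup.mem_subgroupOf.mp hg'))
    obtain ⟨ν, hσν, hν0, hb, -⟩ := hT.exists_similitude hO.pos hO.five_le (a := a) (b := b)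
      (by rw [← hab]; exact hO.isom_of_mem g'.2)
    obtain ⟨j, hj⟩ := Subgroup.mem_zpowers_iff.mp hz
    set t := negOn hf₂ h2 w hw * (b * d₀ * b⁻¹) with ht
    set d := t ^ j with hd
    have hzd : (z : GL ι F) = kron e P 1 d := by
      rw [← hj, hd, ← kron_one_zpow]
      simp only [SubgroupClass.coe_zpow, Subgroup.coe_mul, Subgroup.coe_inv, p, x, hab, hX]
      rw [kron_conj_one, ← UTensor.kron_mul, one_mul]
    have hbd : b * d₀ * b⁻¹ ∈ isom f₂ := by
      refine mem_isom_iff.mpr fun y y' => ?_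
      rw [ap_mul, ap_mul, ap_mul, ap_mul, hb, mem_isom_iff.mp hd₀.1, ← hb, ap_ap_inv, ap_ap_inv]
    have hdI : d ∈ isom f₂ := (isom f₂).zpow_mem ((isom f₂).mul_mem hπS.1 hbd) j
    obtain ⟨hns, β, ε', hdd, hε', hkd⟩ := hO.sign_data h2 hdI hzd hzZ hz2 hk
    exact Subgroup.mem_subgroupOf.mpr (hO.isometry_cent h2 k.2 hdI hdd hns hε' hkd)

end Over

end UTensor

end CfsgLib.Geometric
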