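import Cfsg.Agent.Lib.Geometric.UnitaryTensorTwo
import Cfsg.Agent.Lib.Geometric.UnitaryTensorOdd

/-!
The stabiliser of a tensor product of two skew-hermitian spaces of different dimensions is maximal
in the special unitary group.
-/

namespace CfsgLib.Geometric

open Matrix Tensor

variable {ι : Type} [Fintype ι] [DecidableEq ι] {F : Type*} [Field F]
variable {σ : F ≃+* F} {f : (ι → F) → (ι → F) → F}

namespace Unitary

variable (hf : IsSkewForm σ f) [Finite F] (h2 : (2 : F) ≠ 0)
include hf h2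

/-- In dimension five or at least seven a product of four reflections is not a scalar times a
plane involution. -/
lemma exists_d_ne_six (hn : 5 ≤ Fintype.card ι) (h6 : Fintype.card ι ≠ 6) :
    ∃ d ∈ sisom hf, ∃ β : F, (∀ y, ap d (ap d y) = β • y) ∧ (¬ ∃ t : F, ∀ y, ap d y = t • y) ∧
      ∀ (w : Fin 2 → ι → F) (hw : Orth hf w) (γ : F),
        ¬ ∀ y, ap d y = γ • ap (negOn hf h2 w hw) y := by
  classical
  obtain ⟨a, ha⟩ := exists_orth hf 4 (by omega)
  obtain ⟨b, hb, hba⟩ := exists_orth_perp hf ha (by omega)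
  have hb0 : b ≠ 0 := fun h => hb (by rw [h, zero_left hf])
  have hd2 : ∀ y, ap (negOn hf h2 a ha) (ap (negOn hf h2 a ha) y) = y := fun y => by
    rw [← ap_mul, negOn_sq, ap_one]
  refine ⟨_, negOn_mem_sisom hf h2 ha ⟨2, rfl⟩, 1, fun y => by rw [hd2, one_smul], ?_, ?_⟩
  · rintro ⟨t, ht⟩
    have h1 := (ht (a 0)).symm.trans (negOn_neg hf h2 ha 0)
    have h3 := (ht b).symm.trans (negOn_fix hf h2 ha hba)
    have ht1 : t = 1 := smul_left_injective F hb0 (h3.trans (one_smul F b).symm)
    rw [ht1, one_smul, eq_neg_iff_add_eq_zero, ← two_smul F, smul_eq_zero] at h1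
    exact ha.1 0 (by rw [h1.resolve_left h2, zero_left hf])
  intro w hw γ h
  have hγ : γ * γ = 1 := by
    have h1 := h (ap (negOn hf h2 a ha) b)
    rw [hd2, h b, ap_smul, smul_smul, ← ap_mul, negOn_sq, ap_one] at h1
    exact smul_left_injective F hb0 (h1.symm.trans (one_smul F b).symm)
  rcases mul_self_eq_one_iff.mp hγ with rfl | rfl
  · refine negOn_not_neg hf h2 hw ha (by norm_num) fun j => ?_
    have := h (a j)
    rw [one_smul, negOn_neg hf h2 ha] at this
    exact this.symm
  by_cases h7 : 7 ≤ Fintype.card ι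
  · obtain ⟨v, -, hv0, hv⟩ := exists_ne_zero_map_eq_zero (k := 6) (⊤ : Submodule F (ι → F))
      (LinearMap.pi ![fl hf (a 0), fl hf (a 1), fl hf (a 2), fl hf (a 3), fl hf (w 0), fl hf (w 1)])
      (by rw [finrank_top, Module.finrank_fintype_fun_eq_card]; omega)
    have q : ∀ i, _ := fun i => congrFun hv i
    have h1 := h v
    rw [negOn_fix hf h2 ha (fun i => by fin_cases i <;> [exact q 0; exact q 1; exact q 2; exact q 3]),
      negOn_fix hf h2 hw (fun i => by fin_cases i <;> [exact q 4; exact q 5]), neg_one_smul,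
      eq_neg_iff_add_eq_zero, ← two_smul F, smul_eq_zero] at h1
    exact hv0 (h1.resolve_left h2)
  · have hperp : ∀ i j, f (a i) (w j) = 0 := by
      intro i j
      have h1 := h (w j)
      rw [negOn_neg hf h2 hw, neg_one_smul, neg_neg] at h1
      have h3 := mem_isom_iff.mp (negOn_mem hf h2 ha) (a i) (w j)
      rw [negOn_neg hf h2 ha, h1, neg_left hf, eq_comm, eq_neg_iff_add_eq_zero, ← two_mul,
        mul_eq_zero] at h3
      exact h3.resolve_left h2
    have := orth_card_le hf (orth_append hf ha hw hperp)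
    omega

/-- In dimension six an isometry of square minus one is not a scalar times a plane involution. -/
lemma exists_d_six (h6 : Fintype.card ι = 6) :
    ∃ d ∈ sisom hf, ∃ β : F, (∀ y, ap d (ap d y) = β • y) ∧ (¬ ∃ t : F, ∀ y, ap d y = t • y) ∧
      ∀ (w : Fin 2 → ι → F) (hw : Orth hf w) (γ : F),
        ¬ ∀ y, ap d y = γ • ap (negOn hf h2 w hw) y := by
  classical
  obtain ⟨p, hp⟩ := exists_orth hf 6 (by omega)
  -- two triples with equal norms
  set a : Fin 3 → ι → F := fun i => p (Fin.castAdd 3 i) with hadef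
  choose t ht using fun i : Fin 3 => exists_norm hf
    (c := f (a i) (a i) / f (p (Fin.natAdd 3 i)) (p (Fin.natAdd 3 i)))
    (by rw [map_div₀, skew_self hf, skew_self hf, neg_div_neg_eq])
  set b : Fin 3 → ι → F := fun i => t i • p (Fin.natAdd 3 i) with hbdef
  have ha : Orth hf a := orth_comp hf hp (Fin.castAdd_injective 3 3)
  have hbb : ∀ i, f (b i) (b i) = f (a i) (a i) := fun i => by
    rw [hbdef, hf.smul_left, smul_right hf, ← mul_assoc, ht, div_mul_cancel₀ _ (hp.1 _)]
  have hb : Orth hf b := ⟨fun i => by rw [hbb]; exact ha.1 i, fun i j hij => by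
    rw [hbdef, hf.smul_left, smul_right hf, hp.2 _ _ (fun e => hij (Fin.natAdd_injective 3 3 e))]
    simp⟩
  have hab : ∀ i j, f (a i) (b j) = 0 := fun i j => by
    rw [hbdef, smul_right hf, hp.2 _ _ (fun e => ?_), mul_zero]
    have := congrArg Fin.val e
    simp at this
    omega
  have hba : ∀ i j, f (b i) (a j) = 0 := fun i j => (eq_zero_comm hf).mp (hab j i)
  set m : Fin 3 → ι → F := fun i => a i - b i with hmdef
  have hmm : ∀ i j, f (m i) (m j) = f (a i) (a j) + f (b i) (b j) := fun i j => by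
    simp [hmdef, sub_left hf, sub_right hf, hab, hba]
  have hm : Orth hf m := ⟨fun i => by
      rw [hmm, hbb, ← two_mul]; exact mul_ne_zero h2 (ha.1 i),
    fun i j hij => by rw [hmm, ha.2 i j hij, hb.2 i j hij, add_zero]⟩
  set A := negOn hf h2 a ha with hA
  set B := negOn hf h2 m hm with hB
  have hsum : ∀ i, ap B (a i + b i) = a i + b i := fun i => by
    refine negOn_fix hf h2 hm fun j => ?_
    by_cases hij : i = j
    · subst hij
      simp [hmdef, hf.add_left, sub_right hf, hab, hba, hbb]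
    · simp [hmdef, hf.add_left, sub_right hf, hab, hba, ha.2 i j hij, hb.2 i j hij]
  have hdif : ∀ i, ap B (a i - b i) = -(a i - b i) := fun i => negOn_neg hf h2 hm i
  have hBa : ∀ i, ap B (a i) = b i := fun i => by
    apply smul_right_injective (ι → F) h2
    change (2 : F) • ap B (a i) = (2 : F) • b i
    rw [← ap_smul, show (2 : F) • a i = (a i + b i) + (a i - b i) by module, ap_add, hsum, hdif]
    module
  have hBb : ∀ i, ap B (b i) = a i := fun i => by
    apply smul_right_injective (ι → F) h2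
    change (2 : F) • ap B (b i) = (2 : F) • a i
    rw [← ap_smul, show (2 : F) • b i = (a i + b i) - (a i - b i) by module, ap_sub, hsum, hdif]
    module
  set d := A * B with hd
  have hda : ∀ i, ap d (a i) = b i := fun i => by
    rw [hd, ap_mul, hBa, hA, negOn_fix hf h2 ha fun j => hba i j]
  have hdb : ∀ i, ap d (b i) = -a i := fun i => by
    rw [hd, ap_mul, hBb, hA, negOn_neg hf h2 ha]
  have hdS : d ∈ sisom hf := by
    refine ⟨(isom f).mul_mem (negOn_mem hf h2 ha) (negOn_mem hf h2 hm),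
      (mem_specialLinear_iff _).mpr ?_⟩
    rw [hd, Units.val_mul, Matrix.det_mul, det_negOn, det_negOn]
    norm_num
  have hneg : ∀ x : ι → F, ap (-1 : GL ι F) x = -x := fun x => by
    simp [ap, Units.val_neg, Matrix.neg_mulVec]
  have hdd : d * d = -1 := by
    refine ext_orth hf (orth_append hf ha hb hab) h6.symm fun i => ?_
    induction i using Fin.addCases with
    | left i => simp only [Fin.append_left, ap_mul, hda, hdb, hneg]
    | right i =>
      simp only [Fin.append_right, ap_mul, hdb, hneg]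
      rw [← neg_one_smul F (a i), ap_smul, hda, neg_one_smul]
  refine ⟨d, hdS, -1, fun y => by rw [← ap_mul, hdd, hneg, neg_one_smul], ?_, ?_⟩
  · rintro ⟨k, hk⟩
    have h1 : b 0 = k • a 0 := (hda 0).symm.trans (hk _)
    have h3 := hb.1 0
    nth_rewrite 1 [h1] at h3
    rw [hf.smul_left, hab, mul_zero] at h3
    exact h3 rfl
  intro w hw γ h
  let L : (Fin 3 → F) →ₗ[F] (Fin 2 → F) :=
    LinearMap.pi fun i => (fl hf (w i)).comp (Fintype.linearCombination F a)
  obtain ⟨s, hs, hs0⟩ := Submodule.exists_mem_ne_zero_of_ne_bot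
    (LinearMap.ker_ne_bot_of_finrank_lt (f := L) (by simp))
  set x := ∑ j, s j • a j with hx
  have hfix : ap (negOn hf h2 w hw) x = x := negOn_fix hf h2 hw fun i => by
    have := congrFun (LinearMap.mem_ker.mp hs) i
    simpa [L, Fintype.linearCombination_apply, ← hx] using this
  obtain ⟨j, hj⟩ := Function.ne_iff.mp hs0
  have h1 : f (ap d x) (a j) = γ * f x (a j) := by rw [h x, hfix, hf.smul_left]
  rw [show ap d x = ∑ k, s k • b k from by
    rw [hx, ← apEquiv_apply, map_sum]; simp [ap_smul, hda], ← fl_apply hf (a j), map_sum,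
    Finset.sum_eq_zero fun k _ => by simp [hf.smul_left, hba], hx, f_sum_smul hf ha, eq_comm,
    mul_eq_zero] at h1
  have hγ := h1.resolve_right (mul_ne_zero hj (ha.1 j))
  have h4 := h (a 0)
  rw [hda, hγ, zero_smul] at h4
  exact hb.1 0 (by rw [h4, zero_left hf])

end Unitary

namespace UTensor

open Unitary

variable {n₁ n₂ : ℕ} {e : ι ≃ Fin n₁ × Fin n₂} {P : GL ι F}
  {f₁ : (Fin n₁ → F) → (Fin n₁ → F) → F} {f₂ : (Fin n₂ → F) → (Fin n₂ → F) → F} {c : F}
  (hT : UTensor σ f e P f₁ f₂ c) [Finite F]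
include hT

/-- A proper overgroup of the stabiliser lies in it. -/
theorem Over.le_tensor {M : Subgroup (GL ι F)} (hO : hT.Over M) :
    M ≤ Cfsg.Geo.tensorProductSubgroup n₁ n₂ e P := by
  by_cases h2 : (2 : F) = 0
  · exact hO.le_tensor_of_char_two h2
  obtain ⟨d, hd, β, hdd, hns, hnp⟩ : ∃ d ∈ sisom hT.form₂, ∃ β : F,
      (∀ y, ap d (ap d y) = β • y) ∧ (¬ ∃ t : F, ∀ y, ap d y = t • y) ∧
      ∀ (w : Fin 2 → Fin n₂ → F) (hw : Orth hT.form₂ w) (γ : F),
        ¬ ∀ y, ap d y = γ • ap (negOn hT.form₂ h2 w hw) y := by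
    by_cases h6 : Fintype.card (Fin n₂) = 6
    · exact exists_d_six hT.form₂ h2 h6
    · exact exists_d_ne_six hT.form₂ h2 hO.card_two h6
  exact hO.le_tensor_of_odd h2 hd hdd hns hnp

/-- The stabiliser is maximal in the special isometries. -/
theorem isMaximalIn (hn₁ : 2 ≤ n₁) (hlt : n₁ < n₂) (hn₂ : 5 ≤ n₂)
    (hq : (∃ k : F, σ k = k ∧ k ≠ 0 ∧ k ≠ 1) ∨ 3 ≤ n₁) :
    Cfsg.Geo.IsMaximalIn (sisom hT.form)
      (Cfsg.Geo.tensorProductSubgroup n₁ n₂ e P ⊓ sisom hT.form) := by
  have hf₁ := hT.form₁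
  have hf₂ := hT.form₂
  have hc₂ : 5 ≤ Fintype.card (Fin n₂) := by rwa [Fintype.card_fin]
  refine ⟨lt_of_le_of_ne inf_le_right fun he => ?_, fun M hHM hMS => ?_⟩
  · obtain ⟨a, ha⟩ := exists_orth hf₁ 2 (by rw [Fintype.card_fin]; omega)
    obtain ⟨y, -, -, hy⟩ := exists_aniso_perp_two hf₂ hc₂ 0 0
    obtain ⟨w, hw, hwy⟩ := exists_iso_pairing hf₂ hc₂ (y := y)
      fun h0 => hy (by rw [h0, Unitary.zero_left hf₂])
    have hw0 : w ≠ 0 := fun h0 => by
      rw [h0, Unitary.zero_left hf₂] at hwy; exact zero_ne_one hwy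
    have hp := hT.pt_iso (a 0) hw
    have hm : T hT.form (pt e P (a 0) w) 1 hp ∈
        Cfsg.Geo.tensorProductSubgroup n₁ n₂ e P ⊓ sisom hT.form := by
      rw [he]; exact T_mem hT.form hp (map_one σ)
    have ha1 : a 1 ≠ 0 := fun h0 => ha.1 1 (by rw [h0, Unitary.zero_left hf₁])
    have h := Tensor.eq_of_fix hm.1 ha1 hw0 (fun z => ap_T_fix hT.form hp (by
      rw [hT.form_pt, ha.2 1 0 (by decide), zero_mul, mul_zero]))
      (u := a 0) (ap_T_fix hT.form hp hp) y
    rw [ap_T hT.form, add_eq_left, smul_eq_zero, one_mul] at h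
    rcases h with h | h
    · rw [hT.form_pt, mul_eq_zero, mul_eq_zero] at h
      rcases h with h | h | h
      · exact hT.c_ne h
      · exact ha.1 0 h
      · rw [(Unitary.eq_zero_comm hf₂).mp h] at hwy; exact zero_ne_one hwy
    · exact pt_ne_zero e P (fun h0 => ha.1 0 (by rw [h0, Unitary.zero_left hf₁])) hw0 h
  · by_cases htop : sisom hT.form ≤ M
    · exact Or.inr (le_antisymm hMS htop)
    · have hO : hT.Over M := ⟨hn₁, hlt, hn₂, hq, hHM, hMS, htop⟩
      exact Or.inl (le_antisymm (le_inf (Over.le_tensor hT hO) hMS) hHM)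

end UTensor

end CfsgLib.Geometric
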