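import Cfsg.Agent.Lib.Geometric.UnitaryTensorOver
import Cfsg.Agent.Lib.Geometric.UnitaryEigen

/-!
Odd characteristic: elements of a proper overgroup of the stabiliser of a tensor product of
skew-hermitian forms conjugating a plane involution of the second factor into the stabiliser lie
in the stabiliser.
-/

namespace CfsgLib.Geometric

open Matrix Tensor

variable {ι : Type} [Fintype ι] [DecidableEq ι] {F : Type*} [Field F]
variable {σ : F ≃+* F} {f : (ι → F) → (ι → F) → F} {n₁ n₂ : ℕ} {e : ι ≃ Fin n₁ × Fin n₂}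
  {P : GL ι F} {f₁ : (Fin n₁ → F) → (Fin n₁ → F) → F} {f₂ : (Fin n₂ → F) → (Fin n₂ → F) → F}
  {c : F}

namespace Unitary

variable (hf : IsSkewForm σ f)
include hf

lemma orth_append {r s : ℕ} {w : Fin r → ι → F} {y : Fin s → ι → F} (hw : Orth hf w)
    (hy : Orth hf y) (h : ∀ i j, f (w i) (y j) = 0) : Orth hf (Fin.append w y) := by
  refine ⟨fun i => ?_, fun i j hij => ?_⟩
  · induction i using Fin.addCases with
    | left i => simpa using hw.1 i
    | right i => simpa using hy.1 i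
  · induction i using Fin.addCases with
    | left i =>
      induction j using Fin.addCases with
      | left j => simpa using hw.2 i j fun e => hij (by rw [e])
      | right j => simpa using h i j
    | right i =>
      induction j using Fin.addCases with
      | left j => simpa using (eq_zero_comm hf).mp (h j i)
      | right j => simpa using hy.2 i j fun e => hij (by rw [e])

lemma exists_orth_beside [Finite F] {r : ℕ} {w : Fin r → ι → F} (hw : Orth hf w) :
    ∀ s, r + s ≤ Fintype.card ι →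
      ∃ y : Fin s → ι → F, Orth hf y ∧ ∀ i j, f (w i) (y j) = 0
  | 0, _ => ⟨Fin.elim0, ⟨fun i => i.elim0, fun i => i.elim0⟩, fun _ j => j.elim0⟩
  | s + 1, h => by
    obtain ⟨y, hy, hwy⟩ := exists_orth_beside hw s (by omega)
    obtain ⟨z, hz, hzw⟩ := exists_orth_perp hf (orth_append hf hw hy hwy) (by omega)
    refine ⟨_, orth_snoc hf hy hz fun i => by simpa using hzw (Fin.natAdd r i), fun i j => ?_⟩
    induction j using Fin.lastCases with
    | last => simpa using (eq_zero_comm hf).mp (by simpa using hzw (Fin.castAdd s i))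
    | cast j => simpa using hwy i j

end Unitary

namespace UTensor

open Unitary

/-- A factorwise map with a scalar square has second factor with a scalar square. -/
lemma exists_sq (hn₁ : 0 < n₁) {a : GL (Fin n₁) F} {b : GL (Fin n₂) F} {γ : F}
    (h : ∀ x, ap (kron e P a b) (ap (kron e P a b) x) = γ • x) :
    ∃ β : F, ∀ z, ap b (ap b z) = β • z := by
  obtain ⟨u, hu⟩ := exists_pt_ne (F := F) hn₁
  obtain ⟨α, -, hα⟩ := exists_functional_eq_one
    (U := (⊥ : Submodule F (Fin n₁ → F))) (x := u) (by simpa using hu)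
  set δ := α (ap a (ap a u)) with hδ
  refine ⟨γ / δ, fun z => ?_⟩
  have h1 := congrArg (conr e P α) (h (pt e P u z))
  simp only [ap_kron, map_smul, conr_pt, hα, one_smul, ← hδ] at h1
  by_cases hz : z = 0
  · simp [hz, ap_zero]
  have hδ0 : δ ≠ 0 := by
    intro hδ0
    rw [hδ0, zero_smul, eq_comm, smul_eq_zero] at h1
    refine pt_ne_zero e P hu hz (ap_injective (kron e P a b) (ap_injective (kron e P a b) ?_))
    rw [h, h1.resolve_right hz, zero_smul, ap_zero, ap_zero]
  rw [div_eq_mul_inv, mul_comm, mul_smul, ← h1, smul_smul, inv_mul_cancel₀ hδ0, one_smul]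

variable (hT : UTensor σ f e P f₁ f₂ c) (h2 : (2 : F) ≠ 0)
include hT h2

lemma ap_one_kron_negOn {r : ℕ} {w : Fin r → Fin n₂ → F} (hw : Orth hT.form₂ w) (x : ι → F) :
    ap (kron e P (1 : GL (Fin n₁) F) (negOn hT.form₂ h2 w hw)) x =
      x - ∑ i, pt e P ((2 / f₂ (w i) (w i)) • hT.cc (w i) x) (w i) := by
  have h : (apEquiv (kron e P (1 : GL (Fin n₁) F) (negOn hT.form₂ h2 w hw))).toLinearMap =
      LinearMap.id - ∑ i, (ptl e P (w i)).comp ((2 / f₂ (w i) (w i)) • hT.cc (w i)) :=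
    ext_pt e P fun a z => by
      simp only [LinearEquiv.coe_coe, apEquiv_apply, ap_kron, ap_one, ap_negOn,
        LinearMap.sub_apply, LinearMap.id_apply, LinearMap.sum_apply, LinearMap.comp_apply,
        LinearMap.smul_apply, cc_pt, ptl_apply, smul_smul]
      rw [← ptr_apply e P a (z - _), map_sub, map_sum]
      refine congrArg₂ _ rfl (Finset.sum_congr rfl fun i _ => ?_)
      rw [ptr_apply, pt_smul_right, pt_smul_left]
      congr 1
      ring
  have h' := LinearMap.congr_fun h x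
  simp only [LinearEquiv.coe_coe, apEquiv_apply, LinearMap.sub_apply, LinearMap.id_apply,
    LinearMap.sum_apply, LinearMap.comp_apply, LinearMap.smul_apply, ptl_apply] at h'
  exact h'

/-- The involution of a family is not conjugate to the negative of itself if a larger family is
orthogonal to it. -/
lemma not_conj_neg (hn₁ : 0 < n₁) {r s : ℕ} {w : Fin r → Fin n₂ → F} (hw : Orth hT.form₂ w)
    {y : Fin s → Fin n₂ → F} (hy : Orth hT.form₂ y) (hwy : ∀ i j, f₂ (w i) (y j) = 0)
    (hrs : r < s) (k : GL ι F)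
    (hk : ∀ x, ap k (ap (kron e P (1 : GL (Fin n₁) F) (negOn hT.form₂ h2 w hw)) x) =
      -ap (kron e P (1 : GL (Fin n₁) F) (negOn hT.form₂ h2 w hw)) (ap k x)) : False := by
  set Z := kron e P (1 : GL (Fin n₁) F) (negOn hT.form₂ h2 w hw) with hZ
  let L₀ : (Fin s → Fin n₁ → F) →ₗ[F] (ι → F) :=
    ∑ j, (ptl e P (y j)).comp (LinearMap.proj j)
  let L : (Fin s → Fin n₁ → F) →ₗ[F] (Fin r → Fin n₁ → F) :=
    LinearMap.pi fun i => (hT.cc (w i)).comp ((apEquiv k).toLinearMap.comp L₀)
  obtain ⟨t, ht, ht0⟩ := Submodule.exists_mem_ne_zero_of_ne_bot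
    (LinearMap.ker_ne_bot_of_finrank_lt (f := L) (by
      simp [Module.finrank_pi_fintype]
      exact Nat.mul_lt_mul_of_pos_right hrs hn₁))
  set x := L₀ t with hx
  have hxs : x = ∑ j, pt e P (t j) (y j) := by simp [hx, L₀]
  have hfix : ap Z x = x := by
    rw [hZ, ap_one_kron_negOn hT h2, Finset.sum_eq_zero fun i _ => ?_, sub_zero]
    rw [hxs, map_sum, Finset.sum_eq_zero fun j _ => ?_, smul_zero, pt_zero_left]
    rw [cc_pt, (Unitary.eq_zero_comm hT.form₂).mp (hwy i j), zero_smul]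
  have hfix' : ap Z (ap k x) = ap k x := by
    rw [hZ, ap_one_kron_negOn hT h2, Finset.sum_eq_zero fun i _ => ?_, sub_zero]
    have := congrFun (LinearMap.mem_ker.mp ht) i
    simp only [L, LinearMap.pi_apply, LinearMap.comp_apply, LinearEquiv.coe_coe,
      apEquiv_apply, ← hx, Pi.zero_apply] at this
    rw [this, smul_zero, pt_zero_left]
  have h := hk x
  rw [hfix, hfix', eq_neg_iff_add_eq_zero, ← two_smul F (ap k x), smul_eq_zero] at h
  have hx0 : x = 0 := ap_injective k ((h.resolve_left h2).trans (ap_zero k).symm)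
  refine ht0 (funext fun i => ?_)
  have h' := congrArg (hT.cc (y i)) hxs
  rw [hx0, map_zero, map_sum, Finset.sum_eq_single i (fun j _ hji => by
    rw [cc_pt, hy.2 j i hji, zero_smul]) (fun h => absurd (Finset.mem_univ i) h), cc_pt,
    eq_comm, smul_eq_zero] at h'
  exact h'.resolve_left (hy.1 i)

variable {hT} {M : Subgroup (GL ι F)} [Finite F]

namespace Over

variable (hO : hT.Over M)
include hO

/-- An element preserving both eigenspaces of an isometry of the second factor, or exchanging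
them, when both have isotropic vectors. -/
lemma eigen_mem {g : GL ι F} (hg : g ∈ M) {d : GL (Fin n₂) F} (hd : d ∈ isom f₂)
    {v v' : Fin n₂ → F} (hv0 : v ≠ 0) (hv'0 : v' ≠ 0) (hv : f₂ v v = 0) (hv' : f₂ v' v' = 0)
    {l : F} (hdv : ap d v = l • v) (hdv' : ap d v' = (-l) • v') {ε : F} (hε : ε * ε = 1)
    (hcomm : ∀ x, ap g (ap (kron e P (1 : GL (Fin n₁) F) d) x) =
      ε • ap (kron e P (1 : GL (Fin n₁) F) d) (ap g x)) :
    g ∈ Cfsg.Geo.tensorProductSubgroup n₁ n₂ e P := by
  set Z := kron e P (1 : GL (Fin n₁) F) d with hZ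
  have hZI : Z ∈ isom f := hT.kron_isom 1 d (one_mul 1) (fun x x' => by simp)
    (fun y y' => by rw [one_mul]; exact mem_isom_iff.mp hd y y')
  have key : ∀ (w : Fin n₂ → F) (ρ : F), ap d w = ρ • w → ε * l * σ ρ ≠ 1 →
      ∀ u u', f (ap g (pt e P u v)) (pt e P u' w) = 0 := by
    intro w ρ hdw hne u u'
    have hA : ap Z (ap g (pt e P u v)) = (ε * l) • ap g (pt e P u v) := by
      have h1 := hcomm (pt e P u v)
      rw [hZ, ap_kron, ap_one, hdv, pt_smul_right, ap_smul, ← hZ] at h1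
      rw [mul_smul, h1, smul_smul, hε, one_smul]
    have h := mem_isom_iff.mp hZI (ap g (pt e P u v)) (pt e P u' w)
    rw [hA, hZ, ap_kron, ap_one, hdw, pt_smul_right, hT.form.smul_left,
      Unitary.smul_right hT.form, ← mul_assoc] at h
    rw [← sub_eq_zero, ← sub_one_mul, mul_eq_zero, sub_eq_zero] at h
    exact h.resolve_left hne
  by_cases h : ε * l * σ l = 1
  · refine hO.ortho_mem hg hv hv0 hv' hv'0 (key v' (-l) hdv' fun h' => h2 ?_)
    rw [map_neg, mul_neg, h] at h'
    linear_combination -h'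
  · exact hO.ortho_mem hg hv hv0 hv hv0 (key v l hdv h)

/-- The centraliser, up to sign, of a plane involution. -/
lemma plane_cent {g : GL ι F} (hg : g ∈ M) {w : Fin 2 → Fin n₂ → F} (hw : Orth hT.form₂ w)
    {ε : F} (hε : ε * ε = 1)
    (hcomm : ∀ x, ap g (ap (kron e P (1 : GL (Fin n₁) F) (negOn hT.form₂ h2 w hw)) x) =
      ε • ap (kron e P (1 : GL (Fin n₁) F) (negOn hT.form₂ h2 w hw)) (ap g x)) :
    g ∈ Cfsg.Geo.tensorProductSubgroup n₁ n₂ e P := by
  have hf₂ := hT.form₂
  obtain ⟨y, hy, hwy⟩ := exists_orth_beside hf₂ hw 2 (by have := hO.card_two; omega)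
  obtain ⟨t, ht0, ht⟩ := iso_of_orth_pair hf₂ (hy.1 0) (hy.1 1) (hy.2 0 1 (by decide))
  obtain ⟨s, hs0, hs⟩ := iso_of_orth_pair hf₂ (hw.1 0) (hw.1 1) (hw.2 0 1 (by decide))
  refine hO.eigen_mem h2 hg (negOn_mem hf₂ h2 hw) ht0 hs0 ht hs (l := 1) ?_ ?_ hε hcomm
  · rw [one_smul]
    refine negOn_fix hf₂ h2 hw fun i => ?_
    rw [hf₂.add_left, hf₂.smul_left, (Unitary.eq_zero_comm hf₂).mp (hwy i 0),
      (Unitary.eq_zero_comm hf₂).mp (hwy i 1), mul_zero, add_zero]
  · rw [ap_add, ap_smul, negOn_neg hf₂ h2 hw, negOn_neg hf₂ h2 hw]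
    module

/-- A plane involution: an element conjugating it into the stabiliser lies there. -/
lemma plane_good {g : GL ι F} (hg : g ∈ M) {w : Fin 2 → Fin n₂ → F} (hw : Orth hT.form₂ w)
    (h : g * kron e P (1 : GL (Fin n₁) F) (negOn hT.form₂ h2 w hw) * g⁻¹ ∈
      Cfsg.Geo.tensorProductSubgroup n₁ n₂ e P) :
    g ∈ Cfsg.Geo.tensorProductSubgroup n₁ n₂ e P := by
  classical
  have hf₂ := hT.form₂
  set Z := kron e P (1 : GL (Fin n₁) F) (negOn hf₂ h2 w hw) with hZ
  have hZM : Z ∈ M := hO.one_kron_mem (negOn_mem_sisom hf₂ h2 hw even_two)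
  have hZ2 : Z * Z = 1 := by
    rw [hZ, ← UTensor.kron_mul, negOn_sq hf₂ h2 hw, one_mul]
    exact gl_ext_pt e P fun x y => by simp
  set y := g * Z * g⁻¹ with hy
  clear_value Z
  obtain ⟨a, b, hab⟩ := exists_kron h
  have hyM : y ∈ M := M.mul_mem (M.mul_mem hg hZM) (M.inv_mem hg)
  obtain ⟨ν, hσν, hν0, hb, -⟩ := hT.exists_similitude hO.pos hO.five_le (a := a) (b := b)
    (hab ▸ hO.isom_of_mem hyM)
  obtain ⟨β, hbb⟩ := exists_sq hO.pos (γ := 1) (a := a) (b := b) (e := e) (P := P) fun x => by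
    rw [← hab, ← ap_mul, hy, conj_mul, hZ2, mul_one, mul_inv_cancel, ap_one, one_smul]
  obtain ⟨y₀, -, -, hy₀⟩ := exists_aniso_perp_two hf₂ hO.card_two 0 0
  obtain ⟨l, hβ, hl0, hl⟩ := exists_sqrt hf₂ h2 hb hbb hν0 hσν hy₀
  rcases hl with hl | hl
  swap
  · exfalso
    obtain ⟨R, hR⟩ := exists_anticommute hf₂ h2 hb hbb hβ hl0 hν0 hl
    obtain ⟨z, hz, hwz⟩ := exists_orth_beside hf₂ hw 3 (by have := hO.card_two; omega)
    set K := kron e P (1 : GL (Fin n₁) F) R with hK
    have hanti : ∀ x, ap K (ap y x) = -ap y (ap K x) := by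
      intro x
      have h1 : (apEquiv K).toLinearMap.comp (apEquiv y).toLinearMap =
          -((apEquiv y).toLinearMap.comp (apEquiv K).toLinearMap) := ext_pt e P fun u v => by
        simp only [LinearMap.comp_apply, LinearEquiv.coe_coe, apEquiv_apply, LinearMap.neg_apply,
          hab, hK, ap_kron, ap_one, hR, pt_neg_right]
      exact LinearMap.congr_fun h1 x
    refine not_conj_neg hT h2 hO.pos hw hz hwz (by norm_num) (g⁻¹ * K * g) fun x => ?_
    rw [← hZ]
    have e1 : ∀ v, ap g (ap Z v) = ap y (ap g v) := fun v => by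
      rw [hy, ap_mul, ap_mul, ap_inv_ap]
    have e2 : ∀ v, ap g⁻¹ (ap y v) = ap Z (ap g⁻¹ v) := fun v => by
      rw [hy, ap_mul, ap_mul, ap_inv_ap]
    rw [ap_mul, ap_mul, ap_mul, ap_mul, e1, hanti, ← neg_one_smul F (ap y _), ap_smul, e2,
      neg_one_smul]
  -- an isotropic eigenvector of the second factor
  obtain ⟨u, m, hu0, hu, hbu, hm⟩ : ∃ (u : Fin n₂ → F) (m : F), u ≠ 0 ∧ f₂ u u = 0 ∧
      ap b u = m • u ∧ m * σ m = ν := by
    by_cases hs : ∃ t : F, ∀ z, ap b z = t • z
    · obtain ⟨t, ht⟩ := hs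
      obtain ⟨u, hu, hu1⟩ := exists_iso_pairing hf₂ hO.card_two (y := y₀)
        fun h0 => hy₀ (by rw [h0, Unitary.zero_left hf₂])
      refine ⟨u, t, fun h0 => ?_, hu, ht u, ?_⟩
      · rw [h0, Unitary.zero_left hf₂] at hu1; exact zero_ne_one hu1
      · have := hb y₀ y₀
        rw [ht, hf₂.smul_left, Unitary.smul_right hf₂, ← mul_assoc] at this
        exact mul_right_cancel₀ hy₀ this
    rcases classify hf₂ h2 hb hbb hβ hl0 hν0 hl (by have := hO.card_two; omega) hs with
      ⟨v, v', hv0, -, hv, -, hbv, -⟩ | ⟨v, m, hv, -, hm, -, -, hx⟩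
    · exact ⟨v, l, hv0, hv, hbv, hl⟩
    · obtain ⟨z, hz, -, hzz⟩ := exists_aniso_perp_two hf₂ hO.card_two v v
      obtain ⟨u, hu, huu, hu1⟩ := exists_iso_partner hf₂ hO.card_two (w := v) (y := z) fun hmem => by
        obtain ⟨k, rfl⟩ := Submodule.mem_span_singleton.mp hmem
        rw [hf₂.smul_left, mul_eq_zero] at hz
        exact hzz (by rw [hz.resolve_right hv, zero_smul, Unitary.zero_left hf₂])
      refine ⟨u, m, fun h0 => ?_, huu, hx u hu, hm⟩
      rw [h0, Unitary.zero_left hf₂] at hu1; exact zero_ne_one hu1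
  -- a transvection commuting with the conjugate
  set T' := kron e P (1 : GL (Fin n₁) F) (T hf₂ u 1 hu) with hT'
  have hcomm : y * T' * y⁻¹ = T' := by
    have hbu' : f₂ (ap b u) (ap b u) = 0 := by rw [hb, hu, mul_zero]
    rw [hT', hab, kron_conj_one, conj_T_sim hf₂ hν0 hσν hb hu 1 hbu']
    congr 1
    refine gl_ext fun x => ?_
    rw [ap_T hf₂, ap_T hf₂, hbu, Unitary.smul_right hf₂, smul_smul, ← hm]
    congr 2
    have hm0 : m * σ m ≠ 0 := hm ▸ hν0
    field_simp
    exact mul_div_cancel_left₀ _ hm0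
  set k := g⁻¹ * T' * g with hk
  have hkM : k ∈ M := M.mul_mem (M.mul_mem (M.inv_mem hg)
    (hO.one_kron_mem (T_mem hf₂ hu (map_one σ)))) hg
  have hkZ : k * Z = Z * k := by
    have e1 : y * T' = T' * y := mul_inv_eq_iff_eq_mul.mp hcomm
    calc k * Z = g⁻¹ * (T' * (g * Z * g⁻¹)) * g := by rw [hk]; group
      _ = g⁻¹ * (g * Z * g⁻¹ * T') * g := by rw [← hy, e1]
      _ = Z * k := by rw [hk]; group
  have hkT := hO.plane_cent h2 hkM hw (ε := 1) (mul_one 1) fun x => by
    rw [one_smul, ← hZ, ← ap_mul, hkZ, ap_mul]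
  have := hO.conj_T_mem (M.inv_mem hg) hu hu0 (by rwa [inv_inv, ← hT', ← hk])
  simpa using inv_mem this

end Over

end UTensor

end CfsgLib.Geometric
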