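import Cfsg.Agent.Lib.Geometric.UnitaryTensorSlice

/-!
A proper overgroup of the stabiliser of a tensor product of skew-hermitian forms: its elements
conjugating a transvection of the second factor into the stabiliser, or moving an isotropic slice
into the orthogonal of another, lie in the stabiliser.
-/

namespace CfsgLib.Geometric

open Matrix Tensor

variable {ι : Type} [Fintype ι] [DecidableEq ι] {F : Type*} [Field F]
variable {σ : F ≃+* F} {f : (ι → F) → (ι → F) → F} {n₁ n₂ : ℕ} {e : ι ≃ Fin n₁ × Fin n₂}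
  {P : GL ι F} {f₁ : (Fin n₁ → F) → (Fin n₁ → F) → F} {f₂ : (Fin n₂ → F) → (Fin n₂ → F) → F}
  {c : F}

namespace Unitary

variable (hf : IsSkewForm σ f)
include hf

/-- Conjugation of a transvection by a similitude. -/
lemma conj_T_sim {b : GL ι F} {ν : F} (hν : ν ≠ 0) (hσν : σ ν = ν)
    (hb : ∀ y y', f (ap b y) (ap b y') = ν * f y y') {v : ι → F} (hv : f v v = 0) (k : F)
    (hbv : f (ap b v) (ap b v) = 0) : b * T hf v k hv * b⁻¹ = T hf (ap b v) (k / ν) hbv := by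
  refine gl_ext fun x => ?_
  obtain ⟨y, rfl⟩ : ∃ y, ap b y = x := ⟨_, ap_ap_inv b x⟩
  rw [ap_mul, ap_mul, ap_inv_ap, ap_T hf, ap_T hf, ap_add, ap_smul, hb]
  congr 2
  field_simp

end Unitary

namespace UTensor

open Unitary

/-- A subgroup between the stabiliser and the special isometries, not containing the latter. -/
structure Over (hT : UTensor σ f e P f₁ f₂ c) (M : Subgroup (GL ι F)) : Prop where
  two_le : 2 ≤ n₁
  lt : n₁ < n₂
  five_le : 5 ≤ n₂
  field : (∃ k : F, σ k = k ∧ k ≠ 0 ∧ k ≠ 1) ∨ 3 ≤ n₁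
  le : Cfsg.Geo.tensorProductSubgroup n₁ n₂ e P ⊓ sisom hT.form ≤ M
  le_top : M ≤ sisom hT.form
  not_top : ¬ sisom hT.form ≤ M

omit [Fintype ι] [DecidableEq ι] in
lemma exists_pt_ne {n : ℕ} (hn : 0 < n) : ∃ u : Fin n → F, u ≠ 0 :=
  ⟨Pi.single ⟨0, hn⟩ 1, fun h => by simpa using congrFun h ⟨0, hn⟩⟩

lemma exists_kron {g : GL ι F} (hg : g ∈ Cfsg.Geo.tensorProductSubgroup n₁ n₂ e P) :
    ∃ a b, g = kron e P a b := by
  obtain ⟨a, b, h⟩ := (mem_iff e P g).mp hg
  exact ⟨a, b, gl_ext_pt e P fun x y => by rw [h, ap_kron]⟩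

lemma kron_conj_one (a : GL (Fin n₁) F) (b t : GL (Fin n₂) F) :
    kron e P a b * kron e P 1 t * (kron e P a b)⁻¹ = kron e P 1 (b * t * b⁻¹) := by
  rw [kron_inv, ← UTensor.kron_mul, ← UTensor.kron_mul, mul_one, mul_inv_cancel]

lemma kron_one_inj (hn : 0 < n₁) {t t' : GL (Fin n₂) F}
    (h : kron e P (1 : GL (Fin n₁) F) t = kron e P 1 t') : t = t' := by
  obtain ⟨u, hu⟩ := exists_pt_ne (F := F) hn
  refine gl_ext fun y => pt_inj_right e P hu ?_
  have h1 := congrArg (fun k => ap k (pt e P u y)) h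
  simpa using h1

/-- Powers of the second factor. -/
lemma kron_one_zpow (t : GL (Fin n₂) F) (k : ℤ) :
    kron e P (1 : GL (Fin n₁) F) t ^ k = kron e P 1 (t ^ k) :=
  (map_zpow (MonoidHom.mk' (fun t : GL (Fin n₂) F => kron e P (1 : GL (Fin n₁) F) t)
    fun b b' => by rw [← UTensor.kron_mul, one_mul]) t k).symm

variable (hT : UTensor σ f e P f₁ f₂ c) [Finite F]
include hT

/-- The factors of a factorwise isometry are similitudes. -/
lemma exists_similitude (hn₁ : 0 < n₁) (hn₂ : 5 ≤ n₂) {a : GL (Fin n₁) F} {b : GL (Fin n₂) F}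
    (h : kron e P a b ∈ isom f) : ∃ ν : F, σ ν = ν ∧ ν ≠ 0 ∧
      (∀ y y', f₂ (ap b y) (ap b y') = ν * f₂ y y') ∧
      ∀ x x', f₁ (ap a x) (ap a x') = ν⁻¹ * f₁ x x' := by
  have hf₁ := hT.form₁
  have hf₂ := hT.form₂
  have key : ∀ x x' y y', f₁ (ap a x) (ap a x') * f₂ (ap b y) (ap b y') = f₁ x x' * f₂ y y' := by
    intro x x' y y'
    have := mem_isom_iff.mp h (pt e P x y) (pt e P x' y')
    rw [ap_kron, ap_kron, hT.form_pt, hT.form_pt] at this
    exact mul_left_cancel₀ hT.c_ne this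
  obtain ⟨y₀, -, -, hy₀⟩ := exists_aniso_perp_two hf₂ (by rwa [Fintype.card_fin]) 0 0
  obtain ⟨u₀, hu₀⟩ : ∃ u, f₁ u u ≠ 0 := by
    by_contra hcon
    push Not at hcon
    obtain ⟨u, hu⟩ := exists_pt_ne (F := F) hn₁
    exact hu (eq_zero_of_perp_aniso hf₁ fun a ha => absurd (hcon a) ha)
  have hne := key u₀ u₀ y₀ y₀
  have ha0 : f₁ (ap a u₀) (ap a u₀) ≠ 0 := fun h0 => by
    rw [h0, zero_mul] at hne
    exact mul_ne_zero hu₀ hy₀ hne.symm
  refine ⟨f₁ u₀ u₀ / f₁ (ap a u₀) (ap a u₀), ?_, div_ne_zero hu₀ ha0, fun y y' => ?_,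
    fun x x' => ?_⟩
  · rw [map_div₀, Unitary.skew_self hf₁, Unitary.skew_self hf₁, neg_div_neg_eq]
  · rw [div_mul_eq_mul_div, eq_div_iff ha0, ← key u₀ u₀ y y', mul_comm]
  · rw [inv_div, div_mul_eq_mul_div, eq_div_iff hu₀]
    refine mul_right_cancel₀ hy₀ ?_
    rw [mul_assoc, ← hne, mul_left_comm, key x x' y₀ y₀]
    ring

namespace Over

variable {hT} {M : Subgroup (GL ι F)} (hO : hT.Over M)
include hO

omit [Finite F] in
lemma isom_of_mem {g : GL ι F} (hg : g ∈ M) : g ∈ isom f := (hO.le_top hg).1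

omit [Finite F] in
lemma pos : 0 < n₁ := Nat.lt_of_lt_of_le two_pos hO.two_le

omit [Finite F] in
lemma card_two : 5 ≤ Fintype.card (Fin n₂) := by rw [Fintype.card_fin]; exact hO.five_le

omit [Finite F] in
lemma mem_of_tensor {g : GL ι F} (hg : g ∈ sisom hT.form)
    (h : g ∈ Cfsg.Geo.tensorProductSubgroup n₁ n₂ e P) : g ∈ M := hO.le ⟨h, hg⟩

lemma slice_map {g : GL ι F} (hg : g ∈ M) {w w' : Fin n₂ → F} (hw : f₂ w w = 0) (hw0 : w ≠ 0)
    (hw' : f₂ w' w' = 0) (hw'0 : w' ≠ 0)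
    (hmap : ∀ x ∈ slice e P w, ap g x ∈ slice e P w') :
    g ∈ Cfsg.Geo.tensorProductSubgroup n₁ n₂ e P :=
  by_contra fun hgT => hO.not_top
    (hT.le_of_slice_map hO.two_le hO.five_le hO.field hO.le (fun _ h => hO.isom_of_mem h) hg hgT
      hw hw0 hw' hw'0 hmap)

omit [Finite F] in
lemma one_kron_mem {t : GL (Fin n₂) F} (ht : t ∈ sisom hT.form₂) :
    kron e P (1 : GL (Fin n₁) F) t ∈ M :=
  hO.le (hT.kron_mem_inf (one_mem (sisom hT.form₁)) ht)

/-- An element conjugating a transvection of the second factor into the stabiliser lies there. -/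
lemma conj_T_mem {g : GL ι F} (hg : g ∈ M) {w : Fin n₂ → F} (hw : f₂ w w = 0) (hw0 : w ≠ 0)
    (h : g * kron e P (1 : GL (Fin n₁) F) (T hT.form₂ w 1 hw) * g⁻¹ ∈
      Cfsg.Geo.tensorProductSubgroup n₁ n₂ e P) :
    g ∈ Cfsg.Geo.tensorProductSubgroup n₁ n₂ e P := by
  set y := g * kron e P (1 : GL (Fin n₁) F) (T hT.form₂ w 1 hw) * g⁻¹ with hy
  have hyx : ∀ x, ap y x = x + ap g (pt e P (hT.cc w (ap g⁻¹ x)) w) := by
    intro x
    rw [hy, ap_mul, ap_mul, hT.ap_one_kron_T, ap_add, ap_ap_inv, one_smul]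
  obtain ⟨a, b, hab⟩ := (mem_iff e P y).mp h
  have heig : ∀ u, ∃ t : F, (apEquiv a).toLinearMap u = t • u := by
    intro u
    by_cases hu : u = 0
    · exact ⟨0, by simp [hu, ap_zero]⟩
    have hker : LinearMap.ker ((hT.cc w).comp ((apEquiv g⁻¹).toLinearMap.comp (ptr e P u)))
        ≠ ⊥ := LinearMap.ker_ne_bot_of_finrank_lt (by simpa using hO.lt)
    obtain ⟨z, hz, hz0⟩ := Submodule.exists_mem_ne_zero_of_ne_bot hker
    simp only [LinearMap.mem_ker, LinearMap.comp_apply, LinearEquiv.coe_coe, apEquiv_apply,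
      ptr_apply] at hz
    have h1 := hyx (pt e P u z)
    rw [hz, pt_zero_left, ap_zero, add_zero, hab] at h1
    obtain ⟨j, hj⟩ := Function.ne_iff.mp (ap_ne_zero b hz0)
    refine ⟨z j / ap b z j, funext fun i => ?_⟩
    have h2 := congrFun ((coords e P).injective h1) (i, j)
    simp only [Pi.zero_apply] at hj
    simp only [LinearEquiv.coe_coe, apEquiv_apply, Pi.smul_apply, smul_eq_mul] at h2 ⊢
    field_simp
    linear_combination h2
  obtain ⟨μ, hμ⟩ := exists_scalar heig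
  simp only [LinearEquiv.coe_coe, apEquiv_apply] at hμ
  have hyb : ∀ u z, ap y (pt e P u z) = pt e P u (μ • ap b z) := fun u z => by
    rw [hab, hμ, pt_smul_left, pt_smul_right]
  obtain ⟨u₁, hu₁⟩ := exists_pt_ne (F := F) hO.pos
  obtain ⟨z, hz⟩ : ∃ z, μ • ap b z - z ≠ 0 := by
    by_contra hc'
    push Not at hc'
    have hy1 : y = 1 := gl_ext_pt e P fun u z => by
      rw [hyb, sub_eq_zero.mp (hc' z), ap_one]
    have hk1 : kron e P (1 : GL (Fin n₁) F) (T hT.form₂ w 1 hw) = 1 := by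
      rwa [hy, conj_eq_one_iff] at hy1
    obtain ⟨x, hx⟩ := (hT.form₂.nondegenerate w hw0).1
    have := congrArg (fun k => ap k (pt e P u₁ x)) hk1
    simp only [ap_kron, ap_one, ap_T hT.form₂] at this
    have := pt_inj_right e P hu₁ this
    simp [hw0, hx] at this
  set w' := μ • ap b z - z with hw'
  have hsl : ∀ u, ∃ d, pt e P u w' = ap g (pt e P d w) := by
    intro u
    exact ⟨hT.cc w (ap g⁻¹ (pt e P u z)), by
      rw [hw', pt_sub_right, ← hyb, hyx, add_sub_cancel_left]⟩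
  have hw'i : f₂ w' w' = 0 := by
    obtain ⟨u₀, hu₀⟩ : ∃ u, f₁ u u ≠ 0 := by
      by_contra hcon
      push Not at hcon
      exact hu₁ (eq_zero_of_perp_aniso hT.form₁ fun a ha => absurd (hcon a) ha)
    obtain ⟨d, hd⟩ := hsl u₀
    have := hT.form_pt u₀ u₀ w' w'
    rw [hd, mem_isom_iff.mp (hO.isom_of_mem hg), hT.pt_iso _ hw, eq_comm, mul_eq_zero,
      mul_eq_zero] at this
    exact ((this.resolve_left hT.c_ne).resolve_left hu₀)
  have := hO.slice_map (M.inv_mem hg) hw'i hz hw hw0 fun x hx => by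
    obtain ⟨u, rfl⟩ := hx
    obtain ⟨d, hd⟩ := hsl u
    rw [ptl_apply, hd, ap_inv_ap]
    exact pt_mem_slice e P d w
  simpa using inv_mem this

/-- An element moving an isotropic slice into the orthogonal of another lies in the stabiliser. -/
lemma ortho_mem {g : GL ι F} (hg : g ∈ M) {v v' : Fin n₂ → F} (hv : f₂ v v = 0) (hv0 : v ≠ 0)
    (hv' : f₂ v' v' = 0) (hv'0 : v' ≠ 0)
    (h : ∀ u u', f (ap g (pt e P u v)) (pt e P u' v') = 0) :
    g ∈ Cfsg.Geo.tensorProductSubgroup n₁ n₂ e P := by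
  set t := kron e P (1 : GL (Fin n₁) F) (T hT.form₂ v 1 hv) with ht
  have hy : g * t * g⁻¹ ∈ M :=
    M.mul_mem (M.mul_mem hg (hO.one_kron_mem (T_mem hT.form₂ hv (map_one σ)))) (M.inv_mem hg)
  refine hO.conj_T_mem hg hv hv0 (hO.slice_map hy hv' hv'0 hv' hv'0 ?_)
  rintro _ ⟨u', rfl⟩
  have hcc : hT.cc v (ap g⁻¹ (pt e P u' v')) = 0 := hT.eq_of_pairing hT.form₁ fun a => by
    have h1 := hT.form_right (ap g⁻¹ (pt e P u' v')) a v
    rw [← mem_isom_iff.mp (hO.isom_of_mem hg), ap_ap_inv,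
      (Unitary.eq_zero_comm hT.form).mp (h a u'), eq_comm, mul_eq_zero] at h1
    rw [h1.resolve_left hT.c_ne, Unitary.zero_left hT.form₁]
  rw [ap_mul, ap_mul, hT.ap_one_kron_T, ptl_apply, hcc, pt_zero_left, smul_zero, add_zero,
    ap_ap_inv]
  exact pt_mem_slice e P u' v'

end Over

end UTensor

end CfsgLib.Geometric
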