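import Cfsg.Agent.Lib.Geometric.UnitaryTensorComp
import Cfsg.Agent.Lib.Geometric.LinearTensorUnip

/-!
An element outside the stabiliser of a tensor product of skew-hermitian forms mapping an isotropic
slice into an isotropic slice generates, with the stabiliser, the special unitary group.
-/

namespace CfsgLib.Geometric

open Matrix Tensor

variable {ι : Type} [Fintype ι] [DecidableEq ι] {F : Type*} [Field F]
variable {σ : F ≃+* F} {f : (ι → F) → (ι → F) → F} {n₁ n₂ : ℕ} {e : ι ≃ Fin n₁ × Fin n₂}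
  {P : GL ι F} {f₁ : (Fin n₁ → F) → (Fin n₁ → F) → F} {f₂ : (Fin n₂ → F) → (Fin n₂ → F) → F}
  {c : F}

namespace Unitary

variable (hf : IsSkewForm σ f)
include hf

/-- Isometries normalise the special isometries. -/
lemma sisom_conj {k x : GL ι F} (hk : k ∈ isom f) (hx : x ∈ sisom hf) :
    k * x * k⁻¹ ∈ sisom hf := by
  refine ⟨(isom f).mul_mem ((isom f).mul_mem hk hx.1) ((isom f).inv_mem hk),
    (mem_specialLinear_iff _).mpr ?_⟩
  have h := (mem_specialLinear_iff x).mp hx.2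
  rw [Units.val_mul, Units.val_mul, Matrix.det_units_conj, h]

/-- An isotropic vector orthogonal to `w` outside its line. -/
lemma exists_iso_perp_notMem [Finite F] (hn : 5 ≤ Fintype.card ι) {w : ι → F} (hw : f w w = 0) :
    ∃ z, f z w = 0 ∧ f z z = 0 ∧ z ∉ Submodule.span F {w} := by
  obtain ⟨y, hyw, -, hyy⟩ := exists_aniso_perp_two hf hn w w
  obtain ⟨z, hz, hzz, hzy⟩ := exists_iso_partner hf hn (w := w) (y := y) fun hmem => by
    obtain ⟨t, rfl⟩ := Submodule.mem_span_singleton.mp hmem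
    exact hyy (isotropic_smul hf hw t)
  refine ⟨z, hz, hzz, fun hmem => ?_⟩
  obtain ⟨t, rfl⟩ := Submodule.mem_span_singleton.mp hmem
  rw [hf.smul_left, (eq_zero_comm hf).mp hyw, mul_zero] at hzy
  exact zero_ne_one hzy

end Unitary

namespace UTensor

open Unitary

variable (hT : UTensor σ f e P f₁ f₂ c)
include hT

lemma cc_add (y y' : Fin n₂ → F) (v : ι → F) : hT.cc (y + y') v = hT.cc y v + hT.cc y' v := by
  have h : hT.cc (y + y') = hT.cc y + hT.cc y' := ext_pt e P fun a z => by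
    simp [Unitary.add_right hT.form₂, add_smul]
  exact LinearMap.congr_fun h v

lemma cc_kron_inv (a : GL (Fin n₁) F) {b : GL (Fin n₂) F} (hb : b ∈ isom f₂) (w : Fin n₂ → F)
    (v : ι → F) : hT.cc w (ap (kron e P a b)⁻¹ v) = ap a⁻¹ (hT.cc (ap b w) v) := by
  obtain ⟨u, rfl⟩ : ∃ u, ap (kron e P a b) u = v := ⟨_, ap_ap_inv _ v⟩
  rw [ap_inv_ap, hT.cc_kron a hb, ap_inv_ap]

variable [Finite F] (hn₁ : 2 ≤ n₁) (hn₂ : 5 ≤ n₂)
  (hq : (∃ k : F, σ k = k ∧ k ≠ 0 ∧ k ≠ 1) ∨ 3 ≤ n₁) {M : Subgroup (GL ι F)}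
  (hH : Cfsg.Geo.tensorProductSubgroup n₁ n₂ e P ⊓ sisom hT.form ≤ M) (hMI : M ≤ isom f)
include hn₁ hn₂ hq hH hMI

/-- A conjugation family of a non-scalar element fixing the slices orthogonal to `w`. -/
lemma le_of_quadratic {w : Fin n₂ → F} (hw : f₂ w w = 0) (hw0 : w ≠ 0) {ζ : GL ι F}
    {K : Module.End F (Fin n₁ → F)} (hζ : ∀ x, ap ζ x = x + pt e P (K (hT.cc w x)) w)
    (hns : ¬ ∃ t : F, ∀ u, K u = t • u)
    (hcomm : ∀ h ∈ Cfsg.Geo.tensorProductSubgroup n₁ n₂ e P ⊓ sisom hT.form,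
      ζ * h * ζ⁻¹ ∈ M) : sisom hT.form ≤ M := by
  classical
  have hf₁ := hT.form₁
  have hf₂ := hT.form₂
  have hc₁ : 2 ≤ Fintype.card (Fin n₁) := by rwa [Fintype.card_fin]
  have hc₂ : 5 ≤ Fintype.card (Fin n₂) := by rwa [Fintype.card_fin]
  have hζi : ∀ x, ap ζ⁻¹ x = x - pt e P (K (hT.cc w x)) w := fun x => by
    apply ap_injective ζ
    rw [ap_ap_inv, hζ, map_sub, cc_pt, hw, zero_smul, sub_zero]
    abel
  -- some conjugate differs by a non-scalar
  obtain ⟨u, hu, k, hk, hK'⟩ : ∃ (u : Fin n₁ → F) (hu : f₁ u u = 0) (k : F), σ k = k ∧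
      ¬ ∃ t : F, ∀ y, cj (T hf₁ u k hu) K y - K y = t • y := by
    by_contra hc
    push Not at hc
    exact hns (scalar_of_cj hf₁ hc₁ (by rwa [Fintype.card_fin]) hc)
  set K' := cj (T hf₁ u k hu) K - K with hK'def
  set A := kron e P (T hf₁ u k hu) (1 : GL (Fin n₂) F) with hA
  have hAH : A ∈ Cfsg.Geo.tensorProductSubgroup n₁ n₂ e P ⊓ sisom hT.form :=
    hT.kron_mem_inf (T_mem hf₁ hu hk) (one_mem (sisom hf₂))
  obtain ⟨g₀, hg₀, hg₀x⟩ : ∃ g ∈ M, ∀ x, ap g x = x + pt e P (K' (hT.cc w x)) w := by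
    refine ⟨A * (ζ * A⁻¹ * ζ⁻¹), M.mul_mem (hH hAH) (hcomm _ (inv_mem hAH)), fun x => ?_⟩
    have hcA : ∀ v, hT.cc w (ap A⁻¹ v) = ap (T hf₁ u k hu)⁻¹ (hT.cc w v) := fun v => by
      rw [hA, hT.cc_kron_inv _ (one_mem _), ap_one]
    have hcζ : hT.cc w (ap ζ⁻¹ x) = hT.cc w x := by
      rw [hζi, map_sub, cc_pt, hw, zero_smul, sub_zero]
    rw [ap_mul, ap_mul, ap_mul, hζ, ap_add, ap_ap_inv, hA, ap_kron, ap_one, ← hA, hcA, hcζ, hζi,
      hK'def, LinearMap.sub_apply, cj_apply, Tensor.pt_sub_left]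
    abel
  -- at every isotropic vector
  have hv : ∀ v : Fin n₂ → F, f₂ v v = 0 → v ≠ 0 →
      ∃ g ∈ M, ∀ x, ap g x = x + pt e P (K' (hT.cc v x)) v := by
    intro v hvv hv0
    have hbot : perp hf₂ (⊥ : Submodule F (Fin n₂ → F)) = ⊤ :=
      eq_top_iff.mpr fun x _ => mem_perp_bot hf₂ x
    obtain ⟨b, hb, -, -, hbw⟩ := exists_move hf₂ (M := sisom hf₂)
      (fun v hv k hk => T_mem hf₂ hv hk) (by omega) (U := ⊥)
      (perp_nondegenerate hf₂ fun x hx hne => absurd ((Submodule.mem_bot F).mp hx) hne)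
      (by rw [hbot, finrank_top, Module.finrank_fintype_fun_eq_card]; omega)
      (mem_perp_bot hf₂ w) (mem_perp_bot hf₂ v) hw hvv hw0 hv0
    have hk := hT.kron_mem_M hH (one_mem (sisom hf₁)) hb
    refine ⟨_, M.mul_mem (M.mul_mem hk hg₀) (M.inv_mem hk), fun x => ?_⟩
    rw [ap_mul, ap_mul, hg₀x, ap_add, ap_ap_inv, hT.cc_kron_inv _ hb.1, inv_one, ap_one, hbw,
      ap_kron, ap_one, hbw]
  obtain ⟨z, hzw, hz, hzw'⟩ := exists_iso_perp_notMem hf₂ hc₂ hw
  have hwz : f₂ w z = 0 := (Unitary.eq_zero_comm hf₂).mp hzw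
  obtain ⟨gw, hgw, hgwx⟩ := hv w hw hw0
  obtain ⟨gz, hgz, hgzx⟩ := hv z hz fun h => hzw' (by rw [h]; exact zero_mem _)
  obtain ⟨gs, hgs, hgsx⟩ := hv (w + z)
    (by rw [hf₂.add_left, Unitary.add_right hf₂, Unitary.add_right hf₂, hw, hz, hwz, hzw]; simp)
    (fun h => hzw' (by
      rw [show z = -w by linear_combination (norm := module) h]
      exact Submodule.neg_mem _ (Submodule.mem_span_singleton_self w)))
  refine hT.le_of_comp hH hMI hn₁ hn₂ hq hw hz hzw hzw' hw0 (B := K') hK'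
    ⟨gs * gw⁻¹ * gz⁻¹, M.mul_mem (M.mul_mem hgs (M.inv_mem hgw)) (M.inv_mem hgz), fun a y hy => ?_⟩
  set β := f₂ y z with hβ
  set x' := pt e P a y - β • pt e P (K' a) z with hx'
  have hcw : hT.cc w x' = 0 := by
    rw [hx', map_sub, map_smul, cc_pt, cc_pt, hy, hzw, zero_smul, zero_smul, smul_zero, sub_zero]
  have hcz : hT.cc z x' = β • a := by
    rw [hx', map_sub, map_smul, cc_pt, cc_pt, hz, zero_smul, smul_zero, sub_zero]
  have e1 : ap gz⁻¹ (pt e P a y) = x' := by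
    apply ap_injective gz
    rw [ap_ap_inv, hgzx, hcz, map_smul, pt_smul_left, hx', sub_add_cancel]
  have e2 : ap gw⁻¹ x' = x' := by
    apply ap_injective gw
    rw [ap_ap_inv, hgwx, hcw, map_zero, pt_zero_left, add_zero]
  rw [ap_mul, ap_mul, e1, e2, hgsx, hT.cc_add, hcw, hcz, zero_add, map_smul, pt_smul_left,
    pt_add_right, hx']
  module

/-- An element outside the stabiliser fixing an isotropic slice generates everything. -/
lemma le_of_slice_fix {g : GL ι F} (hg : g ∈ M)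
    (hgT : g ∉ Cfsg.Geo.tensorProductSubgroup n₁ n₂ e P) {w : Fin n₂ → F} (hw : f₂ w w = 0)
    (hw0 : w ≠ 0) (hmap : ∀ x ∈ slice e P w, ap g x ∈ slice e P w) : sisom hT.form ≤ M := by
  classical
  have hf := hT.form
  have hf₁ := hT.form₁
  have hf₂ := hT.form₂
  have hc₁ : 2 ≤ Fintype.card (Fin n₁) := by rwa [Fintype.card_fin]
  have hc₂ : 5 ≤ Fintype.card (Fin n₂) := by rwa [Fintype.card_fin]
  obtain ⟨ω, -, hω⟩ := exists_functional_eq_one
    (U := (⊥ : Submodule F (Fin n₂ → F))) (x := w) (by simpa using hw0)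
  set G₀ := (con e P ω).comp ((apEquiv g).toLinearMap.comp (ptl e P w)) with hG₀
  have hG : ∀ u, ap g (pt e P u w) = pt e P (G₀ u) w := by
    intro u
    obtain ⟨u', hu'⟩ := hmap _ (pt_mem_slice e P u w)
    simp only [ptl_apply] at hu'
    simp [hG₀, ← hu', hω]
  have hGinj : Function.Injective G₀ := by
    intro u u' h
    refine pt_inj_left e P hw0 (ap_injective g ?_)
    rw [hG, hG, h]
  let G : GL (Fin n₁) F :=
    ofEquiv (LinearEquiv.ofBijective G₀ ⟨hGinj, LinearMap.injective_iff_surjective.mp hGinj⟩)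
  have hGap : ∀ u, ap G u = G₀ u := fun u => by rw [ap_ofEquiv]; rfl
  have hginv : ∀ u, ap g⁻¹ (pt e P u w) = pt e P (ap G⁻¹ u) w := by
    intro u
    apply ap_injective g
    rw [ap_ap_inv, hG, ← hGap, ap_ap_inv]
  have hgI : g⁻¹ ∈ isom f := inv_mem (hMI hg)
  have hperp : ∀ v, hT.cc w v = 0 → hT.cc w (ap g⁻¹ v) = 0 := fun v hv =>
    hT.eq_of_pairing hf₁ fun b => mul_left_cancel₀ hT.c_ne (by
      have h := hT.form_right (ap g⁻¹ v) b w
      rw [← mem_isom_iff.mp (hMI hg) (ap g⁻¹ v), ap_ap_inv, hG, hT.form_right, hv,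
        Unitary.zero_left hf₁, mul_zero] at h
      rw [← h, Unitary.zero_left hf₁, mul_zero])
  -- factorwise elements at the slice
  have hk : ∀ y, f₂ y w = 0 → ∃ k ∈ Cfsg.Geo.tensorProductSubgroup n₁ n₂ e P ⊓ sisom hf,
      ∀ v, hT.cc w v = 0 → ap k v = v + pt e P (hT.cc y v) w := by
    intro y hy
    obtain ⟨d, hd⟩ := exists_sub_eq hf₂ (skew_self hf₂ y)
    refine ⟨kron e P (1 : GL (Fin n₁) F) (E hf₂ w y d hw hy),
      hT.kron_mem_inf (one_mem _) (E_mem hf₂ hd), fun v hv => ?_⟩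
    rw [hT.ap_one_kron_E, hv]
    simp [pt_zero_left]
  by_cases hall : ∀ y, f₂ y w = 0 → ∀ z, f₂ z w = 0 → f₂ z z = 0 → ∀ u, ∃ t : F,
      ap G (hT.cc y (ap g⁻¹ (pt e P u z))) = t • u
  swap
  · push Not at hall
    obtain ⟨y, hy, z, hz, hzz, u, hu⟩ := hall
    obtain ⟨k, hk, hkv⟩ := hk y hy
    set B : Module.End F (Fin n₁ → F) :=
      (apEquiv G).toLinearMap ∘ₗ hT.cc y ∘ₗ (apEquiv g⁻¹).toLinearMap ∘ₗ ptl e P z with hB
    have hrM : g * k * g⁻¹ ∈ M := M.mul_mem (M.mul_mem hg (hH hk)) (M.inv_mem hg)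
    have hrz : ∀ a, ap (g * k * g⁻¹) (pt e P a z) = pt e P a z + pt e P (B a) w := fun a => by
      rw [ap_mul, ap_mul, hkv _ (hperp _ (by rw [cc_pt, hz, zero_smul])), ap_add, ap_ap_inv,
        hG, ← hGap]
      rfl
    have hh := hT.kron_mem_M hH (one_mem (sisom hf₁)) (T_mem hf₂ hzz (map_one σ))
    have hcomp := hT.comp_of_conj hMI (hMI hrM) hzz hz hrz
      (M.mul_mem (M.mul_mem (M.mul_mem hrM hh) (M.inv_mem hrM)) (M.inv_mem hh))
    refine hT.le_of_comp hH hMI hn₁ hn₂ hq hw hzz hz (fun hmem => ?_) hw0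
      (fun ⟨t, ht⟩ => hu t (by simpa [hB] using ht u)) hcomp
    obtain ⟨t, rfl⟩ := Submodule.mem_span_singleton.mp hmem
    refine hu 0 ?_
    rw [pt_smul_right, ap_smul, hginv, map_smul, cc_pt, (Unitary.eq_zero_comm hf₂).mp hy,
      zero_smul, smul_zero, ap_zero, zero_smul]
  replace hall : ∀ y, f₂ y w = 0 → ∀ z, f₂ z w = 0 → ∀ u, ∃ t : F,
      ap G (hT.cc y (ap g⁻¹ (pt e P u z))) = t • u := by
    intro y hy z hz u
    obtain ⟨v₁, v₂, h₁, h₂, i₁, i₂, rfl⟩ := exists_perp_iso_add hf₂ hc₂ hz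
    obtain ⟨t₁, e₁⟩ := hall y hy v₁ h₁ i₁ u
    obtain ⟨t₂, e₂⟩ := hall y hy v₂ h₂ i₂ u
    exact ⟨t₁ + t₂, by rw [pt_add_right, ap_add, map_add, ap_add, e₁, e₂, add_smul]⟩
  -- the scalar case
  have htop₁ : Cfsg.Geo.IsNondegenerateOn f₁ (⊤ : Submodule F (Fin n₁ → F)) := fun v _ hv => by
    obtain ⟨⟨x, hx⟩, ⟨y, hy⟩⟩ := hf₁.nondegenerate v hv
    exact ⟨⟨x, trivial, hx⟩, ⟨y, trivial, hy⟩⟩
  obtain ⟨u₀, -, hu₀f⟩ := exists_anisotropic hf₁ htop₁ fun h => by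
    have := congrArg (fun U : Submodule F (Fin n₁ → F) => Module.finrank F U) h
    simp at this
    omega
  have hu₀ : u₀ ≠ 0 := fun h => hu₀f (by rw [h, Unitary.zero_left hf₁])
  obtain ⟨α, -, hα⟩ := exists_functional_eq_one
    (U := (⊥ : Submodule F (Fin n₁ → F))) (x := u₀) (by simpa using hu₀)
  set q := kron e P G 1 * g⁻¹ with hq'
  have hconq : ∀ φ x, con e P φ (ap q x) = ap G (con e P φ (ap g⁻¹ x)) := by
    intro φ x
    rw [hq', ap_mul]
    exact LinearMap.congr_fun (ext_pt e P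
      (f := (con e P φ).comp (apEquiv (kron e P G 1)).toLinearMap)
      (g := (apEquiv G).toLinearMap.comp (con e P φ)) fun a b => by simp [ap_smul]) _
  set T₀ := (conr e P α).comp ((apEquiv q).toLinearMap.comp (ptr e P u₀)) with hT₀
  have hTw : T₀ w = w := by simp [hT₀, hq', ap_mul, hginv, ap_ap_inv, hα]
  have hTmod : ∀ u z, f₂ z w = 0 → ∃ d, ap g⁻¹ (pt e P u z) =
      pt e P (ap G⁻¹ u) (T₀ z) + pt e P d w := by
    intro u z hz
    have hsc : ∀ φ : (Fin n₂ → F) →ₗ[F] F, φ w = 0 →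
        con e P φ (ap q (pt e P u z) - pt e P u (T₀ z)) = 0 := by
      intro φ hφ
      obtain ⟨y, rfl⟩ := Unitary.exists_eq_fl hf₂ φ
      have hy : f₂ y w = 0 := (Unitary.eq_zero_comm hf₂).mp hφ
      obtain ⟨t, ht⟩ := exists_scalar (B := (apEquiv G).toLinearMap.comp
        ((hT.cc y).comp ((apEquiv g⁻¹).toLinearMap.comp (ptl e P z)))) fun v => by
          simpa using hall y hy z hz v
      simp only [LinearMap.comp_apply, LinearEquiv.coe_coe, apEquiv_apply, ptl_apply] at ht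
      have hcc : con e P (fl hf₂ y) = hT.cc y := rfl
      have h1 : f₂ (T₀ z) y = t := by
        rw [← fl_apply hf₂ y, hT₀, LinearMap.comp_apply, LinearMap.comp_apply,
          LinearEquiv.coe_coe, apEquiv_apply, ptr_apply, apply_conr, hconq, hcc, ht, map_smul,
          hα, smul_eq_mul, mul_one]
      rw [map_sub, hconq, con_pt, fl_apply, hcc, ht, h1, sub_self]
    have hd := mem_slice_of_con e P hω hsc
    set d := con e P ω (ap q (pt e P u z) - pt e P u (T₀ z)) with hd'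
    refine ⟨ap G⁻¹ d, ap_injective (kron e P G 1) ?_⟩
    rw [← ap_mul, ← hq', ap_add, ap_kron, ap_kron, ap_one, ap_one, ap_ap_inv, ap_ap_inv, ← hd]
    abel
  have hTperp : ∀ z, f₂ z w = 0 → f₂ (T₀ z) w = 0 := by
    intro z hz
    obtain ⟨d, hd⟩ := hTmod u₀ z hz
    have h := hperp (pt e P u₀ z) (by rw [cc_pt, hz, zero_smul])
    rw [hd, map_add, cc_pt, cc_pt, hw, zero_smul, add_zero, smul_eq_zero] at h
    exact h.resolve_right (ap_ne_zero _ hu₀)
  have hform : ∀ u u' z z', f₂ z w = 0 → f₂ z' w = 0 →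
      f₁ (ap G⁻¹ u) (ap G⁻¹ u') * f₂ (T₀ z) (T₀ z') = f₁ u u' * f₂ z z' := by
    intro u u' z z' hz hz'
    obtain ⟨d, hd⟩ := hTmod u z hz
    obtain ⟨d', hd'⟩ := hTmod u' z' hz'
    have h := mem_isom_iff.mp hgI (pt e P u z) (pt e P u' z')
    rw [hd, hd', hf.add_left, Unitary.add_right hf, Unitary.add_right hf, hT.form_pt, hT.form_pt,
      hT.form_pt, hT.form_pt, hT.form_pt, hw, hTperp z hz,
      (Unitary.eq_zero_comm hf₂).mp (hTperp z' hz')] at h
    exact mul_left_cancel₀ hT.c_ne (by linear_combination h)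
  obtain ⟨z₀, hz₀, -, hz₀₀⟩ := exists_aniso_perp_two hf₂ hc₂ w w
  set κ := f₂ (T₀ z₀) (T₀ z₀) / f₂ z₀ z₀ with hκ
  have hκ0 : κ ≠ 0 := fun h => by
    have := hform u₀ u₀ z₀ z₀ hz₀ hz₀
    rw [hκ, div_eq_zero_iff] at h
    rw [h.resolve_right hz₀₀, mul_zero] at this
    exact mul_ne_zero hu₀f hz₀₀ this.symm
  have hκσ : σ κ = κ := by
    rw [hκ, map_div₀, skew_self hf₂, skew_self hf₂, neg_div_neg_eq]
  have hGsim : ∀ u u', f₁ (ap G⁻¹ u) (ap G⁻¹ u') = κ⁻¹ * f₁ u u' := fun u u' => by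
    refine mul_left_cancel₀ (mul_ne_zero hκ0 hz₀₀) ?_
    have h2 : κ * f₂ z₀ z₀ = f₂ (T₀ z₀) (T₀ z₀) := by rw [hκ, div_mul_cancel₀ _ hz₀₀]
    calc κ * f₂ z₀ z₀ * f₁ (ap G⁻¹ u) (ap G⁻¹ u') = f₁ u u' * f₂ z₀ z₀ := by
          rw [h2, ← hform u u' z₀ z₀ hz₀ hz₀, mul_comm]
      _ = κ * f₂ z₀ z₀ * (κ⁻¹ * f₁ u u') := by field_simp
  have hTsim : ∀ z z', f₂ z w = 0 → f₂ z' w = 0 → f₂ (T₀ z) (T₀ z') = κ * f₂ z z' := by
    intro z z' hz hz'
    have h := hform u₀ u₀ z z' hz hz'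
    rw [hGsim] at h
    field_simp at h
    exact h
  obtain ⟨w', hw', hw'w⟩ := exists_iso_pairing hf₂ hc₂ hw0
  set R := LinearMap.ker (fl hf₂ w) with hR
  have hR' : ∀ z, z ∈ R ↔ f₂ z w = 0 := fun z => Iff.rfl
  have hTinj : LinearMap.ker (T₀.domRestrict R) = ⊥ := by
    rw [eq_bot_iff]
    rintro ⟨z, hz⟩ hz0
    rw [LinearMap.mem_ker, LinearMap.domRestrict_apply] at hz0
    have hmem : z ∈ Submodule.span F {w} := by
      refine mem_of_forall_perp hf₂ fun p hp => ?_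
      have := hTsim z p ((hR' z).mp hz) ((mem_perp_span hf₂).mp hp)
      rw [hz0, Unitary.zero_left hf₂, eq_comm, mul_eq_zero] at this
      exact this.resolve_left hκ0
    obtain ⟨t, rfl⟩ := Submodule.mem_span_singleton.mp hmem
    rw [map_smul, hTw] at hz0
    exact (Submodule.mem_bot F).mpr (Subtype.ext hz0)
  obtain ⟨L, hL⟩ := (T₀.domRestrict R).exists_leftInverse_of_injective hTinj
  obtain ⟨v₀, hv₀⟩ := Unitary.exists_eq_fl hf₂ (κ • ((fl hf₂ w').comp (R.subtype.comp L)))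
  have hvT₀ : ∀ z, f₂ z w = 0 → f₂ (T₀ z) v₀ = κ * f₂ z w' := fun z hz => by
    have h := LinearMap.congr_fun hv₀ (T₀ z)
    have h2 := LinearMap.congr_fun hL ⟨z, (hR' z).mpr hz⟩
    simp only [LinearMap.comp_apply, LinearMap.domRestrict_apply, LinearMap.id_apply] at h2
    simp only [fl_apply, LinearMap.smul_apply, LinearMap.comp_apply, h2,
      Submodule.subtype_apply, smul_eq_mul] at h
    exact h
  have hv₀w : f₂ v₀ w = κ := by
    have h := hvT₀ w hw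
    rw [hTw, hf₂.skew w w', hw'w, map_one] at h
    rw [hf₂.skew v₀ w, h, map_mul, hκσ, map_neg, map_one]
    ring
  obtain ⟨l, hl⟩ := exists_isotropic_shift hf₂ hw (p := v₀) (by rwa [hv₀w])
  set v := v₀ + l • w with hvdef
  have hvT : ∀ z, f₂ z w = 0 → f₂ (T₀ z) v = κ * f₂ z w' := fun z hz => by
    rw [hvdef, Unitary.add_right hf₂, Unitary.smul_right hf₂, hTperp z hz, mul_zero, add_zero,
      hvT₀ z hz]
  have hvT' : ∀ z, f₂ z w = 0 → f₂ v (T₀ z) = κ * f₂ w' z := fun z hz => by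
    rw [hf₂.skew v (T₀ z), hvT z hz, map_mul, hκσ, hf₂.skew w' z, mul_neg]
  set p : (Fin n₂ → F) →ₗ[F] (Fin n₂ → F) :=
    LinearMap.id - (fl hf₂ w).smulRight w' with hp
  have hpw : ∀ x, f₂ (p x) w = 0 := fun x => by
    simp [hp, Unitary.sub_left hf₂, hf₂.smul_left, hw'w]
  have hpid : ∀ z, f₂ z w = 0 → p z = z := fun z hz => by simp [hp, hz]
  have hx : ∀ x, x = p x + f₂ x w • w' := fun x => by simp [hp]
  set b₀ := T₀.comp p + (fl hf₂ w).smulRight v with hb₀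
  have hbsim : ∀ x x', f₂ (b₀ x) (b₀ x') = κ * f₂ x x' := by
    intro x x'
    conv_rhs => rw [hx x, hx x']
    simp only [hb₀, LinearMap.add_apply, LinearMap.comp_apply, LinearMap.smulRight_apply,
      fl_apply, hf₂.add_left, Unitary.add_right hf₂, hf₂.smul_left, Unitary.smul_right hf₂,
      hTsim _ _ (hpw x) (hpw x'), hvT _ (hpw x), hvT' _ (hpw x'), hl, hw']
    ring
  have hbinj : Function.Injective b₀ := by
    rw [← LinearMap.ker_eq_bot, eq_bot_iff]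
    intro x hx0
    rw [Submodule.mem_bot]
    by_contra hne
    obtain ⟨x', hx'⟩ := (hf₂.nondegenerate x hne).2
    have := hbsim x x'
    rw [LinearMap.mem_ker.mp hx0, Unitary.zero_left hf₂, eq_comm, mul_eq_zero] at this
    exact hx' (this.resolve_left hκ0)
  let b : GL (Fin n₂) F :=
    ofEquiv (LinearEquiv.ofBijective b₀ ⟨hbinj, LinearMap.injective_iff_surjective.mp hbinj⟩)
  have hbap : ∀ x, ap b x = b₀ x := fun x => by rw [ap_ofEquiv]; rfl
  have hbz : ∀ z, f₂ z w = 0 → ap b z = T₀ z := fun z hz => by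
    rw [hbap, hb₀]; simp [hpid z hz, hz]
  have hbw : ap b w = w := by rw [hbz w hw, hTw]
  set k := kron e P G⁻¹ b with hkdef
  have hkI : k ∈ isom f :=
    hT.kron_isom G⁻¹ b (μ := κ⁻¹) (ν := κ) (inv_mul_cancel₀ hκ0) hGsim
      fun y y' => by rw [hbap, hbap, hbsim]
  -- conjugate the overgroup
  set M' := M.comap (MulAut.conj k).toMonoidHom with hM'
  have hmem' : ∀ {x}, x ∈ M' ↔ k * x * k⁻¹ ∈ M := Iff.rfl
  have hH' : Cfsg.Geo.tensorProductSubgroup n₁ n₂ e P ⊓ sisom hf ≤ M' := by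
    intro x hx
    have h1 : k * x * k⁻¹ ∈ Cfsg.Geo.tensorProductSubgroup n₁ n₂ e P :=
      mul_mem (mul_mem (Tensor.kron_mem e P G⁻¹ b) hx.1) (inv_mem (Tensor.kron_mem e P G⁻¹ b))
    exact hmem'.mpr (hH ⟨h1, sisom_conj hf hkI hx.2⟩)
  have hMI' : M' ≤ isom f := fun x hx => by
    have := mul_mem (mul_mem (inv_mem hkI) (hMI (hmem'.mp hx))) hkI
    simpa [mul_assoc] using this
  suffices hfin : sisom hf ≤ M' by
    intro x hx
    have := hmem'.mp (hfin (sisom_conj hf (inv_mem hkI) hx))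
    simpa [mul_assoc] using this
  set r := k⁻¹ * g⁻¹ with hr
  have hrI : r ∈ isom f := mul_mem (inv_mem hkI) hgI
  have hrh : ∀ h ∈ Cfsg.Geo.tensorProductSubgroup n₁ n₂ e P ⊓ sisom hf,
      r * h * r⁻¹ ∈ M' := fun h hh => by
    rw [hmem', hr]
    simpa [mul_assoc] using M.mul_mem (M.mul_mem (M.inv_mem hg) (hH hh)) hg
  have hkinv : ∀ u y, ap k⁻¹ (pt e P u y) = pt e P (ap G u) (ap b⁻¹ y) := fun u y => by
    rw [hkdef, kron_inv, ap_kron, inv_inv]
  have hbi : ap b⁻¹ w = w := by conv_lhs => rw [← hbw, ap_inv_ap]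
  have hrz : ∀ u z, f₂ z w = 0 → ∃ d, ap r (pt e P u z) = pt e P u z + pt e P d w := by
    intro u z hz
    obtain ⟨d, hd⟩ := hTmod u z hz
    refine ⟨ap G d, ?_⟩
    rw [hr, ap_mul, hd, ap_add, hkinv, hkinv, hbi, ap_ap_inv, ← hbz z hz, ap_inv_ap]
  have hrw : ∀ u, ap r (pt e P u w) = pt e P u w := fun u => by
    rw [hr, ap_mul, hginv, hkinv, hbi, ap_ap_inv]
  set S := (con e P ω).comp ((apEquiv r).toLinearMap - LinearMap.id) with hS
  have hrS : ∀ u z, f₂ z w = 0 →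
      ap r (pt e P u z) = pt e P u z + pt e P (S (pt e P u z)) w := by
    intro u z hz
    obtain ⟨d, hd⟩ := hrz u z hz
    simp [hS, hd, hω]
  by_cases hall' : ∀ z, f₂ z w = 0 → f₂ z z = 0 → ∀ u, ∃ t : F, S (pt e P u z) = t • u
  swap
  · push Not at hall'
    obtain ⟨z, hz, hzz, u, hu⟩ := hall'
    set h₁ := kron e P (1 : GL (Fin n₁) F) (T hf₂ z 1 hzz)
    have hh : h₁ ∈ Cfsg.Geo.tensorProductSubgroup n₁ n₂ e P ⊓ sisom hf :=
      hT.kron_mem_inf (one_mem _) (T_mem hf₂ hzz (map_one σ))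
    have hcomp := hT.comp_of_conj hMI' hrI hzz hz (B := S.comp (ptl e P z))
      (fun a => hrS a z hz) (M'.mul_mem (hrh _ hh) (M'.inv_mem (hH' hh)))
    refine hT.le_of_comp hH' hMI' hn₁ hn₂ hq hw hzz hz (fun hmem => ?_) hw0
      (fun ⟨t, ht⟩ => hu t (ht u)) hcomp
    obtain ⟨t, rfl⟩ := Submodule.mem_span_singleton.mp hmem
    refine hu 0 ?_
    simp [hS, pt_smul_right, ap_smul, hrw]
  replace hall' : ∀ z, f₂ z w = 0 → ∀ u, ∃ t : F, S (pt e P u z) = t • u := by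
    intro z hz u
    obtain ⟨v₁, v₂, h₁, h₂, i₁, i₂, rfl⟩ := exists_perp_iso_add hf₂ hc₂ hz
    obtain ⟨t₁, e₁⟩ := hall' v₁ h₁ i₁ u
    obtain ⟨t₂, e₂⟩ := hall' v₂ h₂ i₂ u
    exact ⟨t₁ + t₂, by rw [pt_add_right, map_add, e₁, e₂, add_smul]⟩
  set τ := α.comp (S.comp (ptr e P u₀)) with hτ
  have hτS : ∀ u z, f₂ z w = 0 → S (pt e P u z) = τ z • u := by
    intro u z hz
    obtain ⟨t, ht⟩ := exists_scalar (B := S.comp (ptl e P z)) fun v => by simpa using hall' z hz v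
    simp only [LinearMap.comp_apply, ptl_apply] at ht
    simp [hτ, ht, hα]
  obtain ⟨y, hy⟩ := Unitary.exists_eq_fl hf₂ τ
  have hyw : f₂ y w = 0 := by
    refine (Unitary.eq_zero_comm hf₂).mp ?_
    rw [← fl_apply hf₂ y, hy, hτ]
    simp [hS, hrw]
  obtain ⟨k', hk', hk'v⟩ := hk y hyw
  set ζ := k'⁻¹ * r with hζ
  have hζfix : ∀ u z, f₂ z w = 0 → ap ζ (pt e P u z) = pt e P u z := by
    intro u z hz
    apply ap_injective k'
    rw [hζ, ap_mul, ap_ap_inv, hrS u z hz, hτS u z hz,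
      hk'v _ (by rw [cc_pt, hz, zero_smul]), cc_pt, ← fl_apply hf₂ y, hy]
  have hζI : ζ ∈ isom f := mul_mem (inv_mem hk'.2.1) hrI
  have hζh : ∀ h ∈ Cfsg.Geo.tensorProductSubgroup n₁ n₂ e P ⊓ sisom hf,
      ζ * h * ζ⁻¹ ∈ M' := fun h hh => by
    have := M'.mul_mem (M'.mul_mem (M'.inv_mem (hH' hk')) (hrh h hh)) (hH' hk')
    simpa [hζ, mul_assoc] using this
  set K : Module.End F (Fin n₁ → F) :=
    (con e P ω).comp (((apEquiv ζ).toLinearMap - LinearMap.id).comp (ptl e P w')) with hK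
  have hζslice : ∀ v, ∃ d, ap ζ v - v = pt e P d w := fun v => ⟨_, mem_slice_of_con e P hω
    fun φ hφ => by
      obtain ⟨z, rfl⟩ := Unitary.exists_eq_fl hf₂ φ
      have hz : f₂ z w = 0 := (Unitary.eq_zero_comm hf₂).mp hφ
      refine hT.eq_of_pairing hf₁ fun a => mul_left_cancel₀ hT.c_ne ?_
      have h := hT.form_right (ap ζ v - v) a z
      rw [Unitary.sub_left hf] at h
      have h2 := mem_isom_iff.mp hζI v (pt e P a z)
      rw [hζfix a z hz] at h2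
      rw [h2, sub_self] at h
      rw [Unitary.zero_left hf₁, mul_zero]
      exact h.symm⟩
  have hζK : ∀ x, ap ζ x = x + pt e P (K (hT.cc w x)) w := by
    refine LinearMap.congr_fun (ext_pt e P (f := (apEquiv ζ).toLinearMap)
      (g := LinearMap.id + (ptl e P w).comp (K.comp (hT.cc w))) fun u x => ?_)
    obtain ⟨d, hd⟩ := hζslice (pt e P u w')
    have hKu : K u = d := by simp [hK, hd, hω]
    have hd' : ap ζ (pt e P u w') = pt e P u w' + pt e P d w := by rw [← hd]; abel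
    simp only [LinearEquiv.coe_coe, apEquiv_apply, LinearMap.add_apply, LinearMap.id_apply,
      LinearMap.comp_apply, ptl_apply, cc_pt, map_smul, hKu]
    conv_lhs => rw [hx x, pt_add_right, pt_smul_right, ap_add, ap_smul, hd', hζfix u _ (hpw x)]
    conv_rhs => arg 1; rw [hx x, pt_add_right, pt_smul_right]
    module
  by_cases hKs : ∃ t : F, ∀ u, K u = t • u
  · exfalso
    obtain ⟨t, ht⟩ := hKs
    have hζT : ζ = kron e P (1 : GL (Fin n₁) F) (T hf₂ w t hw) := gl_ext fun x => by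
      rw [hζK, hT.ap_one_kron_T, ht, pt_smul_left]
    refine hgT ?_
    have hgeq : g⁻¹ = k * (k' * ζ) := by rw [hζ, hr]; group
    have : g⁻¹ ∈ Cfsg.Geo.tensorProductSubgroup n₁ n₂ e P := by
      rw [hgeq, hζT]
      exact mul_mem (Tensor.kron_mem e P _ _) (mul_mem hk'.1 (Tensor.kron_mem e P _ _))
    simpa using inv_mem this
  exact hT.le_of_quadratic hn₁ hn₂ hq hH' hMI' hw hw0 hζK hKs hζh

/-- An element outside the stabiliser mapping an isotropic slice into an isotropic slice generates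
everything. -/
theorem le_of_slice_map {g : GL ι F} (hg : g ∈ M)
    (hgT : g ∉ Cfsg.Geo.tensorProductSubgroup n₁ n₂ e P) {w w' : Fin n₂ → F} (hw : f₂ w w = 0)
    (hw0 : w ≠ 0) (hw' : f₂ w' w' = 0) (hw'0 : w' ≠ 0)
    (hmap : ∀ x ∈ slice e P w, ap g x ∈ slice e P w') : sisom hT.form ≤ M := by
  have hf₂ := hT.form₂
  have hbot : perp hf₂ (⊥ : Submodule F (Fin n₂ → F)) = ⊤ :=
    eq_top_iff.mpr fun x _ => mem_perp_bot hf₂ x
  obtain ⟨b, hb, -, -, hbw⟩ := exists_move hf₂ (M := sisom hf₂)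
    (fun v hv k hk => T_mem hf₂ hv hk) (by rw [Fintype.card_fin]; omega) (U := ⊥)
    (perp_nondegenerate hf₂ fun x hx hne => absurd ((Submodule.mem_bot F).mp hx) hne)
    (by rw [hbot, finrank_top, Module.finrank_fintype_fun_eq_card, Fintype.card_fin]; omega)
    (mem_perp_bot hf₂ w') (mem_perp_bot hf₂ w) hw' hw hw'0 hw0
  refine hT.le_of_slice_fix hn₁ hn₂ hq hH hMI
    (M.mul_mem (hT.kron_mem_M hH (one_mem (sisom hT.form₁)) hb) hg) (fun h => hgT ?_) hw hw0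
    fun x hx => ?_
  · simpa using mul_mem (inv_mem (Tensor.kron_mem e P (1 : GL (Fin n₁) F) b)) h
  · obtain ⟨u, hu⟩ := hmap x hx
    simp only [ptl_apply] at hu
    rw [ap_mul, ← hu, ap_kron, ap_one, hbw]
    exact pt_mem_slice e P _ _

end UTensor

end CfsgLib.Geometric
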