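import Cfsg.Agent.Lib.Geometric.UnitaryEndTwoThm
import Cfsg.Agent.Lib.Geometric.UnitaryStab
import Cfsg.Agent.Lib.Geometric.TensorMaps

/-!
A tensor product of skew-hermitian spaces: contractions and factorwise isometries.
-/

namespace CfsgLib.Geometric

open Matrix Tensor

variable {ι : Type} [Fintype ι] [DecidableEq ι] {F : Type*} [Field F]
variable {σ : F ≃+* F} {f : (ι → F) → (ι → F) → F} {n₁ n₂ : ℕ}

/-- `f` is `c` times the product of the forms `f₁` and `f₂`. -/
structure UTensor (σ : F ≃+* F) (f : (ι → F) → (ι → F) → F) {n₁ n₂ : ℕ}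
    (e : ι ≃ Fin n₁ × Fin n₂) (P : GL ι F) (f₁ : (Fin n₁ → F) → (Fin n₁ → F) → F)
    (f₂ : (Fin n₂ → F) → (Fin n₂ → F) → F) (c : F) : Prop where
  form : IsSkewForm σ f
  form₁ : IsSkewForm σ f₁
  form₂ : IsSkewForm σ f₂
  c_ne : c ≠ 0
  form_pt : ∀ x x' y y', f (pt e P x y) (pt e P x' y') = c * (f₁ x x' * f₂ y y')

namespace UTensor

open Unitary

variable {e : ι ≃ Fin n₁ × Fin n₂} {P : GL ι F} {f₁ : (Fin n₁ → F) → (Fin n₁ → F) → F}
  {f₂ : (Fin n₂ → F) → (Fin n₂ → F) → F} {c : F} (hT : UTensor σ f e P f₁ f₂ c)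

/-- Contraction with `f₂(·, y)`. -/
def cc (hT : UTensor σ f e P f₁ f₂ c) (y : Fin n₂ → F) : (ι → F) →ₗ[F] (Fin n₁ → F) :=
  con e P (fl hT.form₂ y)

include hT

@[simp] lemma cc_pt (y : Fin n₂ → F) (a : Fin n₁ → F) (z : Fin n₂ → F) :
    hT.cc y (pt e P a z) = f₂ z y • a := by simp [cc]

/-- Pairing with a pure tensor through the contraction. -/
lemma form_right (v : ι → F) (a : Fin n₁ → F) (z : Fin n₂ → F) :
    f v (pt e P a z) = c * f₁ (hT.cc z v) a := by
  have h : fl hT.form (pt e P a z) = c • ((fl hT.form₁ a).comp (hT.cc z)) :=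
    ext_pt e P fun x y => by
      simp only [fl_apply, hT.form_pt, LinearMap.smul_apply, LinearMap.comp_apply, cc_pt,
        hT.form₁.smul_left, smul_eq_mul]
      ring
  simpa using LinearMap.congr_fun h v

/-- Two vectors with the same pairings are equal. -/
lemma eq_of_pairing {m : ℕ} {g : (Fin m → F) → (Fin m → F) → F} (hg : IsSkewForm σ g)
    {p r : Fin m → F} (h : ∀ b, g p b = g r b) : p = r := by
  by_contra hne
  obtain ⟨b, hb⟩ := (hg.nondegenerate (p - r) (sub_ne_zero.mpr hne)).2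
  exact hb (by rw [Unitary.sub_left hg, h, sub_self])

omit hT in
lemma kron_mul (a a' : GL (Fin n₁) F) (b b' : GL (Fin n₂) F) :
    kron e P (a * a') (b * b') = kron e P a b * kron e P a' b' :=
  gl_ext_pt e P fun x y => by simp [ap_mul]

/-- Preserving the products of pure tensors is enough for an isometry. -/
lemma isom_of_pt {g : GL ι F}
    (h : ∀ x y x' y', f (ap g (pt e P x y)) (ap g (pt e P x' y')) =
      f (pt e P x y) (pt e P x' y')) : g ∈ isom f := by
  refine mem_isom_iff.mpr fun u v => ?_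
  have h1 : ∀ x' y', (fl hT.form (ap g (pt e P x' y'))).comp (apEquiv g).toLinearMap =
      fl hT.form (pt e P x' y') := fun x' y' => ext_pt e P fun x y => by simpa using h x y x' y'
  have h2 : ∀ w, fl hT.form (ap g⁻¹ w) u = fl hT.form w (ap g u) := by
    intro w
    obtain ⟨z, rfl⟩ := (coords e P).surjective (ap g⁻¹ w) |>.imp fun z hz => (show ap g (coords e P z) = w by rw [hz, ap_ap_inv])
    rw [ap_inv_ap, pi_eq_sum_univ' z, map_sum]
    simp only [map_smul, ← pt_single, ← apEquiv_apply g, map_sum]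
    simp only [apEquiv_apply, fl_apply]
    induction (Finset.univ : Finset (Fin n₁ × Fin n₂)) using Finset.induction with
    | empty => simp [zero_right hT.form]
    | insert i s hi ih =>
      rw [Finset.sum_insert hi, Finset.sum_insert hi, add_right hT.form, add_right hT.form, ih,
        smul_right hT.form, smul_right hT.form]
      have := LinearMap.congr_fun (h1 (Pi.single i.1 1) (Pi.single i.2 1)) u
      simp only [LinearMap.comp_apply, LinearEquiv.coe_coe, apEquiv_apply, fl_apply] at this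
      rw [this]
  have := h2 (ap g v)
  rw [ap_inv_ap] at this
  exact this.symm

/-- Factorwise similitudes with inverse multipliers are isometries. -/
lemma kron_isom (a : GL (Fin n₁) F) (b : GL (Fin n₂) F) {μ ν : F} (hμν : μ * ν = 1)
    (ha : ∀ x x', f₁ (ap a x) (ap a x') = μ * f₁ x x')
    (hb : ∀ y y', f₂ (ap b y) (ap b y') = ν * f₂ y y') :
    kron e P a b ∈ isom f :=
  hT.isom_of_pt fun x y x' y' => by
    rw [ap_kron, ap_kron, hT.form_pt, hT.form_pt, ha, hb]
    linear_combination c * f₁ x x' * f₂ y y' * hμν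

/-- Factorwise isometries of determinant one lie in the stabiliser. -/
lemma kron_mem_inf {a : GL (Fin n₁) F} {b : GL (Fin n₂) F} (ha : a ∈ sisom hT.form₁)
    (hb : b ∈ sisom hT.form₂) :
    kron e P a b ∈ Cfsg.Geo.tensorProductSubgroup n₁ n₂ e P ⊓ sisom hT.form :=
  ⟨kron_mem e P a b, hT.kron_isom a b (one_mul 1)
    (fun x x' => by rw [one_mul]; exact mem_isom_iff.mp ha.1 x x')
    (fun y y' => by rw [one_mul]; exact mem_isom_iff.mp hb.1 y y'),
    (Tensor.kron_mem_inf e P ha.2 hb.2).2⟩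

/-- A pure tensor with an isotropic second factor is isotropic. -/
lemma pt_iso (u : Fin n₁ → F) {w : Fin n₂ → F} (hw : f₂ w w = 0) :
    f (pt e P u w) (pt e P u w) = 0 := by
  rw [hT.form_pt, hw, mul_zero, mul_zero]

lemma ap_one_kron_T {z : Fin n₂ → F} (hz : f₂ z z = 0) (t : F) (v : ι → F) :
    ap (kron e P (1 : GL (Fin n₁) F) (T hT.form₂ z t hz)) v = v + t • pt e P (hT.cc z v) z := by
  have h : (apEquiv (kron e P (1 : GL (Fin n₁) F) (T hT.form₂ z t hz))).toLinearMap =
      LinearMap.id + t • (ptl e P z).comp (hT.cc z) :=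
    ext_pt e P fun a y => by
      simp [ap_T hT.form₂, pt_add_right, pt_smul_right, pt_smul_left, smul_smul]
  exact LinearMap.congr_fun h v

lemma ap_one_kron_E {w y : Fin n₂ → F} {d : F} (hw : f₂ w w = 0) (hy : f₂ y w = 0) (v : ι → F) :
    ap (kron e P (1 : GL (Fin n₁) F) (E hT.form₂ w y d hw hy)) v =
      v + pt e P (hT.cc w v) y + pt e P (hT.cc y v) w + d • pt e P (hT.cc w v) w := by
  have h : (apEquiv (kron e P (1 : GL (Fin n₁) F) (E hT.form₂ w y d hw hy))).toLinearMap =
      LinearMap.id + (ptl e P y).comp (hT.cc w) + (ptl e P w).comp (hT.cc y) +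
        d • (ptl e P w).comp (hT.cc w) :=
    ext_pt e P fun a z => by
      simp [ap_E hT.form₂, pt_add_right, pt_smul_right, pt_smul_left, smul_smul]
  exact LinearMap.congr_fun h v

lemma cc_kron (a : GL (Fin n₁) F) {b : GL (Fin n₂) F} (hb : b ∈ isom f₂) (w : Fin n₂ → F)
    (v : ι → F) : hT.cc (ap b w) (ap (kron e P a b) v) = ap a (hT.cc w v) := by
  have h : (hT.cc (ap b w)).comp (apEquiv (kron e P a b)).toLinearMap =
      (apEquiv a).toLinearMap.comp (hT.cc w) :=
    ext_pt e P fun x z => by simp [ap_smul, mem_isom_iff.mp hb]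
  exact LinearMap.congr_fun h v

/-- The transvection at a pure tensor. -/
lemma ap_T_pt {u : Fin n₁ → F} {w : Fin n₂ → F} (hw : f₂ w w = 0) (k : F) (v : ι → F)
    (h : f (pt e P u w) (pt e P u w) = 0) :
    ap (T hT.form (pt e P u w) k h) v = v + (k * (c * f₁ (hT.cc w v) u)) • pt e P u w := by
  rw [ap_T hT.form, hT.form_right]

end UTensor

end CfsgLib.Geometric
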