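import Cfsg.Agent.Lib.Geometric.UnitaryTensorOver
import Cfsg.Agent.Lib.Geometric.Dihedral

/-!
In characteristic two a proper overgroup of the stabiliser of a tensor product of skew-hermitian
forms is the stabiliser.
-/

namespace CfsgLib.Geometric

open Matrix Tensor

variable {ι : Type} [Fintype ι] [DecidableEq ι] {F : Type*} [Field F]
variable {σ : F ≃+* F} {f : (ι → F) → (ι → F) → F} {n₁ n₂ : ℕ} {e : ι ≃ Fin n₁ × Fin n₂}
  {P : GL ι F} {f₁ : (Fin n₁ → F) → (Fin n₁ → F) → F} {f₂ : (Fin n₂ → F) → (Fin n₂ → F) → F}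
  {c : F}

namespace Unitary

variable (hf : IsSkewForm σ f)
include hf

/-- The displacements of an isometric involution are orthogonal in characteristic two. -/
lemma inv_orth (h2 : (2 : F) = 0) {z : GL ι F} (hz : z ∈ isom f) (hz2 : z * z = 1) (a b : ι → F) :
    f (ap z a + a) (ap z b + b) = 0 := by
  have h1 : f (ap z a) b = f a (ap z b) := by
    have h := mem_isom_iff.mp hz a (ap z b)
    rwa [← ap_mul, hz2, ap_one] at h
  rw [hf.add_left, add_right hf, add_right hf, mem_isom_iff.mp hz, h1]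
  linear_combination (f a b + f a (ap z b)) * h2

end Unitary

namespace UTensor

open Unitary

variable {hT : UTensor σ f e P f₁ f₂ c} [Finite F] {M : Subgroup (GL ι F)}

namespace Over

variable (hO : hT.Over M) (h2 : (2 : F) = 0)
include hO h2

/-- An involution in the stabiliser commutes with a transvection of the second factor. -/
lemma exists_commute_T {y : GL ι F} (hyI : y ∈ isom f)
    (hy : y ∈ Cfsg.Geo.tensorProductSubgroup n₁ n₂ e P) (hy2 : y * y = 1) :
    ∃ w : Fin n₂ → F, w ≠ 0 ∧ ∃ hw : f₂ w w = 0,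
      y * kron e P (1 : GL (Fin n₁) F) (T hT.form₂ w 1 hw) * y⁻¹ =
        kron e P 1 (T hT.form₂ w 1 hw) := by
  classical
  have hf₂ := hT.form₂
  obtain ⟨a, b, rfl⟩ := exists_kron hy
  obtain ⟨ν, hσν, hν0, hb, -⟩ := hT.exists_similitude hO.pos hO.five_le hyI
  obtain ⟨u, hu⟩ := exists_pt_ne (F := F) hO.pos
  obtain ⟨α, -, hα⟩ := exists_functional_eq_one
    (U := (⊥ : Submodule F (Fin n₁ → F))) (x := u) (by simpa using hu)
  set δ := α (ap a (ap a u)) with hδ
  have hbb : ∀ z, z = δ • ap b (ap b z) := fun z => by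
    have h := congrArg (fun k => conr e P α (ap k (pt e P u z))) hy2
    simpa [ap_mul, hα, ← hδ] using h.symm
  obtain ⟨y₀, -, -, hy₀⟩ := exists_aniso_perp_two hf₂ hO.card_two 0 0
  have hδ0 : δ ≠ 0 := fun h0 => hy₀ (by
    rw [hbb y₀, h0, zero_smul, Unitary.zero_left hf₂])
  have hchar : ringChar F = 2 := by
    haveI := Fintype.ofFinite F
    have h : ringChar F ∣ 2 := ringChar.dvd (by exact_mod_cast h2)
    have hp : (ringChar F).Prime := CharP.char_is_prime F _
    exact (Nat.prime_dvd_prime_iff_eq hp Nat.prime_two).mp h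
  obtain ⟨γ, hγ⟩ : IsSquare δ⁻¹ := FiniteField.isSquare_of_char_two hchar _
  have hγ0 : γ ≠ 0 := fun h0 => hδ0 (by simpa [h0] using hγ)
  have hβ : ∀ z, ap b (ap b z) = (γ * γ) • z := fun z => by
    conv_rhs => rw [hbb z, smul_smul, ← hγ, inv_mul_cancel₀ hδ0, one_smul]
  have hνγ : ν = γ * σ γ := by
    have h := hb (ap b y₀) (ap b y₀)
    rw [hβ, hf₂.smul_left, Unitary.smul_right hf₂, map_mul, hb] at h
    have h' : (ν - γ * σ γ) ^ 2 * f₂ y₀ y₀ = 0 := by
      linear_combination (-ν * γ * σ γ * f₂ y₀ y₀ + γ * γ * (σ γ * σ γ) * f₂ y₀ y₀) * h2 - h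
    exact sub_eq_zero.mp (pow_eq_zero_iff two_ne_zero |>.mp
      ((mul_eq_zero.mp h').resolve_right hy₀))
  obtain ⟨w, hw0, hw, hbw⟩ : ∃ w, w ≠ 0 ∧ f₂ w w = 0 ∧ ap b w = γ • w := by
    by_cases hz : ∀ z, ap b z + γ • z = 0
    · obtain ⟨z, hz1, -⟩ := exists_iso_pairing hf₂ hO.card_two (y := y₀)
        fun h0 => hy₀ (by rw [h0, Unitary.zero_left hf₂])
      obtain ⟨w, hw, hw1⟩ := exists_iso_pairing hf₂ hO.card_two (y := y₀)
        fun h0 => hy₀ (by rw [h0, Unitary.zero_left hf₂])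
      refine ⟨w, fun h0 => ?_, hw, ?_⟩
      · rw [h0, Unitary.zero_left hf₂] at hw1; exact zero_ne_one hw1
      · have := hz w
        rw [eq_neg_of_add_eq_zero_left this, ← neg_smul]
        congr 1
        linear_combination -γ * h2
    · push Not at hz
      obtain ⟨z, hz⟩ := hz
      refine ⟨_, hz, ?_, ?_⟩
      · have h := hb z (ap b z)
        rw [hβ, Unitary.smul_right hf₂, map_mul, hνγ] at h
        have hσ : σ γ ≠ 0 := by rwa [ne_eq, EmbeddingLike.map_eq_zero_iff]
        have h3 : σ γ * f₂ (ap b z) z = γ * f₂ z (ap b z) :=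
          mul_left_cancel₀ hσ (by linear_combination h)
        rw [hf₂.add_left, Unitary.add_right hf₂, Unitary.add_right hf₂, hb, hf₂.smul_left,
          hf₂.smul_left, Unitary.smul_right hf₂, Unitary.smul_right hf₂, hνγ]
        linear_combination h3 + (γ * σ γ * f₂ z z + γ * f₂ z (ap b z)) * h2
      · rw [ap_add, hβ, ap_smul, smul_add, smul_smul, add_comm]
  have hbw' : f₂ (ap b w) (ap b w) = 0 := by rw [hb, hw, mul_zero]
  refine ⟨w, hw0, hw, ?_⟩
  rw [kron_conj_one, conj_T_sim hf₂ hν0 hσν hb hw 1 hbw']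
  congr 1
  refine gl_ext fun x => ?_
  rw [ap_T hf₂, ap_T hf₂, hbw, Unitary.smul_right hf₂, smul_smul, hνγ]
  congr 2
  have hσ : σ γ ≠ 0 := by rwa [ne_eq, EmbeddingLike.map_eq_zero_iff]
  field_simp

/-- The elements commuting with a non-trivial involution of the second factor. -/
lemma centralizer_mem {g : GL ι F} (hg : g ∈ M) {d : GL (Fin n₂) F} (hd : d ∈ isom f₂)
    (hd1 : d ≠ 1) (hd2 : d * d = 1)
    (hcomm : g * kron e P (1 : GL (Fin n₁) F) d * g⁻¹ = kron e P 1 d) :
    g ∈ Cfsg.Geo.tensorProductSubgroup n₁ n₂ e P := by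
  obtain ⟨z₀, hz₀⟩ : ∃ z, ap d z + z ≠ 0 := by
    by_contra hc
    push Not at hc
    refine hd1 (gl_ext fun z => ?_)
    rw [ap_one, eq_neg_of_add_eq_zero_left (hc z), ← one_smul F z, ← neg_smul]
    congr 1
    linear_combination -h2
  have hZI : kron e P (1 : GL (Fin n₁) F) d ∈ isom f :=
    hT.kron_isom 1 d (one_mul 1) (fun x x' => by simp)
      (fun y y' => by rw [one_mul]; exact mem_isom_iff.mp hd y y')
  have hZ2 : kron e P (1 : GL (Fin n₁) F) d * kron e P 1 d = 1 := by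
    rw [← UTensor.kron_mul, one_mul, hd2]
    exact gl_ext_pt e P fun x y => by simp
  have hw := inv_orth hT.form₂ h2 hd hd2 z₀ z₀
  refine hO.ortho_mem hg hw hz₀ hw hz₀ fun u u' => ?_
  have e1 : ∀ x : Fin n₁ → F, pt e P x (ap d z₀ + z₀) =
      ap (kron e P 1 d) (pt e P x z₀) + pt e P x z₀ := fun x => by
    rw [ap_kron, ap_one, pt_add_right]
  have e2 : ∀ x, ap g (ap (kron e P 1 d) x) = ap (kron e P 1 d) (ap g x) := fun x => by
    conv_rhs => rw [← hcomm]
    rw [ap_mul, ap_mul, ap_inv_ap]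
  rw [e1, e1, ap_add, e2]
  exact inv_orth hT.form h2 hZI hZ2 _ _

/-- In characteristic two the stabiliser contains every proper overgroup. -/
theorem le_tensor_of_char_two : M ≤ Cfsg.Geo.tensorProductSubgroup n₁ n₂ e P := by
  classical
  have hf₂ := hT.form₂
  have hc₂ := hO.card_two
  obtain ⟨y₀, -, -, hy₀⟩ := exists_aniso_perp_two hf₂ hc₂ 0 0
  obtain ⟨v, hv, hv1⟩ := exists_iso_pairing hf₂ hc₂ (y := y₀)
    fun h0 => hy₀ (by rw [h0, Unitary.zero_left hf₂])
  have hv0 : v ≠ 0 := fun h0 => by rw [h0, Unitary.zero_left hf₂] at hv1; exact zero_ne_one hv1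
  obtain ⟨v', hv'v, hv', hv'n⟩ := exists_iso_perp_notMem hf₂ hc₂ hv
  have hvv' : f₂ v v' = 0 := (Unitary.eq_zero_comm hf₂).mp hv'v
  have hv'0 : v' ≠ 0 := fun h0 => hv'n (by rw [h0]; exact zero_mem _)
  set t := T hf₂ v 1 hv with ht
  set s := t * T hf₂ v' 1 hv' with hs
  have htS : t ∈ sisom hf₂ := T_mem hf₂ hv (map_one σ)
  have hsS : s ∈ sisom hf₂ := (sisom hf₂).mul_mem htS (T_mem hf₂ hv' (map_one σ))
  have ht2 : t * t = 1 := gl_ext fun x => by
    rw [ap_mul, ht, ap_T hf₂, ap_T hf₂, hf₂.add_left, hf₂.smul_left, hv, ap_one]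
    match_scalars <;> grind
  have hs2 : s * s = 1 := gl_ext fun x => by
    simp only [hs, ht, ap_mul, ap_T hf₂, hf₂.add_left, hf₂.smul_left, hv, hv', hvv', hv'v, ap_one]
    match_scalars <;> grind
  have hs1 : s ≠ 1 := fun h1 => by
    obtain ⟨z, hzv', -, hzv⟩ := exists_iso_partner hf₂ hc₂ (w := v') (y := v) fun hm => by
      obtain ⟨k, hk⟩ := Submodule.mem_span_singleton.mp hm
      have hk0 : k ≠ 0 := fun h0 => hv0 (by rw [← hk, h0, zero_smul])
      exact hv'n (Submodule.mem_span_singleton.mpr ⟨k⁻¹, by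
        rw [← hk, smul_smul, inv_mul_cancel₀ hk0, one_smul]⟩)
    have := congrArg (fun k => ap k z) h1
    simp [hs, ht, ap_mul, ap_T hf₂, hzv', hzv, hv0] at this
  -- elements conjugating `x` into the stabiliser
  have hgood : ∀ g ∈ M, g * kron e P (1 : GL (Fin n₁) F) s * g⁻¹ ∈
      Cfsg.Geo.tensorProductSubgroup n₁ n₂ e P →
      g ∈ Cfsg.Geo.tensorProductSubgroup n₁ n₂ e P := by
    intro g hg hy
    obtain ⟨w, hw0, hw, hcomm⟩ := hO.exists_commute_T h2
      (hO.isom_of_mem (M.mul_mem (M.mul_mem hg (hO.one_kron_mem hsS)) (M.inv_mem hg))) hy (by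
      rw [conj_mul, ← UTensor.kron_mul, hs2, one_mul,
        show kron e P (1 : GL (Fin n₁) F) (1 : GL (Fin n₂) F) = 1 from
          gl_ext_pt e P fun x y => by simp, mul_one, mul_inv_cancel])
    set k := g⁻¹ * kron e P (1 : GL (Fin n₁) F) (T hf₂ w 1 hw) * g with hk
    have hkM : k ∈ M := M.mul_mem (M.mul_mem (M.inv_mem hg)
      (hO.one_kron_mem (T_mem hf₂ hw (map_one σ)))) hg
    have hkT := hO.centralizer_mem h2 hkM hsS.1 hs1 hs2 (by
      rw [hk]
      generalize kron e P (1 : GL (Fin n₁) F) s = X at hcomm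
      generalize kron e P (1 : GL (Fin n₁) F) (T hf₂ w 1 hw) = W at hcomm
      calc g⁻¹ * W * g * X * (g⁻¹ * W * g)⁻¹
          = g⁻¹ * (W * (g * X * g⁻¹) * W⁻¹) * g := by group
        _ = g⁻¹ * (g * X * g⁻¹) * g := by
          congr 2
          calc W * (g * X * g⁻¹) * W⁻¹ = g * X * g⁻¹ * W * (g * X * g⁻¹)⁻¹ *
                (g * X * g⁻¹) * W⁻¹ := by rw [hcomm]
            _ = g * X * g⁻¹ := by group
        _ = X := by group)
    have := hO.conj_T_mem (M.inv_mem hg) hw hw0 (by rwa [inv_inv, ← hk])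
    simpa using inv_mem this
  intro g hg
  refine hgood g hg ?_
  let p : M := ⟨_, hO.one_kron_mem htS⟩
  let x : M := ⟨_, hO.one_kron_mem hsS⟩
  have hone : kron e P (1 : GL (Fin n₁) F) (1 : GL (Fin n₂) F) = 1 :=
    gl_ext_pt e P fun x y => by simp
  have key := conj_mem_of_involutions
    (H := (Cfsg.Geo.tensorProductSubgroup n₁ n₂ e P).subgroupOf M) (p := p) (x := x)
    (Tensor.kron_mem e P _ _) (Tensor.kron_mem e P _ _)
    (Subtype.ext (by simp [p, ← UTensor.kron_mul, ht2, hone]))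
    (Subtype.ext (by simp [x, ← UTensor.kron_mul, hs2, hone]))
    (fun g hg => hO.conj_T_mem g.2 hv hv0 hg) ?_ ?_ ⟨g, hg⟩
  · exact key
  · -- not conjugate in the stabiliser
    intro h hh heq
    obtain ⟨a, b, hab⟩ := exists_kron (Subgroup.mem_subgroupOf.mp hh)
    have heq' := congrArg Subtype.val heq
    simp only [Subgroup.coe_mul, Subgroup.coe_inv, p, x, hab, kron_conj_one] at heq'
    obtain ⟨ν, hσν, hν0, hb, -⟩ := hT.exists_similitude hO.pos hO.five_le (a := a) (b := b)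
      (by rw [← hab]; exact hO.isom_of_mem h.2)
    have hbv : f₂ (ap b v) (ap b v) = 0 := by rw [hb, hv, mul_zero]
    have hst := kron_one_inj hO.pos heq'
    rw [conj_T_sim hf₂ hν0 hσν hb hv 1 hbv] at hst
    -- both centres lie on the line of `b v`
    have hline : ∀ z, f₂ z v • v + f₂ z v' • v' ∈ Submodule.span F {ap b v} := fun z => by
      have h1 := congrArg (fun k => ap k z) hst
      simp only [hs, ht, ap_mul, ap_T hf₂, hf₂.add_left, hf₂.smul_left, hv'v, one_mul, mul_zero,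
        add_zero] at h1
      rw [add_assoc, add_right_inj, add_comm (f₂ z v' • v')] at h1
      rw [← h1]
      exact Submodule.smul_mem _ _ (Submodule.mem_span_singleton_self _)
    obtain ⟨z, hzv', -, hzv⟩ := exists_iso_partner hf₂ hc₂ (w := v') (y := v) fun hm => by
      obtain ⟨k, hk⟩ := Submodule.mem_span_singleton.mp hm
      have hk0 : k ≠ 0 := fun h0 => hv0 (by rw [← hk, h0, zero_smul])
      exact hv'n (Submodule.mem_span_singleton.mpr ⟨k⁻¹, by
        rw [← hk, smul_smul, inv_mul_cancel₀ hk0, one_smul]⟩)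
    obtain ⟨z', hz'v, -, hz'v'⟩ := exists_iso_partner hf₂ hc₂ (w := v) (y := v') hv'n
    obtain ⟨k₁, hk₁⟩ := Submodule.mem_span_singleton.mp (hline z)
    obtain ⟨k₂, hk₂⟩ := Submodule.mem_span_singleton.mp (hline z')
    rw [hzv, hzv', one_smul, zero_smul, add_zero] at hk₁
    rw [hz'v, hz'v', one_smul, zero_smul, zero_add] at hk₂
    have hk₁0 : k₁ ≠ 0 := fun h0 => hv0 (by rw [← hk₁, h0, zero_smul])
    exact hv'n (Submodule.mem_span_singleton.mpr ⟨k₂ / k₁, by
      rw [← hk₁, smul_smul, div_mul_cancel₀ _ hk₁0, hk₂]⟩)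
  · -- centralisers of the central involutions
    intro g' hg' z hz hz1 hz2 k hk
    obtain ⟨a, b, hab⟩ := exists_kron (hgood g'.1 g'.2 (Subgroup.mem_subgroupOf.mp hg'))
    obtain ⟨ν, hσν, hν0, hb, -⟩ := hT.exists_similitude hO.pos hO.five_le (a := a) (b := b)
      (by rw [← hab]; exact hO.isom_of_mem g'.2)
    obtain ⟨j, hj⟩ := Subgroup.mem_zpowers_iff.mp hz
    set d := (t * (b * s * b⁻¹)) ^ j with hd
    have hzd : (z : GL ι F) = kron e P 1 d := by
      rw [← hj, hd, ← kron_one_zpow]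
      simp only [SubgroupClass.coe_zpow, Subgroup.coe_mul, Subgroup.coe_inv, p, x, hab]
      rw [kron_conj_one, ← UTensor.kron_mul, one_mul]
    have hbsb : b * s * b⁻¹ ∈ isom f₂ := by
      refine mem_isom_iff.mpr fun y y' => ?_
      rw [ap_mul (b * s), ap_mul (b * s), ap_mul b s, ap_mul b s, hb, mem_isom_iff.mp hsS.1,
        ← hb, ap_ap_inv, ap_ap_inv]
    refine Subgroup.mem_subgroupOf.mpr (hO.centralizer_mem h2 k.2
      ((isom f₂).zpow_mem ((isom f₂).mul_mem htS.1 hbsb) j) ?_ ?_ ?_)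
    · intro h1
      rw [← hd] at h1
      exact hz1 (Subtype.ext (by rw [hzd, h1, hone, Subgroup.coe_one]))
    · refine kron_one_inj (e := e) (P := P) hO.pos ?_
      rw [← hd, hone]
      have := congrArg Subtype.val hz2
      simpa [hzd, ← UTensor.kron_mul] using this
    · have := congrArg Subtype.val hk
      simp only [Subgroup.coe_mul, Subgroup.coe_inv, hzd] at this
      rw [← hd]
      exact this

end Over

end UTensor

end CfsgLib.Geometric
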